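import Mathlib

/-!
# Partitions of a set with an involution into blocks permuted by the involution
-/

set_option autoImplicit false
set_option linter.unusedSectionVars false
set_option linter.unusedSimpArgs false
set_option linter.unusedVariables false
set_option linter.style.haveILetI false

namespace Cfsg.Agent.Lib.Classical.Elusive.Blocks

open Module

variable {J : Type*} [DecidableEq J] {π : J → J}

/-- A set closed under `π`. -/
def Closed (π : J → J) (S : Finset J) : Prop := ∀ j ∈ S, π j ∈ S

theorem Closed.sdiff {S A : Finset J} (hπ : ∀ j, π (π j) = j) (hS : Closed π S) (hA : Closed π A) :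
    Closed π (S \ A) := by
  intro j hj
  rw [Finset.mem_sdiff] at hj ⊢
  refine ⟨hS j hj.1, fun h => hj.2 ?_⟩
  have := hA _ h
  rwa [hπ] at this

theorem closed_pair (hπ : ∀ j, π (π j) = j) (j : J) : Closed π {j, π j} := by
  intro i hi
  rw [Finset.mem_insert, Finset.mem_singleton] at hi ⊢
  rcases hi with rfl | rfl
  · exact Or.inr rfl
  · exact Or.inl (hπ _)

theorem card_pair (j : J) (h : π j ≠ j) : ({j, π j} : Finset J).card = 2 :=
  Finset.card_pair h.symm

theorem image_eq_of_closed (hπ : ∀ j, π (π j) = j) {A : Finset J} (hA : Closed π A) : A.image π = A := by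
  apply Finset.eq_of_subset_of_card_le
  · intro j hj
    obtain ⟨i, hi, rfl⟩ := Finset.mem_image.1 hj
    exact hA i hi
  · rw [Finset.card_image_of_injective _ (Function.LeftInverse.injective (g := π) hπ)]

/-- Subsets closed under the involution of a given size. -/
theorem exists_closed (hπ : ∀ j, π (π j) = j) (k : ℕ) : ∀ S : Finset J, Closed π S → k ≤ S.card →
    (Even k ∨ ∃ j ∈ S, π j = j) → ∃ A ⊆ S, Closed π A ∧ A.card = k := by
  induction k using Nat.strong_induction_on with
  | _ k ih =>
    intro S hS hk hcond
    by_cases hall : ∀ j ∈ S, π j = j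
    · obtain ⟨A, hA, hAk⟩ := Finset.exists_subset_card_eq hk
      refine ⟨A, hA, ?_, hAk⟩
      intro j hj
      rw [hall j (hA hj)]
      exact hj
    · push Not at hall
      obtain ⟨j, hj, hjπ⟩ := hall
      have hO := closed_pair hπ j
      have hOc := card_pair j hjπ
      have hOS : ({j, π j} : Finset J) ⊆ S := by
        intro i hi
        rw [Finset.mem_insert, Finset.mem_singleton] at hi
        rcases hi with rfl | rfl
        · exact hj
        · exact hS _ hj
      rcases Nat.lt_or_ge k 2 with hk2 | hk2
      · -- small cases
        rcases hcond with he | ⟨f, hf, hf'⟩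
        · have : k = 0 := by
            obtain ⟨m, hm⟩ := he
            omega
          subst this
          exact ⟨∅, Finset.empty_subset _, fun _ h => absurd h (Finset.notMem_empty _), rfl⟩
        · rcases Nat.lt_or_ge k 1 with h0 | h0
          · have : k = 0 := by omega
            subst this
            exact ⟨∅, Finset.empty_subset _, fun _ h => absurd h (Finset.notMem_empty _), rfl⟩
          · have : k = 1 := by omega
            subst this
            refine ⟨{f}, by simpa using hf, ?_, by simp⟩
            intro i hi
            rw [Finset.mem_singleton] at hi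
            subst hi
            rw [hf']
            simp
      · have hS' := hS.sdiff hπ hO
        have hcard : (S \ {j, π j}).card = S.card - 2 := by
          rw [Finset.card_sdiff_of_subset hOS, hOc]
        obtain ⟨A, hA, hAc, hAk⟩ := ih (k - 2) (by omega) (S \ {j, π j}) hS' (by omega) (by
          rcases hcond with he | ⟨f, hf, hf'⟩
          · left
            obtain ⟨m, hm⟩ := he
            exact ⟨m - 1, by omega⟩
          · right
            refine ⟨f, ?_, hf'⟩
            rw [Finset.mem_sdiff, Finset.mem_insert, Finset.mem_singleton]
            refine ⟨hf, ?_⟩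
            rintro (rfl | h)
            · exact hjπ hf'
            · have h2 : π f = j := by rw [h, hπ]
              rw [hf'] at h2
              apply hjπ
              rw [← h, h2])
        refine ⟨A ∪ {j, π j}, ?_, ?_, ?_⟩
        · exact Finset.union_subset (hA.trans Finset.sdiff_subset) hOS
        · intro i hi
          rw [Finset.mem_union] at hi ⊢
          rcases hi with hi | hi
          · exact Or.inl (hAc i hi)
          · exact Or.inr (hO i hi)
        · have hdisj : Disjoint A {j, π j} := by
            apply Finset.disjoint_of_subset_left hA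
            exact Finset.sdiff_disjoint
          rw [Finset.card_union_of_disjoint hdisj, hAk, hOc]
          omega

/-- Sets of representatives of orbits. -/
theorem exists_reps (hπ : ∀ j, π (π j) = j) (k : ℕ) : ∀ S : Finset J, Closed π S → (∀ j ∈ S, π j ≠ j) → 2 * k ≤ S.card →
    ∃ A ⊆ S, Disjoint A (A.image π) ∧ A.card = k := by
  induction k with
  | zero =>
    intro S _ _ _
    exact ⟨∅, Finset.empty_subset _, by simp, rfl⟩
  | succ k ih =>
    intro S hS hfree hk
    have hne : S.Nonempty := by
      rw [← Finset.card_pos]
      omega
    obtain ⟨j, hj⟩ := hne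
    have hjπ := hfree j hj
    have hO := closed_pair hπ j
    have hOc := card_pair j hjπ
    have hOS : ({j, π j} : Finset J) ⊆ S := by
      intro i hi
      rw [Finset.mem_insert, Finset.mem_singleton] at hi
      rcases hi with rfl | rfl
      · exact hj
      · exact hS _ hj
    have hS' := hS.sdiff hπ hO
    have hcard : (S \ {j, π j}).card = S.card - 2 := by
      rw [Finset.card_sdiff_of_subset hOS, hOc]
    obtain ⟨A, hA, hdisj, hAk⟩ := ih (S \ {j, π j}) hS'
      (fun i hi => hfree i (Finset.sdiff_subset hi)) (by omega)
    have hjA : j ∉ A := fun h => by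
      have := hA h
      rw [Finset.mem_sdiff] at this
      exact this.2 (by simp)
    have hπA : π j ∉ A := fun h => by
      have := hA h
      rw [Finset.mem_sdiff] at this
      exact this.2 (by simp)
    refine ⟨insert j A, ?_, ?_, ?_⟩
    · exact Finset.insert_subset hj (hA.trans Finset.sdiff_subset)
    · rw [Finset.image_insert, Finset.disjoint_left]
      intro i hi hi'
      rw [Finset.mem_insert] at hi hi'
      rcases hi with rfl | hi
      · rcases hi' with hi' | hi'
        · exact hjπ hi'.symm
        · obtain ⟨l, hl, hl'⟩ := Finset.mem_image.1 hi'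
          apply hπA
          rw [← hl', hπ]
          exact hl
      · rcases hi' with rfl | hi'
        · exact hπA hi
        · exact (Finset.disjoint_left.1 hdisj) hi hi'
    · rw [Finset.card_insert_of_notMem hjA, hAk]

/-- Blocks. -/
structure IsBlocks (π : J → J) (a : ℕ) (S : Finset J) (𝔅 : Finset (Finset J)) : Prop where
  card : ∀ B ∈ 𝔅, B.card = a
  sub : ∀ B ∈ 𝔅, B ⊆ S
  disj : ∀ B ∈ 𝔅, ∀ B' ∈ 𝔅, B ≠ B' → Disjoint B B'
  cover : ∀ j ∈ S, ∃ B ∈ 𝔅, j ∈ B
  image : ∀ B ∈ 𝔅, B.image π ∈ 𝔅

theorem exists_blocks (hπ : ∀ j, π (π j) = j) {a : ℕ} (ha : 0 < a) (t : ℕ) : ∀ S : Finset J, Closed π S → S.card = a * t →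
    ∃ 𝔅, IsBlocks π a S 𝔅 := by
  induction t using Nat.strong_induction_on with
  | _ t ih =>
    intro S hS hcard
    rcases Nat.eq_zero_or_pos t with rfl | htpos
    · refine ⟨∅, ?_⟩
      have hS0 : S = ∅ := by
        rw [← Finset.card_eq_zero, hcard, mul_zero]
      subst hS0
      exact ⟨by simp, by simp, by simp, by simp, by simp⟩
    · have hle : a ≤ S.card := by
        rw [hcard]
        exact Nat.le_mul_of_pos_right _ htpos
      by_cases hcond : Even a ∨ ∃ j ∈ S, π j = j
      · obtain ⟨A, hA, hAc, hAk⟩ := exists_closed hπ a S hS hle hcond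
        have hS' := hS.sdiff hπ hAc
        have hcard' : (S \ A).card = a * (t - 1) := by
          rw [Finset.card_sdiff_of_subset hA, hAk, hcard, Nat.mul_sub, mul_one]
        obtain ⟨𝔅, h𝔅⟩ := ih (t - 1) (by omega) (S \ A) hS' hcard'
        have hdisjA : ∀ B ∈ 𝔅, Disjoint A B := fun B hB =>
          (Finset.disjoint_of_subset_right (h𝔅.sub B hB) Finset.disjoint_sdiff)
        have hAnot : A ∉ 𝔅 := by
          intro hA𝔅
          have h1 := hdisjA A hA𝔅
          rw [disjoint_self, Finset.bot_eq_empty] at h1
          rw [h1, Finset.card_empty] at hAk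
          omega
        refine ⟨insert A 𝔅, ?_⟩
        refine ⟨?_, ?_, ?_, ?_, ?_⟩
        · intro B hB
          rcases Finset.mem_insert.1 hB with rfl | hB
          · exact hAk
          · exact h𝔅.card B hB
        · intro B hB
          rcases Finset.mem_insert.1 hB with rfl | hB
          · exact hA
          · exact (h𝔅.sub B hB).trans Finset.sdiff_subset
        · intro B hB B' hB' hne
          rcases Finset.mem_insert.1 hB with h1 | h1
          · rcases Finset.mem_insert.1 hB' with h2 | h2
            · exact absurd (h1.trans h2.symm) hne
            · rw [h1]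
              exact hdisjA _ h2
          · rcases Finset.mem_insert.1 hB' with h2 | h2
            · rw [h2]
              exact (hdisjA _ h1).symm
            · exact h𝔅.disj B h1 B' h2 hne
        · intro j hj
          by_cases hjA : j ∈ A
          · exact ⟨A, Finset.mem_insert_self _ _, hjA⟩
          · obtain ⟨B, hB, hjB⟩ := h𝔅.cover j (Finset.mem_sdiff.2 ⟨hj, hjA⟩)
            exact ⟨B, Finset.mem_insert_of_mem hB, hjB⟩
        · intro B hB
          rcases Finset.mem_insert.1 hB with rfl | hB
          · rw [image_eq_of_closed hπ hAc]
            exact Finset.mem_insert_self _ _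
          · exact Finset.mem_insert_of_mem (h𝔅.image B hB)
      · push Not at hcond
        obtain ⟨hodd, hfree⟩ := hcond
        rw [Nat.not_even_iff_odd] at hodd
        -- no fixed points, so the size is even
        have heven : Even S.card := by
          have h1 := Finset.sum_involution (s := S) (f := fun _ => (1 : ZMod 2)) (fun j _ => π j)
            (fun j _ => by decide) (fun j hj _ => hfree j hj) (fun j hj => hS j hj) (fun j _ => hπ j)
          rw [Finset.sum_const, nsmul_one] at h1
          exact (ZMod.natCast_eq_zero_iff_even).1 h1
        rw [hcard] at heven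
        have hteven : Even t := by
          rcases Nat.even_mul.1 heven with h1 | h1
          · exact absurd h1 (Nat.not_even_iff_odd.2 hodd)
          · exact h1
        obtain ⟨s', hs'⟩ := hteven
        have ht2 : 2 ≤ t := by omega
        have h2a : 2 * a ≤ S.card := by
          rw [hcard, mul_comm 2 a]
          exact Nat.mul_le_mul_left a ht2
        obtain ⟨A, hA, hdisj, hAk⟩ := exists_reps hπ a S hS hfree h2a
        have hinj : Function.Injective π := Function.LeftInverse.injective (g := π) hπ
        have hAi : A.image π ⊆ S := by
          intro j hj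
          obtain ⟨i, hi, rfl⟩ := Finset.mem_image.1 hj
          exact hS i (hA hi)
        have hAc : (A.image π).card = a := by
          rw [Finset.card_image_of_injective _ hinj, hAk]
        have hcl : Closed π (A ∪ A.image π) := by
          intro j hj
          rw [Finset.mem_union] at hj ⊢
          rcases hj with hj | hj
          · exact Or.inr (Finset.mem_image_of_mem _ hj)
          · obtain ⟨i, hi, rfl⟩ := Finset.mem_image.1 hj
            rw [hπ]
            exact Or.inl hi
        have hsub : A ∪ A.image π ⊆ S := Finset.union_subset hA hAi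
        have hS' := hS.sdiff hπ hcl
        have hcard' : (S \ (A ∪ A.image π)).card = a * (t - 2) := by
          rw [Finset.card_sdiff_of_subset hsub, Finset.card_union_of_disjoint hdisj, hAk, hAc, hcard, Nat.mul_sub]
          congr 1
          ring
        obtain ⟨𝔅, h𝔅⟩ := ih (t - 2) (by omega) _ hS' hcard'
        have hdisjB : ∀ B ∈ 𝔅, Disjoint (A ∪ A.image π) B := fun B hB =>
          (Finset.disjoint_of_subset_right (h𝔅.sub B hB) Finset.disjoint_sdiff)
        have hA1 : ∀ B ∈ 𝔅, Disjoint A B := fun B hB =>
          Finset.disjoint_of_subset_left Finset.subset_union_left (hdisjB B hB)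
        have hA2 : ∀ B ∈ 𝔅, Disjoint (A.image π) B := fun B hB =>
          Finset.disjoint_of_subset_left Finset.subset_union_right (hdisjB B hB)
        have himg : (A.image π).image π = A := by
          rw [Finset.image_image]
          have : π ∘ π = id := funext hπ
          rw [this, Finset.image_id]
        refine ⟨insert A (insert (A.image π) 𝔅), ?_, ?_, ?_, ?_, ?_⟩
        · intro B hB
          rcases Finset.mem_insert.1 hB with rfl | hB
          · exact hAk
          · rcases Finset.mem_insert.1 hB with rfl | hB
            · exact hAc
            · exact h𝔅.card B hB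
        · intro B hB
          rcases Finset.mem_insert.1 hB with rfl | hB
          · exact hA
          · rcases Finset.mem_insert.1 hB with rfl | hB
            · exact hAi
            · exact (h𝔅.sub B hB).trans Finset.sdiff_subset
        · intro B hB B' hB' hne
          rcases Finset.mem_insert.1 hB with h1 | h1
          · rcases Finset.mem_insert.1 hB' with h2 | h2
            · exact absurd (h1.trans h2.symm) hne
            · rcases Finset.mem_insert.1 h2 with h3 | h3
              · rw [h1, h3]
                exact hdisj
              · rw [h1]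
                exact hA1 _ h3
          · rcases Finset.mem_insert.1 h1 with h1' | h1'
            · rcases Finset.mem_insert.1 hB' with h2 | h2
              · rw [h1', h2]
                exact hdisj.symm
              · rcases Finset.mem_insert.1 h2 with h3 | h3
                · exact absurd (h1'.trans h3.symm) hne
                · rw [h1']
                  exact hA2 _ h3
            · rcases Finset.mem_insert.1 hB' with h2 | h2
              · rw [h2]
                exact (hA1 _ h1').symm
              · rcases Finset.mem_insert.1 h2 with h3 | h3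
                · rw [h3]
                  exact (hA2 _ h1').symm
                · exact h𝔅.disj B h1' B' h3 hne
        · intro j hj
          by_cases hjA : j ∈ A
          · exact ⟨A, Finset.mem_insert_self _ _, hjA⟩
          · by_cases hjA' : j ∈ A.image π
            · exact ⟨A.image π, Finset.mem_insert_of_mem (Finset.mem_insert_self _ _), hjA'⟩
            · obtain ⟨B, hB, hjB⟩ := h𝔅.cover j (Finset.mem_sdiff.2 ⟨hj, by
                rw [Finset.mem_union]
                tauto⟩)
              exact ⟨B, Finset.mem_insert_of_mem (Finset.mem_insert_of_mem hB), hjB⟩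
        · intro B hB
          rcases Finset.mem_insert.1 hB with rfl | hB
          · exact Finset.mem_insert_of_mem (Finset.mem_insert_self _ _)
          · rcases Finset.mem_insert.1 hB with rfl | hB
            · rw [himg]
              exact Finset.mem_insert_self _ _
            · exact Finset.mem_insert_of_mem (Finset.mem_insert_of_mem (h𝔅.image B hB))

/-- The version with an indexing by `Fin t`. -/
theorem exists_fin_blocks [Fintype J] (hπ : ∀ j, π (π j) = j) {a t : ℕ} (ha : 0 < a) (hJ : Fintype.card J = a * t) :
    ∃ (B : Fin t → Finset J) (σ : Equiv.Perm (Fin t)), (∀ k, (B k).card = a) ∧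
      (∀ k k', k ≠ k' → Disjoint (B k) (B k')) ∧ (∀ j, ∃ k, j ∈ B k) ∧ ∀ k, (B k).image π = B (σ k) := by
  classical
  obtain ⟨𝔅, h𝔅⟩ := exists_blocks hπ ha t Finset.univ (fun _ _ => Finset.mem_univ _) (by rw [Finset.card_univ, hJ])
  have hU : 𝔅.biUnion id = Finset.univ := by
    rw [Finset.eq_univ_iff_forall]
    intro j
    obtain ⟨B, hB, hj⟩ := h𝔅.cover j (Finset.mem_univ _)
    exact Finset.mem_biUnion.2 ⟨B, hB, hj⟩
  have hc : 𝔅.card * a = a * t := by
    have h1 := Finset.card_biUnion (s := 𝔅) (t := id) (fun B hB B' hB' hne => h𝔅.disj B hB B' hB' hne)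
    have h2 : ∑ u ∈ 𝔅, (id u).card = ∑ u ∈ 𝔅, a := Finset.sum_congr rfl (fun B hB => h𝔅.card B hB)
    rw [hU, Finset.card_univ, hJ, h2, Finset.sum_const, smul_eq_mul] at h1
    exact h1.symm
  have hcard : 𝔅.card = t := by
    have h1 : a * 𝔅.card = a * t := by rw [mul_comm, hc]
    exact Nat.eq_of_mul_eq_mul_left ha h1
  let e : 𝔅 ≃ Fin t := Finset.equivFinOfCardEq hcard
  let B : Fin t → Finset J := fun k => (e.symm k).1
  have hB : ∀ k, B k ∈ 𝔅 := fun k => (e.symm k).2
  let s : Fin t → Fin t := fun k => e ⟨(B k).image π, h𝔅.image _ (hB k)⟩
  have hs : ∀ k, B (s k) = (B k).image π := by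
    intro k
    change (e.symm (e _)).1 = _
    rw [Equiv.symm_apply_apply]
  have hinv : Function.Involutive s := by
    intro k
    have h1 : B (s (s k)) = B k := by
      rw [hs, hs, Finset.image_image]
      have : π ∘ π = id := funext hπ
      rw [this, Finset.image_id]
    have h2 : e.symm (s (s k)) = e.symm k := Subtype.ext h1
    exact e.symm.injective h2
  refine ⟨B, hinv.toPerm, fun k => h𝔅.card _ (hB k), ?_, ?_, fun k => (hs k).symm⟩
  · intro k k' hne
    apply h𝔅.disj _ (hB k) _ (hB k')
    intro h
    apply hne
    exact e.symm.injective (Subtype.ext h)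
  · intro j
    obtain ⟨C, hC, hj⟩ := h𝔅.cover j (Finset.mem_univ _)
    refine ⟨e ⟨C, hC⟩, ?_⟩
    change j ∈ (e.symm (e ⟨C, hC⟩)).1
    rw [Equiv.symm_apply_apply]
    exact hj

end Cfsg.Agent.Lib.Classical.Elusive.Blocks
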