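import Mathlib

/-!
# Tools for the statements on fixed points of prime order elements

Counting lines, and fixed point free elements of prime order from extension fields.
-/

set_option autoImplicit false
set_option linter.unusedSectionVars false
set_option linter.style.haveILetI false

namespace Cfsg.Agent.Lib.Classical.Elusive

open Module Matrix

variable {F : Type*} [Field F] [Fintype F]

section Lines

variable {V : Type*} [AddCommGroup V] [Module F V] [Finite V]

theorem eq_span_of_mem {W : Submodule F V} (hW : finrank F W = 1) {w : V} (hw : w ∈ W) (h0 : w ≠ 0) :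
    W = Submodule.span F {w} := by
  haveI : FiniteDimensional F V := Module.Finite.of_finite
  symm
  apply Submodule.eq_of_le_of_finrank_eq
  · exact (Submodule.span_singleton_le_iff_mem _ _).2 hw
  · rw [hW, finrank_span_singleton h0]

/-- Lines with a marked vector. -/
theorem card_lines (P : V → Prop) (h0 : ¬ P 0) (hP : ∀ (c : F) (v : V), c ≠ 0 → P v → P (c • v)) :
    Nat.card {W : Submodule F V // finrank F W = 1 ∧ ∃ v ∈ W, P v} * (Fintype.card F - 1)
      = Nat.card {v // P v} := by
  classical
  haveI : FiniteDimensional F V := Module.Finite.of_finite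
  have hne : ∀ v, P v → v ≠ 0 := fun v hv h => h0 (h ▸ hv)
  have hex : ∀ W : {W : Submodule F V // finrank F W = 1 ∧ ∃ v ∈ W, P v},
      ∃ v, v ∈ W.1 ∧ P v := fun W => by
    obtain ⟨v, hv, hv'⟩ := W.2.2
    exact ⟨v, hv, hv'⟩
  choose w hw hPw using hex
  let f : {W : Submodule F V // finrank F W = 1 ∧ ∃ v ∈ W, P v} × Fˣ → {v // P v} :=
    fun t => ⟨(t.2 : F) • w t.1, hP _ _ t.2.ne_zero (hPw t.1)⟩
  have hf : Function.Bijective f := by
    constructor
    · rintro ⟨W, c⟩ ⟨W', c'⟩ h
      have h1 : (c : F) • w W = (c' : F) • w W' := congrArg Subtype.val h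
      have h2 : W.1 = W'.1 := by
        rw [eq_span_of_mem W.2.1 (hw W) (hne _ (hPw W)), eq_span_of_mem W'.2.1 (hw W') (hne _ (hPw W'))]
        rw [← Submodule.span_singleton_smul_eq c.isUnit (w W),
          ← Submodule.span_singleton_smul_eq c'.isUnit (w W'), h1]
      have h3 : W = W' := Subtype.ext h2
      subst h3
      have h4 : (c : F) = c' := smul_left_injective F (hne _ (hPw W)) h1
      rw [Units.ext h4]
    · rintro ⟨v, hv⟩
      have hv0 := hne v hv
      let W : {W : Submodule F V // finrank F W = 1 ∧ ∃ v ∈ W, P v} :=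
        ⟨Submodule.span F {v}, finrank_span_singleton hv0, v, Submodule.mem_span_singleton_self v, hv⟩
      have h1 : w W ∈ Submodule.span F {v} := hw W
      obtain ⟨a, ha⟩ := Submodule.mem_span_singleton.1 h1
      have ha0 : a ≠ 0 := by
        rintro rfl
        rw [zero_smul] at ha
        exact hne _ (hPw W) ha.symm
      refine ⟨(W, Units.mk0 a⁻¹ (inv_ne_zero ha0)), Subtype.ext ?_⟩
      change a⁻¹ • w W = v
      rw [← ha, smul_smul, inv_mul_cancel₀ ha0, one_smul]
  rw [← Nat.card_congr (Equiv.ofBijective f hf), Nat.card_prod, Nat.card_units, Nat.card_eq_fintype_card (α := F)]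

end Lines

section GLmat

variable {ι : Type*} [Fintype ι] [DecidableEq ι]

/-- A linear automorphism as an invertible matrix. -/
noncomputable def glOfE (e : (ι → F) ≃ₗ[F] (ι → F)) : GL ι F where
  val := LinearMap.toMatrix' e.toLinearMap
  inv := LinearMap.toMatrix' e.symm.toLinearMap
  val_inv := by
    rw [← LinearMap.toMatrix'_comp]
    simp
  inv_val := by
    rw [← LinearMap.toMatrix'_comp]
    simp

@[simp] theorem glOfE_mulVec (e : (ι → F) ≃ₗ[F] (ι → F)) (v : ι → F) :
    ((glOfE e : GL ι F) : Matrix ι ι F) *ᵥ v = e v :=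
  LinearMap.toMatrix'_mulVec _ _

theorem glOfE_pow (e : (ι → F) ≃ₗ[F] (ι → F)) (k : ℕ) (v : ι → F) :
    (((glOfE e) ^ k : GL ι F) : Matrix ι ι F) *ᵥ v = (e ^ k) v := by
  induction k generalizing v with
  | zero => simp
  | succ k ih =>
    rw [pow_succ, Units.val_mul, ← Matrix.mulVec_mulVec, glOfE_mulVec, ih, pow_succ]
    rfl

end GLmat

section Fpf


/-- A fixed point free linear map of prime order on a space of dimension `d` when `r ∣ q ^ d - 1`. -/
theorem exists_gl_fpf (p : ℕ) [Fact p.Prime] [CharP F p] {d : ℕ} (hd : 0 < d) {r : ℕ} [Fact r.Prime]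
    (hr : r ∣ Fintype.card F ^ d - 1) :
    ∃ A : GL (Fin d) F, A ^ r = 1 ∧ ∀ v : Fin d → F, (A : Matrix (Fin d) (Fin d) F) *ᵥ v = v → v = 0 := by
  classical
  haveI : NeZero d := ⟨hd.ne'⟩
  let L := FiniteField.Extension F p d
  haveI : Finite L := inferInstance
  have hcard : Nat.card Lˣ = Fintype.card F ^ d - 1 := by
    rw [Nat.card_units, FiniteField.natCard_extension, Nat.card_eq_fintype_card]
  obtain ⟨ζ, hζ⟩ := exists_prime_orderOf_dvd_card' r (hcard ▸ hr)
  have hdim : finrank F L = d := FiniteField.finrank_extension F p d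
  let b : (Fin d → F) ≃ₗ[F] L := (Module.finBasisOfFinrankEq F L hdim).equivFun.symm
  let φ : L ≃ₗ[F] L := DistribMulAction.toModuleAut F L ζ
  have hφ : ∀ x, φ x = (ζ : L) * x := fun x => rfl
  let e : (Fin d → F) ≃ₗ[F] (Fin d → F) := b.trans (φ.trans b.symm)
  have he : ∀ v, b (e v) = (ζ : L) * b v := by
    intro v
    change b (b.symm (φ (b v))) = _
    rw [LinearEquiv.apply_symm_apply, hφ]
  have hek : ∀ (k : ℕ) v, b ((e ^ k) v) = (ζ : L) ^ k * b v := by
    intro k
    induction k with
    | zero => simp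
    | succ k ih =>
      intro v
      rw [pow_succ, LinearEquiv.mul_apply, ih, he, pow_succ]
      ring
  refine ⟨glOfE e, ?_, ?_⟩
  · apply Units.ext
    apply Matrix.mulVec_injective
    funext v
    rw [glOfE_pow]
    apply b.injective
    rw [hek, ← Units.val_pow_eq_pow_val, ← hζ, pow_orderOf_eq_one]
    simp
  · intro v hv
    rw [glOfE_mulVec] at hv
    have h1 : (ζ : L) * b v = b v := by rw [← he, hv]
    by_contra hv0
    have h2 : b v ≠ 0 := fun h => hv0 (b.injective (by simpa using h))
    have h3 : (ζ : L) = 1 := mul_right_cancel₀ h2 (by rw [h1, one_mul])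
    have h4 : ζ = 1 := Units.ext h3
    rw [h4, orderOf_one] at hζ
    exact (Fact.out : r.Prime).one_lt.ne hζ

end Fpf

end Cfsg.Agent.Lib.Classical.Elusive
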