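import Mathlib

/-!
# Dimensions of invariant subspaces of an endomorphism killed by a polynomial

If `g (y) = 0` on an invariant subspace `W` and all the irreducible factors of `g` have degree `i`,
then invariant subspaces contained in `W` can be enlarged in steps of dimension `i`, and `i` divides
the dimension of `W`.
-/

set_option autoImplicit false
set_option linter.unusedSectionVars false
set_option linter.unusedSimpArgs false
set_option linter.unusedVariables false

namespace Cfsg.Agent.Lib.Classical.Elusive.Inv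

open Polynomial Module

section Step

variable {F V : Type*} [Field F] [AddCommGroup V] [Module F V] [FiniteDimensional F V]

/-- Invariant subspaces. -/
def IsInv (y : Module.End F V) (U : Submodule F V) : Prop := ∀ u ∈ U, y u ∈ U

theorem IsInv.pow {y : Module.End F V} {U : Submodule F V} (h : IsInv y U) (n : ℕ) {u : V} (hu : u ∈ U) :
    (y ^ n) u ∈ U := by
  induction n with
  | zero => simpa using hu
  | succ n ih =>
    rw [pow_succ', Module.End.mul_apply]
    exact h _ ih

theorem IsInv.aeval {y : Module.End F V} {U : Submodule F V} (h : IsInv y U) (f : F[X]) {u : V} (hu : u ∈ U) :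
    Polynomial.aeval y f u ∈ U := by
  induction f using Polynomial.induction_on' with
  | add p q hp hq =>
    rw [map_add, LinearMap.add_apply]
    exact U.add_mem hp hq
  | monomial n a =>
    rw [aeval_monomial, Module.End.mul_apply, Module.algebraMap_end_apply]
    exact U.smul_mem a (h.pow n hu)

theorem isInv_top (y : Module.End F V) : IsInv y (⊤ : Submodule F V) := fun _ _ => trivial

theorem isInv_bot (y : Module.End F V) : IsInv y (⊥ : Submodule F V) := by
  intro u hu
  rw [Submodule.mem_bot] at hu ⊢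
  rw [hu, map_zero]

theorem IsInv.inf {y : Module.End F V} {U W : Submodule F V} (h : IsInv y U) (h' : IsInv y W) : IsInv y (U ⊓ W) :=
  fun u hu => ⟨h u hu.1, h' u hu.2⟩

theorem IsInv.sup {y : Module.End F V} {U W : Submodule F V} (h : IsInv y U) (h' : IsInv y W) : IsInv y (U ⊔ W) := by
  intro u hu
  obtain ⟨a, ha, b, hb, rfl⟩ := Submodule.mem_sup.1 hu
  rw [map_add]
  exact Submodule.add_mem_sup (h a ha) (h' b hb)

theorem isInv_ker_aeval (y : Module.End F V) (f : F[X]) : IsInv y (LinearMap.ker (Polynomial.aeval y f)) := by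
  intro u hu
  rw [LinearMap.mem_ker] at hu ⊢
  have h1 : Polynomial.aeval y f * y = y * Polynomial.aeval y f := by
    have := (Commute.all (X : F[X]) f).symm
    have h2 := congrArg (Polynomial.aeval y) this.eq
    simpa using h2
  have h3 := congrArg (fun z : Module.End F V => z u) h1
  simp only [Module.End.mul_apply] at h3
  rw [h3, hu, map_zero]

/-- The basic step. -/
theorem step_irr {y : Module.End F V} {U : Submodule F V} (hU : IsInv y U) {d : F[X]} (hd : Irreducible d)
    {v : V} (hv : v ∉ U) (hdv : Polynomial.aeval y d v ∈ U) :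
    ∃ T, IsInv y T ∧ U ≤ T ∧ finrank F T = finrank F U + d.natDegree ∧
      ∀ W, IsInv y W → U ≤ W → v ∈ W → T ≤ W := by
  classical
  set i := d.natDegree with hi
  let φ : F[X] →ₗ[F] V := (LinearMap.applyₗ v).comp (Polynomial.aeval y).toLinearMap
  have hφ : ∀ f, φ f = Polynomial.aeval y f v := fun f => rfl
  have hkey : ∀ f : F[X], f ∈ degreeLT F i → φ f ∈ U → f = 0 := by
    intro f hf hfU
    by_contra hf0
    have hlt : f.degree < d.degree := by
      rw [Polynomial.mem_degreeLT] at hf
      rwa [degree_eq_natDegree hd.ne_zero]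
    have hco : IsCoprime d f := (hd.coprime_iff_not_dvd).2 (fun hdvd => by
      have := Polynomial.degree_le_of_dvd hdvd hf0
      exact absurd hlt (not_lt.2 this))
    obtain ⟨a, b, hab⟩ := hco
    apply hv
    have h1 : v = Polynomial.aeval y a (Polynomial.aeval y d v) + Polynomial.aeval y b (φ f) := by
      have h2 := congrArg (fun p => Polynomial.aeval y p v) hab
      simp only [map_add, map_mul, LinearMap.add_apply, Module.End.mul_apply, map_one, Module.End.one_apply] at h2
      rw [hφ]
      exact h2.symm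
    rw [h1]
    exact U.add_mem (hU.aeval a hdv) (hU.aeval b hfU)
  let A : Submodule F V := (degreeLT F i).map φ
  have hdisj : A ⊓ U = ⊥ := by
    rw [eq_bot_iff]
    rintro x ⟨⟨f, hf, rfl⟩, hxU⟩
    have := hkey f hf hxU
    rw [this, map_zero]
    exact Submodule.zero_mem _
  have hinj : Function.Injective (φ.domRestrict (degreeLT F i)) := by
    rw [injective_iff_map_eq_zero]
    rintro ⟨f, hf⟩ h
    have h1 : φ f = 0 := h
    have h2 := hkey f hf (by rw [h1]; exact U.zero_mem)
    exact Subtype.ext h2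
  have hAdim : finrank F A = i := by
    have h1 : A = (φ.domRestrict (degreeLT F i)).range := (LinearMap.range_domRestrict _ _).symm
    rw [h1, LinearMap.finrank_range_of_inj hinj, (degreeLTEquiv F i).finrank_eq, finrank_fin_fun]
  have hAinv : ∀ a ∈ A, y a ∈ U ⊔ A := by
    rintro _ ⟨f, hf, rfl⟩
    have h1 : y (φ f) = φ (X * f) := by
      rw [hφ, hφ, map_mul, aeval_X, Module.End.mul_apply]
    rw [h1]
    have h2 := EuclideanDomain.div_add_mod (X * f) d
    rw [← h2, map_add]
    refine Submodule.add_mem _ (Submodule.mem_sup_left ?_) (Submodule.mem_sup_right ?_)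
    · rw [hφ, mul_comm, map_mul, Module.End.mul_apply]
      exact hU.aeval _ hdv
    · refine ⟨_, ?_, rfl⟩
      rw [SetLike.mem_coe, Polynomial.mem_degreeLT]
      have h3 := degree_mod_lt (X * f) hd.ne_zero
      rwa [degree_eq_natDegree hd.ne_zero] at h3
  refine ⟨U ⊔ A, ?_, le_sup_left, ?_, ?_⟩
  · intro x hx
    obtain ⟨a, ha, b, hb, rfl⟩ := Submodule.mem_sup.1 hx
    rw [map_add]
    exact Submodule.add_mem _ (Submodule.mem_sup_left (hU a ha)) (hAinv b hb)
  · have h1 := Submodule.finrank_sup_add_finrank_inf_eq U A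
    rw [inf_comm, hdisj, finrank_bot, hAdim] at h1
    omega
  · intro W hW hUW hvW
    refine sup_le hUW ?_
    rintro _ ⟨f, hf, rfl⟩
    exact hW.aeval f hvW

/-- A step inside `W` when a polynomial with factors of degree `i` kills a vector of `W` modulo `U`. -/
theorem step_factor {y : Module.End F V} {U W : Submodule F V} (hU : IsInv y U) (hW : IsInv y W) (hUW : U ≤ W)
    {i : ℕ} (n : ℕ) : ∀ (g : F[X]), g.natDegree ≤ n → g ≠ 0 → (∀ d, Irreducible d → d ∣ g → d.natDegree = i) →
    ∀ v ∈ W, v ∉ U → Polynomial.aeval y g v ∈ U →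
    ∃ T, IsInv y T ∧ U ≤ T ∧ T ≤ W ∧ finrank F T = finrank F U + i := by
  induction n with
  | zero =>
    intro g hg hg0 hfac v hvW hvU hgv
    exfalso
    have h1 : g = C (g.coeff 0) := eq_C_of_natDegree_le_zero hg
    rw [h1, aeval_C, Module.algebraMap_end_apply] at hgv
    have h2 : g.coeff 0 ≠ 0 := by
      intro h0
      rw [h0, C_0] at h1
      exact hg0 h1
    exact hvU ((U.smul_mem_iff h2).1 hgv)
  | succ n ih =>
    intro g hg hg0 hfac v hvW hvU hgv
    by_cases hunit : IsUnit g
    · exfalso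
      rw [Polynomial.isUnit_iff] at hunit
      obtain ⟨c, hc, rfl⟩ := hunit
      rw [aeval_C, Module.algebraMap_end_apply] at hgv
      exact hvU ((U.smul_mem_iff hc.ne_zero).1 hgv)
    · obtain ⟨d, hd, hdg⟩ := WfDvdMonoid.exists_irreducible_factor hunit hg0
      obtain ⟨h, rfl⟩ := hdg
      have hh0 : h ≠ 0 := right_ne_zero_of_mul hg0
      by_cases hw : Polynomial.aeval y d v ∈ U
      · obtain ⟨T, h1, h2, h3, h4⟩ := step_irr hU hd hvU hw
        rw [hfac d hd (dvd_mul_right _ _)] at h3
        exact ⟨T, h1, h2, h4 W hW hUW hvW, h3⟩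
      · have hd0 : 0 < d.natDegree := hd.natDegree_pos
        have hdeg : (d * h).natDegree = d.natDegree + h.natDegree := natDegree_mul hd.ne_zero hh0
        refine ih h (by omega) hh0 (fun e he hdvd => hfac e he (hdvd.trans (dvd_mul_left _ _)))
          (Polynomial.aeval y d v) (hW.aeval d hvW) hw ?_
        rw [← Module.End.mul_apply, ← map_mul, mul_comm]
        exact hgv

/-- Chains of invariant subspaces. -/
theorem chain_exists {y : Module.End F V} {W : Submodule F V} (hW : IsInv y W) {g : F[X]} (hg0 : g ≠ 0) {i : ℕ}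
    (hfac : ∀ d, Irreducible d → d ∣ g → d.natDegree = i) (hgW : ∀ v ∈ W, Polynomial.aeval y g v = 0)
    {U : Submodule F V} (hU : IsInv y U) (hUW : U ≤ W) (k : ℕ) (hk : finrank F U + i * k ≤ finrank F W) :
    ∃ T, IsInv y T ∧ U ≤ T ∧ T ≤ W ∧ finrank F T = finrank F U + i * k := by
  induction k with
  | zero => exact ⟨U, hU, le_rfl, hUW, by simp⟩
  | succ k ih =>
    have hk' : finrank F U + i * k ≤ finrank F W := by
      rw [mul_add] at hk
      omega
    obtain ⟨T, h1, h2, h3, h4⟩ := ih hk'
    by_cases hi : i = 0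
    · subst hi
      exact ⟨T, h1, h2, h3, by simpa using h4⟩
    have hne : ¬ W ≤ T := by
      intro hle
      have h5 : finrank F W ≤ finrank F T := Submodule.finrank_mono hle
      rw [mul_add] at hk
      have : 0 < i := Nat.pos_of_ne_zero hi
      omega
    obtain ⟨v, hvW, hvT⟩ := SetLike.not_le_iff_exists.1 hne
    obtain ⟨T', h5, h6, h7, h8⟩ := step_factor h1 hW h3 (i := i) g.natDegree g le_rfl hg0 hfac v hvW hvT
      (by rw [hgW v hvW]; exact T.zero_mem)
    refine ⟨T', h5, h2.trans h6, h7, ?_⟩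
    rw [h8, h4, mul_add]
    ring

/-- The degree divides the dimension. -/
theorem dvd_finrank {y : Module.End F V} {W : Submodule F V} (hW : IsInv y W) {g : F[X]} (hg0 : g ≠ 0) {i : ℕ} (hi : 0 < i)
    (hfac : ∀ d, Irreducible d → d ∣ g → d.natDegree = i) (hgW : ∀ v ∈ W, Polynomial.aeval y g v = 0) :
    i ∣ finrank F W := by
  have h1 := Nat.div_add_mod (finrank F W) i
  obtain ⟨T, h2, -, h3, h4⟩ := chain_exists hW hg0 hfac hgW (isInv_bot y) bot_le (finrank F W / i)
    (by rw [finrank_bot]; omega)
  rw [finrank_bot, zero_add] at h4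
  by_cases hu : finrank F W % i = 0
  · exact Nat.dvd_of_mod_eq_zero hu
  · exfalso
    have hne : ¬ W ≤ T := by
      intro hle
      have h5 : finrank F W ≤ finrank F T := Submodule.finrank_mono hle
      have h6 := Nat.pos_of_ne_zero hu
      omega
    obtain ⟨v, hvW, hvT⟩ := SetLike.not_le_iff_exists.1 hne
    obtain ⟨T', h5, h6, h7, h8⟩ := step_factor h2 hW h3 (i := i) g.natDegree g le_rfl hg0 hfac v hvW hvT
      (by rw [hgW v hvW]; exact T.zero_mem)
    have h9 : finrank F T' ≤ finrank F W := Submodule.finrank_mono h7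
    have h10 := Nat.mod_lt (finrank F W) hi
    omega

end Step

section Split

variable {F V : Type*} [Field F] [AddCommGroup V] [Module F V] [FiniteDimensional F V]

/-- The polynomial `1 + X + ... + X ^ (r - 1)`. -/
noncomputable def Phi (F : Type*) [Field F] (r : ℕ) : F[X] := ∑ j ∈ Finset.range r, X ^ j

theorem Phi_mul (F : Type*) [Field F] (r : ℕ) : Phi F r * (X - 1) = X ^ r - 1 := geom_sum_mul X r

theorem Phi_eval_one (F : Type*) [Field F] (r : ℕ) : (Phi F r).eval 1 = r := by
  simp [Phi, eval_finsetSum]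

theorem Phi_ne_zero {r : ℕ} (hr : (r : F) ≠ 0) : Phi F r ≠ 0 := by
  intro h
  have := Phi_eval_one F r
  rw [h, eval_zero] at this
  exact hr this.symm

/-- The image of the polynomial in `y`. -/
theorem aeval_Phi_sub {y : Module.End F V} {r : ℕ} (hy : y ^ r = 1) (v : V) :
    y (Polynomial.aeval y (Phi F r) v) = Polynomial.aeval y (Phi F r) v := by
  have h1 := congrArg (Polynomial.aeval y) (Phi_mul F r)
  simp only [map_mul, map_sub, map_pow, aeval_X, map_one, hy, sub_self] at h1
  have h2 : Polynomial.aeval y (Phi F r) * y = y * Polynomial.aeval y (Phi F r) := by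
    have h3 := congrArg (Polynomial.aeval y) (Commute.all (X : F[X]) (Phi F r)).symm.eq
    simpa using h3
  have h3 := congrArg (fun z : Module.End F V => z v) h1
  simp only [mul_sub, mul_one, LinearMap.sub_apply, Module.End.mul_apply, LinearMap.zero_apply, h2] at h3
  exact sub_eq_zero.1 h3

theorem aeval_Phi_of_fixed {y : Module.End F V} {v : V} (hv : y v = v) (r : ℕ) :
    Polynomial.aeval y (Phi F r) v = (r : F) • v := by
  have h1 : ∀ j : ℕ, (y ^ j) v = v := by
    intro j
    induction j with
    | zero => simp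
    | succ j ih => rw [pow_succ, Module.End.mul_apply, hv, ih]
  simp only [Phi, map_sum, map_pow, aeval_X, LinearMap.sum_apply, h1]
  simp [Nat.cast_smul_eq_nsmul]

/-- The fixed space. -/
def Fix (y : Module.End F V) : Submodule F V := LinearMap.ker (y - 1)

theorem mem_Fix {y : Module.End F V} {v : V} : v ∈ Fix y ↔ y v = v := by
  simp [Fix, sub_eq_zero]

theorem isInv_Fix (y : Module.End F V) : IsInv y (Fix y) := by
  intro u hu
  rw [mem_Fix] at hu ⊢
  rw [hu, hu]

/-- The kernel of the polynomial. -/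
noncomputable def Ker (y : Module.End F V) (r : ℕ) : Submodule F V := LinearMap.ker (Polynomial.aeval y (Phi F r))

theorem mem_Ker {y : Module.End F V} {r : ℕ} {v : V} : v ∈ Ker y r ↔ Polynomial.aeval y (Phi F r) v = 0 := Iff.rfl

theorem isInv_Ker (y : Module.End F V) (r : ℕ) : IsInv y (Ker y r) := isInv_ker_aeval y _

theorem Fix_inf_Ker {y : Module.End F V} {r : ℕ} (hr : (r : F) ≠ 0) : Fix y ⊓ Ker y r = ⊥ := by
  rw [eq_bot_iff]
  intro v hv
  obtain ⟨h1, h2⟩ := Submodule.mem_inf.1 hv
  rw [mem_Fix] at h1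
  rw [mem_Ker, aeval_Phi_of_fixed h1] at h2
  rw [Submodule.mem_bot]
  exact (smul_eq_zero.1 h2).resolve_left hr

/-- An invariant subspace is the sum of its intersections. -/
theorem finrank_split {y : Module.End F V} {r : ℕ} (hr : (r : F) ≠ 0) (hy : y ^ r = 1) {U : Submodule F V} (hU : IsInv y U) :
    finrank F U = finrank F ↥(U ⊓ Fix y) + finrank F ↥(U ⊓ Ker y r) := by
  have h1 : (U ⊓ Fix y) ⊔ (U ⊓ Ker y r) = U := by
    apply le_antisymm
    · exact sup_le inf_le_left inf_le_left
    · intro u hu
      set P := Polynomial.aeval y (Phi F r) with hP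
      have hPu : P u ∈ U := hU.aeval _ hu
      have h2 : (r : F)⁻¹ • P u ∈ U ⊓ Fix y := Submodule.mem_inf.2
        ⟨U.smul_mem _ hPu, by
          rw [mem_Fix, map_smul]
          exact congrArg _ (aeval_Phi_sub hy u)⟩
      have h3 : u - (r : F)⁻¹ • P u ∈ U ⊓ Ker y r := by
        refine Submodule.mem_inf.2 ⟨U.sub_mem hu (U.smul_mem _ hPu), ?_⟩
        rw [mem_Ker, map_sub, map_smul, aeval_Phi_of_fixed (aeval_Phi_sub hy u), smul_smul, inv_mul_cancel₀ hr, one_smul, sub_self]
      have h4 : u = (r : F)⁻¹ • P u + (u - (r : F)⁻¹ • P u) := by abel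
      rw [h4]
      exact Submodule.add_mem_sup h2 h3
  have h2 : (U ⊓ Fix y) ⊓ (U ⊓ Ker y r) = ⊥ := by
    rw [eq_bot_iff, ← Fix_inf_Ker hr (y := y)]
    exact le_inf (inf_le_left.trans inf_le_right) (inf_le_right.trans inf_le_right)
  have h3 := Submodule.finrank_sup_add_finrank_inf_eq (U ⊓ Fix y) (U ⊓ Ker y r)
  rw [h1, h2, finrank_bot, add_zero] at h3
  exact h3

/-- The dimension of an invariant subspace when `y ^ r = 1`. -/
theorem dim_split {y : Module.End F V} {r : ℕ} (hr : (r : F) ≠ 0) (hy : y ^ r = 1) {i : ℕ} (hi : 0 < i)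
    (hfac : ∀ d, Irreducible d → d ∣ Phi F r → d.natDegree = i) {U : Submodule F V} (hU : IsInv y U) :
    ∃ k, finrank F U = finrank F ↥(U ⊓ Fix y) + i * k := by
  have h1 := finrank_split hr hy hU
  obtain ⟨k, hk⟩ := dvd_finrank (hU.inf (isInv_Ker y r)) (Phi_ne_zero hr) hi hfac (fun v hv => hv.2)
  exact ⟨k, by rw [h1, hk]⟩

/-- Invariant subspaces of given dimensions. -/
theorem exists_of_dim {y : Module.End F V} {r : ℕ} (hr : (r : F) ≠ 0) (hy : y ^ r = 1) {i : ℕ}
    (hfac : ∀ d, Irreducible d → d ∣ Phi F r → d.natDegree = i) {S R : Submodule F V} (hS : S ≤ Fix y) (hRinv : IsInv y R)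
    (hR : R ≤ Ker y r) {j k : ℕ} (hj : finrank F S + j ≤ finrank F ↥(Fix y)) (hk : finrank F R + i * k ≤ finrank F ↥(Ker y r)) :
    ∃ S' R', S ≤ S' ∧ R ≤ R' ∧ S' ≤ Fix y ∧ R' ≤ Ker y r ∧ IsInv y S' ∧ IsInv y R' ∧
      finrank F S' = finrank F S + j ∧ finrank F R' = finrank F R + i * k := by
  obtain ⟨R', h1, h2, h3, h4⟩ := chain_exists (isInv_Ker y r) (Phi_ne_zero hr) hfac (fun v hv => hv) hRinv hR k hk
  have hSinv : IsInv y S := fun u hu => by
    rw [mem_Fix.1 (hS hu)]
    exact hu
  obtain ⟨S', h5, h6, h7, h8⟩ := chain_exists (g := (X - 1 : F[X])) (i := 1) (isInv_Fix y) (X_sub_C_ne_zero (1 : F) |> fun h => by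
      simpa using h)
    (fun d hd hdvd => by
      have h9 : Irreducible (X - 1 : F[X]) := by
        simpa using irreducible_X_sub_C (1 : F)
      have h10 := hd.associated_of_dvd h9 hdvd
      rw [natDegree_eq_of_degree_eq (degree_eq_degree_of_associated h10)]
      simpa using natDegree_X_sub_C (1 : F))
    (fun v hv => by
      rw [map_sub, aeval_X, map_one, LinearMap.sub_apply, Module.End.one_apply, mem_Fix.1 hv, sub_self])
    hSinv hS j (by simpa using hj)
  exact ⟨S', R', h6, h2, h7, h3, h5, h1, by simpa using h8, h4⟩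

/-- The sum has the expected dimension. -/
theorem finrank_sup_of_le {y : Module.End F V} {r : ℕ} (hr : (r : F) ≠ 0) {S R : Submodule F V} (hS : S ≤ Fix y)
    (hR : R ≤ Ker y r) : finrank F ↥(S ⊔ R) = finrank F S + finrank F R := by
  have h1 := Submodule.finrank_sup_add_finrank_inf_eq S R
  have h2 : S ⊓ R = ⊥ := by
    rw [eq_bot_iff, ← Fix_inf_Ker hr (y := y)]
    exact inf_le_inf hS hR
  rw [h2, finrank_bot, add_zero] at h1
  exact h1

end Split

end Cfsg.Agent.Lib.Classical.Elusive.Inv
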