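import Mathlib
import Cfsg.Agent.Lib.Classical.Elusive.Blocks
import Cfsg.Agent.Lib.Classical.Elusive.Inv

/-!
# Decompositions permuted by an element whose square is a scalar
-/

set_option autoImplicit false
set_option linter.unusedSectionVars false
set_option linter.unusedSimpArgs false
set_option linter.unusedVariables false
set_option linter.style.haveILetI false

namespace Cfsg.Agent.Lib.Classical.Elusive.Decomp

open Module
open Cfsg.Agent.Lib.Classical.Elusive.Blocks Cfsg.Agent.Lib.Classical.Elusive.Inv

variable {F V : Type*} [Field F] [AddCommGroup V] [Module F V] [FiniteDimensional F V]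

/-- The subspace spanned by a block. -/
def blockSpan {J E : Type*} (b : J × E → V) (C : Finset J) : Submodule F V :=
  Submodule.span F (b '' {p | p.1 ∈ C})

theorem finrank_blockSpan {J E : Type*} [DecidableEq J] [Fintype E] [DecidableEq E] (b : J × E → V) (hb : LinearIndependent F b)
    (C : Finset J) : finrank F (blockSpan (F := F) b C) = C.card * Fintype.card E := by
  classical
  let S : Finset (J × E) := C ×ˢ Finset.univ
  have hS : ({p | p.1 ∈ C} : Set (J × E)) = (S : Set (J × E)) := by
    ext p
    simp [S]
  have h1 := finrank_span_eq_card (hb.comp (Subtype.val : S → J × E) Subtype.val_injective)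
  have h2 : Set.range (b ∘ (Subtype.val : S → J × E)) = b '' {p | p.1 ∈ C} := by
    rw [hS, Set.range_comp, Subtype.range_coe]
  rw [h2] at h1
  unfold blockSpan
  rw [h1, Fintype.card_coe, Finset.card_product, Finset.card_univ]

/-- The decomposition attached to an involution on the index set. -/
theorem exists_decomp {J E : Type*} [Fintype J] [DecidableEq J] [Fintype E] [DecidableEq E]
    (b : J × E → V) (hb : LinearIndependent F b) (hspan : Submodule.span F (Set.range b) = ⊤)
    (T : Module.End F V) (hT : Function.Injective T) (π : J → J) (hπ : ∀ j, π (π j) = j)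
    (hTb : ∀ j i, T (b (j, i)) ∈ Submodule.span F (Set.range fun i' => b (π j, i')))
    {a' t : ℕ} (ha' : 0 < a') (hJ : Fintype.card J = a' * t) :
    ∃ (B : Fin t → Finset J) (σ : Equiv.Perm (Fin t)),
      (∀ k, finrank F (blockSpan (F := F) b (B k)) = a' * Fintype.card E) ∧
      iSupIndep (fun k => blockSpan (F := F) b (B k)) ∧ iSup (fun k => blockSpan (F := F) b (B k)) = ⊤ ∧
      (∀ k, (blockSpan (F := F) b (B k)).map T = blockSpan b (B (σ k))) ∧
      (∀ k k', k ≠ k' → Disjoint (B k) (B k')) ∧ ∀ j, ∃ k, j ∈ B k := by
  classical
  obtain ⟨B, σ, h1, h2, h3, h4⟩ := exists_fin_blocks hπ ha' hJ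
  have hdim : ∀ k, finrank F (blockSpan (F := F) b (B k)) = a' * Fintype.card E := fun k => by
    rw [finrank_blockSpan b hb, h1]
  refine ⟨B, σ, hdim, ?_, ?_, ?_, h2, h3⟩
  · intro k
    have h5 : (⨆ k' , ⨆ (_ : k' ≠ k), blockSpan (F := F) b (B k')) ≤ Submodule.span F (b '' {p | p.1 ∉ B k}) := by
      refine iSup₂_le fun k' hk' => ?_
      apply Submodule.span_mono
      apply Set.image_mono
      intro p hp
      have hd := h2 k' k hk'
      exact Finset.disjoint_left.1 hd hp
    refine Disjoint.mono_right h5 ?_
    apply hb.disjoint_span_image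
    rw [Set.disjoint_left]
    intro p hp hp'
    exact hp' hp
  · rw [eq_top_iff, ← hspan]
    apply Submodule.span_le.2
    rintro _ ⟨p, rfl⟩
    obtain ⟨k, hk⟩ := h3 p.1
    exact Submodule.mem_iSup_of_mem k (Submodule.subset_span ⟨p, hk, rfl⟩)
  · intro k
    apply Submodule.eq_of_le_of_finrank_eq
    · rw [blockSpan, Submodule.map_span, Submodule.span_le]
      rintro _ ⟨_, ⟨p, hp, rfl⟩, rfl⟩
      obtain ⟨j, i⟩ := p
      have h6 : π j ∈ B (σ k) := by
        rw [← h4]
        exact Finset.mem_image_of_mem _ hp
      refine (Submodule.span_le.2 ?_) (hTb j i)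
      rintro _ ⟨i', rfl⟩
      exact Submodule.subset_span ⟨(π j, i'), h6, rfl⟩
    · rw [(LinearEquiv.finrank_eq (Submodule.equivMapOfInjective T hT _)).symm, hdim, hdim]

/-- Lines permuted by an element whose square is a scalar. -/
theorem exists_lines (T : Module.End F V) {z : F} (hz : z ≠ 0) (hT : T ^ 2 = z • 1) (n : ℕ) :
    ∀ W : Submodule F V, finrank F W ≤ n → IsInv T W →
    ∃ (J : Type) (_ : Fintype J) (_ : DecidableEq J) (b : J → V) (π : J → J), (∀ j, π (π j) = j) ∧
      LinearIndependent F b ∧ Submodule.span F (Set.range b) = W ∧ ∀ j, T (b j) ∈ Submodule.span F {b (π j)} := by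
  classical
  have hT2 : ∀ u, T (T u) = z • u := by
    intro u
    have := congrArg (fun S : Module.End F V => S u) hT
    simpa [sq] using this
  induction n with
  | zero =>
    intro W hW _
    have h0 : W = ⊥ := by
      apply Submodule.finrank_eq_zero.1
      omega
    subst h0
    exact ⟨Empty, inferInstance, inferInstance, Empty.elim, Empty.elim, fun j => j.elim,
      linearIndependent_empty_type, by simp, fun j => j.elim⟩
  | succ n ih =>
    intro W hW hWinv
    by_cases hall : ∀ v ∈ W, T v ∈ Submodule.span F {v}
    · obtain ⟨f, hf1, hf2, hf3⟩ := Submodule.exists_fun_fin_finrank_span_eq F (W : Set V)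
      exact ⟨_, inferInstance, inferInstance, f, id, fun j => rfl, hf3, hf2.trans (Submodule.span_eq W), fun j => hall _ (hf1 j)⟩
    · push Not at hall
      obtain ⟨v, hvW, hv⟩ := hall
      have hTv0 : T v ≠ 0 := by
        intro h
        apply hv
        rw [h]
        exact Submodule.zero_mem _
      have hv0 : v ≠ 0 := by
        rintro rfl
        apply hv
        rw [map_zero]
        exact Submodule.zero_mem _
      have hv' : v ∉ Submodule.span F {T v} := by
        intro h
        obtain ⟨c, hc⟩ := Submodule.mem_span_singleton.1 h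
        have hc0 : c ≠ 0 := by
          rintro rfl
          rw [zero_smul] at hc
          exact hv0 hc.symm
        apply hv
        apply Submodule.mem_span_singleton.2
        refine ⟨c⁻¹, ?_⟩
        conv_lhs => rw [← hc]
        rw [smul_smul, inv_mul_cancel₀ hc0, one_smul]
      obtain ⟨f, hf1, hf2⟩ := Submodule.exists_le_ker_of_notMem hv'
      have hf3 : f (T v) = 0 := hf2 (Submodule.mem_span_singleton_self _)
      let l : V →ₗ[F] F := (f v)⁻¹ • f
      have hl1 : l v = 1 := by
        change (f v)⁻¹ • f v = 1
        rw [smul_eq_mul, inv_mul_cancel₀ hf1]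
      have hl2 : l (T v) = 0 := by
        change (f v)⁻¹ • f (T v) = 0
        rw [hf3, smul_zero]
      let C : Submodule F V := W ⊓ LinearMap.ker l ⊓ LinearMap.ker (l ∘ₗ T)
      have hmemC : ∀ u, u ∈ C ↔ u ∈ W ∧ l u = 0 ∧ l (T u) = 0 := by
        intro u
        simp [C, and_assoc]
      have hCinv : IsInv T C := by
        intro u hu
        rw [hmemC] at hu ⊢
        refine ⟨hWinv u hu.1, hu.2.2, ?_⟩
        rw [hT2, map_smul, hu.2.1, smul_zero]
      have hCW : C < W := by
        refine lt_of_le_of_ne (fun u hu => ((hmemC u).1 hu).1) ?_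
        intro h
        have : v ∈ C := h ▸ hvW
        have h1 := ((hmemC v).1 this).2.1
        rw [hl1] at h1
        exact one_ne_zero h1
      have hCn : finrank F C ≤ n := by
        have := Submodule.finrank_lt_finrank_of_lt hCW
        omega
      obtain ⟨J, i1, i2, b, π, hπ, hb, hbs, hbT⟩ := ih C hCn hCinv
      have hpair : LinearIndependent F ![v, T v] := by
        rw [LinearIndependent.pair_iff]
        intro s t hst
        have h1 := congrArg l hst
        rw [map_add, map_smul, map_smul, hl1, hl2, map_zero] at h1
        simp only [smul_eq_mul, mul_one, mul_zero, add_zero] at h1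
        subst h1
        rw [zero_smul, zero_add] at hst
        exact ⟨rfl, (smul_eq_zero.1 hst).resolve_right hTv0⟩
      have hrange : Set.range ![v, T v] = {v, T v} := by
        simp [Matrix.range_cons, Matrix.range_empty, Set.union_comm, Set.pair_comm]
      have hdisj : Disjoint (Submodule.span F (Set.range b)) (Submodule.span F (Set.range ![v, T v])) := by
        rw [hbs, hrange, Submodule.disjoint_def]
        intro x hx hx'
        obtain ⟨s, t, rfl⟩ := Submodule.mem_span_pair.1 hx'
        obtain ⟨-, h1, h2⟩ := (hmemC _).1 hx
        rw [map_add, map_smul, map_smul, hl1, hl2] at h1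
        simp only [smul_eq_mul, mul_one, mul_zero, add_zero] at h1
        subst h1
        rw [zero_smul, zero_add, map_smul, hT2, map_smul, map_smul, hl1] at h2
        simp only [smul_eq_mul, mul_one] at h2
        have h3 : t = 0 := (mul_eq_zero.1 h2).resolve_right hz
        rw [h3, zero_smul, zero_smul, add_zero]
      refine ⟨J ⊕ Fin 2, inferInstance, inferInstance, Sum.elim b ![v, T v], Sum.map π (fun i => if i = 0 then 1 else 0), ?_, ?_, ?_, ?_⟩
      · rintro (j | j)
        · simp [hπ]
        · fin_cases j <;> simp
      · exact hb.sum_type hpair hdisj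
      · rw [Set.Sum.elim_range, Submodule.span_union, hbs, hrange]
        apply le_antisymm
        · apply sup_le (le_of_lt hCW)
          rw [Submodule.span_le]
          rintro _ (rfl | rfl)
          · exact hvW
          · exact hWinv _ hvW
        · intro u hu
          have hdec : u = (u - (l u) • v - (z⁻¹ * l (T u)) • T v) + ((l u) • v + (z⁻¹ * l (T u)) • T v) := by abel
          rw [hdec]
          refine Submodule.add_mem_sup ((hmemC _).2 ⟨?_, ?_, ?_⟩) (Submodule.mem_span_pair.2 ⟨_, _, rfl⟩)
          · exact W.sub_mem (W.sub_mem hu (W.smul_mem _ hvW)) (W.smul_mem _ (hWinv _ hvW))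
          · rw [map_sub, map_sub, map_smul, map_smul, hl1, hl2]
            simp
          · rw [map_sub, map_sub, map_smul, map_smul, hT2, map_sub, map_sub, map_smul, map_smul, map_smul, hl2, hl1]
            simp only [smul_eq_mul, mul_zero, mul_one, sub_zero]
            field_simp
            ring
      · rintro (j | j)
        · have h1 := hbT j
          simpa using h1
        · fin_cases j
          · simp
          · simp [hT2]
            exact Submodule.smul_mem _ _ (Submodule.mem_span_singleton_self _)

end Cfsg.Agent.Lib.Classical.Elusive.Decomp
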