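import Mathlib
import Cfsg.Agent.Lib.Classical.Elusive.Decomp

/-!
# Hyperbolic planes permuted by an isometry whose square is a scalar
-/

set_option autoImplicit false
set_option linter.unusedSectionVars false
set_option linter.unusedSimpArgs false
set_option linter.unusedVariables false
set_option linter.style.haveILetI false

namespace Cfsg.Agent.Lib.Classical.Elusive.Planes

open Module
open Cfsg.Agent.Lib.Classical.Elusive.Inv Cfsg.Agent.Lib.Classical.Elusive.Decomp

variable {F V : Type*} [Field F] [AddCommGroup V] [Module F V] [FiniteDimensional F V]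

section Sys

variable (B : LinearMap.BilinForm F V) (T : Module.End F V)

/-- A system of hyperbolic planes permuted by `T` spanning `W`. -/
structure IsSys (W : Submodule F V) {J : Type} (e f : J → V) (π : J → J) : Prop where
  inv : ∀ j, π (π j) = j
  memE : ∀ j, e j ∈ W
  memF : ∀ j, f j ∈ W
  hyp : ∀ j, B (e j) (f j) = 1
  orth : ∀ j j', j ≠ j' → B (e j) (e j') = 0 ∧ B (e j) (f j') = 0 ∧ B (f j) (e j') = 0 ∧ B (f j) (f j') = 0
  span : Submodule.span F (Set.range e ∪ Set.range f) = W
  act : ∀ j, T (e j) ∈ Submodule.span F {e (π j), f (π j)} ∧ T (f j) ∈ Submodule.span F {e (π j), f (π j)}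

variable {B T}

theorem IsSys.sum {W₁ W₂ : Submodule F V} {J₁ J₂ : Type} {e₁ f₁ : J₁ → V} {π₁ : J₁ → J₁} {e₂ f₂ : J₂ → V} {π₂ : J₂ → J₂}
    (h₁ : IsSys B T W₁ e₁ f₁ π₁) (h₂ : IsSys B T W₂ e₂ f₂ π₂)
    (h12 : ∀ u ∈ W₁, ∀ v ∈ W₂, B u v = 0) (h21 : ∀ u ∈ W₂, ∀ v ∈ W₁, B u v = 0) :
    IsSys B T (W₁ ⊔ W₂) (Sum.elim e₁ e₂) (Sum.elim f₁ f₂) (Sum.map π₁ π₂) := by
  refine ⟨?_, ?_, ?_, ?_, ?_, ?_, ?_⟩
  · rintro (j | j)
    · simp [h₁.inv]
    · simp [h₂.inv]
  · rintro (j | j)
    · exact Submodule.mem_sup_left (h₁.memE j)
    · exact Submodule.mem_sup_right (h₂.memE j)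
  · rintro (j | j)
    · exact Submodule.mem_sup_left (h₁.memF j)
    · exact Submodule.mem_sup_right (h₂.memF j)
  · rintro (j | j)
    · exact h₁.hyp j
    · exact h₂.hyp j
  · rintro (j | j) (j' | j') hne
    · exact h₁.orth j j' (fun h => hne (by rw [h]))
    · exact ⟨h12 _ (h₁.memE j) _ (h₂.memE j'), h12 _ (h₁.memE j) _ (h₂.memF j'),
        h12 _ (h₁.memF j) _ (h₂.memE j'), h12 _ (h₁.memF j) _ (h₂.memF j')⟩
    · exact ⟨h21 _ (h₂.memE j) _ (h₁.memE j'), h21 _ (h₂.memE j) _ (h₁.memF j'),
        h21 _ (h₂.memF j) _ (h₁.memE j'), h21 _ (h₂.memF j) _ (h₁.memF j')⟩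
    · exact h₂.orth j j' (fun h => hne (by rw [h]))
  · rw [Set.Sum.elim_range, Set.Sum.elim_range]
    rw [← h₁.span, ← h₂.span, ← Submodule.span_union]
    congr 1
    ext x
    simp only [Set.mem_union]
    tauto
  · rintro (j | j)
    · exact h₁.act j
    · exact h₂.act j

/-- One plane with invariant span. -/
theorem sys_one {e f : V} (h : B e f = 1) (he : T e ∈ Submodule.span F {e, f}) (hf : T f ∈ Submodule.span F {e, f}) :
    IsSys B T (Submodule.span F {e, f}) (fun _ : Unit => e) (fun _ : Unit => f) id := by
  refine ⟨fun _ => rfl, fun _ => Submodule.subset_span (by simp), fun _ => Submodule.subset_span (by simp), fun _ => h, ?_, ?_, fun _ => ⟨he, hf⟩⟩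
  · intro j j' hne
    exact absurd (Subsingleton.elim _ _) hne
  · congr 1
    ext x
    simp [Set.mem_insert_iff, or_comm]

/-- The orthogonal of a hyperbolic pair inside `W`. -/
def perpW (B : LinearMap.BilinForm F V) (W : Submodule F V) (e f : V) : Submodule F V :=
  W ⊓ LinearMap.ker (B.flip e) ⊓ LinearMap.ker (B.flip f)

theorem mem_perpW {W : Submodule F V} {e f u : V} : u ∈ perpW B W e f ↔ u ∈ W ∧ B u e = 0 ∧ B u f = 0 := by
  simp [perpW, and_assoc]

theorem perpW_le {W : Submodule F V} {e f : V} : perpW B W e f ≤ W := fun _ h => (mem_perpW.1 h).1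

theorem perpW_lt (hA : B.IsAlt) {W : Submodule F V} {e f : V} (he : e ∈ W) (h : B e f = 1) : perpW B W e f < W := by
  refine lt_of_le_of_ne perpW_le ?_
  intro heq
  have h1 : e ∈ perpW B W e f := by rw [heq]; exact he
  have h2 := (mem_perpW.1 h1).2.2
  rw [h] at h2
  exact one_ne_zero h2

theorem swap_B (hA : B.IsAlt) (x y : V) : B x y = - B y x := by
  have h1 := hA (x + y)
  simp only [map_add, LinearMap.add_apply, hA x, hA y, zero_add, add_zero] at h1
  linear_combination h1

theorem perpW_sup (hA : B.IsAlt) {W : Submodule F V} {e f : V} (he : e ∈ W) (hf : f ∈ W) (h : B e f = 1) :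
    perpW B W e f ⊔ Submodule.span F {e, f} = W := by
  apply le_antisymm
  · apply sup_le perpW_le
    rw [Submodule.span_le]
    intro x hx
    rcases hx with hx | hx
    · rw [hx]; exact he
    · rw [Set.mem_singleton_iff.1 hx]; exact hf
  · intro u hu
    have hfe : B f e = -1 := by rw [swap_B hA, h]
    have hdec : (u - (B u f) • e + (B u e) • f) + ((B u f) • e - (B u e) • f) = u := by abel
    suffices hsuff : (u - (B u f) • e + (B u e) • f) + ((B u f) • e - (B u e) • f) ∈ perpW B W e f ⊔ Submodule.span F {e, f} by
      rwa [hdec] at hsuff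
    refine Submodule.add_mem_sup (mem_perpW.2 ⟨?_, ?_, ?_⟩) ?_
    · exact W.add_mem (W.sub_mem hu (W.smul_mem _ he)) (W.smul_mem _ hf)
    · simp [hA e, hfe]
    · simp [hA f, h]
    · exact Submodule.sub_mem _ (Submodule.smul_mem _ _ (Submodule.subset_span (by simp)))
        (Submodule.smul_mem _ _ (Submodule.subset_span (by simp)))

theorem perpW_nondeg (hA : B.IsAlt) {W : Submodule F V} {e f : V} (he : e ∈ W) (hf : f ∈ W) (h : B e f = 1)
    (hW : ∀ u ∈ W, u ≠ 0 → ∃ v ∈ W, B u v ≠ 0) : ∀ u ∈ perpW B W e f, u ≠ 0 → ∃ v ∈ perpW B W e f, B u v ≠ 0 := by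
  intro u hu hu0
  obtain ⟨huW, h1, h2⟩ := mem_perpW.1 hu
  obtain ⟨v, hv, hv'⟩ := hW u huW hu0
  have hfe : B f e = -1 := by rw [swap_B hA, h]
  refine ⟨v - (B v f) • e + (B v e) • f, mem_perpW.2 ⟨?_, ?_, ?_⟩, ?_⟩
  · exact W.add_mem (W.sub_mem hv (W.smul_mem _ he)) (W.smul_mem _ hf)
  · simp [hA e, hfe]
  · simp [hA f, h]
  · simpa [h1, h2] using hv'

end Sys

section Main

variable {B : LinearMap.BilinForm F V} {T : Module.End F V}

/-- The main induction. -/
theorem exists_planes (hA : B.IsAlt) (hTB : ∀ u v, B (T u) (T v) = B u v) {z : F} (hz : z ≠ 0) (hT : T ^ 2 = z • 1) (n : ℕ) :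
    ∀ W : Submodule F V, finrank F W ≤ n → IsInv T W → (∀ u ∈ W, u ≠ 0 → ∃ v ∈ W, B u v ≠ 0) →
    ∃ (J : Type) (_ : Fintype J) (_ : DecidableEq J) (e f : J → V) (π : J → J), IsSys B T W e f π := by
  classical
  have hT2 : ∀ u, T (T u) = z • u := by
    intro u
    have := congrArg (fun S : Module.End F V => S u) hT
    simpa [sq] using this
  -- the orthogonal of an invariant plane is invariant
  have hplane : ∀ {W : Submodule F V} {e f : V}, IsInv T W → T e ∈ Submodule.span F {e, f} → T f ∈ Submodule.span F {e, f} →
      IsInv T (perpW B W e f) := by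
    intro W e f hW he hf u hu
    obtain ⟨huW, h1, h2⟩ := mem_perpW.1 hu
    have hzero : ∀ y ∈ Submodule.span F {e, f}, B u y = 0 := by
      intro y hy
      obtain ⟨a, b, rfl⟩ := Submodule.mem_span_pair.1 hy
      simp [h1, h2]
    have hkey : ∀ y, T y ∈ Submodule.span F {e, f} → B (T u) y = 0 := by
      intro y hy
      have h3 : y = T (z⁻¹ • T y) := by
        rw [map_smul, hT2, smul_smul, inv_mul_cancel₀ hz, one_smul]
      rw [h3, hTB]
      exact hzero _ (Submodule.smul_mem _ _ hy)
    refine mem_perpW.2 ⟨hW u huW, ?_, ?_⟩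
    · apply hkey
      exact he
    · apply hkey
      exact hf
  -- adding a plane with invariant span
  have hadd : ∀ {W : Submodule F V} {e f : V}, e ∈ W → f ∈ W → B e f = 1 → T e ∈ Submodule.span F {e, f} → T f ∈ Submodule.span F {e, f} →
      (∃ (J : Type) (_ : Fintype J) (_ : DecidableEq J) (e' f' : J → V) (π : J → J), IsSys B T (perpW B W e f) e' f' π) →
      ∃ (J : Type) (_ : Fintype J) (_ : DecidableEq J) (e' f' : J → V) (π : J → J), IsSys B T W e' f' π := by
    intro W e f he hf h hTe hTf hIH
    obtain ⟨J, i1, i2, e', f', π, hS⟩ := hIH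
    have hsum := hS.sum (sys_one (B := B) (T := T) h hTe hTf) (by
      intro u hu v hv
      obtain ⟨a, b, rfl⟩ := Submodule.mem_span_pair.1 hv
      obtain ⟨_, h1, h2⟩ := mem_perpW.1 hu
      simp [h1, h2]) (by
      intro u hu v hv
      obtain ⟨a, b, rfl⟩ := Submodule.mem_span_pair.1 hu
      obtain ⟨_, h1, h2⟩ := mem_perpW.1 hv
      rw [swap_B hA (a • e + b • f) v]
      simp [h1, h2])
    rw [perpW_sup hA he hf h] at hsum
    exact ⟨J ⊕ Unit, inferInstance, inferInstance, _, _, _, hsum⟩
  induction n with
  | zero =>
    intro W hW _ _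
    have h0 : W = ⊥ := by
      apply Submodule.finrank_eq_zero.1
      omega
    subst h0
    refine ⟨Empty, inferInstance, inferInstance, Empty.elim, Empty.elim, Empty.elim, ⟨fun j => j.elim, fun j => j.elim, fun j => j.elim, fun j => j.elim, fun j => j.elim, by simp, fun j => j.elim⟩⟩
  | succ n ih =>
    intro W hW hWinv hWn
    by_cases hbot : W = ⊥
    · subst hbot
      refine ⟨Empty, inferInstance, inferInstance, Empty.elim, Empty.elim, Empty.elim, ⟨fun j => j.elim, fun j => j.elim, fun j => j.elim, fun j => j.elim, fun j => j.elim, by simp, fun j => j.elim⟩⟩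
    -- recursion on a plane
    have hrec : ∀ {e f : V}, e ∈ W → f ∈ W → B e f = 1 → T e ∈ Submodule.span F {e, f} → T f ∈ Submodule.span F {e, f} →
        ∃ (J : Type) (_ : Fintype J) (_ : DecidableEq J) (e' f' : J → V) (π : J → J), IsSys B T W e' f' π := by
      intro e f he hf h hTe hTf
      apply hadd he hf h hTe hTf
      apply ih
      · have := Submodule.finrank_lt_finrank_of_lt (perpW_lt hA he h)
        omega
      · exact hplane hWinv hTe hTf
      · exact perpW_nondeg hA he hf h hWn
    by_cases hcaseA : ∃ v ∈ W, B v (T v) ≠ 0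
    · obtain ⟨v, hv, hvT⟩ := hcaseA
      set c := B v (T v) with hc
      refine hrec (e := v) (f := c⁻¹ • T v) hv (W.smul_mem _ (hWinv _ hv)) ?_ ?_ ?_
      · rw [map_smul, smul_eq_mul, inv_mul_cancel₀ hvT]
      · apply Submodule.mem_span_pair.2
        refine ⟨0, c, ?_⟩
        rw [zero_smul, zero_add, smul_smul, mul_inv_cancel₀ hvT, one_smul]
      · rw [map_smul, hT2]
        apply Submodule.mem_span_pair.2
        refine ⟨c⁻¹ * z, 0, ?_⟩
        rw [zero_smul, add_zero, smul_smul]
    · push Not at hcaseA
      by_cases hall : ∀ v ∈ W, T v ∈ Submodule.span F {v}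
      · -- every vector is an eigenvector
        obtain ⟨v, hv, hv0⟩ := (Submodule.ne_bot_iff W).1 hbot
        obtain ⟨y, hy, hy'⟩ := hWn v hv hv0
        set c := B v y with hc
        have hmem : ∀ u ∈ W, T u ∈ Submodule.span F {u} := hall
        refine hrec (e := v) (f := c⁻¹ • y) hv (W.smul_mem _ hy) ?_ ?_ ?_
        · rw [map_smul, smul_eq_mul, inv_mul_cancel₀ hy']
        · exact (Submodule.span_mono (by simp)) (hmem v hv)
        · exact (Submodule.span_mono (by simp)) (hmem _ (W.smul_mem _ hy))
      · push Not at hall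
        obtain ⟨v, hvW, hv⟩ := hall
        have hTvW := hWinv v hvW
        have hv0 : v ≠ 0 := by
          rintro rfl
          apply hv
          rw [map_zero]
          exact Submodule.zero_mem _
        have hTv0 : T v ≠ 0 := by
          intro h
          apply hv
          rw [h]
          exact Submodule.zero_mem _
        -- a vector orthogonal to `T v` but not to `v`
        obtain ⟨y, hyW, hy⟩ := hWn (T v) hTvW hTv0
        have hexu : ∃ u ∈ W, B (T v) u = 0 ∧ B v u ≠ 0 := by
          by_contra hcon
          push Not at hcon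
          set d := B (T v) y with hd
          set c := B v y with hc
          have h1 : ∀ u ∈ W, B (v - (c * d⁻¹) • T v) u = 0 := by
            intro u hu
            have h2 := hcon (u - (B (T v) u * d⁻¹) • y) (W.sub_mem hu (W.smul_mem _ hyW)) (by
              simp only [map_sub, map_smul, smul_eq_mul]
              rw [← hd]
              field_simp
              ring)
            simp only [map_sub, map_smul, smul_eq_mul, LinearMap.sub_apply, LinearMap.smul_apply] at h2 ⊢
            rw [← hc] at h2
            linear_combination h2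
          have h2 : v - (c * d⁻¹) • T v = 0 := by
            by_contra h3
            obtain ⟨w, hw, hw'⟩ := hWn _ (W.sub_mem hvW (W.smul_mem _ hTvW)) h3
            exact hw' (h1 w hw)
          apply hv
          have h3 : c * d⁻¹ ≠ 0 := by
            intro h4
            rw [h4, zero_smul, sub_zero] at h2
            exact hv0 h2
          apply Submodule.mem_span_singleton.2
          refine ⟨(c * d⁻¹)⁻¹, ?_⟩
          have h4 : v = (c * d⁻¹) • T v := sub_eq_zero.1 h2
          conv_lhs => rw [h4]
          rw [smul_smul, inv_mul_cancel₀ h3, one_smul]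
        obtain ⟨u₀, hu₀W, hu₀1, hu₀2⟩ := hexu
        set c := B v u₀ with hc
        set u := c⁻¹ • u₀ with hu
        have huW : u ∈ W := W.smul_mem _ hu₀W
        have hvu : B v u = 1 := by
          rw [hu, map_smul, smul_eq_mul, inv_mul_cancel₀ hu₀2]
        have hTvu : B (T v) u = 0 := by
          rw [hu, map_smul, hu₀1, smul_zero]
        have hTu : B (T v) (T u) = 1 := by rw [hTB, hvu]
        -- all the orthogonality relations
        have h1 : B v (T v) = 0 := hcaseA v hvW
        have h2 : B v (T u) = 0 := by
          have h3 := hTB v (T u)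
          rw [hT2, map_smul, hTvu, smul_zero] at h3
          exact h3.symm
        have h3 : B u (T v) = 0 := by rw [swap_B hA, hTvu, neg_zero]
        have h4 : B u (T u) = 0 := hcaseA u huW
        -- the two orthogonal complements
        set W₁ := perpW B W v u with hW₁
        have hTvW₁ : T v ∈ W₁ := mem_perpW.2 ⟨hTvW, by rw [swap_B hA, h1, neg_zero], hTvu⟩
        have hTuW₁ : T u ∈ W₁ := mem_perpW.2 ⟨hWinv u huW, by rw [swap_B hA, h2, neg_zero], by rw [swap_B hA, h4, neg_zero]⟩
        have hn₁ := perpW_nondeg hA hvW huW hvu hWn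
        set W₂ := perpW B W₁ (T v) (T u) with hW₂
        have hn₂ := perpW_nondeg hA hTvW₁ hTuW₁ hTu hn₁
        have hinv₂ : IsInv T W₂ := by
          intro x hx
          obtain ⟨hx1, hx2, hx3⟩ := mem_perpW.1 hx
          obtain ⟨hx4, hx5, hx6⟩ := mem_perpW.1 hx1
          have hkey : ∀ y, B (T x) (T y) = B x y := fun y => hTB x y
          have hkey' : ∀ y, B (T x) y = z⁻¹ * B x (T y) := by
            intro y
            have h5 := hTB x (T y)
            rw [hT2, map_smul, smul_eq_mul] at h5
            rw [← h5, ← mul_assoc, inv_mul_cancel₀ hz, one_mul]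
          refine mem_perpW.2 ⟨mem_perpW.2 ⟨hWinv x hx4, ?_, ?_⟩, ?_, ?_⟩
          · rw [hkey', hx2, mul_zero]
          · rw [hkey', hx3, mul_zero]
          · rw [hkey, hx5]
          · rw [hkey, hx6]
        have hlt : finrank F W₂ < finrank F W :=
          (Submodule.finrank_lt_finrank_of_lt (perpW_lt hA hTvW₁ hTu)).trans (Submodule.finrank_lt_finrank_of_lt (perpW_lt hA hvW hvu))
        obtain ⟨J, i1, i2, e', f', π, hS⟩ := ih W₂ (by omega) hinv₂ hn₂
        -- the pair of planes
        let P := Submodule.span F {v, u, T v, T u}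
        have hS₂ : IsSys B T P ![v, T v] ![u, T u] ![1, 0] := by
          refine ⟨?_, ?_, ?_, ?_, ?_, ?_, ?_⟩
          · intro j
            fin_cases j <;> simp
          · intro j
            fin_cases j
            · exact Submodule.subset_span (by simp)
            · exact Submodule.subset_span (by simp)
          · intro j
            fin_cases j
            · exact Submodule.subset_span (by simp)
            · exact Submodule.subset_span (by simp)
          · intro j
            fin_cases j
            · exact hvu
            · exact hTu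
          · intro j j' hne
            fin_cases j <;> fin_cases j'
            · exact absurd rfl hne
            · exact ⟨h1, h2, h3, h4⟩
            · refine ⟨?_, ?_, ?_, ?_⟩
              · simpa [swap_B hA (T v) v] using h1
              · simpa [swap_B hA (T v) u] using h3
              · simpa [swap_B hA (T u) v] using h2
              · simpa [swap_B hA (T u) u] using h4
            · exact absurd rfl hne
          · congr 1
            ext x
            simp [Set.mem_insert_iff, Matrix.range_cons, Matrix.range_empty]
            tauto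
          · intro j
            fin_cases j
            · constructor
              · exact Submodule.subset_span (by simp)
              · exact Submodule.subset_span (by simp)
            · constructor
              · show T (T v) ∈ Submodule.span F {v, u}
                rw [hT2]
                exact Submodule.smul_mem _ _ (Submodule.subset_span (by simp))
              · show T (T u) ∈ Submodule.span F {v, u}
                rw [hT2]
                exact Submodule.smul_mem _ _ (Submodule.subset_span (by simp))
        have hP : W₂ ⊔ P = W := by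
          apply le_antisymm
          · apply sup_le (perpW_le.trans perpW_le)
            rw [Submodule.span_le]
            rintro x (rfl | rfl | rfl | rfl)
            · exact hvW
            · exact huW
            · exact hTvW
            · exact hWinv _ huW
          · have h5 : W₁ ⊔ Submodule.span F {v, u} = W := perpW_sup hA hvW huW hvu
            have h6 : W₂ ⊔ Submodule.span F {T v, T u} = W₁ := perpW_sup hA hTvW₁ hTuW₁ hTu
            have h7 : W ≤ (W₂ ⊔ Submodule.span F {T v, T u}) ⊔ Submodule.span F {v, u} := by
              rw [h6, h5]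
            refine h7.trans ?_
            refine sup_le (sup_le le_sup_left ?_) ?_
            · refine le_trans (Submodule.span_mono ?_) le_sup_right
              intro x hx
              simp only [Set.mem_insert_iff, Set.mem_singleton_iff] at hx ⊢
              tauto
            · refine le_trans (Submodule.span_mono ?_) le_sup_right
              intro x hx
              simp only [Set.mem_insert_iff, Set.mem_singleton_iff] at hx ⊢
              tauto
        have hperp1 : ∀ x ∈ W₂, ∀ y ∈ P, B x y = 0 := by
          intro x hx y hy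
          obtain ⟨hx1, hx2, hx3⟩ := mem_perpW.1 hx
          obtain ⟨hx4, hx5, hx6⟩ := mem_perpW.1 hx1
          have h7 : P ≤ LinearMap.ker (B x) := by
            rw [Submodule.span_le]
            rintro w (rfl | rfl | rfl | rfl)
            · exact hx5
            · exact hx6
            · exact hx2
            · exact hx3
          exact h7 hy
        have hperp2 : ∀ y ∈ P, ∀ x ∈ W₂, B y x = 0 := by
          intro y hy x hx
          rw [swap_B hA, hperp1 x hx y hy, neg_zero]
        have hsum := hS.sum hS₂ hperp1 hperp2
        rw [hP] at hsum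
        exact ⟨J ⊕ Fin 2, inferInstance, inferInstance, _, _, _, hsum⟩

end Main

end Cfsg.Agent.Lib.Classical.Elusive.Planes
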