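import Mathlib
import Cfsg.Agent.Lib.Classical.Elusive.Planes
import Cfsg.Prelude.Def_GeometricClasses

/-!
# Elements whose square is a scalar permute decompositions
-/

set_option autoImplicit false
set_option linter.unusedSectionVars false
set_option linter.unusedSimpArgs false
set_option linter.unusedVariables false
set_option linter.style.haveILetI false

namespace Cfsg.Agent.Lib.Classical.Elusive.DecompMain

open Module
open Cfsg.Agent.Lib.Classical.Elusive.Inv Cfsg.Agent.Lib.Classical.Elusive.Decomp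
  Cfsg.Agent.Lib.Classical.Elusive.Planes

variable {F V : Type*} [Field F] [AddCommGroup V] [Module F V] [FiniteDimensional F V]

theorem inj_of_sq {T : Module.End F V} {z : F} (hz : z ≠ 0) (hT : T ^ 2 = z • 1) : Function.Injective T := by
  have hT2 : ∀ u, T (T u) = z • u := by
    intro u
    have := congrArg (fun S : Module.End F V => S u) hT
    simpa [_root_.sq] using this
  rw [injective_iff_map_eq_zero]
  intro u hu
  have h1 := hT2 u
  rw [hu, map_zero] at h1
  exact (smul_eq_zero.1 h1.symm).resolve_left hz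

/-- The linear case. -/
theorem main_lin (T : Module.End F V) {z : F} (hz : z ≠ 0) (hT : T ^ 2 = z • 1) {a t : ℕ} (ha : 0 < a)
    (hdim : finrank F V = a * t) :
    ∃ (D : Fin t → Submodule F V) (σ : Equiv.Perm (Fin t)), (∀ k, finrank F (D k) = a) ∧ iSupIndep D ∧ iSup D = ⊤ ∧
      ∀ k, (D k).map T = D (σ k) := by
  classical
  obtain ⟨J, i1, i2, b, π, hπ, hb, hspan, hTb⟩ := exists_lines T hz hT (finrank F (⊤ : Submodule F V)) ⊤ le_rfl (isInv_top T)
  have hJ : Fintype.card J = a * t := by
    have h1 := finrank_span_eq_card hb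
    rw [hspan, finrank_top, hdim] at h1
    exact h1.symm
  let b' : J × Unit → V := fun p => b p.1
  have hinj : Function.Injective (Prod.fst : J × Unit → J) := fun p q h => Prod.ext h (Subsingleton.elim _ _)
  have hb' : LinearIndependent F b' := hb.comp _ hinj
  have hspan' : Submodule.span F (Set.range b') = ⊤ := by
    rw [← hspan]
    congr 1
    ext x
    constructor
    · rintro ⟨p, rfl⟩
      exact ⟨p.1, rfl⟩
    · rintro ⟨j, rfl⟩
      exact ⟨(j, ()), rfl⟩
  have hTb' : ∀ j i, T (b' (j, i)) ∈ Submodule.span F (Set.range fun i' => b' (π j, i')) := by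
    intro j i
    refine Submodule.span_mono ?_ (hTb j)
    rintro x hx
    rw [Set.mem_singleton_iff] at hx
    exact ⟨(), hx.symm⟩
  obtain ⟨B, σ, h1, h2, h3, h4, _, _⟩ := exists_decomp b' hb' hspan' T (inj_of_sq hz hT) π hπ hTb' ha hJ
  refine ⟨fun k => blockSpan (F := F) b' (B k), σ, fun k => ?_, h2, h3, h4⟩
  rw [h1]
  simp

/-- The symplectic case. -/
theorem main_symp {B : LinearMap.BilinForm F V} {T : Module.End F V} (hA : B.IsAlt) (hTB : ∀ u v, B (T u) (T v) = B u v)
    {z : F} (hz : z ≠ 0) (hT : T ^ 2 = z • 1) (hnd : ∀ u : V, u ≠ 0 → ∃ v, B u v ≠ 0) {a' t : ℕ} (ha' : 0 < a')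
    (hdim : finrank F V = (2 * a') * t) :
    ∃ (D : Fin t → Submodule F V) (σ : Equiv.Perm (Fin t)), (∀ k, finrank F (D k) = 2 * a') ∧ iSupIndep D ∧ iSup D = ⊤ ∧
      (∀ k, (D k).map T = D (σ k)) ∧ (∀ k, ∀ u ∈ D k, u ≠ 0 → ∃ v ∈ D k, B u v ≠ 0) ∧
      (∀ k k', k ≠ k' → ∀ u ∈ D k, ∀ v ∈ D k', B u v = 0) := by
  classical
  obtain ⟨J, i1, i2, e, f, π, hS⟩ := exists_planes (B := B) (T := T) hA hTB hz hT (finrank F (⊤ : Submodule F V)) ⊤ le_rfl (isInv_top T)
    (fun u _ hu => by
      obtain ⟨v, hv⟩ := hnd u hu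
      exact ⟨v, trivial, hv⟩)
  let b : J × Fin 2 → V := fun p => ![e p.1, f p.1] p.2
  have hb0 : ∀ j, b (j, 0) = e j := fun j => rfl
  have hb1 : ∀ j, b (j, 1) = f j := fun j => rfl
  have hsum : ∀ g : J × Fin 2 → F, ∑ p, g p • b p = ∑ j, (g (j, 0) • e j + g (j, 1) • f j) := by
    intro g
    rw [Fintype.sum_prod_type]
    refine Finset.sum_congr rfl fun j _ => ?_
    rw [Fin.sum_univ_two]
    rfl
  have hbLI : LinearIndependent F b := by
    rw [Fintype.linearIndependent_iff]
    intro g hg
    rw [hsum] at hg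
    have h1 : ∀ j₀, g (j₀, 0) = 0 := by
      intro j₀
      have h2 := congrArg (fun x => B x (f j₀)) hg
      simp only [map_sum, map_add, map_smul, LinearMap.sum_apply, LinearMap.add_apply, LinearMap.smul_apply, map_zero, LinearMap.zero_apply, smul_eq_mul] at h2
      rw [Finset.sum_eq_single j₀] at h2
      · rw [hS.hyp, hA (f j₀), mul_one, mul_zero, add_zero] at h2
        exact h2
      · intro j _ hj
        rw [(hS.orth j j₀ hj).2.1, (hS.orth j j₀ hj).2.2.2, mul_zero, mul_zero, add_zero]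
      · intro h
        exact absurd (Finset.mem_univ _) h
    have h1' : ∀ j₀, g (j₀, 1) = 0 := by
      intro j₀
      have h2 := congrArg (fun x => B x (e j₀)) hg
      simp only [map_sum, map_add, map_smul, LinearMap.sum_apply, LinearMap.add_apply, LinearMap.smul_apply, map_zero, LinearMap.zero_apply, smul_eq_mul] at h2
      rw [Finset.sum_eq_single j₀] at h2
      · rw [swap_B hA (f j₀) (e j₀), hS.hyp, hA (e j₀)] at h2
        simpa using h2
      · intro j _ hj
        rw [(hS.orth j j₀ hj).1, (hS.orth j j₀ hj).2.2.1, mul_zero, mul_zero, add_zero]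
      · intro h
        exact absurd (Finset.mem_univ _) h
    rintro ⟨j, i⟩
    fin_cases i
    · exact h1 j
    · exact h1' j
  have hbspan : Submodule.span F (Set.range b) = ⊤ := by
    rw [← hS.span]
    congr 1
    ext x
    constructor
    · rintro ⟨⟨j, i⟩, rfl⟩
      fin_cases i
      · exact Or.inl ⟨j, rfl⟩
      · exact Or.inr ⟨j, rfl⟩
    · rintro (⟨j, rfl⟩ | ⟨j, rfl⟩)
      · exact ⟨(j, 0), rfl⟩
      · exact ⟨(j, 1), rfl⟩
  have hJ : Fintype.card J = a' * t := by
    have h1 := finrank_span_eq_card hbLI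
    rw [hbspan, finrank_top, hdim, Fintype.card_prod, Fintype.card_fin] at h1
    have h2 : 2 * (a' * t) = 2 * Fintype.card J := by
      rw [← mul_assoc, h1, mul_comm]
    omega
  have hTb : ∀ j i, T (b (j, i)) ∈ Submodule.span F (Set.range fun i' => b (π j, i')) := by
    intro j i
    have hsub : ({e (π j), f (π j)} : Set V) ⊆ Set.range fun i' => b (π j, i') := by
      rintro x (rfl | rfl)
      · exact ⟨0, rfl⟩
      · exact ⟨1, rfl⟩
    fin_cases i
    · exact Submodule.span_mono hsub (hS.act j).1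
    · exact Submodule.span_mono hsub (hS.act j).2
  obtain ⟨C, σ, h1, h2, h3, h4, h5, h6⟩ := exists_decomp b hbLI hbspan T (inj_of_sq hz hT) π hS.inv hTb ha' hJ
  have horth : ∀ k k', k ≠ k' → ∀ u ∈ blockSpan (F := F) b (C k), ∀ v ∈ blockSpan (F := F) b (C k'), B u v = 0 := by
    intro k k' hne u hu v hv
    have hgen : ∀ p q : J × Fin 2, p.1 ∈ C k → q.1 ∈ C k' → B (b p) (b q) = 0 := by
      rintro ⟨j, i⟩ ⟨j', i'⟩ hj hj'
      have hne' : j ≠ j' := by
        rintro rfl
        exact Finset.disjoint_left.1 (h5 k k' hne) hj hj'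
      have h7 := hS.orth j j' hne'
      fin_cases i <;> fin_cases i'
      · exact h7.1
      · exact h7.2.1
      · exact h7.2.2.1
      · exact h7.2.2.2
    have h8 : ∀ x ∈ blockSpan (F := F) b (C k'), ∀ p : J × Fin 2, p.1 ∈ C k → B (b p) x = 0 := by
      intro x hx p hp
      have h9 : blockSpan (F := F) b (C k') ≤ LinearMap.ker (B (b p)) := by
        unfold blockSpan
        rw [Submodule.span_le]
        rintro y ⟨q, hq, rfl⟩
        exact hgen p q hp hq
      exact h9 hx
    have h9 : blockSpan (F := F) b (C k) ≤ LinearMap.ker (B.flip v) := by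
      unfold blockSpan
      rw [Submodule.span_le]
      rintro y ⟨p, hp, rfl⟩
      exact h8 v hv p hp
    exact h9 hu
  refine ⟨fun k => blockSpan (F := F) b (C k), σ, fun k => ?_, h2, h3, h4, ?_, horth⟩
  · rw [h1, Fintype.card_fin, mul_comm]
  · intro k u hu hu0
    obtain ⟨y, hy⟩ := hnd u hu0
    have htop : blockSpan (F := F) b (C k) ⊔ ⨆ k' ≠ k, blockSpan (F := F) b (C k') = ⊤ := by
      rw [eq_top_iff, ← h3]
      refine iSup_le fun k' => ?_
      by_cases hk : k' = k
      · rw [hk]
        exact le_sup_left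
      · exact le_trans (le_iSup₂_of_le k' hk le_rfl) le_sup_right
    have hymem : y ∈ blockSpan (F := F) b (C k) ⊔ ⨆ k' ≠ k, blockSpan (F := F) b (C k') := by
      rw [htop]
      trivial
    obtain ⟨y1, hy1, y2, hy2, rfl⟩ := Submodule.mem_sup.1 hymem
    have h7 : (⨆ k' ≠ k, blockSpan (F := F) b (C k')) ≤ LinearMap.ker (B u) := by
      refine iSup₂_le fun k' hk' => ?_
      intro x hx
      exact horth k k' (Ne.symm hk') u hu x hx
    have h8 : B u y2 = 0 := h7 hy2
    refine ⟨y1, hy1, ?_⟩
    rw [map_add, h8, add_zero] at hy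
    exact hy

end Cfsg.Agent.Lib.Classical.Elusive.DecompMain
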