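import Mathlib

/-!
# Diagonalizable endomorphisms: dimensions and determinant
-/

set_option autoImplicit false

namespace Cfsg.Agent.Lib.Classical.Elusive.Eigen

open Module Matrix

variable {F V : Type*} [Field F] [AddCommGroup V] [Module F V] [FiniteDimensional F V]

/-- Dimensions and determinant of an endomorphism which is the direct sum of its eigenspaces. -/
theorem eigen_data {ι : Type*} [Fintype ι] [DecidableEq ι] (X : V →ₗ[F] V) (c : ι → F)
    (hc : Function.Injective c) (htop : ⨆ i, Module.End.eigenspace X (c i) = ⊤) :
    ∑ i, finrank F (Module.End.eigenspace X (c i)) = finrank F V ∧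
      LinearMap.det X = ∏ i, c i ^ finrank F (Module.End.eigenspace X (c i)) := by
  classical
  have hind : iSupIndep (fun i => Module.End.eigenspace X (c i)) :=
    (Module.End.eigenspaces_iSupIndep X).comp hc
  have hint := DirectSum.isInternal_submodule_of_iSupIndep_of_iSup_eq_top hind htop
  let v : ∀ i, Basis (Fin (finrank F (Module.End.eigenspace X (c i)))) F
      (Module.End.eigenspace X (c i)) := fun i => Module.finBasis F _
  let b := hint.collectedBasis v
  have hb : ∀ s, X (b s) = c s.1 • b s := by
    intro s
    have := hint.collectedBasis_mem v s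
    exact Module.End.mem_eigenspace_iff.1 this
  constructor
  · have h1 := finrank_eq_card_basis b
    rw [h1, Fintype.card_sigma]
    simp
  · have hX : X = toLin b b (diagonal fun s => c s.1) := by
      apply b.ext
      intro s
      rw [hb, toLin_self, Finset.sum_eq_single s]
      · simp
      · intro j _ hj
        simp [hj]
      · simp
    have h1 : LinearMap.det X = (diagonal fun s :
        (Σ i, Fin (finrank F (Module.End.eigenspace X (c i)))) => c s.1).det := by
      conv_lhs => rw [hX]
      rw [LinearMap.det_toLin]
    rw [h1, det_diagonal, Fintype.prod_sigma]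
    simp

/-- Eigenvectors for distinct eigenvalues, as many as the dimension, form a basis. -/
theorem exists_eigenbasis {ι : Type*} [Fintype ι] [DecidableEq ι] (X : V →ₗ[F] V) (c : ι → F)
    (hc : Function.Injective c) (hcard : Fintype.card ι = finrank F V)
    (h : ∀ i, ∃ u : V, u ≠ 0 ∧ X u = c i • u) :
    ∃ b : Basis ι F V, ∀ i, X (b i) = c i • b i := by
  classical
  choose u hu0 hu using h
  have hli : LinearIndependent F u := by
    have := Module.End.eigenvectors_linearIndependent' X c hc u (fun i =>
      ⟨Module.End.mem_eigenspace_iff.2 (hu i), hu0 i⟩)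
    exact this
  rcases isEmpty_or_nonempty ι with hemp | hne
  · have h0 : finrank F V = 0 := by rw [← hcard]; simp
    have : Subsingleton V := Module.finrank_zero_iff.1 h0
    exact ⟨Basis.empty V, fun i => hemp.elim i⟩
  · let b := basisOfLinearIndependentOfCardEqFinrank hli hcard
    refine ⟨b, fun i => ?_⟩
    have hb : ∀ i, b i = u i := fun i => by rw [coe_basisOfLinearIndependentOfCardEqFinrank]
    rw [hb, hu]

end Cfsg.Agent.Lib.Classical.Elusive.Eigen
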