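import Mathlib

/-!
# The number of subspaces of a given dimension, and of flags
-/

set_option autoImplicit false
set_option linter.unusedSectionVars false
set_option linter.unusedSimpArgs false
set_option linter.unusedVariables false
set_option linter.style.haveILetI false

namespace Cfsg.Agent.Lib.Classical.Elusive.Gauss

open Module

/-- The product `∏_{j<k} (q ^ (a - j) - 1)`. -/
def gf (q a k : ℕ) : ℕ := ∏ j ∈ Finset.range k, (q ^ (a - j) - 1)

theorem gf_pos {q a k : ℕ} (hq : 2 ≤ q) (hk : k ≤ a) : 0 < gf q a k := by
  apply Finset.prod_pos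
  intro j hj
  have hj' := Finset.mem_range.1 hj
  have : 1 < q ^ (a - j) := Nat.one_lt_pow (by omega) (by omega)
  omega

theorem prod_sub_pow {q a k : ℕ} (hq : 2 ≤ q) (hk : k ≤ a) :
    ∏ j : Fin k, (q ^ a - q ^ (j : ℕ)) = (∏ j ∈ Finset.range k, q ^ j) * gf q a k := by
  rw [Fin.prod_univ_eq_prod_range (fun j => q ^ a - q ^ j) k, gf, ← Finset.prod_mul_distrib]
  apply Finset.prod_congr rfl
  intro j hj
  have hj' := Finset.mem_range.1 hj
  rw [Nat.mul_sub, mul_one, ← pow_add]
  congr 2
  omega

theorem gf_split {q n k : ℕ} (hk : k ≤ n) : gf q n k * gf q (n - k) (n - k) = gf q n n := by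
  unfold gf
  conv_rhs => rw [show n = k + (n - k) by omega]
  rw [Finset.prod_range_add]
  congr 1
  · apply Finset.prod_congr rfl
    intro j hj
    congr 2
    omega
  · apply Finset.prod_congr rfl
    intro j hj
    have hj' := Finset.mem_range.1 hj
    congr 2
    omega

section Count

variable {F : Type*} [Field F] [Fintype F]

/-- Subspaces of dimension `k` and independent `k`-tuples. -/
theorem card_sub_mul {V : Type*} [AddCommGroup V] [Module F V] [Finite V] {k : ℕ} (hk : k ≤ finrank F V) :
    Nat.card {W : Submodule F V // finrank F W = k} * ∏ j : Fin k, (Fintype.card F ^ k - Fintype.card F ^ (j : ℕ)) =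
      ∏ j : Fin k, (Fintype.card F ^ finrank F V - Fintype.card F ^ (j : ℕ)) := by
  classical
  haveI : FiniteDimensional F V := Module.Finite.of_finite
  haveI : Fintype {W : Submodule F V // finrank F W = k} := Fintype.ofFinite _
  let f : {s : Fin k → V // LinearIndependent F s} → {W : Submodule F V // finrank F W = k} :=
    fun s => ⟨Submodule.span F (Set.range s.1), by
      rw [finrank_span_eq_card s.2, Fintype.card_fin]⟩
  have hfib : ∀ W : {W : Submodule F V // finrank F W = k},
      Nat.card {s : {s : Fin k → V // LinearIndependent F s} // f s = W} =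
        ∏ j : Fin k, (Fintype.card F ^ k - Fintype.card F ^ (j : ℕ)) := by
    intro W
    have e : {s : {s : Fin k → V // LinearIndependent F s} // f s = W} ≃ {t : Fin k → W.1 // LinearIndependent F t} :=
      { toFun := fun s => ⟨fun i => ⟨s.1.1 i, by
            have h1 : s.1.1 i ∈ Submodule.span F (Set.range s.1.1) := Submodule.subset_span ⟨i, rfl⟩
            have h2 := congrArg Subtype.val s.2
            have h3 : Submodule.span F (Set.range s.1.1) = W.1 := h2
            rw [← h3]
            exact h1⟩, by
          apply LinearIndependent.of_comp W.1.subtype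
          exact s.1.2⟩
        invFun := fun t => ⟨⟨fun i => (t.1 i : V), t.2.map' W.1.subtype (Submodule.ker_subtype _)⟩, by
          apply Subtype.ext
          apply Submodule.eq_of_le_of_finrank_eq
          · apply Submodule.span_le.2
            rintro _ ⟨i, rfl⟩
            exact (t.1 i).2
          · change finrank F (Submodule.span F (Set.range (fun i => (t.1 i : V)))) = _
            have h9 : finrank F (Submodule.span F (Set.range (fun i => (t.1 i : V)))) = Fintype.card (Fin k) :=
              finrank_span_eq_card (t.2.map' W.1.subtype (Submodule.ker_subtype _))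
            rw [h9, Fintype.card_fin, W.2]⟩
        left_inv := fun s => by
          apply Subtype.ext
          apply Subtype.ext
          rfl
        right_inv := fun t => by
          apply Subtype.ext
          funext i
          apply Subtype.ext
          rfl }
    rw [Nat.card_congr e, card_linearIndependent (by rw [W.2]), W.2]
  have h1 := Nat.card_congr (Equiv.sigmaFiberEquiv f).symm
  rw [Nat.card_sigma, Finset.sum_congr rfl (fun W _ => hfib W), Finset.sum_const, smul_eq_mul, Finset.card_univ,
    ← Nat.card_eq_fintype_card, card_linearIndependent hk] at h1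
  exact h1.symm

/-- The count in the form with the powers of `q` removed. -/
theorem card_sub_gf {V : Type*} [AddCommGroup V] [Module F V] [Finite V] {k : ℕ} (hk : k ≤ finrank F V) :
    Nat.card {W : Submodule F V // finrank F W = k} * gf (Fintype.card F) k k = gf (Fintype.card F) (finrank F V) k := by
  have hq : 2 ≤ Fintype.card F := Fintype.one_lt_card
  have h1 := card_sub_mul (F := F) (V := V) hk
  rw [prod_sub_pow hq le_rfl, prod_sub_pow hq hk] at h1
  have h2 : 0 < ∏ j ∈ Finset.range k, Fintype.card F ^ j := Finset.prod_pos fun j _ => by positivity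
  apply Nat.eq_of_mul_eq_mul_left h2
  rw [← h1]
  ring

/-- Duality for the count. -/
theorem card_sub_compl {V : Type*} [AddCommGroup V] [Module F V] [Finite V] {k : ℕ} (hk : k ≤ finrank F V) :
    Nat.card {W : Submodule F V // finrank F W = finrank F V - k} = Nat.card {W : Submodule F V // finrank F W = k} := by
  have hq : 2 ≤ Fintype.card F := Fintype.one_lt_card
  set n := finrank F V with hn
  have h1 := card_sub_gf (F := F) (V := V) hk
  have h2 := card_sub_gf (F := F) (V := V) (k := n - k) (by omega)
  rw [← hn] at h1 h2
  have h3 := gf_split (q := Fintype.card F) hk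
  have h4 := gf_split (q := Fintype.card F) (n := n) (k := n - k) (by omega)
  have h5 : n - (n - k) = k := by omega
  rw [h5] at h4
  have hp : 0 < gf (Fintype.card F) k k * gf (Fintype.card F) (n - k) (n - k) :=
    Nat.mul_pos (gf_pos hq le_rfl) (gf_pos hq le_rfl)
  apply Nat.eq_of_mul_eq_mul_right hp
  calc _ = (Nat.card {W : Submodule F V // finrank F W = n - k} * gf (Fintype.card F) (n - k) (n - k)) * gf (Fintype.card F) k k := by ring
    _ = gf (Fintype.card F) n n := by rw [h2, h4]
    _ = (Nat.card {W : Submodule F V // finrank F W = k} * gf (Fintype.card F) k k) * gf (Fintype.card F) (n - k) (n - k) := by rw [h1, h3]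
    _ = _ := by ring

/-- The count of flags. -/
theorem card_flags_gf {V : Type*} [AddCommGroup V] [Module F V] [Finite V] {m : ℕ} (hm : 2 * m ≤ finrank F V) :
    Nat.card {P : Submodule F V × Submodule F V // P.1 ≤ P.2 ∧ finrank F P.1 = m ∧ finrank F P.2 = finrank F V - m} * gf (Fintype.card F) m m =
      Nat.card {W : Submodule F V // finrank F W = m} * gf (Fintype.card F) (finrank F V - m) m := by
  classical
  haveI : FiniteDimensional F V := Module.Finite.of_finite
  haveI : Fintype {W : Submodule F V // finrank F W = finrank F V - m} := Fintype.ofFinite _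
  let f : {P : Submodule F V × Submodule F V // P.1 ≤ P.2 ∧ finrank F P.1 = m ∧ finrank F P.2 = finrank F V - m} →
      {W : Submodule F V // finrank F W = finrank F V - m} := fun P => ⟨P.1.2, P.2.2.2⟩
  have hfib : ∀ W : {W : Submodule F V // finrank F W = finrank F V - m},
      Nat.card {P // f P = W} * gf (Fintype.card F) m m = gf (Fintype.card F) (finrank F V - m) m := by
    intro W
    have e : {P // f P = W} ≃ {U : Submodule F W.1 // finrank F U = m} :=
      { toFun := fun P => ⟨(P.1.1.1).comap W.1.subtype, by
            have h0 : P.1.1.2 = W.1 := congrArg Subtype.val P.2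
            have h1 : (P.1.1.1.comap W.1.subtype).map W.1.subtype = P.1.1.1 := by
              rw [Submodule.map_comap_subtype, inf_eq_right, ← h0]
              exact P.1.2.1
            have h2 := LinearEquiv.finrank_eq (Submodule.equivMapOfInjective W.1.subtype W.1.injective_subtype (P.1.1.1.comap W.1.subtype))
            rw [h1, P.1.2.2.1] at h2
            exact h2⟩
        invFun := fun U => ⟨⟨(U.1.map W.1.subtype, W.1), by
            refine ⟨Submodule.map_subtype_le _ _, ?_, W.2⟩
            exact (LinearEquiv.finrank_eq (Submodule.equivMapOfInjective W.1.subtype W.1.injective_subtype U.1)).symm.trans U.2⟩, rfl⟩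
        left_inv := fun P => by
          apply Subtype.ext
          apply Subtype.ext
          have h0 : P.1.1.2 = W.1 := congrArg Subtype.val P.2
          apply Prod.ext
          · change (P.1.1.1.comap W.1.subtype).map W.1.subtype = P.1.1.1
            rw [Submodule.map_comap_subtype, inf_eq_right, ← h0]
            exact P.1.2.1
          · exact h0.symm
        right_inv := fun U => by
          apply Subtype.ext
          exact Submodule.comap_map_eq_of_injective W.1.injective_subtype _ }
    rw [Nat.card_congr e]
    have h1 : m ≤ finrank F W.1 := by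
      rw [W.2]
      omega
    rw [card_sub_gf h1, W.2]
  have h1 := Nat.card_congr (Equiv.sigmaFiberEquiv f)
  rw [← h1, Nat.card_sigma, Finset.sum_mul, Finset.sum_congr rfl (fun W _ => hfib W), Finset.sum_const, smul_eq_mul, Finset.card_univ,
    ← Nat.card_eq_fintype_card, card_sub_compl (F := F) (V := V) (k := m) (by omega)]

variable {p : ℕ} [Fact p.Prime] [CharP F p]

theorem gf_cast {a k : ℕ} (hk : k ≤ a) : ((gf (Fintype.card F) a k : ℕ) : ZMod p) = (-1) ^ k := by
  have hp : (p : ℕ) ∣ Fintype.card F := by
    obtain ⟨n, hn, hc⟩ := FiniteField.card F p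
    rw [hc]
    exact dvd_pow_self _ n.ne_zero
  have h0 : ((Fintype.card F : ℕ) : ZMod p) = 0 := (ZMod.natCast_eq_zero_iff _ _).2 hp
  have hq : 2 ≤ Fintype.card F := Fintype.one_lt_card
  unfold gf
  rw [Nat.cast_prod, Finset.prod_congr rfl (g := fun _ => (-1 : ZMod p)), Finset.prod_const, Finset.card_range]
  intro j hj
  have hj' := Finset.mem_range.1 hj
  have h1 : 1 ≤ Fintype.card F ^ (a - j) := Nat.one_le_pow _ _ (by omega)
  rw [Nat.cast_sub h1, Nat.cast_pow, h0, zero_pow (by omega)]
  simp

/-- The number of subspaces is one modulo the characteristic. -/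
theorem card_sub_cast {V : Type*} [AddCommGroup V] [Module F V] [Finite V] {k : ℕ} (hk : k ≤ finrank F V) :
    ((Nat.card {W : Submodule F V // finrank F W = k} : ℕ) : ZMod p) = 1 := by
  have h1 := congrArg (fun n : ℕ => (n : ZMod p)) (card_sub_gf (F := F) (V := V) hk)
  simp only [Nat.cast_mul, gf_cast (F := F) (p := p) le_rfl, gf_cast (F := F) (p := p) hk] at h1
  have h2 : ((-1 : ZMod p) ^ k) ≠ 0 := by
    apply pow_ne_zero
    exact neg_ne_zero.2 one_ne_zero
  exact mul_right_cancel₀ h2 (by rw [h1, one_mul])

theorem card_flags_cast {V : Type*} [AddCommGroup V] [Module F V] [Finite V] {m : ℕ} (hm : 2 * m ≤ finrank F V) :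
    ((Nat.card {P : Submodule F V × Submodule F V // P.1 ≤ P.2 ∧ finrank F P.1 = m ∧ finrank F P.2 = finrank F V - m} : ℕ) : ZMod p) = 1 := by
  have h1 := congrArg (fun n : ℕ => (n : ZMod p)) (card_flags_gf (F := F) (V := V) hm)
  simp only [Nat.cast_mul, gf_cast (F := F) (p := p) le_rfl, gf_cast (F := F) (p := p) (a := finrank F V - m) (k := m) (by omega),
    card_sub_cast (F := F) (V := V) (p := p) (k := m) (by omega)] at h1
  have h2 : ((-1 : ZMod p) ^ m) ≠ 0 := by
    apply pow_ne_zero
    exact neg_ne_zero.2 one_ne_zero
  exact mul_right_cancel₀ h2 (by rw [h1, one_mul])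

end Count

end Cfsg.Agent.Lib.Classical.Elusive.Gauss
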