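import Mathlib
import Cfsg.Agent.Lib.Classical.Elusive.Inv

/-!
# Jordan chains for nilpotent endomorphisms
-/

set_option autoImplicit false
set_option linter.unusedSectionVars false
set_option linter.unusedSimpArgs false
set_option linter.unusedVariables false
set_option linter.style.haveILetI false

namespace Cfsg.Agent.Lib.Classical.Elusive.Jordan

open Module
open Cfsg.Agent.Lib.Classical.Elusive.Inv

variable {F V : Type*} [Field F] [AddCommGroup V] [Module F V] [FiniteDimensional F V]

/-- The chain family. -/
def chainB (N : Module.End F V) {J : Type} (v : J → V) (e : J → ℕ) : (Σ j, Fin (e j)) → V :=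
  fun p => (N ^ (p.2 : ℕ)) (v p.1)

theorem chainB_apply (N : Module.End F V) {J : Type} (v : J → V) (e : J → ℕ) (j : J) (l : Fin (e j)) :
    chainB N v e ⟨j, l⟩ = (N ^ (l : ℕ)) (v j) := rfl

/-- Chains for `N` spanning `W`. -/
structure IsChain (N : Module.End F V) (W : Submodule F V) {J : Type} (v : J → V) (e : J → ℕ) : Prop where
  pos : ∀ j, 0 < e j
  kill : ∀ j, (N ^ e j) (v j) = 0
  li : LinearIndependent F (chainB N v e)
  span : Submodule.span F (Set.range (chainB N v e)) = W

theorem IsChain.mem {N : Module.End F V} {W : Submodule F V} {J : Type} {v : J → V} {e : J → ℕ} (h : IsChain N W v e)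
    (j : J) (l : Fin (e j)) : (N ^ (l : ℕ)) (v j) ∈ W := by
  rw [← h.span]
  exact Submodule.subset_span ⟨⟨j, l⟩, rfl⟩

theorem IsChain.inv {N : Module.End F V} {W : Submodule F V} {J : Type} {v : J → V} {e : J → ℕ} (h : IsChain N W v e) :
    IsInv N W := by
  intro x hx
  rw [← h.span] at hx
  induction hx using Submodule.span_induction with
  | mem x hx =>
    obtain ⟨⟨j, l⟩, rfl⟩ := hx
    by_cases hl : (l : ℕ) + 1 < e j
    · have h1 := h.mem j ⟨(l : ℕ) + 1, hl⟩
      rw [chainB_apply, ← Module.End.mul_apply, ← pow_succ']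
      exact h1
    · have h1 : (l : ℕ) + 1 = e j := by
        have := l.2
        omega
      rw [chainB_apply, ← Module.End.mul_apply, ← pow_succ', h1, h.kill]
      exact W.zero_mem
  | zero => simp
  | add x y _ _ hx hy =>
    rw [map_add]
    exact W.add_mem hx hy
  | smul c x _ hx =>
    rw [map_smul]
    exact W.smul_mem _ hx

/-- The rank of the powers on a chain. -/
theorem IsChain.finrank_map {N : Module.End F V} {W : Submodule F V} {J : Type} [Fintype J] {v : J → V} {e : J → ℕ}
    (h : IsChain N W v e) (k : ℕ) : finrank F (W.map (N ^ k)) = ∑ j, (e j - k) := by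
  classical
  let ι : (Σ j, Fin (e j - k)) → (Σ j, Fin (e j)) := fun p => ⟨p.1, ⟨(p.2 : ℕ) + k, by have := p.2.2; omega⟩⟩
  have hι : Function.Injective ι := by
    rintro ⟨j, l⟩ ⟨j', l'⟩ hh
    have h1 : j = j' := congrArg Sigma.fst hh
    subst h1
    have h2 : (⟨(l : ℕ) + k, by have := l.2; omega⟩ : Fin (e j)) = ⟨(l' : ℕ) + k, by have := l'.2; omega⟩ := eq_of_heq (Sigma.mk.inj hh).2
    have h3 : (l : ℕ) + k = (l' : ℕ) + k := congrArg Fin.val h2
    have h4 : l = l' := Fin.ext (by omega)
    rw [h4]
  have hli := h.li.comp ι hι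
  have h1 := finrank_span_eq_card hli
  rw [Fintype.card_sigma] at h1
  simp only [Fintype.card_fin] at h1
  rw [← h1]
  suffices hEq : W.map (N ^ k) = Submodule.span F (Set.range (chainB N v e ∘ ι)) by rw [hEq]
  apply le_antisymm
  · rw [← h.span, Submodule.map_span, Submodule.span_le]
    rintro _ ⟨_, ⟨⟨j, l⟩, rfl⟩, rfl⟩
    by_cases hl : (l : ℕ) + k < e j
    · apply Submodule.subset_span
      refine ⟨⟨j, ⟨(l : ℕ), by omega⟩⟩, ?_⟩
      simp only [Function.comp, chainB, ι]
      rw [← Module.End.mul_apply, ← pow_add, add_comm]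
    · have h2 : e j ≤ (l : ℕ) + k := by omega
      have h3 : (N ^ k) (chainB N v e ⟨j, l⟩) = 0 := by
        rw [chainB_apply, ← Module.End.mul_apply, ← pow_add]
        obtain ⟨c, hc⟩ := Nat.exists_eq_add_of_le h2
        rw [show k + (l : ℕ) = c + e j by omega, pow_add, Module.End.mul_apply, h.kill, map_zero]
      simp only [SetLike.mem_coe]
      rw [h3]
      exact Submodule.zero_mem _
  · rw [Submodule.span_le]
    rintro _ ⟨⟨j, l⟩, rfl⟩
    refine ⟨(N ^ (l : ℕ)) (v j), h.mem j ⟨(l : ℕ), by have := l.2; omega⟩, ?_⟩
    simp only [Function.comp, chainB, ι]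
    rw [← Module.End.mul_apply, ← pow_add, add_comm]

theorem IsChain.finrank_eq {N : Module.End F V} {W : Submodule F V} {J : Type} [Fintype J] {v : J → V} {e : J → ℕ}
    (h : IsChain N W v e) : finrank F W = ∑ j, e j := by
  have h1 := h.finrank_map 0
  rw [pow_zero] at h1
  have h2 : W.map (1 : Module.End F V) = W := Submodule.map_id W
  rw [h2] at h1
  simpa using h1

/-- Existence of chains for a nilpotent endomorphism. -/
theorem exists_chain {N : Module.End F V} {M : ℕ} (hN : N ^ M = 0) (n : ℕ) :
    ∀ W : Submodule F V, finrank F W ≤ n → IsInv N W →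
      ∃ (J : Type) (_ : Fintype J) (_ : DecidableEq J) (v : J → V) (e : J → ℕ), IsChain N W v e := by
  classical
  have hbot : ∃ (J : Type) (_ : Fintype J) (_ : DecidableEq J) (v : J → V) (e : J → ℕ), IsChain N (⊥ : Submodule F V) v e := by
    refine ⟨Empty, inferInstance, inferInstance, Empty.elim, Empty.elim, ⟨fun j => j.elim, fun j => j.elim, ?_, ?_⟩⟩
    · haveI : IsEmpty (Σ j : Empty, Fin ((Empty.elim j : ℕ))) := ⟨fun p => p.1.elim⟩
      exact linearIndependent_empty_type
    · haveI : IsEmpty (Σ j : Empty, Fin ((Empty.elim j : ℕ))) := ⟨fun p => p.1.elim⟩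
      simp
  induction n with
  | zero =>
    intro W hW _
    have h0 : W = ⊥ := Submodule.finrank_eq_zero.1 (by omega)
    rw [h0]
    exact hbot
  | succ n ih =>
    intro W hW hinv
    by_cases hW0 : W = ⊥
    · rw [hW0]
      exact hbot
    -- the image is a proper invariant subspace
    have hlt : W.map N < W := by
      refine lt_of_le_of_ne ?_ ?_
      · rintro _ ⟨x, hx, rfl⟩
        exact hinv x hx
      · intro heq
        have h1 : ∀ k : ℕ, W.map (N ^ k) = W := by
          intro k
          induction k with
          | zero => exact Submodule.map_id W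
          | succ k ih' =>
            rw [pow_succ]
            have h2 : W.map (N ^ k * N) = (W.map N).map (N ^ k) := by
              rw [← Submodule.map_comp]
              rfl
            rw [h2, heq, ih']
        apply hW0
        have h3 := h1 M
        rw [hN] at h3
        rw [← h3]
        simp
    have hlt' := Submodule.finrank_lt_finrank_of_lt hlt
    have hinv₁ : IsInv N (W.map N) := by
      rintro _ ⟨x, hx, rfl⟩
      exact ⟨N x, hinv x hx, rfl⟩
    obtain ⟨J₁, i1, i2, v₁, e₁, hC⟩ := ih (W.map N) (by omega) hinv₁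
    -- preimages
    have hpre : ∀ j, ∃ u ∈ W, N u = v₁ j := by
      intro j
      have h1 := hC.mem j ⟨0, hC.pos j⟩
      simpa using h1
    choose u huW hu using hpre
    -- the bottoms
    let y : J₁ → V := fun j => (N ^ (e₁ j)) (u j)
    have hy : ∀ j, y j = chainB N v₁ e₁ ⟨j, ⟨e₁ j - 1, by have := hC.pos j; omega⟩⟩ := by
      intro j
      simp only [y, chainB_apply]
      rw [← hu j, ← Module.End.mul_apply, ← pow_succ]
      congr 2
      have := hC.pos j
      omega
    have hyli : LinearIndependent F y := by
      let ι : J₁ → (Σ j, Fin (e₁ j)) := fun j => ⟨j, ⟨e₁ j - 1, by have := hC.pos j; omega⟩⟩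
      have hι : Function.Injective ι := fun a b hab => congrArg Sigma.fst hab
      have h1 := hC.li.comp ι hι
      have h2 : chainB N v₁ e₁ ∘ ι = y := by
        funext j
        exact (hy j).symm
      rwa [h2] at h1
    let K : Submodule F V := W ⊓ LinearMap.ker N
    let Y : Submodule F V := Submodule.span F (Set.range y)
    have hyK : ∀ j, y j ∈ K := by
      intro j
      refine ⟨?_, ?_⟩
      · have h1 := IsInv.pow hinv (e₁ j) (huW j)
        exact h1
      · show N ((N ^ e₁ j) (u j)) = 0
        rw [← Module.End.mul_apply, ← pow_succ', pow_succ, Module.End.mul_apply, hu, hC.kill]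
    have hYK : Y ≤ K := by
      rw [Submodule.span_le]
      rintro _ ⟨j, rfl⟩
      exact hyK j
    obtain ⟨q, hq⟩ := Submodule.exists_isCompl Y
    let Z : Submodule F V := q ⊓ K
    have hYZ1 : Y ⊓ Z = ⊥ := by
      rw [eq_bot_iff]
      rintro x ⟨hx1, hx2, _⟩
      exact hq.disjoint.le_bot ⟨hx1, hx2⟩
    have hYZ2 : Y ⊔ Z = K := by
      have h1 := sup_inf_assoc_of_le q hYK
      rw [hq.sup_eq_top, top_inf_eq] at h1
      exact h1.symm
    obtain ⟨f, hf1, hf2, hf3⟩ := Submodule.exists_fun_fin_finrank_span_eq F (Z : Set V)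
    have hf2' : Submodule.span F (Set.range f) = Z := hf2.trans (Submodule.span_eq Z)
    -- the new family
    let S := Fin (finrank F (Submodule.span F (Z : Set V)))
    let v' : J₁ ⊕ S → V := Sum.elim u f
    let e' : J₁ ⊕ S → ℕ := Sum.elim (fun j => e₁ j + 1) (fun _ => 1)
    have hb1 : ∀ (j : J₁) (l : Fin (e' (Sum.inl j))), chainB N v' e' ⟨Sum.inl j, l⟩ = (N ^ (l : ℕ)) (u j) := fun _ _ => rfl
    have hb2 : ∀ (s : S) (l : Fin (e' (Sum.inr s))), chainB N v' e' ⟨Sum.inr s, l⟩ = f s := by
      intro s l
      have hl : (l : ℕ) = 0 := by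
        have := l.2
        simp only [e', Sum.elim_inr] at this
        omega
      rw [chainB_apply, hl]
      rfl
    have hspan : Submodule.span F (Set.range (chainB N v' e')) = W := by
      apply le_antisymm
      · rw [Submodule.span_le]
        rintro _ ⟨⟨j | s, l⟩, rfl⟩
        · rw [hb1]
          exact IsInv.pow hinv _ (huW j)
        · rw [hb2]
          have := (hf1 s)
          exact this.2.1
      · set T := Submodule.span F (Set.range (chainB N v' e')) with hT
        have hY' : Y ≤ T := by
          rw [Submodule.span_le]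
          rintro _ ⟨j, rfl⟩
          apply Submodule.subset_span
          exact ⟨⟨Sum.inl j, ⟨e₁ j, Nat.lt_succ_self _⟩⟩, rfl⟩
        have hZ' : Z ≤ T := by
          rw [← hf2', Submodule.span_le]
          rintro _ ⟨s, rfl⟩
          apply Submodule.subset_span
          exact ⟨⟨Sum.inr s, ⟨0, Nat.one_pos⟩⟩, hb2 s _⟩
        have hK' : K ≤ T := by
          rw [← hYZ2]
          exact sup_le hY' hZ'
        have hlift : ∀ x ∈ W.map N, ∃ w ∈ T, N w = x := by
          intro x hx
          rw [← hC.span] at hx
          induction hx using Submodule.span_induction with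
          | mem x hx =>
            obtain ⟨⟨j, l⟩, rfl⟩ := hx
            refine ⟨(N ^ (l : ℕ)) (u j), ?_, ?_⟩
            · apply Submodule.subset_span
              exact ⟨⟨Sum.inl j, ⟨(l : ℕ), by have := l.2; simp only [e', Sum.elim_inl]; omega⟩⟩, rfl⟩
            · rw [chainB_apply, ← hu j, ← Module.End.mul_apply, ← Module.End.mul_apply, ← pow_succ, ← pow_succ']
          | zero => exact ⟨0, T.zero_mem, map_zero _⟩
          | add x y _ _ hx hy =>
            obtain ⟨a, ha, rfl⟩ := hx
            obtain ⟨b, hb, rfl⟩ := hy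
            exact ⟨a + b, T.add_mem ha hb, map_add _ _ _⟩
          | smul c x _ hx =>
            obtain ⟨a, ha, rfl⟩ := hx
            exact ⟨c • a, T.smul_mem _ ha, map_smul _ _ _⟩
        intro x hx
        obtain ⟨w, hw, hwx⟩ := hlift (N x) ⟨x, hx, rfl⟩
        have hTW : T ≤ W := by
          rw [hT, Submodule.span_le]
          rintro _ ⟨⟨j | s, l⟩, rfl⟩
          · rw [hb1]
            exact IsInv.pow hinv _ (huW j)
          · rw [hb2]
            have := (hf1 s)
            exact this.2.1
        have h5 : x - w ∈ K := by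
          refine ⟨W.sub_mem hx (hTW hw), ?_⟩
          show N (x - w) = 0
          rw [map_sub, hwx, sub_self]
        have h6 := T.add_mem (hK' h5) hw
        simpa using h6
    have hcard : Fintype.card (Σ p, Fin (e' p)) = finrank F W := by
      have hrn : finrank F (W.map N) + finrank F K = finrank F W := by
        have h1 := LinearMap.finrank_range_add_finrank_ker (N.domRestrict W)
        rw [LinearMap.range_domRestrict, LinearMap.ker_domRestrict] at h1
        have h2 : finrank F ((LinearMap.ker N).comap W.subtype) = finrank F K := by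
          have h3 : (LinearMap.ker N).comap W.subtype = K.comap W.subtype := by
            ext x
            simp [K]
          rw [h3]
          exact (Submodule.comapSubtypeEquivOfLe (inf_le_left : K ≤ W)).finrank_eq
        rw [h2] at h1
        exact h1
      have hKdim : finrank F K = Fintype.card J₁ + finrank F (Submodule.span F (Z : Set V)) := by
        rw [← hYZ2, Submodule.span_eq]
        have h1 := Submodule.finrank_sup_add_finrank_inf_eq Y Z
        rw [hYZ1, finrank_bot, add_zero] at h1
        rw [h1]
        congr 1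
        exact finrank_span_eq_card hyli
      rw [Fintype.card_sigma, Fintype.sum_sum_type]
      simp only [Fintype.card_fin]
      show (∑ a, (e₁ a + 1)) + ∑ a : S, 1 = _
      rw [Finset.sum_add_distrib]
      simp only [Finset.sum_const, Finset.card_univ, smul_eq_mul, mul_one]
      have h7 := hC.finrank_eq
      simp only [S, Fintype.card_fin]
      omega
    refine ⟨J₁ ⊕ S, inferInstance, inferInstance, v', e', ⟨?_, ?_, ?_, hspan⟩⟩
    · rintro (j | s)
      · exact Nat.succ_pos _
      · exact Nat.one_pos
    · rintro (j | s)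
      · show (N ^ (e₁ j + 1)) (u j) = 0
        rw [pow_succ, Module.End.mul_apply, hu, hC.kill]
      · show (N ^ 1) (f s) = 0
        rw [pow_one]
        exact (hf1 s).2.2
    · rw [linearIndependent_iff_card_eq_finrank_span]
      rw [hcard]
      show finrank F W = finrank F (Submodule.span F (Set.range (chainB N v' e')))
      rw [hspan]

end Cfsg.Agent.Lib.Classical.Elusive.Jordan
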