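import Mathlib
import Cfsg.Agent.Lib.Classical.Elusive.Jordan

/-!
# Jordan types
-/

set_option autoImplicit false
set_option linter.unusedSectionVars false
set_option linter.unusedSimpArgs false
set_option linter.unusedVariables false
set_option linter.style.haveILetI false

namespace Cfsg.Agent.Lib.Classical.Elusive.JordanType

open Module Polynomial
open Cfsg.Agent.Lib.Classical.Elusive.Inv Cfsg.Agent.Lib.Classical.Elusive.Jordan

section Combinatorics

/-- The rank function of a partition. -/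
def gg (μ : Multiset ℕ) (k : ℕ) : ℕ := (μ.map (fun e => e - k)).sum

theorem gg_add (μ ν : Multiset ℕ) (k : ℕ) : gg (μ + ν) k = gg μ k + gg ν k := by
  simp [gg]

theorem gg_zero (μ : Multiset ℕ) : gg μ 0 = μ.sum := by
  simp [gg]

theorem gg_succ (μ : Multiset ℕ) (k : ℕ) : gg μ k = gg μ (k + 1) + Multiset.card (μ.filter (fun e => k < e)) := by
  induction μ using Multiset.induction_on with
  | empty => simp [gg]
  | cons a s ih =>
    have h1 : gg (a ::ₘ s) k = (a - k) + gg s k := by simp [gg]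
    have h2 : gg (a ::ₘ s) (k + 1) = (a - (k + 1)) + gg s (k + 1) := by simp [gg]
    rw [h1, h2, ih]
    by_cases h : k < a
    · rw [Multiset.filter_cons_of_pos (p := fun e => k < e) _ h, Multiset.card_cons]
      omega
    · rw [Multiset.filter_cons_of_neg (p := fun e => k < e) _ h]
      omega

theorem count_filter (μ : Multiset ℕ) (e : ℕ) :
    Multiset.count (e + 1) μ + Multiset.card (μ.filter (fun a => e + 1 < a)) = Multiset.card (μ.filter (fun a => e < a)) := by
  induction μ using Multiset.induction_on with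
  | empty => simp
  | cons a s ih =>
    by_cases h1 : a = e + 1
    · subst h1
      rw [Multiset.count_cons_self, Multiset.filter_cons_of_neg (p := fun a => e + 1 < a) _ (lt_irrefl _),
        Multiset.filter_cons_of_pos (p := fun a => e < a) _ (Nat.lt_succ_self e), Multiset.card_cons]
      omega
    · rw [Multiset.count_cons_of_ne (Ne.symm h1)]
      by_cases h2 : e < a
      · have h3 : e + 1 < a := by omega
        rw [Multiset.filter_cons_of_pos (p := fun a => e + 1 < a) _ h3, Multiset.filter_cons_of_pos (p := fun a => e < a) _ h2, Multiset.card_cons, Multiset.card_cons]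
        omega
      · have h3 : ¬ e + 1 < a := by omega
        rw [Multiset.filter_cons_of_neg (p := fun a => e + 1 < a) _ h3, Multiset.filter_cons_of_neg (p := fun a => e < a) _ h2]
        omega

theorem gg_inj {μ ν : Multiset ℕ} (hμ : ∀ e ∈ μ, 0 < e) (hν : ∀ e ∈ ν, 0 < e) (h : ∀ k, gg μ k = gg ν k) : μ = ν := by
  have hA : ∀ k, Multiset.card (μ.filter (fun e => k < e)) = Multiset.card (ν.filter (fun e => k < e)) := by
    intro k
    have h1 := gg_succ μ k
    have h2 := gg_succ ν k
    have h3 := h k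
    have h4 := h (k + 1)
    omega
  ext e
  cases e with
  | zero =>
    rw [Multiset.count_eq_zero_of_notMem (fun h0 => lt_irrefl _ (hμ 0 h0)),
      Multiset.count_eq_zero_of_notMem (fun h0 => lt_irrefl _ (hν 0 h0))]
  | succ e =>
    have h1 := count_filter μ e
    have h2 := count_filter ν e
    have h3 := hA e
    have h4 := hA (e + 1)
    omega

theorem gg_eq_zero {μ : Multiset ℕ} {M : ℕ} (h : ∀ e ∈ μ, e ≤ M) : gg μ M = 0 := by
  unfold gg
  apply Multiset.sum_eq_zero
  intro x hx
  obtain ⟨e, he, rfl⟩ := Multiset.mem_map.1 hx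
  have := h e he
  omega

theorem le_of_gg_eq_zero {μ : Multiset ℕ} {M : ℕ} (h : gg μ M = 0) : ∀ e ∈ μ, e ≤ M := by
  induction μ using Multiset.induction_on with
  | empty => simp
  | cons a s ih =>
    intro e he
    have h3 : gg (a ::ₘ s) M = (a - M) + gg s M := by simp [gg]
    rw [h3] at h
    rcases Multiset.mem_cons.1 he with rfl | h4
    · omega
    · have h5 : gg s M = 0 := by omega
      exact ih h5 e h4

theorem gg_top {μ : Multiset ℕ} {p : ℕ} (hp : 1 ≤ p) (hμ : ∀ e ∈ μ, e ≤ p) : gg μ (p - 1) = Multiset.count p μ := by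
  induction μ using Multiset.induction_on with
  | empty => simp [gg]
  | cons a s ih =>
    have h3 : gg (a ::ₘ s) (p - 1) = (a - (p - 1)) + gg s (p - 1) := by simp [gg]
    rw [h3, ih (fun e he => hμ e (Multiset.mem_cons_of_mem he))]
    have ha := hμ a (Multiset.mem_cons_self _ _)
    by_cases h : a = p
    · subst h
      rw [Multiset.count_cons_self]
      omega
    · rw [Multiset.count_cons_of_ne (Ne.symm h)]
      omega

/-- A sub-multiset of an image is the image of a sub-multiset. -/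
theorem exists_le_map {J : Type*} (e : J → ℕ) (s : Multiset J) : ∀ ν : Multiset ℕ, ν ≤ s.map e → ∃ t ≤ s, t.map e = ν := by
  classical
  induction s using Multiset.induction_on with
  | empty =>
    intro ν h
    refine ⟨0, le_rfl, ?_⟩
    simpa using (Multiset.le_zero.1 (by simpa using h)).symm
  | cons a s ih =>
    intro ν h
    rw [Multiset.map_cons] at h
    by_cases ha : e a ∈ ν
    · obtain ⟨ν', rfl⟩ := Multiset.exists_cons_of_mem ha
      have h1 : ν' ≤ s.map e := (Multiset.cons_le_cons_iff _).1 h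
      obtain ⟨t, ht, ht'⟩ := ih ν' h1
      refine ⟨a ::ₘ t, (Multiset.cons_le_cons_iff _).2 ht, ?_⟩
      rw [Multiset.map_cons, ht']
    · have h1 : ν ≤ s.map e := (Multiset.le_cons_of_notMem ha).1 h
      obtain ⟨t, ht, ht'⟩ := ih ν h1
      exact ⟨t, ht.trans (Multiset.le_cons_self _ _), ht'⟩

end Combinatorics

section Chains

variable {F V : Type*} [Field F] [AddCommGroup V] [Module F V] [FiniteDimensional F V]

/-- The partition of a chain. -/
def mu {J : Type} [Fintype J] (e : J → ℕ) : Multiset ℕ := Finset.univ.val.map e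

theorem mu_pos {N : Module.End F V} {W : Submodule F V} {J : Type} [Fintype J] {v : J → V} {e : J → ℕ} (h : IsChain N W v e) :
    ∀ a ∈ mu e, 0 < a := by
  intro a ha
  obtain ⟨j, -, rfl⟩ := Multiset.mem_map.1 ha
  exact h.pos j

theorem _root_.Cfsg.Agent.Lib.Classical.Elusive.Jordan.IsChain.finrank_map_gg {N : Module.End F V} {W : Submodule F V} {J : Type} [Fintype J] {v : J → V} {e : J → ℕ}
    (h : IsChain N W v e) (k : ℕ) : finrank F (W.map (N ^ k)) = gg (mu e) k := by
  rw [h.finrank_map]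
  simp only [gg, mu, Multiset.map_map]
  rfl

/-- A type exists on invariant subspaces. -/
theorem exists_type {N : Module.End F V} {M : ℕ} (hN : N ^ M = 0) {W : Submodule F V} (hW : IsInv N W) :
    ∃ μ : Multiset ℕ, (∀ a ∈ μ, 0 < a) ∧ ∀ k, finrank F (W.map (N ^ k)) = gg μ k := by
  obtain ⟨J, i1, i2, v, e, hC⟩ := exists_chain hN (finrank F W) W le_rfl hW
  exact ⟨mu e, mu_pos hC, hC.finrank_map_gg⟩

theorem additive {N : Module.End F V} {U W : Submodule F V} (hU : IsInv N U) (hW : IsInv N W) (hd : U ⊓ W = ⊥) (k : ℕ) :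
    finrank F ((U ⊔ W).map (N ^ k)) = finrank F (U.map (N ^ k)) + finrank F (W.map (N ^ k)) := by
  rw [Submodule.map_sup]
  have h1 := Submodule.finrank_sup_add_finrank_inf_eq (U.map (N ^ k)) (W.map (N ^ k))
  have h2 : U.map (N ^ k) ⊓ W.map (N ^ k) = ⊥ := by
    rw [eq_bot_iff, ← hd]
    rintro x ⟨⟨a, ha, rfl⟩, ⟨b, hb, hab⟩⟩
    exact ⟨IsInv.pow hU k ha, by rw [← hab]; exact IsInv.pow hW k hb⟩
  rw [h2, finrank_bot, add_zero] at h1
  exact h1

/-- The partition of the whole space is the sum of the partitions of complementary invariant subspaces. -/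
theorem type_add {N : Module.End F V} {M : ℕ} (hN : N ^ M = 0) {U W T : Submodule F V} (hU : IsInv N U) (hW : IsInv N W)
    (hd : U ⊓ W = ⊥) (hs : U ⊔ W = T) {μ : Multiset ℕ} (hμ : ∀ a ∈ μ, 0 < a) (hT : ∀ k, finrank F (T.map (N ^ k)) = gg μ k) :
    ∃ ν ν' : Multiset ℕ, μ = ν + ν' ∧ (∀ a ∈ ν, 0 < a) ∧ (∀ a ∈ ν', 0 < a) ∧ (∀ k, finrank F (U.map (N ^ k)) = gg ν k) ∧
      (∀ k, finrank F (W.map (N ^ k)) = gg ν' k) := by
  obtain ⟨ν, h1, h2⟩ := exists_type hN hU
  obtain ⟨ν', h3, h4⟩ := exists_type hN hW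
  refine ⟨ν, ν', ?_, h1, h3, h2, h4⟩
  apply gg_inj hμ
  · intro a ha
    rcases Multiset.mem_add.1 ha with h5 | h5
    · exact h1 a h5
    · exact h3 a h5
  · intro k
    rw [gg_add, ← h2, ← h4, ← additive hU hW hd, hs, hT]

theorem finrank_eq_sum_of_type {N : Module.End F V} {W : Submodule F V} {μ : Multiset ℕ}
    (h : ∀ k, finrank F (W.map (N ^ k)) = gg μ k) : finrank F W = μ.sum := by
  have h1 := h 0
  rw [pow_zero, gg_zero] at h1
  have h2 : W.map (1 : Module.End F V) = W := Submodule.map_id W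
  rwa [h2] at h1

/-- The restriction of a chain. -/
def blockC (N : Module.End F V) {J : Type} (v : J → V) (e : J → ℕ) (S : Finset J) : Submodule F V :=
  Submodule.span F (chainB N v e '' {p | p.1 ∈ S})

theorem _root_.Cfsg.Agent.Lib.Classical.Elusive.Jordan.IsChain.restrict {N : Module.End F V} {W : Submodule F V} {J : Type} {v : J → V} {e : J → ℕ} (h : IsChain N W v e) (S : Finset J) :
    IsChain N (blockC N v e S) (fun j : S => v j) (fun j : S => e j) := by
  let ι : (Σ j : S, Fin (e j)) → (Σ j, Fin (e j)) := fun p => ⟨p.1, p.2⟩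
  have hι : Function.Injective ι := by
    rintro ⟨⟨j, hj⟩, l⟩ ⟨⟨j', hj'⟩, l'⟩ hh
    have h1 : j = j' := congrArg Sigma.fst hh
    subst h1
    have h2 : l = l' := eq_of_heq (Sigma.mk.inj hh).2
    rw [h2]
  have hcomp : chainB N (fun j : S => v j) (fun j : S => e j) = chainB N v e ∘ ι := rfl
  refine ⟨fun j => h.pos j, fun j => h.kill j, ?_, ?_⟩
  · rw [hcomp]
    exact h.li.comp ι hι
  · unfold blockC
    congr 1
    rw [hcomp, Set.range_comp]
    congr 1
    ext ⟨j, l⟩
    constructor
    · rintro ⟨⟨j', l'⟩, hh⟩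
      rw [← hh]
      exact j'.2
    · intro hj
      exact ⟨⟨⟨j, hj⟩, l⟩, rfl⟩

theorem _root_.Cfsg.Agent.Lib.Classical.Elusive.Jordan.IsChain.block_inf {N : Module.End F V} {W : Submodule F V} {J : Type} [DecidableEq J] [Fintype J] {v : J → V} {e : J → ℕ} (h : IsChain N W v e)
    (S : Finset J) : blockC N v e S ⊓ blockC N v e Sᶜ = ⊥ := by
  have h1 := h.li.disjoint_span_image (s := {p | p.1 ∈ S}) (t := {p | p.1 ∈ Sᶜ}) (by
    rw [Set.disjoint_left]
    intro p hp hp'
    have h2 : p.1 ∈ Sᶜ := hp'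
    rw [Finset.mem_compl] at h2
    exact h2 hp)
  exact disjoint_iff.1 h1

theorem _root_.Cfsg.Agent.Lib.Classical.Elusive.Jordan.IsChain.block_sup {N : Module.End F V} {W : Submodule F V} {J : Type} [DecidableEq J] [Fintype J] {v : J → V} {e : J → ℕ} (h : IsChain N W v e)
    (S : Finset J) : blockC N v e S ⊔ blockC N v e Sᶜ = W := by
  unfold blockC
  rw [← Submodule.span_union, ← Set.image_union, ← h.span, ← Set.image_univ]
  congr 2
  ext p
  simp only [Set.mem_union, Set.mem_setOf_eq, Set.mem_univ, iff_true, Finset.mem_compl]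
  tauto

/-- A sub-partition gives a decomposition. -/
theorem _root_.Cfsg.Agent.Lib.Classical.Elusive.Jordan.IsChain.exists_split {N : Module.End F V} {W : Submodule F V} {J : Type} [DecidableEq J] [Fintype J] {v : J → V} {e : J → ℕ} (h : IsChain N W v e)
    {ν : Multiset ℕ} (hν : ν ≤ mu e) :
    ∃ U₁ U₂ : Submodule F V, IsInv N U₁ ∧ IsInv N U₂ ∧ U₁ ⊓ U₂ = ⊥ ∧ U₁ ⊔ U₂ = W ∧ finrank F U₁ = ν.sum := by
  obtain ⟨t, ht, ht'⟩ := exists_le_map e _ ν hν
  have hnd : t.Nodup := Multiset.nodup_of_le ht Finset.univ.nodup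
  let S : Finset J := ⟨t, hnd⟩
  have h1 := h.restrict S
  have h2 := h.restrict Sᶜ
  refine ⟨blockC N v e S, blockC N v e Sᶜ, h1.inv, h2.inv, h.block_inf S, h.block_sup S, ?_⟩
  rw [h1.finrank_eq, ← ht']
  have h3 : (∑ j : S, e j) = ∑ j ∈ S, e j := by
    rw [Finset.sum_coe_sort S e]
  rw [h3]
  rfl

theorem _root_.Cfsg.Agent.Lib.Classical.Elusive.Jordan.IsChain.pow_eq_zero {N : Module.End F V} {W : Submodule F V} {J : Type} {v : J → V} {e : J → ℕ} (h : IsChain N W v e)
    {M : ℕ} (hM : ∀ j, e j ≤ M) {x : V} (hx : x ∈ W) : (N ^ M) x = 0 := by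
  rw [← h.span] at hx
  induction hx using Submodule.span_induction with
  | mem x hx =>
    obtain ⟨⟨j, l⟩, rfl⟩ := hx
    rw [chainB_apply, ← Module.End.mul_apply, ← pow_add]
    obtain ⟨c, hc⟩ := Nat.exists_eq_add_of_le (hM j)
    rw [show M + (l : ℕ) = (c + l) + e j by omega, pow_add, Module.End.mul_apply, h.kill, map_zero]
  | zero => simp
  | add x y _ _ hx hy => rw [map_add, hx, hy, add_zero]
  | smul c x _ hx => rw [map_smul, hx, smul_zero]

end Chains

section Model

variable {F : Type*} [Field F]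

/-- A nilpotent endomorphism of given Jordan type. -/
theorem exists_model (μ : Multiset ℕ) (hμ : ∀ a ∈ μ, 0 < a) {n : ℕ} (hn : μ.sum = n) :
    ∃ N : Module.End F (Fin n → F), ∀ k, finrank F ((⊤ : Submodule F (Fin n → F)).map (N ^ k)) = gg μ k := by
  classical
  let J := μ.ToType
  let e : J → ℕ := fun j => (j : ℕ)
  have hpos : ∀ j, 0 < e j := fun j => hμ _ (Multiset.coe_mem)
  have hmu : mu e = μ := Multiset.map_univ_coe μ
  let I := Σ j, Fin (e j)
  let b := Pi.basisFun F I
  let N : Module.End F (I → F) := b.constr F (fun p : I =>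
    if h : (p.2 : ℕ) + 1 < e p.1 then b ⟨p.1, ⟨(p.2 : ℕ) + 1, h⟩⟩ else 0)
  have hN : ∀ p : I, N (b p) = if h : (p.2 : ℕ) + 1 < e p.1 then b ⟨p.1, ⟨(p.2 : ℕ) + 1, h⟩⟩ else 0 := by
    intro p
    exact b.constr_basis F _ p
  let v : J → I → F := fun j => b ⟨j, ⟨0, hpos j⟩⟩
  have hpow : ∀ (j : J) (l : ℕ) (hl : l < e j), (N ^ l) (v j) = b ⟨j, ⟨l, hl⟩⟩ := by
    intro j l
    induction l with
    | zero => intro hl; simp [v]
    | succ l ih =>
      intro hl
      rw [pow_succ', Module.End.mul_apply, ih (by omega), hN]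
      simp only
      rw [dif_pos hl]
  have hC : IsChain N ⊤ v e := by
    have hb : chainB N v e = b := by
      funext ⟨j, l⟩
      rw [chainB_apply, hpow j l l.2]
    refine ⟨hpos, ?_, ?_, ?_⟩
    · intro j
      have h1 : e j = (e j - 1) + 1 := by
        have := hpos j
        omega
      rw [h1, pow_succ', Module.End.mul_apply, hpow j (e j - 1) (by have := hpos j; omega), hN]
      simp only
      rw [dif_neg]
      have := hpos j
      omega
    · rw [hb]
      exact b.linearIndependent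
    · rw [hb]
      exact b.span_eq
  have hfin : finrank F (I → F) = n := by
    rw [Module.finrank_fintype_fun_eq_card, Fintype.card_sigma]
    simp only [Fintype.card_fin]
    rw [← hn]
    have h1 := congrArg Multiset.sum hmu
    exact h1
  let φ : (I → F) ≃ₗ[F] (Fin n → F) := LinearEquiv.ofFinrankEq _ _ (by rw [hfin, finrank_fin_fun])
  let N' : Module.End F (Fin n → F) := φ.conj N
  have hN' : ∀ x, N' x = φ (N (φ.symm x)) := fun x => rfl
  have hN'k : ∀ (k : ℕ) x, (N' ^ k) x = φ ((N ^ k) (φ.symm x)) := by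
    intro k
    induction k with
    | zero => intro x; simp
    | succ k ih =>
      intro x
      rw [pow_succ, Module.End.mul_apply, hN', ih, LinearEquiv.symm_apply_apply, pow_succ, Module.End.mul_apply]
  refine ⟨N', fun k => ?_⟩
  have h1 : (⊤ : Submodule F (Fin n → F)).map (N' ^ k) = ((⊤ : Submodule F (I → F)).map (N ^ k)).map (φ : (I → F) →ₗ[F] (Fin n → F)) := by
    apply le_antisymm
    · rintro _ ⟨x, -, rfl⟩
      rw [hN'k]
      exact ⟨_, ⟨φ.symm x, trivial, rfl⟩, rfl⟩
    · rintro _ ⟨_, ⟨x, -, rfl⟩, rfl⟩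
      refine ⟨φ x, trivial, ?_⟩
      rw [hN'k]
      simp
  rw [h1, LinearEquiv.finrank_map_eq, hC.finrank_map_gg, hmu]

/-- `(1 + N)^p = 1 + N^p`. -/
theorem one_add_pow_char {V : Type*} [AddCommGroup V] [Module F V] {p : ℕ} [Fact p.Prime] [CharP F p] (N : Module.End F V) :
    (1 + N) ^ p = 1 + N ^ p := by
  have h1 := congrArg (aeval N) (add_pow_char (1 : F[X]) (X : F[X]) (p := p))
  simpa using h1

/-- `(T - 1)^p = T^p - 1`. -/
theorem sub_one_pow_char {V : Type*} [AddCommGroup V] [Module F V] {p : ℕ} [Fact p.Prime] [CharP F p] (T : Module.End F V) :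
    (T - 1) ^ p = T ^ p - 1 := by
  have h1 := congrArg (aeval T) (sub_pow_char (X : F[X]) (1 : F[X]) (p := p))
  simpa using h1

end Model

end Cfsg.Agent.Lib.Classical.Elusive.JordanType
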