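import Mathlib
import Cfsg.Agent.Lib.Classical.Herm.CycTuples
import Cfsg.Agent.Lib.Classical.Elusive.Inv

/-!
# Number theory for elements of `PSL_n(q)` whose `r`-th power is a scalar
-/

set_option autoImplicit false
set_option linter.unusedSectionVars false
set_option linter.unusedSimpArgs false
set_option linter.unusedVariables false
set_option linter.style.haveILetI false

namespace Cfsg.Agent.Lib.Classical.Elusive.PslNum

open Polynomial Module
open Cfsg.Agent.Lib.Classical.Elusive.Inv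

section Roots

variable {F : Type*} [Field F] [Fintype F]

theorem card_units_F : Nat.card Fˣ = Fintype.card F - 1 := by
  rw [Nat.card_units, Nat.card_eq_fintype_card]

theorem coprime_units {r : ℕ} (hr : r.Prime) (h : ¬ r ∣ Fintype.card F - 1) : (Nat.card Fˣ).Coprime r := by
  rw [card_units_F]
  exact ((Nat.Prime.coprime_iff_not_dvd hr).2 h).symm

/-- When `r` does not divide `q - 1` every element is an `r`-th power. -/
theorem exists_root_of_not_dvd {r : ℕ} (hr : r.Prime) (h : ¬ r ∣ Fintype.card F - 1) {c : F} (hc : c ≠ 0) :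
    ∃ a : F, a ≠ 0 ∧ a ^ r = c := by
  let e := powCoprime (coprime_units (F := F) hr h)
  obtain ⟨u, hu⟩ := e.surjective (Units.mk0 c hc)
  refine ⟨u, u.ne_zero, ?_⟩
  have h1 : u ^ r = Units.mk0 c hc := hu
  have h2 := congrArg Units.val h1
  simpa using h2

/-- When `r` does not divide `q - 1` there are no nontrivial `r`-th roots of unity. -/
theorem eq_one_of_not_dvd {r : ℕ} (hr : r.Prime) (h : ¬ r ∣ Fintype.card F - 1) {a : F} (ha : a ^ r = 1) : a = 1 := by
  have ha0 : a ≠ 0 := by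
    rintro rfl
    rw [zero_pow hr.ne_zero] at ha
    exact zero_ne_one ha
  let e := powCoprime (coprime_units (F := F) hr h)
  have h1 : e (Units.mk0 a ha0) = e 1 := by
    change (Units.mk0 a ha0) ^ r = (1 : Fˣ) ^ r
    rw [one_pow]
    apply Units.ext
    simpa using ha
  have h2 := e.injective h1
  have h3 := congrArg Units.val h2
  simpa using h3

theorem exists_gen : ∃ g : Fˣ, orderOf g = Fintype.card F - 1 ∧ ∀ u : Fˣ, ∃ k : ℕ, g ^ k = u := by
  obtain ⟨g, hg⟩ := IsCyclic.exists_monoid_generator (α := Fˣ)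
  refine ⟨g, ?_, fun u => ?_⟩
  · rw [orderOf_eq_card_of_forall_mem_zpowers (fun x => by
      obtain ⟨k, hk⟩ := hg x
      exact ⟨k, by simpa using hk⟩), card_units_F]
  · obtain ⟨k, hk⟩ := hg u
    exact ⟨k, hk⟩

/-- The criterion for `r`-th powers. -/
theorem exists_root_of_pow {r : ℕ} (hr : r.Prime) (hrq : r ∣ Fintype.card F - 1) {c : F} (hc : c ≠ 0)
    (h : c ^ ((Fintype.card F - 1) / r) = 1) : ∃ a : F, a ^ r = c := by
  obtain ⟨g, hg, hgen⟩ := exists_gen (F := F)
  obtain ⟨k, hk⟩ := hgen (Units.mk0 c hc)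
  obtain ⟨s, hs⟩ := hrq
  have hq : 1 < Fintype.card F := Fintype.one_lt_card
  have hs0 : 0 < s := by
    rcases Nat.eq_zero_or_pos s with h0 | h0
    · rw [h0] at hs
      omega
    · exact h0
  have hdiv : (Fintype.card F - 1) / r = s := by
    rw [hs]
    exact Nat.mul_div_cancel_left _ hr.pos
  rw [hdiv] at h
  have h1 : g ^ (k * s) = 1 := by
    rw [pow_mul, hk]
    apply Units.ext
    simpa using h
  have h2 := orderOf_dvd_of_pow_eq_one h1
  rw [hg, hs, mul_comm r s] at h2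
  have h3 : r ∣ k := Nat.dvd_of_mul_dvd_mul_left hs0 (by rwa [mul_comm k s] at h2)
  obtain ⟨l, rfl⟩ := h3
  refine ⟨((g ^ l : Fˣ) : F), ?_⟩
  have h4 : ((g ^ l) ^ r : Fˣ) = Units.mk0 c hc := by
    rw [← hk, ← pow_mul, mul_comm]
  have h5 := congrArg Units.val h4
  simpa using h5

/-- An element that is not an `r`-th power, killed by the `r`-part of `q - 1`. -/
theorem exists_nonroot {r e u : ℕ} (hr : r.Prime) (hrq : r ∣ Fintype.card F - 1) (hu : ¬ r ∣ u)
    (hqe : Fintype.card F - 1 = r ^ e * u) : ∃ c : F, c ≠ 0 ∧ c ^ (r ^ e) = 1 ∧ ∀ b : F, b ^ r ≠ c := by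
  obtain ⟨g, hg, hgen⟩ := exists_gen (F := F)
  refine ⟨((g ^ u : Fˣ) : F), Units.ne_zero _, ?_, ?_⟩
  · have h1 : (g ^ u) ^ (r ^ e) = 1 := by
      rw [← pow_mul, mul_comm, ← hqe, ← hg, pow_orderOf_eq_one]
    have h2 := congrArg Units.val h1
    simpa using h2
  · intro b hb
    have hb0 : b ≠ 0 := by
      rintro rfl
      rw [zero_pow hr.ne_zero] at hb
      exact (Units.ne_zero _) hb.symm
    obtain ⟨k, hk⟩ := hgen (Units.mk0 b hb0)
    have h1 : g ^ (k * r) = g ^ u := by
      apply Units.ext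
      rw [pow_mul, hk, ← hb]
      simp
    rw [pow_eq_pow_iff_modEq, hg] at h1
    have h2 := h1.of_dvd hrq
    apply hu
    have h3 : k * r ≡ 0 [MOD r] := (Nat.modEq_zero_iff_dvd).2 (dvd_mul_left _ _)
    exact (Nat.modEq_zero_iff_dvd).1 (h2.symm.trans h3)

end Roots

section Order

theorem order_one_iff {q r : ℕ} (hq : 1 ≤ q) : orderOf (q : ZMod r) = 1 ↔ r ∣ q - 1 := by
  rw [orderOf_eq_one_iff, ← ZMod.natCast_eq_zero_iff, Nat.cast_sub hq, Nat.cast_one, sub_eq_zero]

theorem pow_eq_one_iff' {q r j : ℕ} (hq : 1 ≤ q) : orderOf (q : ZMod r) ∣ j ↔ r ∣ q ^ j - 1 := by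
  rw [orderOf_dvd_iff_pow_eq_one, ← ZMod.natCast_eq_zero_iff, Nat.cast_sub (Nat.one_le_pow _ _ hq), Nat.cast_one, sub_eq_zero,
    Nat.cast_pow]

end Order

section Facts

variable {F : Type*} [Field F] [Fintype F] {p : ℕ} [Fact p.Prime] [CharP F p]

theorem cast_ne_zero_of_ne {r : ℕ} (hr : r.Prime) (hrp : r ≠ p) : (r : F) ≠ 0 := by
  intro h
  rw [CharP.cast_eq_zero_iff F p] at h
  exact hrp ((Nat.prime_dvd_prime_iff_eq (Fact.out) hr).1 h).symm

/-- The monic associate of an irreducible polynomial. -/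
theorem exists_monic_assoc {d : F[X]} (hd : Irreducible d) :
    ∃ a : F[X], a.Monic ∧ Irreducible a ∧ a ∣ d ∧ d ∣ a ∧ a.natDegree = d.natDegree := by
  have h1 : IsUnit (C d.leadingCoeff⁻¹ : F[X]) :=
    isUnit_C.2 (inv_ne_zero (leadingCoeff_ne_zero.2 hd.ne_zero)).isUnit
  refine ⟨d * C d.leadingCoeff⁻¹, monic_mul_leadingCoeff_inv hd.ne_zero, ?_, ?_, ?_, ?_⟩
  · exact (irreducible_mul_isUnit h1).2 hd
  · exact (IsUnit.mul_right_dvd h1).2 dvd_rfl
  · exact dvd_mul_right _ _
  · exact natDegree_mul_C (inv_ne_zero (leadingCoeff_ne_zero.2 hd.ne_zero))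

theorem fac_Phi {q r : ℕ} (hF : Fintype.card F = q) (hr : r.Prime) (hrp : r ≠ p) :
    ∀ d : F[X], Irreducible d → d ∣ Phi F r → d.natDegree = orderOf (q : ZMod r) := by
  intro d hd hdvd
  obtain ⟨D, hD, hDr, -, -, -⟩ := Cfsg.Agent.Lib.Classical.Herm.CycTuples.exists_cyc_data hF hr hrp
  obtain ⟨a, ham, hai, had, hda, hdeg⟩ := exists_monic_assoc hd
  have h1 : a ∣ Phi F r := had.trans hdvd
  have h2 : a ^ 1 ∣ (X ^ r - 1 : F[X]) := by
    rw [pow_one, ← Phi_mul]
    exact h1.trans (dvd_mul_right _ _)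
  rcases ((hDr a ham hai 1 one_pos).1 h2).2 with h3 | h3
  · exfalso
    rw [h3] at h1
    have h4 : (Phi F r).eval 1 = 0 := by
      have := eval_eq_zero_of_dvd_of_eval_eq_zero h1 (by simp : (X - 1 : F[X]).eval 1 = 0)
      exact this
    rw [Phi_eval_one] at h4
    exact cast_ne_zero_of_ne hr hrp h4
  · rw [← hdeg]
    exact (hD a h3).2.2.1

theorem fac_X {q r : ℕ} (hF : Fintype.card F = q) (hr : r.Prime) (hrp : r ≠ p) (hi : orderOf (q : ZMod r) = 1) :
    ∀ d : F[X], Irreducible d → d ∣ (X ^ r - 1 : F[X]) → d.natDegree = 1 := by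
  intro d hd hdvd
  obtain ⟨D, hD, hDr, -, -, -⟩ := Cfsg.Agent.Lib.Classical.Herm.CycTuples.exists_cyc_data hF hr hrp
  obtain ⟨a, ham, hai, had, hda, hdeg⟩ := exists_monic_assoc hd
  have h2 : a ^ 1 ∣ (X ^ r - 1 : F[X]) := by
    rw [pow_one]
    exact had.trans hdvd
  rcases ((hDr a ham hai 1 one_pos).1 h2).2 with h3 | h3
  · rw [← hdeg, h3]
    simpa using natDegree_X_sub_C (1 : F)
  · rw [← hdeg, (hD a h3).2.2.1, hi]

theorem fac_irr {r : ℕ} {c : F} (hirr : Irreducible (X ^ r - C c : F[X])) :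
    ∀ d : F[X], Irreducible d → d ∣ (X ^ r - C c : F[X]) → d.natDegree = r := by
  intro d hd hdvd
  have h1 := hd.associated_of_dvd hirr hdvd
  rw [natDegree_eq_of_degree_eq (degree_eq_degree_of_associated h1), natDegree_X_pow_sub_C]

theorem odd_card (hp : p ≠ 2) : Odd (Fintype.card F) := by
  obtain ⟨n, hn, hc⟩ := FiniteField.card F p
  rw [hc]
  exact ((Fact.out : p.Prime).odd_of_ne_two hp).pow

/-- The determinant condition forces `r`-th powers. -/
theorem root_of_det {n r : ℕ} (hr : r.Prime) (hrq : r ∣ Fintype.card F - 1) (hn : n ≠ 0) (hrn : r ∣ n)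
    (h1 : padicValNat r n ≤ padicValNat r (Fintype.card F - 1)) (h2 : r = 2 → Even n → Fintype.card F % 4 = 1)
    {c : F} (hc : c ≠ 0) (hdet : ((-1) ^ (r + 1) * c) ^ (n / r) = 1) : ∃ a : F, a ^ r = c := by
  haveI : Fact r.Prime := ⟨hr⟩
  have hq : 1 < Fintype.card F := Fintype.one_lt_card
  obtain ⟨e, u, hu, hqe⟩ := Nat.exists_eq_pow_mul_and_not_dvd (n := Fintype.card F - 1) (by omega) r hr.ne_one
  obtain ⟨f, w, hw, hnf⟩ := Nat.exists_eq_pow_mul_and_not_dvd hn r hr.ne_one
  have hu0 : u ≠ 0 := by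
    rintro rfl
    exact hu (dvd_zero _)
  have hw0 : w ≠ 0 := by
    rintro rfl
    exact hw (dvd_zero _)
  have hval1 : padicValNat r (Fintype.card F - 1) = e := by
    rw [hqe, padicValNat.mul (pow_ne_zero _ hr.ne_zero) hu0, padicValNat.prime_pow, padicValNat.eq_zero_of_not_dvd hu, add_zero]
  have hval2 : padicValNat r n = f := by
    rw [hnf, padicValNat.mul (pow_ne_zero _ hr.ne_zero) hw0, padicValNat.prime_pow, padicValNat.eq_zero_of_not_dvd hw, add_zero]
  rw [hval1, hval2] at h1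
  have hf : 1 ≤ f := by
    by_contra h0
    have h3 : f = 0 := by omega
    rw [h3, pow_zero, one_mul] at hnf
    exact hw (hnf ▸ hrn)
  have hnr : n / r = r ^ (f - 1) * w := by
    rw [hnf, show f = (f - 1) + 1 by omega, pow_succ, show f - 1 + 1 - 1 = f - 1 by omega]
    rw [show r ^ (f - 1) * r * w = r * (r ^ (f - 1) * w) by ring]
    exact Nat.mul_div_cancel_left _ hr.pos
  have he : 1 ≤ e := by omega
  have hqr : (Fintype.card F - 1) / r = r ^ (e - 1) * u := by
    rw [hqe, show e = (e - 1) + 1 by omega, pow_succ, show e - 1 + 1 - 1 = e - 1 by omega]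
    rw [show r ^ (e - 1) * r * u = r * (r ^ (e - 1) * u) by ring]
    exact Nat.mul_div_cancel_left _ hr.pos
  set c' : F := (-1) ^ (r + 1) * c with hc'
  have hc'0 : c' ≠ 0 := mul_ne_zero (pow_ne_zero _ (neg_ne_zero.2 one_ne_zero)) hc
  rw [hnr] at hdet
  have hz : c' ^ ((Fintype.card F - 1) / r) = 1 := by
    rw [hqr]
    set z := c' ^ (r ^ (e - 1) * u) with hzdef
    have hz1 : z ^ r = 1 := by
      rw [hzdef, ← pow_mul]
      have h3 : r ^ (e - 1) * u * r = Fintype.card F - 1 := by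
        have h4 : r ^ e = r ^ (e - 1) * r := by
          rw [← pow_succ]
          congr 1
          omega
        rw [hqe, h4]
        ring
      rw [h3]
      exact FiniteField.pow_card_sub_one_eq_one c' hc'0
    have hz2 : z ^ w = 1 := by
      rw [hzdef, ← pow_mul]
      have h3 : r ^ (e - 1) * u * w = (r ^ (f - 1) * w) * (r ^ (e - f) * u) := by
        have h4 : r ^ (e - 1) = r ^ (f - 1) * r ^ (e - f) := by
          rw [← pow_add]
          congr 1
          omega
        rw [h4]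
        ring
      rw [h3, pow_mul, hdet, one_pow]
    have hgcd : r.gcd w = 1 := (Nat.Prime.coprime_iff_not_dvd hr).2 hw
    have h5 := pow_gcd_eq_one.2 ⟨hz1, hz2⟩
    rwa [hgcd, pow_one] at h5
  obtain ⟨a, ha⟩ := exists_root_of_pow hr hrq hc'0 hz
  by_cases hr2 : r = 2
  · subst hr2
    have hev : Even n := even_iff_two_dvd.2 hrn
    have h3 := h2 rfl hev
    have h4 : IsSquare (-1 : F) := FiniteField.isSquare_neg_one_iff.2 (by omega)
    obtain ⟨v, hv⟩ := h4
    refine ⟨v * a, ?_⟩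
    have h5 : c' = -c := by
      rw [hc']
      norm_num
    rw [mul_pow, ha, h5, sq, ← hv]
    ring
  · have hodd : Odd r := hr.odd_of_ne_two hr2
    have h5 : c' = c := by
      rw [hc', (hodd.add_one).neg_one_pow, one_mul]
    exact ⟨a, by rw [ha, h5]⟩

/-- The element that is not an `r`-th power and has the right determinant. -/
theorem exists_bad {n r : ℕ} (hr : r.Prime) (hrp : r ≠ p) (hrq : r ∣ Fintype.card F - 1) (hn : n ≠ 0) (hrn : r ∣ n)
    (h : ¬ (padicValNat r n ≤ padicValNat r (Fintype.card F - 1) ∧ (r = 2 → Even n → Fintype.card F % 4 = 1))) :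
    ∃ c : F, c ≠ 0 ∧ (∀ b : F, b ^ r ≠ c) ∧ ((-1) ^ (r + 1) * c) ^ (n / r) = 1 := by
  haveI : Fact r.Prime := ⟨hr⟩
  have hq : 1 < Fintype.card F := Fintype.one_lt_card
  by_cases hA : r = 2 ∧ Even n ∧ Fintype.card F % 4 ≠ 1
  · obtain ⟨rfl, hev, h4⟩ := hA
    have hodd := odd_card (F := F) (p := p) (Ne.symm hrp)
    have h3 : Fintype.card F % 4 = 3 := by
      obtain ⟨s, hs⟩ := hodd
      omega
    refine ⟨-1, neg_ne_zero.2 one_ne_zero, ?_, ?_⟩
    · intro b hb
      have h5 : IsSquare (-1 : F) := ⟨b, by rw [← hb, sq]⟩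
      exact (FiniteField.isSquare_neg_one_iff.1 h5) h3
    · norm_num
  · have h2' : r = 2 → Even n → Fintype.card F % 4 = 1 := by
      intro h5 h6
      by_contra h7
      exact hA ⟨h5, h6, h7⟩
    have h1' : ¬ padicValNat r n ≤ padicValNat r (Fintype.card F - 1) := fun h8 => h ⟨h8, h2'⟩
    obtain ⟨e, u, hu, hqe⟩ := Nat.exists_eq_pow_mul_and_not_dvd (n := Fintype.card F - 1) (by omega) r hr.ne_one
    obtain ⟨f, w, hw, hnf⟩ := Nat.exists_eq_pow_mul_and_not_dvd hn r hr.ne_one
    have hu0 : u ≠ 0 := by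
      rintro rfl
      exact hu (dvd_zero _)
    have hw0 : w ≠ 0 := by
      rintro rfl
      exact hw (dvd_zero _)
    have hval1 : padicValNat r (Fintype.card F - 1) = e := by
      rw [hqe, padicValNat.mul (pow_ne_zero _ hr.ne_zero) hu0, padicValNat.prime_pow, padicValNat.eq_zero_of_not_dvd hu, add_zero]
    have hval2 : padicValNat r n = f := by
      rw [hnf, padicValNat.mul (pow_ne_zero _ hr.ne_zero) hw0, padicValNat.prime_pow, padicValNat.eq_zero_of_not_dvd hw, add_zero]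
    rw [hval1, hval2] at h1'
    have hnr : n / r = r ^ (f - 1) * w := by
      rw [hnf, show f = (f - 1) + 1 by omega, pow_succ, show f - 1 + 1 - 1 = f - 1 by omega]
      rw [show r ^ (f - 1) * r * w = r * (r ^ (f - 1) * w) by ring]
      exact Nat.mul_div_cancel_left _ hr.pos
    obtain ⟨c', hc'0, hc'1, hc'2⟩ := exists_nonroot (F := F) hr hrq hu hqe
    have hne1 : ((-1 : F) ^ (r + 1)) * ((-1 : F) ^ (r + 1)) = 1 := by
      rw [← mul_pow]
      simp
    refine ⟨(-1) ^ (r + 1) * c', mul_ne_zero (pow_ne_zero _ (neg_ne_zero.2 one_ne_zero)) hc'0, ?_, ?_⟩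
    · intro b hb
      by_cases hr2 : r = 2
      · subst hr2
        have h3 := h2' rfl (even_iff_two_dvd.2 hrn)
        have h4 : IsSquare (-1 : F) := FiniteField.isSquare_neg_one_iff.2 (by omega)
        obtain ⟨v, hv⟩ := h4
        apply hc'2 (v * b)
        rw [mul_pow, hb, sq, ← hv]
        norm_num
      · have hodd : Odd r := hr.odd_of_ne_two hr2
        rw [(hodd.add_one).neg_one_pow, one_mul] at hb
        exact hc'2 b hb
    · rw [← mul_assoc, hne1, one_mul, hnr]
      have h6 : r ^ (f - 1) = r ^ e * r ^ (f - 1 - e) := by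
        rw [← pow_add]
        congr 1
        omega
      rw [h6, mul_assoc, pow_mul, hc'1, one_pow]

end Facts

end Cfsg.Agent.Lib.Classical.Elusive.PslNum
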