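import Mathlib
import Cfsg.Agent.Lib.Classical.Elusive.PslNum
import Cfsg.Agent.Lib.Classical.Herm.SpReal
import Cfsg.Agent.Lib.Classical.Symp.SympBasis

/-!
# Symplectic elements of odd prime order with prescribed fixed space
-/

set_option autoImplicit false
set_option linter.unusedSectionVars false
set_option linter.unusedSimpArgs false
set_option linter.unusedVariables false
set_option linter.style.haveILetI false

namespace Cfsg.Agent.Lib.Classical.Elusive.SpModel

open Polynomial Module Matrix
open Cfsg.Agent.Lib.Classical.Elusive.Inv Cfsg.Agent.Lib.Classical.Elusive.PslNum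

universe u

section Fixes

variable {F : Type u} [Field F]

theorem finrank_Fix_prod {V₁ V₂ : Type u} [AddCommGroup V₁] [Module F V₁] [FiniteDimensional F V₁]
    [AddCommGroup V₂] [Module F V₂] [FiniteDimensional F V₂] (T₁ : Module.End F V₁) (T₂ : Module.End F V₂) :
    finrank F (Fix (LinearMap.prodMap T₁ T₂)) = finrank F (Fix T₁) + finrank F (Fix T₂) := by
  let φ : (Fix T₁ × Fix T₂) →ₗ[F] Fix (LinearMap.prodMap T₁ T₂) :=
    LinearMap.codRestrict _ (LinearMap.prodMap (Fix T₁).subtype (Fix T₂).subtype) (by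
      rintro ⟨⟨a, ha⟩, ⟨b, hb⟩⟩
      rw [mem_Fix]
      apply Prod.ext
      · exact mem_Fix.1 ha
      · exact mem_Fix.1 hb)
  have hb : Function.Bijective φ := by
    constructor
    · rintro ⟨⟨a, ha⟩, ⟨b, hb⟩⟩ ⟨⟨a', ha'⟩, ⟨b', hb'⟩⟩ h
      have h1 := congrArg Subtype.val h
      have h2 : (a, b) = (a', b') := h1
      simp only [Prod.mk.injEq] at h2
      obtain ⟨rfl, rfl⟩ := h2
      rfl
    · rintro ⟨⟨a, b⟩, h⟩
      have h1 := mem_Fix.1 h
      have h2 : T₁ a = a := congrArg Prod.fst h1
      have h3 : T₂ b = b := congrArg Prod.snd h1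
      exact ⟨⟨⟨a, mem_Fix.2 h2⟩, ⟨b, mem_Fix.2 h3⟩⟩, rfl⟩
  rw [← (LinearEquiv.ofBijective φ hb).finrank_eq, Module.finrank_prod]

/-- An abstract symplectic space with an isometry `T`, `T ^ r = 1`, whose fixed space has codimension `K`. -/
def Reali (F : Type u) [Field F] (r n K : ℕ) : Prop :=
  ∃ (V : Type u) (_ : AddCommGroup V) (_ : Module F V) (_ : FiniteDimensional F V)
    (B : LinearMap.BilinForm F V) (T : Module.End F V),
    B.IsAlt ∧ B.Nondegenerate ∧ finrank F V = 2 * n ∧ (∀ u v, B (T u) (T v) = B u v) ∧ T ^ r = 1 ∧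
      finrank F (Fix T) + K = 2 * n

theorem prodMap_pow_apply {V₁ V₂ : Type u} [AddCommGroup V₁] [Module F V₁] [AddCommGroup V₂] [Module F V₂]
    (T₁ : Module.End F V₁) (T₂ : Module.End F V₂) (k : ℕ) :
    (LinearMap.prodMap T₁ T₂ : Module.End F (V₁ × V₂)) ^ k = LinearMap.prodMap (T₁ ^ k) (T₂ ^ k) := by
  induction k with
  | zero => 
    apply LinearMap.ext
    intro x
    rfl
  | succ k ih =>
    rw [pow_succ, ih]
    apply LinearMap.ext
    intro x
    rfl

theorem Reali.add {r n₁ n₂ K₁ K₂ : ℕ} (h₁ : Reali F r n₁ K₁) (h₂ : Reali F r n₂ K₂) : Reali F r (n₁ + n₂) (K₁ + K₂) := by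
  obtain ⟨V₁, i1, i2, i3, B₁, T₁, hA₁, hN₁, hd₁, hI₁, hP₁, hK₁⟩ := h₁
  obtain ⟨V₂, j1, j2, j3, B₂, T₂, hA₂, hN₂, hd₂, hI₂, hP₂, hK₂⟩ := h₂
  let B : LinearMap.BilinForm F (V₁ × V₂) :=
    B₁.comp (LinearMap.fst F V₁ V₂) (LinearMap.fst F V₁ V₂) + B₂.comp (LinearMap.snd F V₁ V₂) (LinearMap.snd F V₁ V₂)
  have hB : ∀ u v, B u v = B₁ u.1 v.1 + B₂ u.2 v.2 := fun u v => rfl
  refine ⟨V₁ × V₂, inferInstance, inferInstance, inferInstance, B, LinearMap.prodMap T₁ T₂, ?_, ?_, ?_, ?_, ?_, ?_⟩
  · intro u
    rw [hB, hA₁, hA₂, add_zero]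
  · have key : ∀ x : V₁ × V₂, (∀ y, B x y = 0) → x = 0 := by
      rintro ⟨a, b⟩ hx
      apply Prod.ext
      · apply hN₁.1 a
        intro y
        have := hx (y, 0)
        simpa [hB] using this
      · apply hN₂.1 b
        intro y
        have := hx (0, y)
        simpa [hB] using this
    have key' : ∀ x : V₁ × V₂, (∀ y, B y x = 0) → x = 0 := by
      rintro ⟨a, b⟩ hx
      apply Prod.ext
      · apply hN₁.2 a
        intro y
        have := hx (y, 0)
        simpa [hB] using this
      · apply hN₂.2 b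
        intro y
        have := hx (0, y)
        simpa [hB] using this
    exact ⟨fun x hx => key x hx, fun x hx => key' x hx⟩
  · rw [Module.finrank_prod, hd₁, hd₂]
    ring
  · intro u v
    rw [hB, hB]
    simp [hI₁, hI₂]
  · rw [prodMap_pow_apply, hP₁, hP₂]
    apply LinearMap.ext
    intro x
    rfl
  · rw [finrank_Fix_prod]
    omega

theorem reali_triv (r n : ℕ) : Reali F r n 0 := by
  refine ⟨Fin n ⊕ Fin n → F, inferInstance, inferInstance, inferInstance, Cfsg.Agent.Lib.Classical.Symp.Basic.sympBilin n F, 1,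
    Cfsg.Agent.Lib.Classical.Symp.Basic.sympBilin_isAlt, Cfsg.Agent.Lib.Classical.Symp.Basic.sympBilin_nondegenerate, ?_, ?_, one_pow _, ?_⟩
  · rw [Module.finrank_fintype_fun_eq_card, Fintype.card_sum, Fintype.card_fin]
    ring
  · intro u v
    rfl
  · have h1 : Fix (1 : Module.End F (Fin n ⊕ Fin n → F)) = ⊤ := by
      ext v
      simp [mem_Fix]
    rw [h1, finrank_top, Module.finrank_fintype_fun_eq_card, Fintype.card_sum, Fintype.card_fin]
    ring

theorem Reali.nsmul {r b K : ℕ} (h : Reali F r b K) (m k : ℕ) : Reali F r (b * k + m) (K * k) := by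
  induction k with
  | zero =>
    have := reali_triv (F := F) r m
    simpa using this
  | succ k ih =>
    have h1 := ih.add h
    have h2 : b * (k + 1) + m = b * k + m + b := by ring
    have h3 : K * (k + 1) = K * k + K := by ring
    rw [h2, h3]
    exact h1

/-- Passing from the abstract model to a symplectic matrix. -/
theorem Reali.toSp {r n K : ℕ} (h : Reali F r n K) :
    ∃ y : symplecticGroup (Fin n) F, (y : Matrix (Fin n ⊕ Fin n) (Fin n ⊕ Fin n) F) ^ r = 1 ∧
      finrank F (Fix (Matrix.toLin' (y : Matrix (Fin n ⊕ Fin n) (Fin n ⊕ Fin n) F))) + K = 2 * n := by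
  obtain ⟨V, i1, i2, i3, B, T, hA, hN, hd, hI, hP, hK⟩ := h
  obtain ⟨e, he⟩ := Cfsg.Agent.Lib.Classical.Symp.SympBasis.exists_sympEquiv B hA hN hd
  let S : Module.End F (Fin n ⊕ Fin n → F) := e.conj T
  have hS : ∀ v, S v = e (T (e.symm v)) := fun v => rfl
  have hSk : ∀ (k : ℕ) v, (S ^ k) v = e ((T ^ k) (e.symm v)) := by
    intro k
    induction k with
    | zero => intro v; simp
    | succ k ih =>
      intro v
      rw [pow_succ, Module.End.mul_apply, hS, ih, LinearEquiv.symm_apply_apply, pow_succ, Module.End.mul_apply]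
  let M : Matrix (Fin n ⊕ Fin n) (Fin n ⊕ Fin n) F := LinearMap.toMatrix' S
  have hM : Matrix.toLin' M = S := Matrix.toLin'_toMatrix' S
  have hMv : ∀ v, M *ᵥ v = S v := fun v => by
    rw [← Matrix.toLin'_apply, hM]
  have hMem : M ∈ symplecticGroup (Fin n) F := by
    rw [Cfsg.Agent.Lib.Classical.Symp.Basic.mem_symplecticGroup_iff_forall]
    intro u v
    rw [hMv, hMv, hS, hS, he, hI, ← he, LinearEquiv.apply_symm_apply, LinearEquiv.apply_symm_apply]
  refine ⟨⟨M, hMem⟩, ?_, ?_⟩
  · show M ^ r = 1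
    apply Matrix.toLin'.injective
    rw [Matrix.toLin'_pow, hM, Matrix.toLin'_one]
    apply LinearMap.ext
    intro v
    rw [hSk, hP]
    simp
  · show finrank F (Fix (Matrix.toLin' M)) + K = 2 * n
    rw [hM]
    have h1 : Fix S = (Fix T).map (e : V →ₗ[F] (Fin n ⊕ Fin n → F)) := by
      ext v
      constructor
      · intro hv
        refine ⟨e.symm v, ?_, by simp⟩
        rw [SetLike.mem_coe, mem_Fix]
        apply e.injective
        rw [LinearEquiv.apply_symm_apply, ← hS]
        exact mem_Fix.1 hv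
      · rintro ⟨w, hw, rfl⟩
        rw [mem_Fix, hS]
        simp only [LinearEquiv.coe_coe, LinearEquiv.symm_apply_apply]
        rw [mem_Fix.1 hw]
    rw [h1, LinearEquiv.finrank_map_eq]
    exact hK

end Fixes

section Block

variable {F : Type u} [Field F]

/-- The hyperbolic double of an endomorphism of finite order without fixed vectors. -/
theorem reali_hyp {W : Type u} [AddCommGroup W] [Module F W] [FiniteDimensional F W] {r : ℕ} (hr : 0 < r) (A : Module.End F W)
    (hA : A ^ r = 1) (hfix : ∀ w, A w = w → w = 0) {n : ℕ} (hn : finrank F W = n) : Reali F r n (2 * n) := by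
  classical
  let D := Module.Dual F W
  let A' : Module.End F W := A ^ (r - 1)
  have hAA' : ∀ w, A (A' w) = w := by
    intro w
    have h1 : A * A' = 1 := by
      show A * A ^ (r - 1) = 1
      rw [← pow_succ', Nat.sub_add_cancel hr, hA]
    have := congrArg (fun S : Module.End F W => S w) h1
    simpa using this
  have hA'A : ∀ w, A' (A w) = w := by
    intro w
    have h1 : A' * A = 1 := by
      show A ^ (r - 1) * A = 1
      rw [← pow_succ, Nat.sub_add_cancel hr, hA]
    have := congrArg (fun S : Module.End F W => S w) h1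
    simpa using this
  have hadd : ∀ (φ ψ : D) (w : W), (φ + ψ) w = φ w + ψ w := fun _ _ _ => rfl
  have hsmul : ∀ (c : F) (φ : D) (w : W), (c • φ) w = c * φ w := fun _ _ _ => rfl
  let B : LinearMap.BilinForm F (W × D) := LinearMap.mk₂ F (fun x y => y.2 x.1 - x.2 y.1)
    (by intro a b c; simp only [Prod.fst_add, Prod.snd_add, map_add, hadd]; ring)
    (by intro c a b; simp only [Prod.smul_fst, Prod.smul_snd, map_smul, hsmul, smul_eq_mul]; ring)
    (by intro a b c; simp only [Prod.fst_add, Prod.snd_add, map_add, hadd]; ring)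
    (by intro c a b; simp only [Prod.smul_fst, Prod.smul_snd, map_smul, hsmul, smul_eq_mul]; ring)
  have hB : ∀ x y, B x y = y.2 x.1 - x.2 y.1 := fun x y => rfl
  let T : Module.End F (W × D) := LinearMap.prodMap A (Module.Dual.transpose (R := F) A')
  have hT : ∀ x, T x = (A x.1, x.2 ∘ₗ A') := fun x => rfl
  have hdim : finrank F (W × D) = 2 * n := by
    rw [Module.finrank_prod, Subspace.dual_finrank_eq, hn]
    ring
  let Z : Module.End F W := A - 1
  have hAsurj : Function.Surjective Z := by
    apply LinearMap.injective_iff_surjective.1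
    rw [injective_iff_map_eq_zero]
    intro w hw
    apply hfix
    have : A w - w = 0 := hw
    exact sub_eq_zero.1 this
  have hTk : ∀ (k : ℕ) x, (T ^ k) x = ((A ^ k) x.1, x.2 ∘ₗ (A' ^ k)) := by
    intro k
    induction k with
    | zero =>
      intro x
      apply Prod.ext
      · rfl
      · apply LinearMap.ext
        intro w
        rfl
    | succ k ih =>
      intro x
      rw [pow_succ, Module.End.mul_apply, hT, ih]
      apply Prod.ext
      · rfl
      · apply LinearMap.ext
        intro w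
        show x.2 (A' ((A' ^ k) w)) = x.2 ((A' ^ (k + 1)) w)
        rw [pow_succ', Module.End.mul_apply]
  have hA'r : A' ^ r = 1 := by
    show (A ^ (r - 1)) ^ r = 1
    rw [← pow_mul, mul_comm, pow_mul, hA, one_pow]
  refine ⟨W × D, inferInstance, inferInstance, inferInstance, B, T, ?_, ?_, hdim, ?_, ?_, ?_⟩
  · intro x
    rw [hB, sub_self]
  · have key : ∀ x : W × D, (∀ y, B x y = 0) → x = 0 := by
      rintro ⟨a, b⟩ hx
      apply Prod.ext
      · show a = 0
        apply (Module.forall_dual_apply_eq_zero_iff F a).1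
        intro φ
        have := hx (0, φ)
        simpa [hB] using this
      · apply LinearMap.ext
        intro w
        have := hx (w, 0)
        have h0 : (0 : D) a = 0 := rfl
        simpa [hB, h0] using this
    have key' : ∀ x : W × D, (∀ y, B y x = 0) → x = 0 := by
      rintro ⟨a, b⟩ hx
      apply Prod.ext
      · show a = 0
        apply (Module.forall_dual_apply_eq_zero_iff F a).1
        intro φ
        have := hx (0, φ)
        simpa [hB] using this
      · apply LinearMap.ext
        intro w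
        have := hx (w, 0)
        have h0 : (0 : D) a = 0 := rfl
        simpa [hB, h0] using this
    exact ⟨fun x hx => key x hx, fun x hx => key' x hx⟩
  · rintro ⟨a, φ⟩ ⟨b, ψ⟩
    rw [hB, hB, hT, hT]
    show ψ (A' (A a)) - φ (A' (A b)) = ψ a - φ b
    rw [hA'A, hA'A]
  · apply LinearMap.ext
    rintro ⟨a, φ⟩
    rw [hTk, hA, hA'r]
    rfl
  · have h1 : Fix T = ⊥ := by
      rw [eq_bot_iff]
      rintro ⟨a, φ⟩ hx
      have hx' := mem_Fix.1 hx
      rw [hT] at hx'
      have h2 : A a = a := congrArg Prod.fst hx'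
      have h3 : φ ∘ₗ A' = φ := congrArg Prod.snd hx'
      have h4 : a = 0 := hfix a h2
      have h5 : φ = 0 := by
        apply LinearMap.ext
        intro w
        obtain ⟨z, rfl⟩ := hAsurj w
        have h6 := LinearMap.congr_fun h3 (A z)
        have h7 : φ z = φ (A z) := by
          rw [← h6]
          simp [hA'A]
        show φ (A z - z) = 0
        rw [map_sub, ← h7, sub_self]
      rw [Submodule.mem_bot]
      exact Prod.ext h4 h5
    rw [h1, finrank_bot]
    omega

variable [Fintype F] {p : ℕ} [Fact p.Prime] [CharP F p]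

theorem exists_factor {q r : ℕ} (hF : Fintype.card F = q) (hr : r.Prime) (hrp : r ≠ p) :
    ∃ g : F[X], g.Monic ∧ Irreducible g ∧ g ∣ Phi F r ∧ g.natDegree = orderOf (q : ZMod r) := by
  have hr0 : (r : F) ≠ 0 := cast_ne_zero_of_ne hr hrp
  have hmul := Phi_mul F r
  have hPhi : (Phi F r).natDegree ≠ 0 := by
    intro h
    have h1 : (Phi F r * (X - 1)).natDegree = r := by
      rw [hmul]
      have := natDegree_X_pow_sub_C (R := F) (n := r) (r := 1)
      simpa using this
    have h3 : (X - 1 : F[X]) ≠ 0 := by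
      intro h2
      exact X_sub_C_ne_zero (1 : F) (by simpa using h2)
    have h4 : (X - 1 : F[X]).natDegree = 1 := by
      have := natDegree_X_sub_C (1 : F)
      simpa using this
    rw [natDegree_mul (Phi_ne_zero hr0) h3, h, h4] at h1
    have := hr.two_le
    omega
  obtain ⟨d, hd, hdP⟩ := exists_irreducible_of_natDegree_ne_zero hPhi
  obtain ⟨g, hg1, hg2, hg3, hg4, hg5⟩ := exists_monic_assoc hd
  have hgP : g ∣ Phi F r := hg3.trans hdP
  exact ⟨g, hg1, hg2, hgP, fac_Phi hF hr hrp g hg2 hgP⟩

theorem reali_full {q r : ℕ} (hF : Fintype.card F = q) (hr : r.Prime) (hrp : r ≠ p) :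
    Reali F r (orderOf (q : ZMod r)) (2 * orderOf (q : ZMod r)) := by
  classical
  obtain ⟨g, hg1, hg2, hgP, hgd⟩ := exists_factor hF hr hrp
  have hr0 : (r : F) ≠ 0 := cast_ne_zero_of_ne hr hrp
  haveI : Fact (Irreducible g) := ⟨hg2⟩
  let K := AdjoinRoot g
  let θ : K := AdjoinRoot.root g
  have hθg : aeval θ g = 0 := by
    rw [AdjoinRoot.aeval_eq, AdjoinRoot.mk_self]
  have hθr : θ ^ r = 1 := by
    have h1 : aeval θ (Phi F r) = 0 := by
      obtain ⟨e, he⟩ := hgP
      rw [he, map_mul, hθg, zero_mul]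
    have h2 := congrArg (aeval θ) (Phi_mul F r)
    rw [map_mul, h1, zero_mul, map_sub, map_pow, aeval_X, map_one] at h2
    exact (sub_eq_zero.1 h2.symm)
  have hθ1 : θ ≠ 1 := by
    intro h
    have h1 : aeval (algebraMap F K 1) g = 0 := by
      rw [map_one, ← h]
      exact hθg
    rw [aeval_algebraMap_apply] at h1
    have h2 : aeval (1 : F) g = 0 := by
      apply (algebraMap F K).injective
      rw [h1, map_zero]
    rw [coe_aeval_eq_eval] at h2
    have h3 : (Phi F r).eval 1 = 0 := by
      obtain ⟨e, he⟩ := hgP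
      rw [he, eval_mul, h2, zero_mul]
    rw [Phi_eval_one] at h3
    exact hr0 h3
  haveI : Module.Finite F K := (AdjoinRoot.powerBasis hg2.ne_zero).finite
  have hKdim : finrank F K = orderOf (q : ZMod r) := by
    rw [(AdjoinRoot.powerBasis hg2.ne_zero).finrank, AdjoinRoot.powerBasis_dim, hgd]
  let A : Module.End F K := LinearMap.mulLeft F θ
  have hAk : ∀ k : ℕ, ∀ w, (A ^ k) w = θ ^ k * w := by
    intro k
    induction k with
    | zero => intro w; simp
    | succ k ih =>
      intro w
      rw [pow_succ, Module.End.mul_apply, ih, pow_succ, mul_assoc]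
      rfl
  refine reali_hyp hr.pos A ?_ ?_ hKdim
  · apply LinearMap.ext
    intro w
    rw [hAk, hθr, one_mul]
    rfl
  · intro w hw
    have h1 : (θ - 1) * w = 0 := by
      have h2 : θ * w = w := hw
      rw [sub_mul, h2, one_mul, sub_self]
    exact (mul_eq_zero.1 h1).resolve_left (sub_ne_zero.2 hθ1)

/-- The irreducible factor of `Φ_r` is self-reciprocal if the order of `q` is even. -/
theorem reverse_eq {q r b : ℕ} (hF : Fintype.card F = q) (hr : r.Prime) (hrp : r ≠ p)
    {g : F[X]} (hm : g.Monic) (hirr : Irreducible g) (hgP : g ∣ Phi F r) (hdeg : 2 ≤ g.natDegree) (hb : r ∣ q ^ b + 1) :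
    g.reverse = g := by
  classical
  have hr0 : (r : F) ≠ 0 := cast_ne_zero_of_ne hr hrp
  haveI : Fact (Irreducible g) := ⟨hirr⟩
  let K := AdjoinRoot g
  let θ : K := AdjoinRoot.root g
  have hθg : aeval θ g = 0 := by
    rw [AdjoinRoot.aeval_eq, AdjoinRoot.mk_self]
  have hθr : θ ^ r = 1 := by
    have h1 : aeval θ (Phi F r) = 0 := by
      obtain ⟨e, he⟩ := hgP
      rw [he, map_mul, hθg, zero_mul]
    have h2 := congrArg (aeval θ) (Phi_mul F r)
    rw [map_mul, h1, zero_mul, map_sub, map_pow, aeval_X, map_one] at h2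
    exact (sub_eq_zero.1 h2.symm)
  have hθ0 : θ ≠ 0 := by
    intro h
    rw [h, zero_pow hr.ne_zero] at hθr
    exact zero_ne_one hθr
  have hfrob : ∀ (k : ℕ), aeval (θ ^ (q ^ k)) g = 0 := by
    intro k
    induction k with
    | zero => simpa using hθg
    | succ k ih =>
      have h1 := FiniteField.expand_card g
      rw [hF] at h1
      have h2 := congrArg (aeval (θ ^ (q ^ k))) h1
      rw [expand_aeval, map_pow, ih, zero_pow (by
        rw [← hF]
        exact Fintype.card_ne_zero)] at h2
      rw [pow_succ, pow_mul]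
      exact h2
  have hinv : θ ^ (q ^ b) * θ = 1 := by
    obtain ⟨s, hs⟩ := hb
    rw [← pow_succ, hs, pow_mul, hθr, one_pow]
  let x := θ ^ (q ^ b)
  have hx0 : x ≠ 0 := pow_ne_zero _ hθ0
  letI : Invertible x := invertibleOfNonzero hx0
  have hxinv : (⅟x : K) = θ := by
    apply invOf_eq_left_inv
    rw [mul_comm]
    exact hinv
  have h3 := eval₂_reverse_mul_pow (algebraMap F K) x g
  rw [hxinv] at h3
  have h4 : eval₂ (algebraMap F K) x g = 0 := hfrob b
  rw [h4] at h3
  have h5 : eval₂ (algebraMap F K) θ g.reverse = 0 := by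
    apply (mul_eq_zero.1 h3).resolve_right
    exact pow_ne_zero _ hx0
  have h6 : g ∣ g.reverse := by
    have h7 : AdjoinRoot.mk g g.reverse = 0 := by
      rw [← AdjoinRoot.aeval_eq]
      exact h5
    exact AdjoinRoot.mk_eq_zero.1 h7
  have htrail : g.natTrailingDegree = 0 := by
    by_contra htr
    have h8 : g.coeff 0 = 0 := by
      apply coeff_eq_zero_of_lt_natTrailingDegree
      omega
    have h9 : X ∣ g := X_dvd_iff.2 h8
    have h10 := (irreducible_X (R := F)).associated_of_dvd hirr h9
    have h11 := eq_of_monic_of_associated monic_X hm h10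
    rw [← h11, natDegree_X] at hdeg
    omega
  have hdeg' : g.reverse.natDegree = g.natDegree := by
    rw [reverse_natDegree, htrail, Nat.sub_zero]
  have h12 := eq_leadingCoeff_mul_of_monic_of_dvd_of_natDegree_le hm h6 hdeg'.le
  have h13 : (g.eval 1) ≠ 0 := by
    intro h
    have h14 : (Phi F r).eval 1 = 0 := by
      obtain ⟨e, he⟩ := hgP
      rw [he, eval_mul, h, zero_mul]
    rw [Phi_eval_one] at h14
    exact hr0 h14
  have h15 : g.reverse.eval 1 = g.eval 1 := by
    letI : Invertible (1 : F) := invertibleOne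
    have := eval₂_reverse_mul_pow (RingHom.id F) (1 : F) g
    rw [invOf_one, one_pow, mul_one] at this
    simpa [eval₂_id] using this
  have h16 : g.reverse.leadingCoeff = 1 := by
    have h17 := congrArg (eval 1) h12
    rw [h15, eval_mul, eval_C] at h17
    have h18 : (g.reverse.leadingCoeff - 1) * g.eval 1 = 0 := by
      rw [sub_mul, ← h17, one_mul, sub_self]
    exact sub_eq_zero.1 ((mul_eq_zero.1 h18).resolve_right h13)
  rw [h16, C_1, one_mul] at h12
  exact h12

open Cfsg.Agent.Lib.Classical.Herm in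
/-- The case of even order: the minimal block. -/
theorem reali_half {q r b : ℕ} (hF : Fintype.card F = q) (hr : r.Prime) (hrp : r ≠ p) (hb : orderOf (q : ZMod r) = 2 * b)
    (hb0 : 0 < b) (hr1 : r ∣ q ^ b + 1) : Reali F r b (2 * b) := by
  classical
  obtain ⟨g, hg1, hg2, hgP, hgd⟩ := exists_factor hF hr hrp
  have hr0 : (r : F) ≠ 0 := cast_ne_zero_of_ne hr hrp
  have hdeg : g.natDegree = 2 * b := hgd.trans hb
  have hrev : g.reverse = g := reverse_eq hF hr hrp hg1 hg2 hgP (by omega) hr1
  have hpal : Palin.IsPal b g := ⟨hg1, hdeg, hrev⟩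
  obtain ⟨u, -, hu⟩ := SpReal.exists_sp_of_isPal (p := p) hpal
  let T : Module.End F (Fin b ⊕ Fin b → F) := Matrix.toLin' (u : Matrix (Fin b ⊕ Fin b) (Fin b ⊕ Fin b) F)
  have hTg : aeval T g = 0 := by
    have h1 := LinearMap.aeval_self_charpoly T
    have h2 : T.charpoly = g := by
      show (Matrix.toLin' (u : Matrix (Fin b ⊕ Fin b) (Fin b ⊕ Fin b) F)).charpoly = g
      rw [Matrix.charpoly_toLin', hu]
    rwa [h2] at h1
  have hTP : aeval T (Phi F r) = 0 := by
    obtain ⟨e, he⟩ := hgP
    rw [he, map_mul, hTg, zero_mul]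
  have hTr : T ^ r = 1 := by
    have h2 := congrArg (aeval T) (Phi_mul F r)
    rw [map_mul, hTP, zero_mul, map_sub, map_pow, aeval_X, map_one] at h2
    exact (sub_eq_zero.1 h2.symm)
  refine ⟨Fin b ⊕ Fin b → F, inferInstance, inferInstance, inferInstance, Cfsg.Agent.Lib.Classical.Symp.Basic.sympBilin b F, T,
    Cfsg.Agent.Lib.Classical.Symp.Basic.sympBilin_isAlt, Cfsg.Agent.Lib.Classical.Symp.Basic.sympBilin_nondegenerate, ?_, ?_, hTr, ?_⟩
  · rw [Module.finrank_fintype_fun_eq_card, Fintype.card_sum, Fintype.card_fin]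
    ring
  · intro x y
    simp only [Cfsg.Agent.Lib.Classical.Symp.Basic.sympBilin_apply]
    exact Cfsg.Agent.Lib.Classical.Symp.Basic.mem_symplecticGroup_iff_forall.1 u.2 x y
  · have h1 : Fix T = ⊥ := by
      rw [eq_bot_iff]
      intro v hv
      have h2 := aeval_Phi_of_fixed (F := F) (mem_Fix.1 hv) r
      have h3 : aeval T (Phi F r) v = 0 := by
        rw [hTP]
        rfl
      rw [h3] at h2
      rw [Submodule.mem_bot]
      exact (smul_eq_zero.1 h2.symm).resolve_left hr0
    rw [h1, finrank_bot]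
    omega

end Block

end Cfsg.Agent.Lib.Classical.Elusive.SpModel
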