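import Mathlib
import Cfsg.Agent.Lib.Classical.Elusive.SpModel

/-!
# Isometries of odd prime order: fixed space and its complement
-/

set_option autoImplicit false
set_option linter.unusedSectionVars false
set_option linter.unusedSimpArgs false
set_option linter.unusedVariables false
set_option linter.style.haveILetI false

namespace Cfsg.Agent.Lib.Classical.Elusive.SpCore

open Polynomial Module
open Cfsg.Agent.Lib.Classical.Elusive.Inv

variable {F V : Type*} [Field F] [AddCommGroup V] [Module F V] [FiniteDimensional F V]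

theorem sup_Fix_Ker {y : Module.End F V} {r : ℕ} (hr : (r : F) ≠ 0) (hy : y ^ r = 1) : Fix y ⊔ Ker y r = ⊤ := by
  apply Submodule.eq_top_of_finrank_eq
  have h1 := finrank_split hr hy (isInv_top y)
  rw [top_inf_eq, top_inf_eq] at h1
  have h2 := Submodule.finrank_sup_add_finrank_inf_eq (Fix y) (Ker y r)
  rw [Fix_inf_Ker hr, finrank_bot, add_zero] at h2
  rw [h2, ← h1, finrank_top]

theorem finrank_Fix_add {y : Module.End F V} {r : ℕ} (hr : (r : F) ≠ 0) (hy : y ^ r = 1) :
    finrank F (Fix y) + finrank F (Ker y r) = finrank F V := by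
  have h1 := finrank_split hr hy (isInv_top y)
  rw [top_inf_eq, top_inf_eq] at h1
  rw [← h1, finrank_top]

/-- The fixed space and the kernel of `Φ_r` are orthogonal. -/
theorem orth_Fix_Ker {B : LinearMap.BilinForm F V} {y : Module.End F V} (hI : ∀ u v, B (y u) (y v) = B u v) {r : ℕ}
    (hr : (r : F) ≠ 0) {u v : V} (hu : u ∈ Fix y) (hv : v ∈ Ker y r) : B u v = 0 := by
  have hu' : y u = u := mem_Fix.1 hu
  have h1 : ∀ k : ℕ, B u ((y ^ k) v) = B u v := by
    intro k
    induction k with
    | zero => simp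
    | succ k ih =>
      rw [pow_succ', Module.End.mul_apply, ← hu', hI, hu', ih]
  have h2 : B u (Polynomial.aeval y (Phi F r) v) = (r : F) * B u v := by
    unfold Phi
    rw [map_sum, LinearMap.sum_apply, map_sum]
    simp only [map_pow, aeval_X, h1]
    simp
  have hv' : Polynomial.aeval y (Phi F r) v = 0 := hv
  rw [hv', map_zero] at h2
  exact (mul_eq_zero.1 h2.symm).resolve_left hr

theorem orth_Ker_Fix {B : LinearMap.BilinForm F V} (hA : B.IsAlt) {y : Module.End F V} (hI : ∀ u v, B (y u) (y v) = B u v) {r : ℕ}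
    (hr : (r : F) ≠ 0) {u v : V} (hu : u ∈ Ker y r) (hv : v ∈ Fix y) : B u v = 0 := by
  have h1 := LinearMap.BilinForm.IsAlt.neg_eq hA u v
  rw [orth_Fix_Ker hI hr hv hu] at h1
  exact neg_eq_zero.1 h1

/-- The kernel of `Φ_r` is nondegenerate. -/
theorem ker_nondeg {B : LinearMap.BilinForm F V} (hA : B.IsAlt) (hN : B.Nondegenerate) {y : Module.End F V}
    (hI : ∀ u v, B (y u) (y v) = B u v) {r : ℕ} (hr : (r : F) ≠ 0) (hy : y ^ r = 1) {u : V} (hu : u ∈ Ker y r) (hu0 : u ≠ 0) :
    ∃ v ∈ Ker y r, B u v ≠ 0 := by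
  by_contra hcon
  push Not at hcon
  apply hu0
  apply hN.1 u
  intro w
  have hw : w ∈ Fix y ⊔ Ker y r := by
    rw [sup_Fix_Ker hr hy]
    trivial
  obtain ⟨a, ha, b, hb, rfl⟩ := Submodule.mem_sup.1 hw
  rw [map_add, orth_Ker_Fix hA hI hr hu ha, hcon b hb, add_zero]

/-- The fixed space is nondegenerate. -/
theorem fix_nondeg {B : LinearMap.BilinForm F V} (hA : B.IsAlt) (hN : B.Nondegenerate) {y : Module.End F V}
    (hI : ∀ u v, B (y u) (y v) = B u v) {r : ℕ} (hr : (r : F) ≠ 0) (hy : y ^ r = 1) {u : V} (hu : u ∈ Fix y) (hu0 : u ≠ 0) :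
    ∃ v ∈ Fix y, B u v ≠ 0 := by
  by_contra hcon
  push Not at hcon
  apply hu0
  apply hN.1 u
  intro w
  have hw : w ∈ Fix y ⊔ Ker y r := by
    rw [sup_Fix_Ker hr hy]
    trivial
  obtain ⟨a, ha, b, hb, rfl⟩ := Submodule.mem_sup.1 hw
  rw [map_add, orth_Fix_Ker hI hr hu hb, hcon a ha, add_zero]

/-- An odd-order element fixing `{U, W}` fixes `U` and `W`. -/
theorem fix_of_swap {y : Module.End F V} {r : ℕ} (hodd : Odd r) (hy : y ^ r = 1) {U W : Submodule F V} (hUW : U.map y = W)
    (hWU : W.map y = U) : U.map y = U := by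
  have h2 : ∀ k : ℕ, U.map (y ^ (2 * k)) = U := by
    intro k
    induction k with
    | zero =>
      simp only [mul_zero, pow_zero]
      exact Submodule.map_id U
    | succ k ih =>
      have h3 : y ^ (2 * (k + 1)) = y ^ (2 * k) * (y * y) := by
        rw [mul_add, mul_one, pow_add, _root_.sq]
      rw [h3]
      have h4 : U.map (y ^ (2 * k) * (y * y)) = ((U.map y).map y).map (y ^ (2 * k)) := by
        rw [← Submodule.map_comp, ← Submodule.map_comp]
        rfl
      rw [h4, hUW, hWU, ih]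
  obtain ⟨s, hs⟩ := hodd
  have h5 : U.map (y ^ (r + 1)) = U := by
    have : r + 1 = 2 * (s + 1) := by omega
    rw [this, h2]
  rw [pow_succ, hy, one_mul] at h5
  exact h5

end Cfsg.Agent.Lib.Classical.Elusive.SpCore
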