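import Mathlib
import Cfsg.Agent.Lib.Classical.Elusive.SpCore
import Cfsg.Agent.Lib.Classical.Elusive.PslNum
import Cfsg.Agent.Lib.Classical.Witt.Parity

/-!
# Nondegenerate invariant subspaces for an isometry of odd prime order
-/

set_option autoImplicit false
set_option linter.unusedSectionVars false
set_option linter.unusedSimpArgs false
set_option linter.unusedVariables false
set_option linter.style.haveILetI false

namespace Cfsg.Agent.Lib.Classical.Elusive.SpAtoms

open Polynomial Module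
open Cfsg.Agent.Lib.Classical.Elusive.Inv Cfsg.Agent.Lib.Classical.Elusive.SpCore

variable {F V : Type*} [Field F] [AddCommGroup V] [Module F V] [FiniteDimensional F V]

section Forms

variable {B : LinearMap.BilinForm F V}

/-- Nondegeneracy on a subspace. -/
def Nd (B : LinearMap.BilinForm F V) (Y : Submodule F V) : Prop := ∀ u ∈ Y, u ≠ 0 → ∃ v ∈ Y, B u v ≠ 0

theorem Nd_bot : Nd B ⊥ := fun u hu h0 => absurd ((Submodule.mem_bot F).1 hu) h0

theorem swap_zero (hA : B.IsAlt) {u v : V} (h : B u v = 0) : B v u = 0 := by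
  rw [← LinearMap.BilinForm.IsAlt.neg_eq hA u v, h, neg_zero]

theorem Nd.restrict (hA : B.IsAlt) {S : Submodule F V} (h : Nd B S) : (B.restrict S).Nondegenerate := by
  constructor
  · intro x hx
    by_contra h0
    have h0' : (x : V) ≠ 0 := fun h' => h0 (Subtype.ext h')
    obtain ⟨v, hv, hv'⟩ := h x x.2 h0'
    exact hv' (hx ⟨v, hv⟩)
  · intro x hx
    by_contra h0
    have h0' : (x : V) ≠ 0 := fun h' => h0 (Subtype.ext h')
    obtain ⟨v, hv, hv'⟩ := h x x.2 h0'
    exact hv' (swap_zero hA (hx ⟨v, hv⟩))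

theorem Nd.even (hA : B.IsAlt) {S : Submodule F V} (h : Nd B S) : Even (finrank F S) := by
  apply Cfsg.Agent.Lib.Classical.Witt.Parity.even_finrank_of_alt (B.restrict S) (fun v => hA v)
  intro x hx
  by_contra h0
  have h0' : (x : V) ≠ 0 := fun h' => h0 (Subtype.ext h')
  obtain ⟨v, hv, hv'⟩ := h x x.2 h0'
  exact hv' (hx ⟨v, hv⟩)

/-- The orthogonal complement of `S` inside `Y`. -/
def orthIn (B : LinearMap.BilinForm F V) (Y S : Submodule F V) : Submodule F V := Y ⊓ B.orthogonal S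

theorem mem_orthIn (hA : B.IsAlt) {Y S : Submodule F V} {x : V} : x ∈ orthIn B Y S ↔ x ∈ Y ∧ ∀ s ∈ S, B x s = 0 := by
  rw [orthIn, Submodule.mem_inf, LinearMap.BilinForm.mem_orthogonal_iff]
  refine and_congr_right fun _ => ⟨fun h s hs => swap_zero hA (h s hs), fun h s hs => swap_zero hA (h s hs)⟩

theorem sup_orthIn (hA : B.IsAlt) {Y S : Submodule F V} (hS : S ≤ Y) (hNd : Nd B S) : S ⊔ orthIn B Y S = Y := by
  have h1 := LinearMap.BilinForm.isCompl_orthogonal_of_restrict_nondegenerate (LinearMap.BilinForm.IsAlt.isRefl hA) (hNd.restrict hA)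
  rw [orthIn, inf_comm, ← sup_inf_assoc_of_le _ hS, h1.sup_eq_top, top_inf_eq]

theorem inf_orthIn (hA : B.IsAlt) {Y S : Submodule F V} (hNd : Nd B S) : S ⊓ orthIn B Y S = ⊥ := by
  have h1 := LinearMap.BilinForm.isCompl_orthogonal_of_restrict_nondegenerate (LinearMap.BilinForm.IsAlt.isRefl hA) (hNd.restrict hA)
  rw [eq_bot_iff, ← h1.inf_eq_bot]
  exact inf_le_inf_left _ inf_le_right

theorem finrank_orthIn (hA : B.IsAlt) {Y S : Submodule F V} (hS : S ≤ Y) (hNd : Nd B S) :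
    finrank F S + finrank F (orthIn B Y S) = finrank F Y := by
  have h := Submodule.finrank_sup_add_finrank_inf_eq S (orthIn B Y S)
  rw [sup_orthIn hA hS hNd, inf_orthIn hA hNd, finrank_bot, add_zero] at h
  exact h.symm

theorem Nd_orthIn (hA : B.IsAlt) {Y S : Submodule F V} (hS : S ≤ Y) (hNd : Nd B S) (hY : Nd B Y) : Nd B (orthIn B Y S) := by
  intro u hu hu0
  have hu' := (mem_orthIn hA).1 hu
  obtain ⟨v, hv, hv'⟩ := hY u hu'.1 hu0
  rw [← sup_orthIn hA hS hNd] at hv
  obtain ⟨s, hs, w, hw, rfl⟩ := Submodule.mem_sup.1 hv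
  refine ⟨w, hw, ?_⟩
  rw [map_add, hu'.2 s hs, zero_add] at hv'
  exact hv'

theorem Nd_sup (hA : B.IsAlt) {S T : Submodule F V} (hS : Nd B S) (hT : Nd B T) (hST : ∀ u ∈ S, ∀ v ∈ T, B u v = 0) : Nd B (S ⊔ T) := by
  intro u hu hu0
  obtain ⟨s, hs, t, ht, rfl⟩ := Submodule.mem_sup.1 hu
  by_cases hs0 : s = 0
  · subst hs0
    rw [zero_add] at hu0 ⊢
    obtain ⟨v, hv, hv'⟩ := hT t ht hu0
    exact ⟨v, Submodule.mem_sup_right hv, hv'⟩
  · obtain ⟨v, hv, hv'⟩ := hS s hs hs0
    refine ⟨v, Submodule.mem_sup_left hv, ?_⟩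
    rw [map_add, LinearMap.add_apply, swap_zero hA (hST v hv t ht), add_zero]
    exact hv'

theorem inf_eq_bot_of_orth {S T : Submodule F V} (hS : Nd B S) (hST : ∀ u ∈ S, ∀ v ∈ T, B u v = 0) (hA : B.IsAlt) : S ⊓ T = ⊥ := by
  rw [eq_bot_iff]
  intro x hx
  by_contra h0
  obtain ⟨v, hv, hv'⟩ := hS x hx.1 h0
  exact hv' (swap_zero hA (hST v hv x hx.2))

end Forms

section Isometry

variable {B : LinearMap.BilinForm F V} {y : Module.End F V} {r : ℕ}

theorem isInv_orthIn (hA : B.IsAlt) (hI : ∀ u v, B (y u) (y v) = B u v) (hr0 : 0 < r) (hy : y ^ r = 1) {Y S : Submodule F V}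
    (hY : IsInv y Y) (hS : IsInv y S) : IsInv y (orthIn B Y S) := by
  intro x hx
  have hx' := (mem_orthIn hA).1 hx
  rw [mem_orthIn hA]
  refine ⟨hY x hx'.1, fun s hs => ?_⟩
  have h1 : s = y ((y ^ (r - 1)) s) := by
    rw [← Module.End.mul_apply, ← pow_succ']
    rw [show r - 1 + 1 = r by omega, hy]
    rfl
  rw [h1, hI]
  exact hx'.2 _ (hS.pow _ hs)

theorem sup_Fix_Ker_of (hr : (r : F) ≠ 0) (hy : y ^ r = 1) {Y : Submodule F V} (hY : IsInv y Y) :
    (Y ⊓ Fix y) ⊔ (Y ⊓ Ker y r) = Y := by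
  apply Submodule.eq_of_le_of_finrank_eq (sup_le inf_le_left inf_le_left)
  rw [finrank_sup_of_le hr inf_le_right inf_le_right]
  exact (finrank_split hr hy hY).symm

theorem Nd_Fix (hA : B.IsAlt) (hI : ∀ u v, B (y u) (y v) = B u v) (hr : (r : F) ≠ 0) (hy : y ^ r = 1) {Y : Submodule F V}
    (hY : IsInv y Y) (hNd : Nd B Y) : Nd B (Y ⊓ Fix y) := by
  intro u hu hu0
  obtain ⟨v, hv, hv'⟩ := hNd u hu.1 hu0
  rw [← sup_Fix_Ker_of hr hy hY] at hv
  obtain ⟨a, ha, b, hb, rfl⟩ := Submodule.mem_sup.1 hv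
  refine ⟨a, ha, ?_⟩
  rw [map_add, orth_Fix_Ker hI hr hu.2 hb.2, add_zero] at hv'
  exact hv'

theorem Nd_Ker (hA : B.IsAlt) (hI : ∀ u v, B (y u) (y v) = B u v) (hr : (r : F) ≠ 0) (hy : y ^ r = 1) {Y : Submodule F V}
    (hY : IsInv y Y) (hNd : Nd B Y) : Nd B (Y ⊓ Ker y r) := by
  intro u hu hu0
  obtain ⟨v, hv, hv'⟩ := hNd u hu.1 hu0
  rw [← sup_Fix_Ker_of hr hy hY] at hv
  obtain ⟨a, ha, b, hb, rfl⟩ := Submodule.mem_sup.1 hv
  refine ⟨b, hb, ?_⟩
  rw [map_add, orth_Ker_Fix hA hI hr hu.2 ha.2, zero_add] at hv'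
  exact hv'

theorem squarefree_X_pow (hr : (r : F) ≠ 0) : Squarefree (X ^ r - 1 : F[X]) := by
  have h1 : (X ^ r - 1 : F[X]) = X ^ r - C 1 := by simp
  rw [h1]
  exact (separable_X_pow_sub_C 1 hr one_ne_zero).squarefree

theorem squarefree_Phi (hr : (r : F) ≠ 0) : Squarefree (Phi F r) :=
  (squarefree_X_pow hr).squarefree_of_dvd ⟨X - 1, (Phi_mul F r).symm⟩

/-- Invariant complements. -/
theorem exists_compl_inv (hr : (r : F) ≠ 0) (hy : y ^ r = 1) {T C : Submodule F V} (hT : IsInv y T) (hC : IsInv y C) (hTC : T ≤ C) :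
    ∃ D, IsInv y D ∧ D ≤ C ∧ T ⊔ D = C ∧ T ⊓ D = ⊥ := by
  have hss : y.IsSemisimple := by
    apply Module.End.isSemisimple_of_squarefree_aeval_eq_zero (squarefree_X_pow hr)
    simp [hy]
  obtain ⟨q, hq, hc⟩ := (Module.End.isSemisimple_iff.1 hss) T ((Module.End.mem_invtSubmodule y).2 hT)
  have hq' : IsInv y q := (Module.End.mem_invtSubmodule y).1 hq
  refine ⟨q ⊓ C, hq'.inf hC, inf_le_right, ?_, ?_⟩
  · rw [← sup_inf_assoc_of_le _ hTC, hc.sup_eq_top, top_inf_eq]
  · rw [eq_bot_iff, ← hc.inf_eq_bot]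
    exact inf_le_inf_left _ inf_le_left

end Isometry

section Atoms

variable {B : LinearMap.BilinForm F V} {y : Module.End F V} {r i : ℕ}

theorem exists_atom (hr : (r : F) ≠ 0) (hi : 0 < i) (hfac : ∀ d, Irreducible d → d ∣ Phi F r → d.natDegree = i)
    {C : Submodule F V} (hC : IsInv y C) (hCK : C ≤ Ker y r) (hne : C ≠ ⊥) : ∃ T, IsInv y T ∧ T ≤ C ∧ finrank F T = i := by
  have h1 : i ∣ finrank F C := dvd_finrank hC (Phi_ne_zero hr) hi hfac (fun v hv => hCK hv)
  have h2 : 0 < finrank F C := by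
    rw [Nat.pos_iff_ne_zero, Ne, Submodule.finrank_eq_zero]
    exact hne
  have h3 := Nat.le_of_dvd h2 h1
  obtain ⟨T, hT, -, hTC, hTd⟩ := chain_exists hC (Phi_ne_zero hr) hfac (fun v hv => hCK hv) (isInv_bot y) bot_le 1
    (by rw [finrank_bot]; omega)
  exact ⟨T, hT, hTC, by rw [hTd, finrank_bot]; omega⟩

theorem atom_eq (hr : (r : F) ≠ 0) (hi : 0 < i) (hfac : ∀ d, Irreducible d → d ∣ Phi F r → d.natDegree = i)
    {T W : Submodule F V} (hTK : T ≤ Ker y r) (hTd : finrank F T = i) (hW : IsInv y W) (hWT : W ≤ T) : W = ⊥ ∨ W = T := by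
  have h1 : i ∣ finrank F W := dvd_finrank hW (Phi_ne_zero hr) hi hfac (fun v hv => hTK (hWT hv))
  have h2 := Submodule.finrank_mono hWT
  rw [hTd] at h2
  by_cases h3 : finrank F W = 0
  · left
    exact Submodule.finrank_eq_zero.1 h3
  · right
    have h4 := Nat.le_of_dvd (Nat.pos_of_ne_zero h3) h1
    exact Submodule.eq_of_le_of_finrank_eq hWT (by omega)

theorem atom_dich (hA : B.IsAlt) (hI : ∀ u v, B (y u) (y v) = B u v) (hr : (r : F) ≠ 0) (hr0 : 0 < r) (hy : y ^ r = 1) (hi : 0 < i)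
    (hfac : ∀ d, Irreducible d → d ∣ Phi F r → d.natDegree = i)
    {T : Submodule F V} (hT : IsInv y T) (hTK : T ≤ Ker y r) (hTd : finrank F T = i) : Nd B T ∨ ∀ u ∈ T, ∀ v ∈ T, B u v = 0 := by
  have hW := isInv_orthIn hA hI hr0 hy hT hT
  rcases atom_eq hr hi hfac hTK hTd hW (inf_le_left) with h | h
  · left
    intro u hu hu0
    by_contra hc
    push Not at hc
    have h1 : u ∈ orthIn B T T := (mem_orthIn hA).2 ⟨hu, hc⟩
    rw [h] at h1
    exact hu0 ((Submodule.mem_bot F).1 h1)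
  · right
    intro u hu v hv
    rw [← h] at hu
    exact ((mem_orthIn hA).1 hu).2 v (by rw [h] at *; exact hv)

/-- Lemma E: a vector not orthogonal to an invariant subspace of `Ker` is not orthogonal to an atom. -/
theorem exists_atom_nonorth (hr : (r : F) ≠ 0) (hy : y ^ r = 1) (hi : 0 < i)
    (hfac : ∀ d, Irreducible d → d ∣ Phi F r → d.natDegree = i) (u₀ : V) :
    ∀ (n : ℕ) (C : Submodule F V), finrank F C = n → IsInv y C → C ≤ Ker y r → (∃ w ∈ C, B u₀ w ≠ 0) →
      ∃ T, IsInv y T ∧ T ≤ C ∧ finrank F T = i ∧ ∃ v ∈ T, B u₀ v ≠ 0 := by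
  intro n
  induction n using Nat.strong_induction_on with
  | _ n ih =>
    intro C hn hC hCK hw
    obtain ⟨w, hwC, hw'⟩ := hw
    have hne : C ≠ ⊥ := by
      rintro rfl
      rw [(Submodule.mem_bot F).1 hwC, map_zero] at hw'
      exact hw' rfl
    obtain ⟨T, hT, hTC, hTd⟩ := exists_atom hr hi hfac hC hCK hne
    by_cases hv : ∃ v ∈ T, B u₀ v ≠ 0
    · exact ⟨T, hT, hTC, hTd, hv⟩
    · push Not at hv
      obtain ⟨D, hD, hDC, hsup, hinf⟩ := exists_compl_inv hr hy hT hC hTC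
      rw [← hsup] at hwC
      obtain ⟨t, ht, e, he, rfl⟩ := Submodule.mem_sup.1 hwC
      rw [map_add, hv t ht, zero_add] at hw'
      have hfr := Submodule.finrank_sup_add_finrank_inf_eq T D
      rw [hsup, hinf, finrank_bot, add_zero] at hfr
      obtain ⟨T', h1, h2, h3, h4⟩ := ih (finrank F D) (by omega) D rfl hD (hDC.trans hCK) ⟨e, he, hw'⟩
      exact ⟨T', h1, h2.trans hDC, h3, h4⟩

theorem exists_block_odd (hA : B.IsAlt) (hI : ∀ u v, B (y u) (y v) = B u v) (hr : (r : F) ≠ 0) (hr0 : 0 < r) (hy : y ^ r = 1) (hi : 0 < i)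
    (hfac : ∀ d, Irreducible d → d ∣ Phi F r → d.natDegree = i) (hodd : Odd i)
    {Y : Submodule F V} (hY : IsInv y Y) (hNd : Nd B Y) (hYK : Y ≤ Ker y r) (hne : Y ≠ ⊥) :
    ∃ N, N ≤ Y ∧ IsInv y N ∧ Nd B N ∧ finrank F N = 2 * i := by
  have hti : ∀ {T : Submodule F V}, IsInv y T → T ≤ Ker y r → finrank F T = i → ∀ u ∈ T, ∀ v ∈ T, B u v = 0 := by
    intro T hT hTK hTd
    rcases atom_dich hA hI hr hr0 hy hi hfac hT hTK hTd with h | h
    · have := h.even hA
      rw [hTd] at this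
      exact absurd this (Nat.not_even_iff_odd.2 hodd)
    · exact h
  obtain ⟨T, hT, hTY, hTd⟩ := exists_atom hr hi hfac hY hYK hne
  have hT0 : T ≠ ⊥ := by
    rintro rfl
    rw [finrank_bot] at hTd
    omega
  obtain ⟨u₀, hu₀, hu₀0⟩ := Submodule.exists_mem_ne_zero_of_ne_bot hT0
  obtain ⟨w, hw, hw'⟩ := hNd u₀ (hTY hu₀) hu₀0
  obtain ⟨T', hT', hTY', hTd', v₀, hv₀, hv₀'⟩ := exists_atom_nonorth (B := B) hr hy hi hfac u₀ _ Y rfl hY hYK ⟨w, hw, hw'⟩
  have htT := hti hT (hTY.trans hYK) hTd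
  have htT' := hti hT' (hTY'.trans hYK) hTd'
  have hinf : T ⊓ T' = ⊥ := by
    rcases atom_eq hr hi hfac (hTY.trans hYK) hTd (hT.inf hT') inf_le_left with h | h
    · exact h
    · exfalso
      have h1 : T ≤ T' := by
        rw [← h]
        exact inf_le_right
      have h2 : T = T' := Submodule.eq_of_le_of_finrank_eq h1 (by omega)
      rw [← h2] at hv₀
      exact hv₀' (htT u₀ hu₀ v₀ hv₀)
  have hleft : ∀ t ∈ T, t ≠ 0 → ∃ v ∈ T', B t v ≠ 0 := by
    intro t ht ht0
    have hW := isInv_orthIn hA hI hr0 hy hT hT'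
    rcases atom_eq hr hi hfac (hTY.trans hYK) hTd hW inf_le_left with h | h
    · by_contra hc
      push Not at hc
      have h1 : t ∈ orthIn B T T' := (mem_orthIn hA).2 ⟨ht, hc⟩
      rw [h] at h1
      exact ht0 ((Submodule.mem_bot F).1 h1)
    · exfalso
      have h1 : u₀ ∈ orthIn B T T' := by
        rw [h]
        exact hu₀
      exact hv₀' (((mem_orthIn hA).1 h1).2 v₀ hv₀)
  have hright : ∀ t ∈ T', t ≠ 0 → ∃ v ∈ T, B t v ≠ 0 := by
    intro t ht ht0
    have hW := isInv_orthIn hA hI hr0 hy hT' hT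
    rcases atom_eq hr hi hfac (hTY'.trans hYK) hTd' hW inf_le_left with h | h
    · by_contra hc
      push Not at hc
      have h1 : t ∈ orthIn B T' T := (mem_orthIn hA).2 ⟨ht, hc⟩
      rw [h] at h1
      exact ht0 ((Submodule.mem_bot F).1 h1)
    · exfalso
      have h1 : v₀ ∈ orthIn B T' T := by
        rw [h]
        exact hv₀
      exact hv₀' (swap_zero hA (((mem_orthIn hA).1 h1).2 u₀ hu₀))
  refine ⟨T ⊔ T', sup_le hTY hTY', hT.sup hT', ?_, ?_⟩
  · intro u hu hu0
    obtain ⟨t, ht, t', ht', rfl⟩ := Submodule.mem_sup.1 hu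
    by_cases ht0 : t = 0
    · subst ht0
      rw [zero_add] at hu0 ⊢
      obtain ⟨v, hv, hv'⟩ := hright t' ht' hu0
      exact ⟨v, Submodule.mem_sup_left hv, hv'⟩
    · obtain ⟨v, hv, hv'⟩ := hleft t ht ht0
      refine ⟨v, Submodule.mem_sup_right hv, ?_⟩
      rw [map_add, LinearMap.add_apply, htT' t' ht' v hv, add_zero]
      exact hv'
  · have h := Submodule.finrank_sup_add_finrank_inf_eq T T'
    rw [hinf, finrank_bot, add_zero, hTd, hTd'] at h
    omega

theorem exists_irr_kill (P : F[X]) : P ≠ 0 → ∀ u : V, u ≠ 0 → Polynomial.aeval y P u = 0 →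
    ∃ g : F[X], Irreducible g ∧ g ∣ P ∧ ∃ f : F[X], Polynomial.aeval y f u ≠ 0 ∧ Polynomial.aeval y g (Polynomial.aeval y f u) = 0 := by
  induction P using WfDvdMonoid.induction_on_irreducible with
  | zero => intro h; exact absurd rfl h
  | unit a ha =>
    intro _ u hu h
    exfalso
    obtain ⟨c, hc⟩ := isUnit_iff_exists_inv.1 ha
    apply hu
    have h1 := congrArg (fun p => Polynomial.aeval y p u) hc
    simp only [map_mul, Module.End.mul_apply, map_one, Module.End.one_apply] at h1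
    have h2 : Polynomial.aeval y c (Polynomial.aeval y a u) = Polynomial.aeval y (c * a) u := by
      rw [map_mul, Module.End.mul_apply]
    rw [mul_comm a c] at hc
    rw [hc] at h2
    rw [h] at h2
    simpa using h2.symm
  | mul a g ha hg ih =>
    intro hne u hu h
    rw [map_mul, Module.End.mul_apply] at h
    by_cases h1 : Polynomial.aeval y a u = 0
    · obtain ⟨g', hg', hdvd, f, hf⟩ := ih ha u hu h1
      exact ⟨g', hg', hdvd.trans (dvd_mul_left _ _), f, hf⟩
    · exact ⟨g, hg, dvd_mul_right _ _, a, h1, h⟩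

theorem adj_aeval {m : ℕ} (hI : ∀ u v, B (y u) (y v) = B u v) (hm : y ^ (m + 1) = 1) (f : F[X]) (u v : V) :
    B (Polynomial.aeval y f u) v = B u (Polynomial.aeval (y ^ m) f v) := by
  have h1 : ∀ (u v : V), B (y u) v = B u ((y ^ m) v) := by
    intro u v
    rw [← hI u, ← Module.End.mul_apply, ← pow_succ', hm]
    rfl
  have h2 : ∀ (n : ℕ) (u v : V), B ((y ^ n) u) v = B u (((y ^ m) ^ n) v) := by
    intro n
    induction n with
    | zero => intro u v; simp
    | succ n ih =>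
      intro u v
      rw [pow_succ', Module.End.mul_apply, h1, ih, ← Module.End.mul_apply, ← pow_succ]
  induction f using Polynomial.induction_on' with
  | add p q hp hq =>
    simp only [map_add, LinearMap.add_apply, hp, hq]
  | monomial n a =>
    rw [aeval_monomial, aeval_monomial, Module.End.mul_apply, Module.End.mul_apply, Module.algebraMap_end_apply, Module.algebraMap_end_apply,
      map_smul, map_smul, LinearMap.smul_apply, h2]

theorem aeval_pow_card [Fintype F] (g : F[X]) (b : ℕ) :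
    Polynomial.aeval (y ^ (Fintype.card F) ^ b) g = (Polynomial.aeval y g) ^ (Fintype.card F) ^ b := by
  induction b with
  | zero => simp
  | succ b ih =>
    rw [pow_succ (Fintype.card F) b, pow_mul y, ← expand_aeval, FiniteField.expand_card, map_pow, ih, pow_mul]

theorem ker_g_Nd (hA : B.IsAlt) {g h : F[X]} (hgh : Phi F r = g * h) (hco : IsCoprime g h) {m : ℕ}
    (hI : ∀ u v, B (y u) (y v) = B u v) (hm : y ^ (m + 1) = 1)
    (hgm : ∀ u, Polynomial.aeval y g u = 0 → Polynomial.aeval (y ^ m) g u = 0) {Y : Submodule F V} (hY : IsInv y Y) (hNd : Nd B Y)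
    (hYK : Y ≤ Ker y r) : Nd B (Y ⊓ LinearMap.ker (Polynomial.aeval y g)) := by
  intro u hu hu0
  obtain ⟨w, hw, hw'⟩ := hNd u hu.1 hu0
  obtain ⟨a, b, hab⟩ := hco
  have h1 : Polynomial.aeval y (g * a) w + Polynomial.aeval y (b * h) w = w := by
    have h2 : g * a + b * h = 1 := by rw [← hab]; ring
    have h3 := congrArg (fun p => Polynomial.aeval y p w) h2
    simpa only [map_add, LinearMap.add_apply, map_one, Module.End.one_apply] using h3
  have h4 : B u (Polynomial.aeval y (g * a) w) = 0 := by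
    rw [map_mul, Module.End.mul_apply]
    apply swap_zero hA
    rw [adj_aeval hI hm, hgm u (LinearMap.mem_ker.1 hu.2), map_zero]
  refine ⟨Polynomial.aeval y (b * h) w, ⟨hY.aeval _ hw, ?_⟩, ?_⟩
  · refine LinearMap.mem_ker.2 ?_
    rw [← Module.End.mul_apply, ← map_mul]
    have h5 : g * (b * h) = b * Phi F r := by rw [hgh]; ring
    rw [h5, map_mul, Module.End.mul_apply, mem_Ker.1 (hYK hw), map_zero]
  · rw [← h1, map_add, h4, zero_add] at hw'
    exact hw'

theorem exists_polar (hA : B.IsAlt) (hI : ∀ u v, B (y u) (y v) = B u v) (hr : (r : F) ≠ 0) (hodd : Odd r) (hy : y ^ r = 1)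
    {P : Submodule F V} (hP : IsInv y P) (hNd : Nd B P) (hPK : P ≤ Ker y r) (hne : P ≠ ⊥) : ∃ u ∈ P, B u (y u) ≠ 0 := by
  by_contra hc
  push Not at hc
  obtain ⟨v, hv, hv0⟩ := Submodule.exists_mem_ne_zero_of_ne_bot hne
  obtain ⟨k, hk⟩ := hodd
  let z : Module.End F V := y ^ (r - 1)
  have hz : ∀ w, y (z w) = w := by
    intro w
    rw [← Module.End.mul_apply, ← pow_succ', show r - 1 + 1 = r by omega, hy]
    rfl
  have h1 : ∀ u ∈ P, B u (y v) = B u (z v) := by
    intro u hu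
    have h2 := hc (u + v) (P.add_mem hu hv)
    rw [map_add, map_add, LinearMap.add_apply, map_add, map_add, hc u hu, hc v hv] at h2
    have h3 : B v (y u) = - B u (z v) := by
      have h4 : B (y u) v = B u (z v) := by
        have h5 := hI u (z v)
        rw [hz] at h5
        exact h5
      rw [← h4, ← LinearMap.BilinForm.IsAlt.neg_eq hA (y u) v]
    rw [h3] at h2
    linear_combination h2
  have h2 : y v - z v = 0 := by
    by_contra h3
    obtain ⟨w, hw, hw'⟩ := hNd _ (P.sub_mem (hP v hv) (hP.pow (r - 1) hv)) h3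
    apply hw'
    apply swap_zero hA
    rw [map_sub, h1 w hw, sub_self]
  have h3 : y (y v) = v := by
    rw [sub_eq_zero.1 h2, hz]
  have h4 : ∀ n : ℕ, (y ^ (2 * n)) v = v := by
    intro n
    induction n with
    | zero => simp
    | succ n ih =>
      rw [show 2 * (n + 1) = 2 * n + 2 by ring, pow_add, Module.End.mul_apply, pow_two, Module.End.mul_apply, h3, ih]
  have h5 : y v = v := by
    have h6 : (y ^ r) v = v := by rw [hy]; rfl
    rw [hk, pow_succ, Module.End.mul_apply] at h6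
    have h8 : (y ^ (2 * k)) (y v) = y ((y ^ (2 * k)) v) := by
      rw [← Module.End.mul_apply, ← Module.End.mul_apply, ← pow_succ, ← pow_succ']
    rw [h8, h4] at h6
    exact h6
  have h6 : v ∈ Fix y ⊓ Ker y r := ⟨mem_Fix.2 h5, hPK hv⟩
  rw [Fix_inf_Ker hr] at h6
  exact hv0 ((Submodule.mem_bot F).1 h6)

theorem exists_cyclic {g : F[X]} (hg : Irreducible g) {u : V} (hu : u ≠ 0) (hgu : Polynomial.aeval y g u = 0) :
    ∃ T, IsInv y T ∧ u ∈ T ∧ finrank F T = g.natDegree ∧ ∀ W, IsInv y W → u ∈ W → T ≤ W := by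
  obtain ⟨T, hT, -, hTd, hmin⟩ := step_irr (isInv_bot y) hg (v := u) (by simpa using hu) (by rw [hgu]; exact Submodule.zero_mem _)
  rw [finrank_bot, zero_add] at hTd
  refine ⟨T, hT, ?_, hTd, fun W hW huW => hmin W hW bot_le huW⟩
  have hdeg : 0 < g.natDegree := hg.natDegree_pos
  have hT0 : T ≠ ⊥ := by
    rintro rfl
    rw [finrank_bot] at hTd
    omega
  obtain ⟨x, hx, hx0⟩ := Submodule.exists_mem_ne_zero_of_ne_bot hT0
  let φ : F[X] →ₗ[F] V := (LinearMap.applyₗ u).comp (Polynomial.aeval y).toLinearMap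
  have hφ : ∀ f, φ f = Polynomial.aeval y f u := fun f => rfl
  have hC : IsInv y (LinearMap.range φ) := by
    rintro _ ⟨f, rfl⟩
    refine ⟨X * f, ?_⟩
    rw [hφ, hφ, map_mul, aeval_X, Module.End.mul_apply]
  have huC : u ∈ LinearMap.range φ := ⟨1, by rw [hφ, map_one]; rfl⟩
  obtain ⟨f, rfl⟩ := hmin _ hC bot_le huC hx
  have hgf : ¬ g ∣ f := by
    rintro ⟨e, rfl⟩
    apply hx0
    rw [hφ, mul_comm, map_mul, Module.End.mul_apply, hgu, map_zero]
  obtain ⟨a, b, hab⟩ := (hg.coprime_iff_not_dvd).2 hgf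
  have h1 : Polynomial.aeval y b (φ f) = u := by
    have h2 := congrArg (fun p => Polynomial.aeval y p u) hab
    simp only [map_add, map_mul, LinearMap.add_apply, Module.End.mul_apply, hgu, map_zero, zero_add, map_one, Module.End.one_apply] at h2
    exact h2
  rw [← h1]
  exact hT.aeval b hx

theorem exists_block_even [Fintype F] (hA : B.IsAlt) (hI : ∀ u v, B (y u) (y v) = B u v) (hr : (r : F) ≠ 0) (hrodd : Odd r) (hy : y ^ r = 1)
    (hi : 0 < i) (hfac : ∀ d, Irreducible d → d ∣ Phi F r → d.natDegree = i) {b : ℕ} (hb : r ∣ Fintype.card F ^ b + 1)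
    {Y : Submodule F V} (hY : IsInv y Y) (hNd : Nd B Y) (hYK : Y ≤ Ker y r) (hne : Y ≠ ⊥) :
    ∃ N, N ≤ Y ∧ IsInv y N ∧ Nd B N ∧ finrank F N = i := by
  have hr0 : 0 < r := hrodd.pos
  obtain ⟨u₀, hu₀, hu₀0⟩ := Submodule.exists_mem_ne_zero_of_ne_bot hne
  obtain ⟨g, hg, hgP, f, hf, hgf⟩ := exists_irr_kill (y := y) (Phi F r) (Phi_ne_zero hr) u₀ hu₀0 (mem_Ker.1 (hYK hu₀))
  obtain ⟨h, hh⟩ := hgP
  have hco : IsCoprime g h := by
    refine (hg.coprime_iff_not_dvd).2 ?_
    rintro ⟨e, rfl⟩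
    have h2 : g * g ∣ Phi F r := ⟨e, by rw [hh]; ring⟩
    exact hg.not_isUnit ((squarefree_Phi hr) g h2)
  set m := Fintype.card F ^ b with hm
  have hm1 : y ^ (m + 1) = 1 := by
    obtain ⟨k, hk⟩ := hb
    rw [hk, pow_mul, hy, one_pow]
  have hmpos : 0 < m := by
    have : 0 < Fintype.card F := Fintype.card_pos
    positivity
  have hgm : ∀ u, Polynomial.aeval y g u = 0 → Polynomial.aeval (y ^ m) g u = 0 := by
    intro u hu
    rw [hm, aeval_pow_card, ← hm]
    obtain ⟨k, hk⟩ : ∃ k, m = k + 1 := ⟨m - 1, by omega⟩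
    rw [hk, pow_succ, Module.End.mul_apply, hu, map_zero]
  have hKNd := ker_g_Nd hA hh hco hI hm1 hgm hY hNd hYK
  set K := Y ⊓ LinearMap.ker (Polynomial.aeval y g) with hKdef
  have hKinv : IsInv y K := hY.inf (isInv_ker_aeval y g)
  have hKK : K ≤ Ker y r := inf_le_left.trans hYK
  have hKne : K ≠ ⊥ := by
    intro h0
    have h1 : Polynomial.aeval y f u₀ ∈ K := ⟨hY.aeval f hu₀, hgf⟩
    rw [h0] at h1
    exact hf ((Submodule.mem_bot F).1 h1)
  obtain ⟨u, hu, hu'⟩ := exists_polar hA hI hr hrodd hy hKinv hKNd hKK hKne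
  have hu0 : u ≠ 0 := by
    rintro rfl
    simp at hu'
  obtain ⟨T, hT, huT, hTd, hmin⟩ := exists_cyclic hg hu0 (LinearMap.mem_ker.1 hu.2)
  have hTK : T ≤ K := hmin K hKinv hu
  have hdeg : g.natDegree = i := hfac g hg ⟨h, hh⟩
  rw [hdeg] at hTd
  refine ⟨T, hTK.trans inf_le_left, hT, ?_, hTd⟩
  rcases atom_dich hA hI hr hr0 hy hi hfac hT (hTK.trans hKK) hTd with h1 | h1
  · exact h1
  · exact absurd (h1 u huT _ (hT u huT)) hu'

end Atoms

section Assembly

variable {B : LinearMap.BilinForm F V} {y : Module.End F V} {r c : ℕ}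

/-- Every nonzero nondegenerate invariant subspace of `Ker` contains a nondegenerate invariant subspace of dimension `c`. -/
def HasBlocks (B : LinearMap.BilinForm F V) (y : Module.End F V) (r c : ℕ) : Prop :=
  ∀ Y, IsInv y Y → Nd B Y → Y ≤ Ker y r → Y ≠ ⊥ → ∃ N, N ≤ Y ∧ IsInv y N ∧ Nd B N ∧ finrank F N = c

theorem dvd_of_blocks (hA : B.IsAlt) (hI : ∀ u v, B (y u) (y v) = B u v) (hr0 : 0 < r) (hy : y ^ r = 1) (hb : HasBlocks B y r c) (hc : 0 < c) :
    ∀ (n : ℕ) (Z : Submodule F V), finrank F Z = n → IsInv y Z → Nd B Z → Z ≤ Ker y r → c ∣ n := by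
  intro n
  induction n using Nat.strong_induction_on with
  | _ n ih =>
    intro Z hn hZ hNd hZK
    by_cases h0 : Z = ⊥
    · subst h0
      rw [finrank_bot] at hn
      rw [← hn]
      exact dvd_zero _
    · obtain ⟨N, hNZ, hNinv, hNNd, hNd'⟩ := hb Z hZ hNd hZK h0
      have h1 := finrank_orthIn hA hNZ hNNd
      rw [hNd', hn] at h1
      have h2 := ih (finrank F (orthIn B Z N)) (by omega) _ rfl (isInv_orthIn hA hI hr0 hy hZ hNinv) (Nd_orthIn hA hNZ hNNd hNd)
        (inf_le_left.trans hZK)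
      rw [← h1]
      exact dvd_add dvd_rfl h2

theorem exists_sub_block (hA : B.IsAlt) (hI : ∀ u v, B (y u) (y v) = B u v) (hr0 : 0 < r) (hy : y ^ r = 1) (hb : HasBlocks B y r c) (hc : 0 < c) :
    ∀ (k : ℕ) (Z : Submodule F V), IsInv y Z → Nd B Z → Z ≤ Ker y r → c * k ≤ finrank F Z →
      ∃ A, A ≤ Z ∧ IsInv y A ∧ Nd B A ∧ finrank F A = c * k := by
  intro k
  induction k with
  | zero =>
    intro Z _ _ _ _
    exact ⟨⊥, bot_le, isInv_bot y, Nd_bot, by simp⟩
  | succ k ih =>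
    intro Z hZ hNd hZK hk
    have h0 : Z ≠ ⊥ := by
      rintro rfl
      rw [finrank_bot, Nat.mul_succ] at hk
      omega
    obtain ⟨N, hNZ, hNinv, hNNd, hNd'⟩ := hb Z hZ hNd hZK h0
    have h1 := finrank_orthIn hA hNZ hNNd
    rw [hNd'] at h1
    rw [Nat.mul_succ] at hk
    obtain ⟨A', hA'le, hA'inv, hA'Nd, hA'd⟩ := ih _ (isInv_orthIn hA hI hr0 hy hZ hNinv) (Nd_orthIn hA hNZ hNNd hNd) (inf_le_left.trans hZK) (by omega)
    have horth : ∀ u ∈ N, ∀ v ∈ A', B u v = 0 := by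
      intro u hu v hv
      exact swap_zero hA (((mem_orthIn hA).1 (hA'le hv)).2 u hu)
    refine ⟨N ⊔ A', sup_le hNZ (hA'le.trans inf_le_left), hNinv.sup hA'inv, Nd_sup hA hNNd hA'Nd horth, ?_⟩
    have h2 := Submodule.finrank_sup_add_finrank_inf_eq N A'
    rw [inf_eq_bot_of_orth hNNd horth hA, finrank_bot, add_zero, hNd', hA'd] at h2
    rw [h2, Nat.mul_succ]
    ring

theorem exists_plane (hA : B.IsAlt) {Y : Submodule F V} (hY : Nd B Y) (hne : Y ≠ ⊥) : ∃ P, P ≤ Y ∧ Nd B P ∧ finrank F P = 2 := by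
  classical
  obtain ⟨u, hu, hu0⟩ := Submodule.exists_mem_ne_zero_of_ne_bot hne
  obtain ⟨v, hv, huv⟩ := hY u hu hu0
  have hvu : B v u ≠ 0 := fun h => huv (swap_zero hA h)
  have hli : LinearIndependent F ![u, v] := by
    rw [LinearIndependent.pair_iff]
    intro s t h
    have h1 := congrArg (B u) h
    simp only [map_add, map_smul, smul_eq_mul, map_zero, hA u, mul_zero, zero_add] at h1
    have ht : t = 0 := (mul_eq_zero.1 h1).resolve_right huv
    have h2 := congrArg (B v) h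
    simp only [map_add, map_smul, smul_eq_mul, map_zero, hA v, mul_zero, add_zero] at h2
    exact ⟨(mul_eq_zero.1 h2).resolve_right hvu, ht⟩
  refine ⟨Submodule.span F {u, v}, ?_, ?_, ?_⟩
  · rw [Submodule.span_le]
    rintro x (rfl | rfl)
    · exact hu
    · exact hv
  · intro x hx hx0
    obtain ⟨s, t, rfl⟩ := Submodule.mem_span_pair.1 hx
    by_cases ht : t = 0
    · subst ht
      have hs : s ≠ 0 := by
        rintro rfl
        simp at hx0
      refine ⟨v, Submodule.mem_span_pair.2 ⟨0, 1, by simp⟩, ?_⟩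
      simp only [zero_smul, add_zero, map_smul, LinearMap.smul_apply, smul_eq_mul]
      exact mul_ne_zero hs huv
    · refine ⟨u, Submodule.mem_span_pair.2 ⟨1, 0, by simp⟩, ?_⟩
      simp only [map_add, map_smul, LinearMap.add_apply, LinearMap.smul_apply, smul_eq_mul, hA u, mul_zero, zero_add]
      exact mul_ne_zero ht hvu
  · have h := finrank_span_eq_card hli
    have hrange : Set.range ![u, v] = {u, v} := by
      ext x
      simp [eq_comm]
      exact or_comm
    rw [hrange] at h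
    simpa using h

theorem exists_even_sub (hA : B.IsAlt) : ∀ (s : ℕ) (Y : Submodule F V), Nd B Y → 2 * s ≤ finrank F Y → ∃ S, S ≤ Y ∧ Nd B S ∧ finrank F S = 2 * s := by
  intro s
  induction s with
  | zero =>
    intro Y _ _
    exact ⟨⊥, bot_le, Nd_bot, by simp⟩
  | succ s ih =>
    intro Y hY hs
    have h0 : Y ≠ ⊥ := by
      rintro rfl
      rw [finrank_bot] at hs
      omega
    obtain ⟨P, hPY, hPNd, hPd⟩ := exists_plane hA hY h0
    have h1 := finrank_orthIn hA hPY hPNd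
    rw [hPd] at h1
    obtain ⟨S', hS'le, hS'Nd, hS'd⟩ := ih _ (Nd_orthIn hA hPY hPNd hY) (by omega)
    have horth : ∀ u ∈ P, ∀ v ∈ S', B u v = 0 := by
      intro u hu v hv
      exact swap_zero hA (((mem_orthIn hA).1 (hS'le hv)).2 u hu)
    refine ⟨P ⊔ S', sup_le hPY (hS'le.trans inf_le_left), Nd_sup hA hPNd hS'Nd horth, ?_⟩
    have h2 := Submodule.finrank_sup_add_finrank_inf_eq P S'
    rw [inf_eq_bot_of_orth hPNd horth hA, finrank_bot, add_zero, hPd, hS'd] at h2
    rw [h2]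
    ring

/-- Lemma G: construction of the decomposition. -/
theorem exists_D (hA : B.IsAlt) (hI : ∀ u v, B (y u) (y v) = B u v) (hr : (r : F) ≠ 0) (hr0 : 0 < r) (hy : y ^ r = 1)
    (hb : HasBlocks B y r c) (hc : 0 < c) {a a₀ l : ℕ} (ha : a = a₀ * c + l) (hae : Even a) (hce : Even c) :
    ∀ (t : ℕ) (Y : Submodule F V), IsInv y Y → Nd B Y → finrank F Y = a * t → t * l ≤ finrank F ↥(Y ⊓ Fix y) →
      ∃ D : Fin t → Submodule F V, (∀ j, D j ≤ Y ∧ IsInv y (D j) ∧ Nd B (D j) ∧ finrank F (D j) = a) ∧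
        (∀ j j', j ≠ j' → ∀ u ∈ D j, ∀ v ∈ D j', B u v = 0) ∧ ⨆ j, D j = Y := by
  intro t
  induction t with
  | zero =>
    intro Y _ _ hfr _
    refine ⟨fun j => j.elim0, fun j => j.elim0, fun j => j.elim0, ?_⟩
    rw [mul_zero, Submodule.finrank_eq_zero] at hfr
    rw [hfr, iSup_eq_bot]
    exact fun j => j.elim0
  | succ t ih =>
    intro Y hY hNd hfr hfix
    have hsplit := finrank_split hr hy hY
    have hfNd := Nd_Fix hA hI hr hy hY hNd
    have hkNd := Nd_Ker hA hI hr hy hY hNd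
    have hkinv : IsInv y (Y ⊓ Ker y r) := hY.inf (isInv_Ker y r)
    obtain ⟨k, hk⟩ := dvd_of_blocks hA hI hr0 hy hb hc _ (Y ⊓ Ker y r) rfl hkinv hkNd inf_le_right
    obtain ⟨X, hX, hXc⟩ : ∃ X, X = c * min k a₀ ∧ X ≤ c * a₀ := ⟨_, rfl, Nat.mul_le_mul_left _ (min_le_right _ _)⟩
    have hXk : X ≤ c * k := by
      rw [hX]
      exact Nat.mul_le_mul_left _ (min_le_left _ _)
    have hac : a₀ * c = c * a₀ := mul_comm _ _
    obtain ⟨A, hAle, hAinv, hANd, hAd⟩ := exists_sub_block hA hI hr0 hy hb hc (min k a₀) _ hkinv hkNd inf_le_right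
      (by rw [← hX, hk]; exact hXk)
    rw [← hX] at hAd
    have hXev : Even X := by
      rw [hX]
      exact hce.mul_right _
    obtain ⟨s, hs⟩ : ∃ s, a = X + 2 * s := by
      obtain ⟨a', ha'⟩ := hae
      obtain ⟨x', hx'⟩ := hXev
      exact ⟨a' - x', by omega⟩
    have hmul1 : a * (t + 1) = a * t + a := by ring
    have hmul2 : (t + 1) * l = t * l + l := by ring
    have hl_le : t * l ≤ a * t := by
      rw [mul_comm t l]
      apply Nat.mul_le_mul_right
      omega
    -- the two cases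
    have hcases : 2 * s ≤ finrank F ↥(Y ⊓ Fix y) ∧ t * l + 2 * s ≤ finrank F ↥(Y ⊓ Fix y) := by
      rcases le_total a₀ k with h1 | h1
      · have h2 : X = c * a₀ := by rw [hX, min_eq_right h1]
        rw [hmul2] at hfix
        omega
      · have h2 : X = c * k := by rw [hX, min_eq_left h1]
        rw [hfr, hmul1, hk] at hsplit
        omega
    obtain ⟨S, hSle, hSNd, hSd⟩ := exists_even_sub hA s _ hfNd hcases.1
    have hSfix : S ≤ Fix y := hSle.trans inf_le_right
    have hSinv : IsInv y S := by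
      intro u hu
      rw [mem_Fix.1 (hSfix hu)]
      exact hu
    have hAker : A ≤ Ker y r := hAle.trans inf_le_right
    have horth1 : ∀ u ∈ S, ∀ v ∈ A, B u v = 0 := fun u hu v hv => orth_Fix_Ker hI hr (hSfix hu) (hAker hv)
    have hD₀Nd : Nd B (S ⊔ A) := Nd_sup hA hSNd hANd horth1
    have hD₀inv : IsInv y (S ⊔ A) := hSinv.sup hAinv
    have hD₀le : S ⊔ A ≤ Y := sup_le (hSle.trans inf_le_left) (hAle.trans inf_le_left)
    have hD₀d : finrank F ↥(S ⊔ A) = a := by
      rw [finrank_sup_of_le hr hSfix hAker, hSd, hAd]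
      omega
    have hY'inv := isInv_orthIn hA hI hr0 hy hY hD₀inv
    have hY'Nd := Nd_orthIn hA hD₀le hD₀Nd hNd
    have hY'd := finrank_orthIn hA hD₀le hD₀Nd
    rw [hD₀d, hfr, hmul1] at hY'd
    have hfix' : t * l ≤ finrank F ↥(orthIn B Y (S ⊔ A) ⊓ Fix y) := by
      have h1 := finrank_orthIn hA hSle hSNd
      rw [hSd] at h1
      have h2 : orthIn B (Y ⊓ Fix y) S ≤ orthIn B Y (S ⊔ A) ⊓ Fix y := by
        intro x hx
        have hx' := (mem_orthIn hA).1 hx
        refine ⟨(mem_orthIn hA).2 ⟨hx'.1.1, fun s' hs' => ?_⟩, hx'.1.2⟩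
        obtain ⟨s₁, hs₁, s₂, hs₂, rfl⟩ := Submodule.mem_sup.1 hs'
        rw [map_add, hx'.2 s₁ hs₁, orth_Fix_Ker hI hr hx'.1.2 (hAker hs₂), add_zero]
      have h3 := Submodule.finrank_mono h2
      have := hcases.2
      omega
    obtain ⟨D', h1, h2, h3⟩ := ih _ hY'inv hY'Nd (by omega) hfix'
    refine ⟨(Fin.cons (S ⊔ A) D' : Fin (t + 1) → Submodule F V), ?_, ?_, ?_⟩
    · intro j
      refine Fin.cases ?_ (fun j => ?_) j
      · rw [Fin.cons_zero]
        exact ⟨hD₀le, hD₀inv, hD₀Nd, hD₀d⟩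
      · rw [Fin.cons_succ]
        obtain ⟨h4, h5, h6, h7⟩ := h1 j
        exact ⟨h4.trans inf_le_left, h5, h6, h7⟩
    · intro j j'
      refine Fin.cases ?_ (fun j => ?_) j
      · refine Fin.cases ?_ (fun j' => ?_) j'
        · intro h
          exact absurd rfl h
        · intro _ u hu v hv
          rw [Fin.cons_zero] at hu
          rw [Fin.cons_succ] at hv
          exact swap_zero hA (((mem_orthIn hA).1 ((h1 j').1 hv)).2 u hu)
      · refine Fin.cases ?_ (fun j' => ?_) j'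
        · intro _ u hu v hv
          rw [Fin.cons_succ] at hu
          rw [Fin.cons_zero] at hv
          exact ((mem_orthIn hA).1 ((h1 j).1 hu)).2 v hv
        · intro h u hu v hv
          rw [Fin.cons_succ] at hu hv
          exact h2 j j' (fun h' => h (by rw [h'])) u hu v hv
    · apply le_antisymm
      · apply iSup_le
        intro j
        refine Fin.cases ?_ (fun j => ?_) j
        · rw [Fin.cons_zero]
          exact hD₀le
        · rw [Fin.cons_succ]
          exact (h1 j).1.trans inf_le_left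
      · rw [← sup_orthIn hA hD₀le hD₀Nd]
        apply sup_le
        · have := le_iSup (Fin.cons (S ⊔ A) D' : Fin (t + 1) → Submodule F V) 0
          rwa [Fin.cons_zero] at this
        · rw [← h3]
          apply iSup_le
          intro j
          have := le_iSup (Fin.cons (S ⊔ A) D' : Fin (t + 1) → Submodule F V) j.succ
          rwa [Fin.cons_succ] at this

end Assembly

end Cfsg.Agent.Lib.Classical.Elusive.SpAtoms
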