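import Mathlib
import Cfsg.Agent.Lib.Classical.Elusive.SpAtoms

/-!
# Two orthogonal anisotropic vectors of a "Hermitian" space produce an isotropic vector

`B` is an alternating form over `F` on a space `Y` with an action `ρ` of a finite field `K` of `Q ^ 2`
elements, such that `B (ρ a u) v = B u (ρ (a ^ Q) v)`.
-/

set_option autoImplicit false
set_option linter.unusedSectionVars false
set_option linter.unusedSimpArgs false
set_option linter.unusedVariables false
set_option linter.style.haveILetI false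

namespace Cfsg.Agent.Lib.Classical.Elusive.TiHerm

open Polynomial Module
open Cfsg.Agent.Lib.Classical.Elusive.Inv Cfsg.Agent.Lib.Classical.Elusive.SpCore Cfsg.Agent.Lib.Classical.Elusive.SpAtoms

section Norm

variable {K : Type*} [Field K] [Fintype K]

theorem two_le_of_card {Q : ℕ} (hQ : Fintype.card K = Q ^ 2) : 2 ≤ Q := by
  have h1 : 1 < Fintype.card K := Fintype.one_lt_card
  rw [hQ] at h1
  by_contra h
  have : Q = 0 ∨ Q = 1 := by omega
  rcases this with rfl | rfl <;> simp at h1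

theorem exists_norm {Q : ℕ} (hQ : Fintype.card K = Q ^ 2) {x : K} (hx : x ^ Q = x) : ∃ θ : K, θ ^ (Q + 1) = x := by
  have hQ2 := two_le_of_card hQ
  by_cases h0 : x = 0
  · exact ⟨0, by rw [h0, zero_pow (by omega)]⟩
  obtain ⟨ω, hω, hgen⟩ := Cfsg.Agent.Lib.Classical.Elusive.PslNum.exists_gen (F := K)
  obtain ⟨k, hk⟩ := hgen (Units.mk0 x h0)
  have h1 : ω ^ (k * (Q - 1)) = 1 := by
    have h2 : (Units.mk0 x h0) ^ Q = Units.mk0 x h0 := by
      apply Units.ext
      simpa using hx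
    rw [← hk, ← pow_mul] at h2
    have h3 : k * Q = k * (Q - 1) + k := by
      obtain ⟨Q', rfl⟩ : ∃ Q', Q = Q' + 1 := ⟨Q - 1, by omega⟩
      simp
      ring
    rw [h3, pow_add] at h2
    exact mul_eq_right.1 h2
  have h2 := orderOf_dvd_of_pow_eq_one h1
  rw [hω, hQ] at h2
  have h3 : Q ^ 2 - 1 = (Q + 1) * (Q - 1) := by
    obtain ⟨Q', rfl⟩ : ∃ Q', Q = Q' + 1 := ⟨Q - 1, by omega⟩
    simp
    have : (Q' + 1) ^ 2 = (Q' + 1 + 1) * Q' + 1 := by ring
    omega
  rw [h3] at h2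
  have h4 : Q + 1 ∣ k := Nat.dvd_of_mul_dvd_mul_right (by omega) h2
  obtain ⟨j, rfl⟩ := h4
  refine ⟨(ω ^ j : Kˣ), ?_⟩
  have h5 : ((ω ^ j) ^ (Q + 1) : Kˣ) = Units.mk0 x h0 := by
    rw [← hk, ← pow_mul, mul_comm]
  have h6 := congrArg Units.val h5
  simpa using h6

theorem not_all_fixed {Q : ℕ} (hQ : Fintype.card K = Q ^ 2) : ¬ ∀ a : K, a ^ Q = a := by
  intro h
  have hQ2 := two_le_of_card hQ
  obtain ⟨ω, hω, -⟩ := Cfsg.Agent.Lib.Classical.Elusive.PslNum.exists_gen (F := K)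
  have h1 : ω ^ (Q - 1) = 1 := by
    have h2 : ω ^ Q = ω := by
      apply Units.ext
      simpa using h (ω : K)
    obtain ⟨Q', rfl⟩ : ∃ Q', Q = Q' + 1 := ⟨Q - 1, by omega⟩
    rw [pow_succ] at h2
    simpa using h2
  have h2 := orderOf_dvd_of_pow_eq_one h1
  rw [hω, hQ] at h2
  have h3 := Nat.le_of_dvd (by omega) h2
  have h4 : Q ^ 2 = Q * Q := by ring
  have h5 : 2 * Q ≤ Q * Q := Nat.mul_le_mul_right Q hQ2
  omega

end Norm

section Herm

variable {F K Y : Type*} [Field F] [Field K] [Algebra F K] [Fintype K] [FiniteDimensional F K] [AddCommGroup Y] [Module F Y]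

theorem herm_two (B : LinearMap.BilinForm F Y) (hA : B.IsAlt) (ρ : K →ₐ[F] Module.End F Y) {Q : ℕ} (hQ : Fintype.card K = Q ^ 2)
    (σ : K →+* K) (hσ : ∀ a, σ a = a ^ Q) (hadj : ∀ a u v, B (ρ a u) v = B u (ρ (σ a) v))
    (v₁ v₂ : Y) (h12 : ∀ a, B v₁ (ρ a v₂) = 0) (h2 : ∃ a, B v₂ (ρ a v₂) ≠ 0) :
    ∃ θ : K, ∀ a, B (v₁ + ρ θ v₂) (ρ a (v₁ + ρ θ v₂)) = 0 := by
  classical
  have hρ : ∀ (a b : K) (u : Y), ρ a (ρ b u) = ρ (a * b) u := by
    intro a b u
    rw [map_mul, Module.End.mul_apply]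
  have hss : ∀ a, σ (σ a) = a := by
    intro a
    rw [hσ, hσ, ← pow_mul, ← pow_two, ← hQ, FiniteField.pow_card]
  let f₁ : K →ₗ[F] F := (B v₁).comp ((LinearMap.applyₗ v₁).comp ρ.toLinearMap)
  let f₂ : K →ₗ[F] F := (B v₂).comp ((LinearMap.applyₗ v₂).comp ρ.toLinearMap)
  have hf₁ : ∀ a, f₁ a = B v₁ (ρ a v₁) := fun a => rfl
  have hf₂ : ∀ a, f₂ a = B v₂ (ρ a v₂) := fun a => rfl
  have hsig : ∀ (v : Y) (a : K), B v (ρ (σ a) v) = - B v (ρ a v) := by
    intro v a
    rw [← hadj, ← LinearMap.BilinForm.IsAlt.neg_eq hA v (ρ a v)]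
  let Ψ : K →ₗ[F] Module.Dual F K := LinearMap.mk₂ F (fun c a => f₂ (c * a))
    (by intro a b c; rw [add_mul, map_add])
    (by intro c a b; rw [smul_mul_assoc, map_smul])
    (by intro a b c; rw [mul_add, map_add])
    (by intro c a b; rw [mul_smul_comm, map_smul])
  have hΨ : ∀ c a, Ψ c a = f₂ (c * a) := fun c a => rfl
  have hinj : Function.Injective Ψ := by
    rw [injective_iff_map_eq_zero]
    intro c hc
    by_contra h0
    obtain ⟨a, ha⟩ := h2
    apply ha
    have h3 := LinearMap.congr_fun hc (c⁻¹ * a)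
    rw [hΨ, ← mul_assoc, mul_inv_cancel₀ h0, one_mul] at h3
    exact h3
  have hsurj : Function.Surjective Ψ :=
    (LinearMap.injective_iff_surjective_of_finrank_eq_finrank (Subspace.dual_finrank_eq).symm).1 hinj
  obtain ⟨c, hc⟩ := hsurj f₁
  have hc' : ∀ a, f₂ (c * a) = f₁ a := fun a => LinearMap.congr_fun hc a
  have hcσ : σ c = c := by
    apply hinj
    apply LinearMap.ext
    intro a
    rw [hΨ, hΨ, hc']
    have h3 : f₁ a = - f₁ (σ a) := by
      rw [hf₁, hf₁, hsig, neg_neg]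
    have h5 : f₁ (σ a) = f₂ (c * σ a) := (hc' _).symm
    have h6 : f₂ (σ (c * σ a)) = - f₂ (c * σ a) := hsig v₂ _
    have h7 : σ (c * σ a) = σ c * a := by rw [map_mul, hss]
    rw [← h7, h6, ← h5, ← h3]
  have hnc : (-c) ^ Q = -c := by
    rw [← hσ, map_neg, hcσ]
  obtain ⟨θ, hθ⟩ := exists_norm hQ hnc
  refine ⟨θ, fun a => ?_⟩
  have hσθ : σ θ * θ = -c := by
    rw [hσ, ← pow_succ, hθ]
  have h3 : B (ρ θ v₂) (ρ a (ρ θ v₂)) = - f₁ a := by
    rw [hadj, hρ, hρ, ← hc', hf₂]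
    have h4 : σ θ * a * θ = (-c) * a := by
      rw [← hσθ]
      ring
    rw [h4, neg_mul, map_neg, LinearMap.neg_apply, map_neg]
  have h4 : B v₁ (ρ a (ρ θ v₂)) = 0 := by
    rw [hρ]
    exact h12 _
  have h5 : B (ρ θ v₂) (ρ a v₁) = 0 := by
    rw [← LinearMap.BilinForm.IsAlt.neg_eq hA, hadj, hρ, h12, neg_zero]
  rw [map_add, map_add, LinearMap.add_apply, map_add, map_add, h3, h4, h5, ← hf₁]
  ring

end Herm

section Vec

variable {F V : Type*} [Field F] [Fintype F] [AddCommGroup V] [Module F V] [FiniteDimensional F V]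
  {B : LinearMap.BilinForm F V} {y : Module.End F V}

theorem coe_aeval_restrict {Y₀ : Submodule F V} (h : IsInv y Y₀) (P : F[X]) (u : ↥Y₀) :
    ((Polynomial.aeval (y.restrict h) P u : ↥Y₀) : V) = Polynomial.aeval y P (u : V) := by
  have h1 : ∀ (n : ℕ) (u : ↥Y₀), (((y.restrict h) ^ n) u : V) = (y ^ n) (u : V) := by
    intro n
    induction n with
    | zero => intro u; simp
    | succ n ih =>
      intro u
      rw [pow_succ, Module.End.mul_apply, ih, pow_succ, Module.End.mul_apply]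
      rfl
  induction P using Polynomial.induction_on' with
  | add p q hp hq =>
    simp only [map_add, LinearMap.add_apply, Submodule.coe_add, hp, hq]
  | monomial n a =>
    rw [aeval_monomial, aeval_monomial, Module.End.mul_apply, Module.End.mul_apply, Module.algebraMap_end_apply, Module.algebraMap_end_apply,
      Submodule.coe_smul, h1]

variable (F) in
theorem card_adjoin {g : F[X]} (hg : Irreducible g) [Fact (Irreducible g)] [Fintype (AdjoinRoot g)] :
    Fintype.card (AdjoinRoot g) = Fintype.card F ^ g.natDegree := by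
  haveI : Module.Finite F (AdjoinRoot g) := (AdjoinRoot.powerBasis hg.ne_zero).finite
  rw [Module.card_eq_pow_finrank (K := F), (AdjoinRoot.powerBasis hg.ne_zero).finrank, AdjoinRoot.powerBasis_dim]

/-- The `b`-th power of the Frobenius of `F`. -/
noncomputable def frobPow (K : Type*) [Field K] [Algebra F K] (b : ℕ) : K →ₐ[F] K := (FiniteField.frobeniusAlgHom F K) ^ b

theorem frobPow_apply (K : Type*) [Field K] [Algebra F K] (b : ℕ) (a : K) :
    frobPow (F := F) K b a = a ^ (Fintype.card F ^ b) := by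
  induction b generalizing a with
  | zero => simp [frobPow]
  | succ b ih =>
    have h1 : frobPow (F := F) K (b + 1) = frobPow (F := F) K b * FiniteField.frobeniusAlgHom F K := pow_succ _ _
    rw [h1, AlgHom.mul_apply, ih, FiniteField.coe_frobeniusAlgHom, ← pow_mul, pow_succ, mul_comm (Fintype.card F ^ b)]

/-- The two vector lemma. -/
theorem two_vec (hA : B.IsAlt) (hI : ∀ u v, B (y u) (y v) = B u v) {g : F[X]} (hg : Irreducible g) {b : ℕ} (hdeg : g.natDegree = 2 * b)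
    (hy : y ^ (Fintype.card F ^ b + 1) = 1) {v₁ v₂ : V} (h1 : Polynomial.aeval y g v₁ = 0) (h2 : Polynomial.aeval y g v₂ = 0)
    (h12 : ∀ P : F[X], B v₁ (Polynomial.aeval y P v₂) = 0) (h22 : ∃ P : F[X], B v₂ (Polynomial.aeval y P v₂) ≠ 0) :
    ∃ Θ : F[X], ∀ P : F[X], B (v₁ + Polynomial.aeval y Θ v₂) (Polynomial.aeval y P (v₁ + Polynomial.aeval y Θ v₂)) = 0 := by
  classical
  haveI : Fact (Irreducible g) := ⟨hg⟩
  let Y₀ : Submodule F V := LinearMap.ker (Polynomial.aeval y g)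
  have hY₀ : IsInv y Y₀ := isInv_ker_aeval y g
  let y₀ : Module.End F ↥Y₀ := y.restrict hY₀
  have hcoe : ∀ (P : F[X]) (u : ↥Y₀), ((Polynomial.aeval y₀ P u : ↥Y₀) : V) = Polynomial.aeval y P (u : V) := coe_aeval_restrict hY₀
  have hy₀g : Polynomial.aeval y₀ g = 0 := by
    apply LinearMap.ext
    intro u
    apply Subtype.ext
    rw [hcoe]
    exact u.2
  let B₀ : LinearMap.BilinForm F ↥Y₀ := B.restrict Y₀
  have hB₀ : ∀ u v : ↥Y₀, B₀ u v = B (u : V) (v : V) := fun u v => rfl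
  have hA₀ : B₀.IsAlt := fun u => hA (u : V)
  have hI₀ : ∀ u v, B₀ (y₀ u) (y₀ v) = B₀ u v := fun u v => hI u v
  have hy₀ : y₀ ^ (Fintype.card F ^ b + 1) = 1 := by
    apply LinearMap.ext
    intro u
    apply Subtype.ext
    have h3 := hcoe (X ^ (Fintype.card F ^ b + 1)) u
    simp only [map_pow, aeval_X] at h3
    rw [h3, hy]
    rfl
  let K := AdjoinRoot g
  haveI : Module.Finite F K := (AdjoinRoot.powerBasis hg.ne_zero).finite
  haveI : Finite K := Module.finite_of_finite F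
  haveI : Fintype K := Fintype.ofFinite K
  have hQ : Fintype.card K = (Fintype.card F ^ b) ^ 2 := by
    rw [card_adjoin F hg, hdeg, ← pow_mul, mul_comm 2]
  let ρ : K →ₐ[F] Module.End F ↥Y₀ := Ideal.Quotient.liftₐ (Ideal.span {g}) (Polynomial.aeval y₀) (by
    intro a ha
    obtain ⟨c, rfl⟩ := Ideal.mem_span_singleton.1 ha
    rw [map_mul, hy₀g, zero_mul])
  have hρ : ∀ P : F[X], ρ (AdjoinRoot.mk g P) = Polynomial.aeval y₀ P := fun P => rfl
  let σ : K →+* K := (frobPow (F := F) K b : K →+* K)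
  have hσ : ∀ a, σ a = a ^ (Fintype.card F ^ b) := frobPow_apply K b
  have hadj : ∀ a u v, B₀ (ρ a u) v = B₀ u (ρ (σ a) v) := by
    intro a u v
    obtain ⟨P, rfl⟩ := AdjoinRoot.mk_surjective a
    rw [hσ, ← map_pow, hρ, hρ, adj_aeval hI₀ hy₀, aeval_pow_card, map_pow]
  obtain ⟨θ, hθ⟩ := herm_two B₀ hA₀ ρ hQ σ hσ hadj (⟨v₁, h1⟩ : ↥Y₀) ⟨v₂, h2⟩
    (by
      intro a
      obtain ⟨P, rfl⟩ := AdjoinRoot.mk_surjective a
      rw [hρ, hB₀, hcoe]
      exact h12 P)
    (by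
      obtain ⟨P, hP⟩ := h22
      refine ⟨AdjoinRoot.mk g P, ?_⟩
      rw [hρ, hB₀, hcoe]
      exact hP)
  obtain ⟨Θ, rfl⟩ := AdjoinRoot.mk_surjective θ
  refine ⟨Θ, fun P => ?_⟩
  have h3 := hθ (AdjoinRoot.mk g P)
  rw [hρ, hρ] at h3
  obtain ⟨w₀, hw₀⟩ : ∃ w₀ : ↥Y₀, w₀ = ⟨v₁, h1⟩ + Polynomial.aeval y₀ Θ ⟨v₂, h2⟩ := ⟨_, rfl⟩
  rw [← hw₀] at h3
  have hw : (w₀ : V) = v₁ + Polynomial.aeval y Θ v₂ := by
    rw [hw₀]
    show v₁ + ((Polynomial.aeval y₀ Θ ⟨v₂, h2⟩ : ↥Y₀) : V) = _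
    rw [hcoe]
  have h4 : B (w₀ : V) (Polynomial.aeval y P (w₀ : V)) = 0 := by
    rw [← hcoe]
    exact h3
  rwa [hw] at h4

/-- There is a vector with nonzero form value. -/
theorem exists_polar_gen (hA : B.IsAlt) (hI : ∀ u v, B (y u) (y v) = B u v) {g : F[X]} (hg : Irreducible g) {b : ℕ} (hdeg : g.natDegree = 2 * b)
    (hy : y ^ (Fintype.card F ^ b + 1) = 1) {Y : Submodule F V} (hY : IsInv y Y) (hNd : Nd B Y)
    (hYg : Y ≤ LinearMap.ker (Polynomial.aeval y g)) (hne : Y ≠ ⊥) : ∃ u ∈ Y, B u (y u) ≠ 0 := by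
  classical
  by_contra hc
  push Not at hc
  set Q := Fintype.card F ^ b with hQdef
  obtain ⟨v, hv, hv0⟩ := Submodule.exists_mem_ne_zero_of_ne_bot hne
  have hQ0 : 0 < Q := by
    have : 0 < Fintype.card F := Fintype.card_pos
    positivity
  have hadj1 : ∀ u w, B (y u) w = B u ((y ^ Q) w) := by
    intro u w
    rw [← hI u, ← Module.End.mul_apply, ← pow_succ', hy]
    rfl
  have h1 : ∀ u ∈ Y, B u (y v) = B u ((y ^ Q) v) := by
    intro u hu
    have h2 := hc (u + v) (Y.add_mem hu hv)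
    rw [map_add, map_add, LinearMap.add_apply, map_add, map_add, hc u hu, hc v hv] at h2
    have h3 : B v (y u) = - B (y u) v := (LinearMap.BilinForm.IsAlt.neg_eq hA (y u) v).symm
    rw [h3, hadj1] at h2
    linear_combination h2
  have h2 : y v - (y ^ Q) v = 0 := by
    by_contra h3
    obtain ⟨w, hw, hw'⟩ := hNd _ (Y.sub_mem (hY v hv) (hY.pow Q hv)) h3
    apply hw'
    apply swap_zero hA
    rw [map_sub, h1 w hw, sub_self]
  have h3 : Polynomial.aeval y (X ^ Q - X : F[X]) v = 0 := by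
    rw [map_sub, map_pow, aeval_X, LinearMap.sub_apply]
    rw [← neg_eq_zero, neg_sub]
    exact h2
  have hdvd : g ∣ (X ^ Q - X : F[X]) := by
    by_contra hnd
    obtain ⟨a, c, hac⟩ := (hg.coprime_iff_not_dvd).2 hnd
    apply hv0
    have h4 := congrArg (fun p => Polynomial.aeval y p v) hac
    simp only [map_add, map_mul, LinearMap.add_apply, Module.End.mul_apply, map_one, Module.End.one_apply] at h4
    have h5 : Polynomial.aeval y g v = 0 := LinearMap.mem_ker.1 (hYg hv)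
    rw [h5, h3, map_zero, map_zero, add_zero] at h4
    exact h4.symm
  haveI : Fact (Irreducible g) := ⟨hg⟩
  let K := AdjoinRoot g
  haveI : Module.Finite F K := (AdjoinRoot.powerBasis hg.ne_zero).finite
  haveI : Finite K := Module.finite_of_finite F
  haveI : Fintype K := Fintype.ofFinite K
  have hQK : Fintype.card K = Q ^ 2 := by
    rw [card_adjoin F hg, hdeg, hQdef, ← pow_mul, mul_comm 2]
  apply not_all_fixed hQK
  have hroot : (AdjoinRoot.root g) ^ Q = AdjoinRoot.root g := by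
    have h4 : AdjoinRoot.mk g (X ^ Q - X) = 0 := AdjoinRoot.mk_eq_zero.2 hdvd
    rw [map_sub, map_pow, AdjoinRoot.mk_X] at h4
    exact sub_eq_zero.1 h4
  have hσ : frobPow (F := F) K b = AlgHom.id F K := by
    apply AdjoinRoot.algHom_ext
    rw [frobPow_apply, AlgHom.id_apply]
    exact hroot
  intro a
  have h4 := frobPow_apply (F := F) K b a
  rw [hσ, AlgHom.id_apply] at h4
  exact h4.symm

end Vec

end Cfsg.Agent.Lib.Classical.Elusive.TiHerm
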