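import Mathlib
import Cfsg.Agent.Lib.Classical.Elusive.TiHerm

/-!
# Invariant totally isotropic subspaces
-/

set_option autoImplicit false
set_option linter.unusedSectionVars false
set_option linter.unusedSimpArgs false
set_option linter.unusedVariables false
set_option linter.style.haveILetI false

namespace Cfsg.Agent.Lib.Classical.Elusive.TiBlock

open Polynomial Module
open Cfsg.Agent.Lib.Classical.Elusive.Inv Cfsg.Agent.Lib.Classical.Elusive.SpCore Cfsg.Agent.Lib.Classical.Elusive.SpAtoms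
  Cfsg.Agent.Lib.Classical.Elusive.TiHerm

variable {F V : Type*} [Field F] [AddCommGroup V] [Module F V] [FiniteDimensional F V]
  {B : LinearMap.BilinForm F V} {y : Module.End F V}

/-- Totally isotropic. -/
def TI (B : LinearMap.BilinForm F V) (T : Submodule F V) : Prop := ∀ u ∈ T, ∀ v ∈ T, B u v = 0

theorem TI_bot : TI B ⊥ := by
  intro u hu v hv
  rw [(Submodule.mem_bot F).1 hu, map_zero, LinearMap.zero_apply]

theorem TI.mono {S T : Submodule F V} (hT : TI B T) (h : S ≤ T) : TI B S := fun u hu v hv => hT u (h hu) v (h hv)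

theorem TI_sup (hA : B.IsAlt) {S T : Submodule F V} (hS : TI B S) (hT : TI B T) (hST : ∀ u ∈ S, ∀ v ∈ T, B u v = 0) : TI B (S ⊔ T) := by
  intro u hu v hv
  obtain ⟨a, ha, b, hb, rfl⟩ := Submodule.mem_sup.1 hu
  obtain ⟨c, hc, d, hd, rfl⟩ := Submodule.mem_sup.1 hv
  rw [map_add, map_add, LinearMap.add_apply, LinearMap.add_apply, hS a ha c hc, hST a ha d hd, swap_zero hA (hST c hc b hb), hT b hb d hd]
  simp

/-- Totally isotropic subspaces in a nondegenerate space. -/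
theorem exists_ti_sub (hA : B.IsAlt) : ∀ (u : ℕ) (Y : Submodule F V), Nd B Y → 2 * u ≤ finrank F Y → ∃ W, W ≤ Y ∧ finrank F W = u ∧ TI B W := by
  intro u
  induction u with
  | zero =>
    intro Y _ _
    exact ⟨⊥, bot_le, finrank_bot _ _, TI_bot⟩
  | succ u ih =>
    intro Y hY hu
    have h0 : Y ≠ ⊥ := by
      rintro rfl
      rw [finrank_bot] at hu
      omega
    obtain ⟨P, hPY, hPNd, hPd⟩ := exists_plane hA hY h0
    have h1 := finrank_orthIn hA hPY hPNd
    rw [hPd] at h1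
    obtain ⟨W', hW'le, hW'd, hW'ti⟩ := ih _ (Nd_orthIn hA hPY hPNd hY) (by omega)
    have hP0 : P ≠ ⊥ := by
      rintro rfl
      rw [finrank_bot] at hPd
      omega
    obtain ⟨v, hv, hv0⟩ := Submodule.exists_mem_ne_zero_of_ne_bot hP0
    let L := Submodule.span F {v}
    have hLP : L ≤ P := by
      rw [Submodule.span_le]
      simpa using hv
    have hLti : TI B L := by
      intro a ha b hb
      obtain ⟨s, rfl⟩ := Submodule.mem_span_singleton.1 ha
      obtain ⟨t, rfl⟩ := Submodule.mem_span_singleton.1 hb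
      simp [hA v]
    have horth : ∀ a ∈ L, ∀ b ∈ W', B a b = 0 := by
      intro a ha b hb
      exact swap_zero hA (((mem_orthIn hA).1 (hW'le hb)).2 a (hLP ha))
    refine ⟨L ⊔ W', sup_le (hLP.trans hPY) (hW'le.trans inf_le_left), ?_, TI_sup hA hLti hW'ti horth⟩
    have h2 := Submodule.finrank_sup_add_finrank_inf_eq L W'
    have h3 : L ⊓ W' = ⊥ := by
      rw [eq_bot_iff]
      rintro x ⟨hx1, hx2⟩
      have h4 := inf_orthIn (Y := Y) hA hPNd
      have h5 : x ∈ P ⊓ orthIn B Y P := ⟨hLP hx1, hW'le hx2⟩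
      rw [h4] at h5
      exact h5
    have h6 : finrank F L = 1 := finrank_span_singleton hv0
    rw [h3, finrank_bot, add_zero, h6, hW'd] at h2
    omega

section Gen

variable [Fintype F] {g : F[X]} {b : ℕ}

/-- A cyclic atom. -/
theorem exists_cyc (hg : Irreducible g) {u : V} (hu : u ≠ 0) (hgu : Polynomial.aeval y g u = 0) :
    ∃ T, IsInv y T ∧ u ∈ T ∧ finrank F T = g.natDegree ∧ (∀ W, IsInv y W → u ∈ W → T ≤ W) ∧ ∀ x ∈ T, ∃ P : F[X], x = Polynomial.aeval y P u := by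
  obtain ⟨T, hT, huT, hTd, hmin⟩ := exists_cyclic hg hu hgu
  refine ⟨T, hT, huT, hTd, hmin, ?_⟩
  let φ : F[X] →ₗ[F] V := (LinearMap.applyₗ u).comp (Polynomial.aeval y).toLinearMap
  have hφ : ∀ f, φ f = Polynomial.aeval y f u := fun f => rfl
  have hC : IsInv y (LinearMap.range φ) := by
    rintro _ ⟨f, rfl⟩
    refine ⟨X * f, ?_⟩
    rw [hφ, hφ, map_mul, aeval_X, Module.End.mul_apply]
  have huC : u ∈ LinearMap.range φ := ⟨1, by rw [hφ, map_one]; rfl⟩
  intro x hx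
  obtain ⟨f, rfl⟩ := hmin _ hC huC hx
  exact ⟨f, hφ f⟩

/-- Atoms are nondegenerate or totally isotropic. -/
theorem atom_dich_gen (hA : B.IsAlt) (hI : ∀ u v, B (y u) (y v) = B u v) (hg : Irreducible g) {m : ℕ} (hy : y ^ (m + 1) = 1)
    {T : Submodule F V} (hT : IsInv y T) (hTg : T ≤ LinearMap.ker (Polynomial.aeval y g)) (hTd : finrank F T = g.natDegree) :
    Nd B T ∨ TI B T := by
  have hfac : ∀ d, Irreducible d → d ∣ g → d.natDegree = g.natDegree := by
    intro d hd hdg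
    obtain ⟨c, rfl⟩ := hdg
    have := (hg.isUnit_or_isUnit rfl).resolve_left hd.not_isUnit
    rw [natDegree_mul hd.ne_zero this.ne_zero, natDegree_eq_zero_of_isUnit this, add_zero]
  have hW := isInv_orthIn hA hI (Nat.succ_pos m) hy hT hT
  have hdeg := hg.natDegree_pos
  have h1 : g.natDegree ∣ finrank F ↥(orthIn B T T) :=
    dvd_finrank hW hg.ne_zero hdeg hfac (fun v hv => hTg hv.1)
  have h2 : orthIn B T T ≤ T := inf_le_left
  have h3 := Submodule.finrank_mono h2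
  rw [hTd] at h3
  by_cases h4 : finrank F ↥(orthIn B T T) = 0
  · left
    have h5 := Submodule.finrank_eq_zero.1 h4
    intro u hu hu0
    by_contra hc
    push Not at hc
    have h6 : u ∈ orthIn B T T := (mem_orthIn hA).2 ⟨hu, hc⟩
    rw [h5] at h6
    exact hu0 ((Submodule.mem_bot F).1 h6)
  · right
    have h5 := Nat.le_of_dvd (Nat.pos_of_ne_zero h4) h1
    have h6 : orthIn B T T = T := Submodule.eq_of_le_of_finrank_eq h2 (by omega)
    intro u hu v hv
    rw [← h6] at hu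
    exact ((mem_orthIn hA).1 hu).2 v hv

/-- Adjoint for powers of the Frobenius. -/
theorem adj_pow (hI : ∀ u v, B (y u) (y v) = B u v) (hy : y ^ (Fintype.card F ^ b + 1) = 1) (P : F[X]) (u v : V) :
    B (Polynomial.aeval y P u) v = B u (Polynomial.aeval y (P ^ Fintype.card F ^ b) v) := by
  rw [adj_aeval hI hy, aeval_pow_card, map_pow]

/-- Kernels of coprime polynomials are orthogonal. -/
theorem orth_of_coprime (hI : ∀ u v, B (y u) (y v) = B u v) (hy : y ^ (Fintype.card F ^ b + 1) = 1) {h : F[X]} (hco : IsCoprime g h)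
    {u v : V} (hu : Polynomial.aeval y g u = 0) (hv : Polynomial.aeval y h v = 0) : B u v = 0 := by
  obtain ⟨a, c, hac⟩ := IsCoprime.pow_left (m := Fintype.card F ^ b) hco
  have h1 := congrArg (fun p => Polynomial.aeval y p v) hac
  simp only [map_add, map_mul, LinearMap.add_apply, Module.End.mul_apply, map_one, Module.End.one_apply, hv, map_zero, add_zero] at h1
  rw [← h1]
  have h2 : Polynomial.aeval y a (Polynomial.aeval y (g ^ Fintype.card F ^ b) v) = Polynomial.aeval y (g ^ Fintype.card F ^ b) (Polynomial.aeval y a v) := by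
    rw [← Module.End.mul_apply, ← map_mul, mul_comm, map_mul, Module.End.mul_apply]
  rw [h2, ← adj_pow hI hy, hu, map_zero, LinearMap.zero_apply]

/-- The key construction: half of the dimension is realised, up to one block. -/
theorem exists_ti_half (hA : B.IsAlt) (hI : ∀ u v, B (y u) (y v) = B u v) (hg : Irreducible g) (hdeg : g.natDegree = 2 * b)
    (hy : y ^ (Fintype.card F ^ b + 1) = 1) : ∀ (n : ℕ) (Y : Submodule F V), finrank F Y = n → IsInv y Y → Nd B Y →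
      Y ≤ LinearMap.ker (Polynomial.aeval y g) → ∃ T, T ≤ Y ∧ IsInv y T ∧ TI B T ∧ finrank F Y ≤ 2 * finrank F T + g.natDegree := by
  intro n
  induction n using Nat.strong_induction_on with
  | _ n ih =>
    intro Y hn hY hNd hYg
    by_cases h0 : Y = ⊥
    · subst h0
      exact ⟨⊥, le_rfl, hY, TI_bot, by simp⟩
    -- first atom
    have atom : ∀ Z : Submodule F V, IsInv y Z → Nd B Z → Z ≤ LinearMap.ker (Polynomial.aeval y g) → Z ≠ ⊥ →
        ∃ u ∈ Z, u ≠ 0 ∧ (∃ P : F[X], B u (Polynomial.aeval y P u) ≠ 0) ∧ ∃ N, N ≤ Z ∧ IsInv y N ∧ Nd B N ∧ finrank F N = g.natDegree ∧ u ∈ N ∧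
          ∀ W, IsInv y W → u ∈ W → N ≤ W := by
      intro Z hZ hZNd hZg hZ0
      obtain ⟨u, hu, hu'⟩ := exists_polar_gen hA hI hg hdeg hy hZ hZNd hZg hZ0
      have hu0 : u ≠ 0 := by
        rintro rfl
        simp at hu'
      obtain ⟨N, hN, huN, hNd', hmin, -⟩ := exists_cyc hg hu0 (LinearMap.mem_ker.1 (hZg hu))
      have hNZ : N ≤ Z := hmin Z hZ hu
      refine ⟨u, hu, hu0, ⟨X, by rwa [aeval_X]⟩, N, hNZ, hN, ?_, hNd', huN, hmin⟩
      rcases atom_dich_gen hA hI hg hy hN (hNZ.trans hZg) hNd' with h1 | h1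
      · exact h1
      · exact absurd (h1 u huN _ (hN u huN)) hu'
    obtain ⟨u₁, hu₁, hu₁0, -, N₁, hN₁Y, hN₁, hN₁Nd, hN₁d, hu₁N, hN₁min⟩ := atom Y hY hNd hYg h0
    have hfr1 := finrank_orthIn hA hN₁Y hN₁Nd
    have hr0 : 0 < Fintype.card F ^ b + 1 := Nat.succ_pos _
    have hY₁ := isInv_orthIn hA hI hr0 hy hY hN₁
    have hY₁Nd := Nd_orthIn hA hN₁Y hN₁Nd hNd
    by_cases h1 : orthIn B Y N₁ = ⊥
    · rw [h1, finrank_bot, add_zero, hN₁d] at hfr1
      refine ⟨⊥, bot_le, isInv_bot y, TI_bot, ?_⟩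
      rw [finrank_bot]
      omega
    obtain ⟨u₂, hu₂, hu₂0, hP₂, N₂, hN₂Y, hN₂, hN₂Nd, hN₂d, hu₂N, hN₂min⟩ := atom _ hY₁ hY₁Nd (inf_le_left.trans hYg) h1
    have horth12 : ∀ a ∈ N₁, ∀ c ∈ N₂, B a c = 0 := by
      intro a ha c hc
      exact swap_zero hA (((mem_orthIn hA).1 (hN₂Y hc)).2 a ha)
    obtain ⟨Θ, hΘ⟩ := two_vec hA hI hg hdeg hy (LinearMap.mem_ker.1 (hN₁Y.trans hYg hu₁N)) (LinearMap.mem_ker.1 ((hN₂Y.trans inf_le_left).trans hYg hu₂N))
      (fun P => horth12 _ hu₁N _ (hN₂.aeval P hu₂N)) hP₂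
    set w := u₁ + Polynomial.aeval y Θ u₂ with hw
    have hN₁₂inv : IsInv y (N₁ ⊔ N₂) := hN₁.sup hN₂
    have hwN : w ∈ N₁ ⊔ N₂ := Submodule.add_mem_sup hu₁N (hN₂.aeval Θ hu₂N)
    have hw0 : w ≠ 0 := by
      intro h
      have h2 : u₁ = - Polynomial.aeval y Θ u₂ := eq_neg_of_add_eq_zero_left h
      have h3 : u₁ ∈ N₂ := by
        rw [h2]
        exact N₂.neg_mem (hN₂.aeval Θ hu₂N)
      have h4 : u₁ ∈ N₁ ⊓ orthIn B Y N₁ := ⟨hu₁N, hN₂Y h3⟩
      rw [inf_orthIn hA hN₁Nd] at h4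
      exact hu₁0 ((Submodule.mem_bot F).1 h4)
    have hN₁₂Y : N₁ ⊔ N₂ ≤ Y := sup_le hN₁Y (hN₂Y.trans inf_le_left)
    have hgw : Polynomial.aeval y g w = 0 := LinearMap.mem_ker.1 (hYg (hN₁₂Y hwN))
    obtain ⟨T₀, hT₀, hwT, hT₀d, hT₀min, hT₀mem⟩ := exists_cyc hg hw0 hgw
    have hT₀le : T₀ ≤ N₁ ⊔ N₂ := hT₀min _ hN₁₂inv hwN
    have hT₀ti : TI B T₀ := by
      intro a ha c hc
      obtain ⟨P, rfl⟩ := hT₀mem a ha
      obtain ⟨R, rfl⟩ := hT₀mem c hc
      rw [adj_pow hI hy, ← Module.End.mul_apply, ← map_mul]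
      exact hΘ _
    have hN₁₂Nd : Nd B (N₁ ⊔ N₂) := Nd_sup hA hN₁Nd hN₂Nd horth12
    have hfr12 : finrank F ↥(N₁ ⊔ N₂) = 2 * g.natDegree := by
      have h2 := Submodule.finrank_sup_add_finrank_inf_eq N₁ N₂
      rw [inf_eq_bot_of_orth hN₁Nd horth12 hA, finrank_bot, add_zero, hN₁d, hN₂d] at h2
      omega
    have hfr2 := finrank_orthIn hA hN₁₂Y hN₁₂Nd
    rw [hfr12] at hfr2
    have hdegpos := hg.natDegree_pos
    obtain ⟨T', hT'le, hT', hT'ti, hT'd⟩ := ih (finrank F ↥(orthIn B Y (N₁ ⊔ N₂))) (by omega) _ rfl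
      (isInv_orthIn hA hI hr0 hy hY hN₁₂inv) (Nd_orthIn hA hN₁₂Y hN₁₂Nd hNd) (inf_le_left.trans hYg)
    have horth : ∀ a ∈ T₀, ∀ c ∈ T', B a c = 0 := by
      intro a ha c hc
      exact swap_zero hA (((mem_orthIn hA).1 (hT'le hc)).2 a (hT₀le ha))
    refine ⟨T₀ ⊔ T', sup_le (hT₀le.trans hN₁₂Y) (hT'le.trans inf_le_left), hT₀.sup hT', TI_sup hA hT₀ti hT'ti horth, ?_⟩
    have h3 := Submodule.finrank_sup_add_finrank_inf_eq T₀ T'
    have h4 : T₀ ⊓ T' = ⊥ := by
      rw [eq_bot_iff]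
      rintro x ⟨hx1, hx2⟩
      have h5 : x ∈ (N₁ ⊔ N₂) ⊓ orthIn B Y (N₁ ⊔ N₂) := ⟨hT₀le hx1, hT'le hx2⟩
      rw [inf_orthIn hA hN₁₂Nd] at h5
      exact h5
    rw [h4, finrank_bot, add_zero, hT₀d] at h3
    omega

end Gen

section Prim

variable [Fintype F] {r b : ℕ}

theorem natDegree_Phi (hr : (r : F) ≠ 0) (hr0 : 0 < r) : (Phi F r).natDegree = r - 1 := by
  have h1 : (Phi F r * (X - 1)).natDegree = r := by
    rw [Phi_mul]
    have := natDegree_X_pow_sub_C (R := F) (n := r) (r := 1)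
    simpa using this
  have h3 : (X - 1 : F[X]) ≠ 0 := by
    intro h2
    exact X_sub_C_ne_zero (1 : F) (by simpa using h2)
  have h4 : (X - 1 : F[X]).natDegree = 1 := by
    have := natDegree_X_sub_C (1 : F)
    simpa using this
  rw [natDegree_mul (Phi_ne_zero hr) h3, h4] at h1
  omega

theorem Nd_Ker_top (hA : B.IsAlt) (hN : B.Nondegenerate) (hI : ∀ u v, B (y u) (y v) = B u v) (hr : (r : F) ≠ 0) (hy : y ^ r = 1) : Nd B (Ker y r) :=
  fun _ hu hu0 => ker_nondeg hA hN hI hr hy hu hu0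

theorem Nd_Fix_top (hA : B.IsAlt) (hN : B.Nondegenerate) (hI : ∀ u v, B (y u) (y v) = B u v) (hr : (r : F) ≠ 0) (hy : y ^ r = 1) : Nd B (Fix y) :=
  fun _ hu hu0 => fix_nondeg hA hN hI hr hy hu hu0

/-- The kernel of an irreducible factor is nondegenerate. -/
theorem Nd_ker_factor (hA : B.IsAlt) (hN : B.Nondegenerate) (hI : ∀ u v, B (y u) (y v) = B u v) (hr : (r : F) ≠ 0) (hy : y ^ r = 1)
    (hyQ : y ^ (Fintype.card F ^ b + 1) = 1) {g h : F[X]} (hgh : Phi F r = g * h) (hco : IsCoprime g h) :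
    Nd B (LinearMap.ker (Polynomial.aeval y g)) := by
  have hgm : ∀ u, Polynomial.aeval y g u = 0 → Polynomial.aeval (y ^ (Fintype.card F ^ b)) g u = 0 := by
    intro u hu
    have hQ0 : Fintype.card F ^ b ≠ 0 := pow_ne_zero _ Fintype.card_ne_zero
    rw [aeval_pow_card]
    obtain ⟨k, hk⟩ : ∃ k, Fintype.card F ^ b = k + 1 := ⟨Fintype.card F ^ b - 1, by omega⟩
    rw [hk, pow_succ, Module.End.mul_apply, hu, map_zero]
  have h1 := ker_g_Nd hA hgh hco hI hyQ hgm (isInv_Ker y r) (Nd_Ker_top hA hN hI hr hy) le_rfl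
  have h2 : Ker y r ⊓ LinearMap.ker (Polynomial.aeval y g) = LinearMap.ker (Polynomial.aeval y g) := by
    apply inf_eq_right.2
    intro u hu
    rw [mem_Ker, hgh, mul_comm, map_mul, Module.End.mul_apply, LinearMap.mem_ker.1 hu, map_zero]
  rwa [h2] at h1

/-- Claim S: the case of even order. -/
theorem exists_ti_dvd (hA : B.IsAlt) (hN : B.Nondegenerate) (hI : ∀ u v, B (y u) (y v) = B u v) (hr : (r : F) ≠ 0) (hy : y ^ r = 1)
    (hyQ : y ^ (Fintype.card F ^ b + 1) = 1) (hfac : ∀ d, Irreducible d → d ∣ Phi F r → d.natDegree = 2 * b) (P : F[X]) :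
    P ∣ Phi F r → ∃ T, IsInv y T ∧ T ≤ LinearMap.ker (Polynomial.aeval y P) ∧ TI B T ∧
      finrank F ↥(LinearMap.ker (Polynomial.aeval y P)) ≤ 2 * finrank F T + P.natDegree := by
  induction P using WfDvdMonoid.induction_on_irreducible with
  | zero =>
    intro h
    exact absurd (zero_dvd_iff.1 h) (Phi_ne_zero hr)
  | unit a ha =>
    intro _
    refine ⟨⊥, isInv_bot y, bot_le, TI_bot, ?_⟩
    have h1 : LinearMap.ker (Polynomial.aeval y a) = ⊥ := by
      rw [eq_bot_iff]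
      intro u hu
      obtain ⟨c, hc⟩ := isUnit_iff_exists_inv.1 ha
      have h2 := congrArg (fun p => Polynomial.aeval y p u) hc
      simp only [map_mul, Module.End.mul_apply, map_one, Module.End.one_apply] at h2
      rw [mul_comm] at hc
      have h3 := congrArg (fun p => Polynomial.aeval y p u) hc
      simp only [map_mul, Module.End.mul_apply, map_one, Module.End.one_apply, LinearMap.mem_ker.1 hu, map_zero] at h3
      rw [Submodule.mem_bot]
      exact h3.symm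
    rw [h1, finrank_bot]
    omega
  | mul a g ha hg ih =>
    intro hdvd
    obtain ⟨T', hT', hT'le, hT'ti, hT'd⟩ := ih (dvd_of_mul_left_dvd hdvd)
    have hco : IsCoprime g a := by
      refine (hg.coprime_iff_not_dvd).2 ?_
      rintro ⟨e, rfl⟩
      have h2 : g * g ∣ Phi F r := by
        refine dvd_trans ?_ hdvd
        exact ⟨e, by ring⟩
      exact hg.not_isUnit ((squarefree_Phi hr) g h2)
    obtain ⟨h, hh⟩ : g ∣ Phi F r := (dvd_mul_right g a).trans hdvd
    have hco' : IsCoprime g h := by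
      refine (hg.coprime_iff_not_dvd).2 ?_
      rintro ⟨e, rfl⟩
      have h2 : g * g ∣ Phi F r := ⟨e, by rw [hh]; ring⟩
      exact hg.not_isUnit ((squarefree_Phi hr) g h2)
    have hNd := Nd_ker_factor hA hN hI hr hy hyQ hh hco'
    have hdeg := hfac g hg ⟨h, hh⟩
    obtain ⟨T₀, hT₀le, hT₀, hT₀ti, hT₀d⟩ := exists_ti_half hA hI hg hdeg hyQ _ _ rfl (isInv_ker_aeval y g) hNd le_rfl
    have horth : ∀ u ∈ T₀, ∀ v ∈ T', B u v = 0 := fun u hu v hv =>
      orth_of_coprime hI hyQ hco (LinearMap.mem_ker.1 (hT₀le hu)) (LinearMap.mem_ker.1 (hT'le hv))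
    have hsup := Polynomial.sup_ker_aeval_eq_ker_aeval_mul_of_coprime y hco
    have hdis := Polynomial.disjoint_ker_aeval_of_isCoprime y hco
    refine ⟨T₀ ⊔ T', hT₀.sup hT', ?_, TI_sup hA hT₀ti hT'ti horth, ?_⟩
    · rw [← hsup]
      exact sup_le_sup hT₀le hT'le
    · have h1 := Submodule.finrank_sup_add_finrank_inf_eq (LinearMap.ker (Polynomial.aeval y g)) (LinearMap.ker (Polynomial.aeval y a))
      rw [hsup, hdis.eq_bot, finrank_bot, add_zero] at h1
      have h2 := Submodule.finrank_sup_add_finrank_inf_eq T₀ T'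
      have h3 : T₀ ⊓ T' = ⊥ := by
        rw [eq_bot_iff, ← hdis.eq_bot]
        exact inf_le_inf hT₀le hT'le
      rw [h3, finrank_bot, add_zero] at h2
      rw [h1, h2, natDegree_mul hg.ne_zero ha]
      omega

end Prim

/-- The case of odd order. -/
theorem exists_ti_odd {r i : ℕ} (hA : B.IsAlt) (hI : ∀ u v, B (y u) (y v) = B u v) (hr : (r : F) ≠ 0) (hr0 : 0 < r) (hy : y ^ r = 1) (hi : 0 < i)
    (hfac : ∀ d, Irreducible d → d ∣ Phi F r → d.natDegree = i) (hodd : Odd i) :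
    ∀ (n : ℕ) (Y : Submodule F V), finrank F Y = n → IsInv y Y → Nd B Y → Y ≤ Ker y r →
      ∃ T, T ≤ Y ∧ IsInv y T ∧ TI B T ∧ finrank F Y ≤ 2 * finrank F T := by
  intro n
  induction n using Nat.strong_induction_on with
  | _ n ih =>
    intro Y hn hY hNd hYK
    by_cases h0 : Y = ⊥
    · subst h0
      exact ⟨⊥, le_rfl, hY, TI_bot, by simp⟩
    obtain ⟨N, hNY, hN, hNNd, hNd'⟩ := exists_block_odd hA hI hr hr0 hy hi hfac hodd hY hNd hYK h0
    have hNK := hNY.trans hYK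
    have hN0 : N ≠ ⊥ := by
      rintro rfl
      rw [finrank_bot] at hNd'
      omega
    obtain ⟨T₀, hT₀, hT₀N, hT₀d⟩ := exists_atom hr hi hfac hN hNK hN0
    have hT₀ti : TI B T₀ := by
      rcases atom_dich hA hI hr hr0 hy hi hfac hT₀ (hT₀N.trans hNK) hT₀d with h1 | h1
      · have := h1.even hA
        rw [hT₀d] at this
        exact absurd this (Nat.not_even_iff_odd.2 hodd)
      · exact h1
    have hfr := finrank_orthIn hA hNY hNNd
    rw [hNd'] at hfr
    obtain ⟨T', hT'le, hT', hT'ti, hT'd⟩ := ih (finrank F ↥(orthIn B Y N)) (by omega) _ rfl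
      (isInv_orthIn hA hI hr0 hy hY hN) (Nd_orthIn hA hNY hNNd hNd) (inf_le_left.trans hYK)
    have horth : ∀ a ∈ T₀, ∀ c ∈ T', B a c = 0 := by
      intro a ha c hc
      exact swap_zero hA (((mem_orthIn hA).1 (hT'le hc)).2 a (hT₀N ha))
    refine ⟨T₀ ⊔ T', sup_le (hT₀N.trans hNY) (hT'le.trans inf_le_left), hT₀.sup hT', TI_sup hA hT₀ti hT'ti horth, ?_⟩
    have h3 := Submodule.finrank_sup_add_finrank_inf_eq T₀ T'
    have h4 : T₀ ⊓ T' = ⊥ := by
      rw [eq_bot_iff]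
      rintro x ⟨hx1, hx2⟩
      have h5 : x ∈ N ⊓ orthIn B Y N := ⟨hT₀N hx1, hT'le hx2⟩
      rw [inf_orthIn hA hNNd] at h5
      exact h5
    rw [h4, finrank_bot, add_zero, hT₀d] at h3
    omega

/-- Assembling an invariant totally isotropic subspace. -/
theorem exists_W [Fintype F] {r i : ℕ} (hA : B.IsAlt) (hN : B.Nondegenerate) (hI : ∀ u v, B (y u) (y v) = B u v) (hr : (r : F) ≠ 0) (hy : y ^ r = 1)
    (hfac : ∀ d, Irreducible d → d ∣ Phi F r → d.natDegree = i) {T₀ : Submodule F V} (hT₀ : IsInv y T₀) (hT₀K : T₀ ≤ Ker y r) (hT₀ti : TI B T₀)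
    {u K : ℕ} (hK : i * K ≤ finrank F T₀) (hu : 2 * u ≤ finrank F (Fix y)) :
    ∃ W : Submodule F V, finrank F W = u + i * K ∧ TI B W ∧ IsInv y W := by
  obtain ⟨T, hT, -, hTle, hTd⟩ := chain_exists hT₀ (Phi_ne_zero hr) hfac (fun v hv => hT₀K hv) (isInv_bot y) bot_le K
    (by rw [finrank_bot, zero_add]; exact hK)
  rw [finrank_bot, zero_add] at hTd
  obtain ⟨U, hUle, hUd, hUti⟩ := exists_ti_sub hA u (Fix y) (Nd_Fix_top hA hN hI hr hy) hu
  have hUinv : IsInv y U := by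
    intro v hv
    rw [mem_Fix.1 (hUle hv)]
    exact hv
  refine ⟨U ⊔ T, ?_, TI_sup hA hUti (hT₀ti.mono hTle) ?_, hUinv.sup hT⟩
  · rw [finrank_sup_of_le hr hUle (hTle.trans hT₀K), hUd, hTd]
  · intro a ha c hc
    exact orth_Fix_Ker hI hr (hUle ha) (hT₀K (hTle hc))

end Cfsg.Agent.Lib.Classical.Elusive.TiBlock
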