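import Mathlib
import Cfsg.Agent.Lib.Classical.Elusive.TiBlock

/-!
# Invariant totally isotropic subspaces: necessary conditions and the involution case
-/

set_option autoImplicit false
set_option linter.unusedSectionVars false
set_option linter.unusedSimpArgs false
set_option linter.unusedVariables false
set_option linter.style.haveILetI false

namespace Cfsg.Agent.Lib.Classical.Elusive.TiAbs

open Polynomial Module
open Cfsg.Agent.Lib.Classical.Elusive.Inv Cfsg.Agent.Lib.Classical.Elusive.SpCore Cfsg.Agent.Lib.Classical.Elusive.SpAtoms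
  Cfsg.Agent.Lib.Classical.Elusive.TiHerm Cfsg.Agent.Lib.Classical.Elusive.TiBlock

variable {F V : Type*} [Field F] [AddCommGroup V] [Module F V] [FiniteDimensional F V]
  {B : LinearMap.BilinForm F V} {y : Module.End F V}

theorem two_ti_le (hA : B.IsAlt) {Y W : Submodule F V} (hY : Nd B Y) (hWY : W ≤ Y) (hW : TI B W) : 2 * finrank F W ≤ finrank F Y := by
  have hN := hY.restrict hA
  let W' : Submodule F Y := W.comap Y.subtype
  have h1 : finrank F W' = finrank F W := (Submodule.comapSubtypeEquivOfLe hWY).finrank_eq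
  have h2 := LinearMap.BilinForm.finrank_orthogonal hN W'
  have h3 : W' ≤ (B.restrict Y).orthogonal W' := by
    intro x hx
    rw [LinearMap.BilinForm.mem_orthogonal_iff]
    intro n hn
    exact hW _ hn _ hx
  have h4 := Submodule.finrank_mono h3
  have h5 := Submodule.finrank_le W'
  omega

theorem Nd_top (hN : B.Nondegenerate) : Nd B ⊤ := by
  intro u _ hu0
  by_contra hc
  push Not at hc
  exact hu0 (hN.1 u (fun v => hc v trivial))

section

variable [Fintype F] {r i b : ℕ}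

theorem split_W (hA : B.IsAlt) (hN : B.Nondegenerate) (hI : ∀ u v, B (y u) (y v) = B u v) (hr : (r : F) ≠ 0) (hy : y ^ r = 1) (hi : 0 < i)
    (hfac : ∀ d, Irreducible d → d ∣ Phi F r → d.natDegree = i) {W : Submodule F V} (hW : IsInv y W) (hti : TI B W) :
    ∃ K, finrank F W = finrank F ↥(W ⊓ Fix y) + i * K ∧ finrank F ↥(W ⊓ Ker y r) = i * K ∧ 2 * finrank F ↥(W ⊓ Fix y) ≤ finrank F (Fix y) := by
  obtain ⟨K, hK⟩ := dvd_finrank (hW.inf (isInv_Ker y r)) (Phi_ne_zero hr) hi hfac (fun v hv => hv.2)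
  refine ⟨K, ?_, hK, two_ti_le hA (Nd_Fix_top hA hN hI hr hy) inf_le_right (hti.mono inf_le_left)⟩
  rw [finrank_split hr hy hW, hK]

/-- If all factors but one occur at most once then invariant totally isotropic subspaces of `Ker` lie in the kernel of the remaining factor. -/
theorem inf_Ker_le (hA : B.IsAlt) (hN : B.Nondegenerate) (hI : ∀ u v, B (y u) (y v) = B u v) (hr : (r : F) ≠ 0) (hy : y ^ r = 1)
    (hyQ : y ^ (Fintype.card F ^ b + 1) = 1) (hb : 0 < b) (hfac : ∀ d, Irreducible d → d ∣ Phi F r → d.natDegree = 2 * b)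
    {g₀ h : F[X]} (hh : Phi F r = g₀ * h) (hco : IsCoprime g₀ h)
    (hother : ∀ g : F[X], g.Monic → Irreducible g → g ∣ h → finrank F (LinearMap.ker (Polynomial.aeval y g)) ≤ 2 * b)
    {W : Submodule F V} (hW : IsInv y W) (hti : TI B W) : W ⊓ Ker y r ≤ LinearMap.ker (Polynomial.aeval y g₀) := by
  rintro u ⟨huW, huK⟩
  have hu0 := mem_Ker.1 huK
  obtain ⟨a, c, hac⟩ := hco
  have hu : Polynomial.aeval y (a * g₀) u + Polynomial.aeval y (c * h) u = u := by
    have h3 := congrArg (fun p => Polynomial.aeval y p u) hac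
    simpa only [map_add, LinearMap.add_apply, map_one, Module.End.one_apply] using h3
  have hkill : Polynomial.aeval y h (Polynomial.aeval y (a * g₀) u) = 0 := by
    rw [← Module.End.mul_apply, ← map_mul]
    have h5 : h * (a * g₀) = a * Phi F r := by rw [hh]; ring
    rw [h5, map_mul, Module.End.mul_apply, hu0, map_zero]
  have hh0 : h ≠ 0 := by
    rintro rfl
    rw [mul_zero] at hh
    exact Phi_ne_zero hr hh
  have hu2 : Polynomial.aeval y (a * g₀) u = 0 := by
    by_contra hne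
    obtain ⟨g', hg', hg'h, f, hf, hgf⟩ := exists_irr_kill (y := y) h hh0 _ hne hkill
    obtain ⟨g'', hm, hg'', h1, h2, hdeg⟩ := Cfsg.Agent.Lib.Classical.Elusive.PslNum.exists_monic_assoc hg'
    set w := Polynomial.aeval y f (Polynomial.aeval y (a * g₀) u) with hw
    have hwW : w ∈ W := hW.aeval f (hW.aeval _ huW)
    have hg''w : Polynomial.aeval y g'' w = 0 := by
      obtain ⟨e, he⟩ := h2
      rw [he, mul_comm, map_mul, Module.End.mul_apply, hgf, map_zero]
    have hg''h : g'' ∣ h := h1.trans hg'h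
    have hg''P : g'' ∣ Phi F r := hg''h.trans ⟨g₀, by rw [hh]; ring⟩
    obtain ⟨T, hT, hwT, hTd, hmin, -⟩ := exists_cyc hg'' hf hg''w
    have hTW : T ≤ W := hmin W hW hwW
    have hTk : T ≤ LinearMap.ker (Polynomial.aeval y g'') := hmin _ (isInv_ker_aeval y g'') hg''w
    obtain ⟨e, he⟩ := hg''P
    have hco' : IsCoprime g'' e := by
      refine (hg''.coprime_iff_not_dvd).2 ?_
      rintro ⟨e', rfl⟩
      have h2' : g'' * g'' ∣ Phi F r := ⟨e', by rw [he]; ring⟩
      exact hg''.not_isUnit ((squarefree_Phi hr) g'' h2')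
    have hNd := Nd_ker_factor hA hN hI hr hy hyQ he hco'
    have h3 := two_ti_le hA hNd hTk (hti.mono hTW)
    have h4 := hother g'' hm hg'' hg''h
    have h5 := hfac g'' hg'' ⟨e, he⟩
    rw [hTd, h5] at h3
    omega
  rw [hu2, zero_add] at hu
  rw [LinearMap.mem_ker, ← hu, ← Module.End.mul_apply, ← map_mul]
  have h5 : g₀ * (c * h) = c * Phi F r := by rw [hh]; ring
  rw [h5, map_mul, Module.End.mul_apply, hu0, map_zero]

/-- The bound. -/
theorem two_inf_Ker_le (hA : B.IsAlt) (hN : B.Nondegenerate) (hI : ∀ u v, B (y u) (y v) = B u v) (hr : (r : F) ≠ 0) (hy : y ^ r = 1)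
    (hyQ : y ^ (Fintype.card F ^ b + 1) = 1) (hb : 0 < b) (hfac : ∀ d, Irreducible d → d ∣ Phi F r → d.natDegree = 2 * b)
    {g₀ h : F[X]} (hh : Phi F r = g₀ * h) (hco : IsCoprime g₀ h)
    (hother : ∀ g : F[X], g.Monic → Irreducible g → g ∣ h → finrank F (LinearMap.ker (Polynomial.aeval y g)) ≤ 2 * b)
    {W : Submodule F V} (hW : IsInv y W) (hti : TI B W) :
    2 * finrank F ↥(W ⊓ Ker y r) ≤ finrank F (LinearMap.ker (Polynomial.aeval y g₀)) :=
  two_ti_le hA (Nd_ker_factor hA hN hI hr hy hyQ hh hco) (inf_Ker_le hA hN hI hr hy hyQ hb hfac hh hco hother hW hti) (hti.mono inf_le_left)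

end

section Numeric

theorem num_even {i d m e A K₀ t : ℕ} (hi : 0 < i) (h1 : 2 * e + i * A = 2 * d) (h2 : A ≤ 2 * K₀ + t)
    (h3 : 2 * (m % i) ≤ (2 * d) % i) (h4 : t + 2 * (m / i) ≤ (2 * d) / i) : ∃ u K, K ≤ K₀ ∧ u + i * K = m ∧ u ≤ e := by
  obtain ⟨n', hn'⟩ : ∃ n', n' = (2 * d) / i := ⟨_, rfl⟩
  obtain ⟨k, hk⟩ : ∃ k, k = (2 * d) % i := ⟨_, rfl⟩
  obtain ⟨l, hl⟩ : ∃ l, l = m % i := ⟨_, rfl⟩
  obtain ⟨m', hm'⟩ : ∃ m', m' = m / i := ⟨_, rfl⟩
  have hd1 : i * n' + k = 2 * d := by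
    rw [hn', hk]
    exact Nat.div_add_mod _ _
  have hk1 : k < i := by
    rw [hk]
    exact Nat.mod_lt _ hi
  have hm1 : i * m' + l = m := by
    rw [hm', hl]
    exact Nat.div_add_mod _ _
  rw [← hk, ← hl] at h3
  rw [← hn', ← hm'] at h4
  have hAn : A ≤ n' := by
    by_contra hc
    push Not at hc
    have h5 : i * (n' + 1) ≤ i * A := Nat.mul_le_mul_left _ hc
    have h6 : i * (n' + 1) = i * n' + i := by ring
    omega
  obtain ⟨j, rfl⟩ : ∃ j, n' = A + j := ⟨n' - A, by omega⟩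
  have h7 : i * (A + j) = i * A + i * j := by ring
  have h8 : 2 * e = i * j + k := by omega
  by_cases hc : m' ≤ K₀
  · refine ⟨l, m', hc, by omega, by omega⟩
  · push Not at hc
    obtain ⟨s, rfl⟩ : ∃ s, m' = K₀ + s := ⟨m' - K₀, by omega⟩
    have h9 : i * (K₀ + s) = i * K₀ + i * s := by ring
    have h10 : 2 * s ≤ j := by omega
    have h11 : i * (2 * s) ≤ i * j := Nat.mul_le_mul_left _ h10
    have h12 : i * (2 * s) = 2 * (i * s) := by ring
    refine ⟨l + i * s, K₀, le_rfl, by omega, by omega⟩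

theorem num_odd {i d m e A : ℕ} (hi : 0 < i) (h1 : e + i * A = d) (h2 : m % i ≤ d % i) (h3 : m ≤ d) : ∃ u K, K ≤ A ∧ u + i * K = m ∧ u ≤ e := by
  by_cases hc : m / i ≤ A
  · refine ⟨m % i, m / i, hc, by rw [add_comm]; exact Nat.div_add_mod _ _, ?_⟩
    have h4 : d % i = e % i := by
      rw [← h1, Nat.add_mul_mod_self_left]
    have h5 := Nat.mod_le e i
    omega
  · push Not at hc
    have h4 : i * A ≤ i * (m / i) := Nat.mul_le_mul_left _ hc.le
    have h5 := Nat.mul_div_le m i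
    refine ⟨m - i * A, A, le_rfl, by omega, by omega⟩

end Numeric

section Two

variable [Fintype F]

theorem fac_Phi_two (h2 : ((2 : ℕ) : F) ≠ 0) : ∀ d, Irreducible d → d ∣ Phi F 2 → d.natDegree = 1 := by
  intro d hd hdvd
  have h1 := natDegree_le_of_dvd hdvd (Phi_ne_zero h2)
  rw [natDegree_Phi h2 (by norm_num)] at h1
  have h3 := hd.natDegree_pos
  omega

/-- Case `T ^ 2 = 1`. -/
theorem suff_two_one (hA : B.IsAlt) (hN : B.Nondegenerate) (hI : ∀ u v, B (y u) (y v) = B u v) (h2 : ((2 : ℕ) : F) ≠ 0)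
    (hy : y ^ 2 = 1) {d m : ℕ} (hdim : finrank F V = 2 * d) (hmd : m ≤ d) :
    ∃ W : Submodule F V, finrank F W = m ∧ TI B W ∧ IsInv y W := by
  have hfd := finrank_Fix_add h2 hy
  rw [hdim] at hfd
  obtain ⟨u, hu⟩ : ∃ u, u = min m (finrank F (Fix y) / 2) := ⟨_, rfl⟩
  obtain ⟨v, hv⟩ : ∃ v, v = m - u := ⟨_, rfl⟩
  have hev := (Nd_Fix_top hA hN hI h2 hy).even hA
  obtain ⟨e, he⟩ := hev
  have hu1 : 2 * u ≤ finrank F (Fix y) := by
    have := min_le_right m (finrank F (Fix y) / 2)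
    omega
  have hv1 : 2 * v ≤ finrank F (Ker y 2) := by
    rcases le_total m (finrank F (Fix y) / 2) with h | h
    · have : u = m := by rw [hu, min_eq_left h]
      have : v = 0 := by omega
      omega
    · have : u = finrank F (Fix y) / 2 := by rw [hu, min_eq_right h]
      omega
  have huv : u + 1 * v = m := by
    have := min_le_left m (finrank F (Fix y) / 2)
    omega
  obtain ⟨T₀, hT₀le, hT₀d, hT₀ti⟩ := exists_ti_sub hA v (Ker y 2) (Nd_Ker_top hA hN hI h2 hy) hv1
  have hT₀inv : IsInv y T₀ := by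
    intro x hx
    have h3 := mem_Ker.1 (hT₀le hx)
    have h4 : Polynomial.aeval y (Phi F 2) x = x + y x := by
      simp [Phi, Finset.sum_range_succ]
    rw [h4] at h3
    have h5 : y x = -x := eq_neg_of_add_eq_zero_right h3
    rw [h5]
    exact T₀.neg_mem hx
  obtain ⟨W, h3, h4, h5⟩ := exists_W hA hN hI h2 hy (fac_Phi_two h2) hT₀inv hT₀le hT₀ti (u := u) (K := v) (by rw [one_mul, hT₀d]) hu1
  exact ⟨W, by rw [h3]; exact huv, h4, h5⟩

/-- Case `T ^ 2 = -1` and `-1` a square. -/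
theorem suff_two_neg_sq (hA : B.IsAlt) (hN : B.Nondegenerate) (hI : ∀ u v, B (y u) (y v) = B u v) (h2 : (2 : F) ≠ 0)
    (hy : y ^ 2 = -1) {ι : F} (hι : ι * ι = -1) {d m : ℕ} (hdim : finrank F V = 2 * d) (hmd : m ≤ d) :
    ∃ W : Submodule F V, finrank F W = m ∧ TI B W ∧ IsInv y W := by
  have hι0 : ι ≠ 0 := by
    rintro rfl
    rw [mul_zero] at hι
    exact neg_ne_zero.2 one_ne_zero hι.symm
  let g₁ : F[X] := X - C ι
  let g₂ : F[X] := X - C (-ι)
  have hco : IsCoprime g₁ g₂ := by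
    apply Polynomial.isCoprime_X_sub_C_of_isUnit_sub
    have : ι - -ι = 2 * ι := by ring
    rw [this]
    exact (mul_ne_zero h2 hι0).isUnit
  have hprod : g₁ * g₂ = X ^ 2 + 1 := by
    simp only [g₁, g₂, C_neg, sub_neg_eq_add]
    have h3 : (C ι * C ι : F[X]) = -1 := by
      rw [← C_mul, hι]
      simp
    linear_combination - h3
  have hker : LinearMap.ker (Polynomial.aeval y (g₁ * g₂)) = ⊤ := by
    rw [hprod, map_add, map_pow, aeval_X, map_one, hy]
    simp
  have hsup := Polynomial.sup_ker_aeval_eq_ker_aeval_mul_of_coprime y hco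
  have hdis := Polynomial.disjoint_ker_aeval_of_isCoprime y hco
  rw [hker] at hsup
  have hti : ∀ c : F, c * c = -1 → TI B (LinearMap.ker (Polynomial.aeval y (X - C c))) := by
    intro c hc u hu v hv
    have h3 : ∀ x, x ∈ LinearMap.ker (Polynomial.aeval y (X - C c)) → y x = c • x := by
      intro x hx
      have h4 := LinearMap.mem_ker.1 hx
      rw [map_sub, aeval_X, aeval_C, LinearMap.sub_apply, Module.algebraMap_end_apply] at h4
      exact sub_eq_zero.1 h4
    have h4 := hI u v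
    rw [h3 u hu, h3 v hv, map_smul, map_smul, LinearMap.smul_apply, smul_smul, smul_eq_mul, hc] at h4
    have h5 : 2 * B u v = 0 := by linear_combination - h4
    exact (mul_eq_zero.1 h5).resolve_left h2
  have hti₁ := hti ι hι
  have hti₂ : TI B (LinearMap.ker (Polynomial.aeval y g₂)) := hti (-ι) (by rw [neg_mul_neg]; exact hι)
  have h3 := two_ti_le hA (Nd_top hN) (le_top) hti₁
  have h4 := two_ti_le hA (Nd_top hN) (le_top) hti₂
  rw [finrank_top, hdim] at h3 h4
  have h5 := Submodule.finrank_sup_add_finrank_inf_eq (LinearMap.ker (Polynomial.aeval y g₁)) (LinearMap.ker (Polynomial.aeval y g₂))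
  rw [hsup, hdis.eq_bot, finrank_bot, add_zero, finrank_top, hdim] at h5
  have hfac : ∀ d', Irreducible d' → d' ∣ g₁ → d'.natDegree = 1 := by
    intro d' hd' hdvd
    have h6 := natDegree_le_of_dvd hdvd (X_sub_C_ne_zero ι)
    rw [natDegree_X_sub_C] at h6
    have h7 := hd'.natDegree_pos
    omega
  obtain ⟨T, hT, -, hTle, hTd⟩ := chain_exists (isInv_ker_aeval y g₁) (X_sub_C_ne_zero ι) hfac (fun v hv => LinearMap.mem_ker.1 hv) (isInv_bot y) bot_le m
    (by rw [finrank_bot]; omega)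
  rw [finrank_bot] at hTd
  exact ⟨T, by omega, hti₁.mono hTle, hT⟩

/-- Case `T ^ 2 = -1` and `-1` not a square. -/
theorem suff_two_neg_nonsq (hA : B.IsAlt) (hN : B.Nondegenerate) (hI : ∀ u v, B (y u) (y v) = B u v)
    (hy : y ^ 2 = -1) (hns : ∀ c : F, c ^ 2 ≠ -1) (h4 : 4 ∣ Fintype.card F + 1) {d m : ℕ} (hdim : finrank F V = 2 * d) (hmd : m ≤ d) (hm : Even m) :
    ∃ W : Submodule F V, finrank F W = m ∧ TI B W ∧ IsInv y W := by
  let g : F[X] := X ^ 2 - C (-1)
  have hg : Irreducible g := X_pow_sub_C_irreducible_of_prime Nat.prime_two hns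
  have hdeg : g.natDegree = 2 * 1 := by
    simp only [g]
    rw [natDegree_X_pow_sub_C]
  have hy4 : y ^ (Fintype.card F ^ 1 + 1) = 1 := by
    obtain ⟨s, hs⟩ := h4
    rw [pow_one, hs, pow_mul, show (4 : ℕ) = 2 * 2 by norm_num, pow_mul, hy]
    simp
  have hgy : Polynomial.aeval y g = 0 := by
    simp only [g]
    rw [map_sub, map_pow, aeval_X, aeval_C, hy]
    simp
  have hker : LinearMap.ker (Polynomial.aeval y g) = ⊤ := by
    rw [hgy]
    exact LinearMap.ker_zero
  obtain ⟨T₀, hT₀le, hT₀, hT₀ti, hT₀d⟩ := exists_ti_half hA hI hg hdeg hy4 _ ⊤ rfl (isInv_top y) (Nd_top hN) (le_top.trans_eq hker.symm)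
  rw [finrank_top, hdim, hdeg] at hT₀d
  have hfac : ∀ d', Irreducible d' → d' ∣ g → d'.natDegree = 2 := by
    intro d' hd' hdvd
    obtain ⟨c, hc⟩ := hdvd
    have h5 := (hg.isUnit_or_isUnit hc).resolve_left hd'.not_isUnit
    have h6 : g.natDegree = d'.natDegree := by
      rw [hc, natDegree_mul hd'.ne_zero h5.ne_zero, natDegree_eq_zero_of_isUnit h5, add_zero]
    omega
  have hdv : ∀ v ∈ T₀, Polynomial.aeval y g v = 0 := fun v _ => by rw [hgy]; rfl
  obtain ⟨a, ha⟩ := dvd_finrank hT₀ hg.ne_zero (by norm_num) hfac hdv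
  obtain ⟨m', hm'⟩ := hm
  obtain ⟨T, hT, -, hTle, hTd⟩ := chain_exists hT₀ hg.ne_zero hfac hdv (isInv_bot y) bot_le m'
    (by rw [finrank_bot]; omega)
  rw [finrank_bot] at hTd
  exact ⟨T, by omega, hT₀ti.mono hTle, hT⟩

/-- Even dimension of invariant subspaces when `-1` is not a square. -/
theorem even_of_inv (hy : y ^ 2 = -1) (hns : ∀ c : F, c ^ 2 ≠ -1) {W : Submodule F V} (hW : IsInv y W) : Even (finrank F W) := by
  let g : F[X] := X ^ 2 - C (-1)
  have hg : Irreducible g := X_pow_sub_C_irreducible_of_prime Nat.prime_two hns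
  have hdeg : g.natDegree = 2 := by
    simp only [g]
    rw [natDegree_X_pow_sub_C]
  have hgy : Polynomial.aeval y g = 0 := by
    simp only [g]
    rw [map_sub, map_pow, aeval_X, aeval_C, hy]
    simp
  have hfac : ∀ d', Irreducible d' → d' ∣ g → d'.natDegree = 2 := by
    intro d' hd' hdvd
    obtain ⟨c, hc⟩ := hdvd
    have h5 := (hg.isUnit_or_isUnit hc).resolve_left hd'.not_isUnit
    have h6 : g.natDegree = d'.natDegree := by
      rw [hc, natDegree_mul hd'.ne_zero h5.ne_zero, natDegree_eq_zero_of_isUnit h5, add_zero]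
    omega
  have h1 := dvd_finrank hW hg.ne_zero (by norm_num) hfac (fun v _ => by rw [hgy]; rfl)
  exact even_iff_two_dvd.2 h1

end Two

end Cfsg.Agent.Lib.Classical.Elusive.TiAbs
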