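import Mathlib
import Cfsg.Agent.Lib.Classical.Elusive.SpAtoms
import Cfsg.Agent.Lib.Classical.Elusive.SpCore
import Cfsg.Agent.Lib.Classical.Elusive.TiAbs
import Cfsg.Agent.Lib.Classical.Elusive.Planes
import Cfsg.Agent.Lib.Classical.Elusive.Blocks

/-!
# Nondegenerate invariant subspaces: abstract lemmas
-/

set_option autoImplicit false
set_option linter.unusedSectionVars false
set_option linter.unusedSimpArgs false
set_option linter.unusedVariables false
set_option linter.style.haveILetI false

namespace Cfsg.Agent.Lib.Classical.Elusive.NdAbs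

open Module
open Cfsg.Agent.Lib.Classical.Elusive.Inv Cfsg.Agent.Lib.Classical.Elusive.SpAtoms
  Cfsg.Agent.Lib.Classical.Elusive.SpCore Cfsg.Agent.Lib.Classical.Elusive.TiBlock

variable {F V : Type*} [Field F] [Fintype F] [AddCommGroup V] [Module F V] [FiniteDimensional F V]
variable {B : LinearMap.BilinForm F V} {T : Module.End F V}

theorem swap_val (hA : B.IsAlt) (x y : V) : B x y = - B y x :=
  (LinearMap.BilinForm.IsAlt.neg_eq hA y x).symm

/-- A hyperbolic plane. -/
theorem plane_facts (hA : B.IsAlt) {e f : V} (h : B e f ≠ 0) :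
    Nd B (Submodule.span F {e, f}) ∧ finrank F ↥(Submodule.span F {e, f}) = 2 := by
  have hee : B e e = 0 := hA e
  have hff : B f f = 0 := hA f
  have hfe : B f e = - B e f := swap_val hA f e
  have key : ∀ a b : F, (B (a • e + b • f) f = a * B e f) ∧ (B (a • e + b • f) e = - (b * B e f)) := by
    intro a b
    simp only [map_add, map_smul, LinearMap.add_apply, LinearMap.smul_apply, smul_eq_mul, hee, hff, hfe]
    constructor <;> ring
  constructor
  · intro u hu hu0
    obtain ⟨a, b, rfl⟩ := Submodule.mem_span_pair.1 hu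
    by_cases ha : a = 0
    · have hb : b ≠ 0 := by
        rintro rfl
        apply hu0
        simp [ha]
      refine ⟨e, Submodule.subset_span (by simp), ?_⟩
      rw [(key a b).2]
      exact neg_ne_zero.2 (mul_ne_zero hb h)
    · refine ⟨f, Submodule.subset_span (by simp), ?_⟩
      rw [(key a b).1]
      exact mul_ne_zero ha h
  · have hli : LinearIndependent F ![e, f] := by
      rw [LinearIndependent.pair_iff]
      intro a b hab
      have h1 := (key a b).1
      have h2 := (key a b).2
      rw [hab, map_zero, LinearMap.zero_apply] at h1 h2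
      have h3 : a = 0 := (mul_eq_zero.1 h1.symm).resolve_right h
      have h4 : b = 0 := by
        have : b * B e f = 0 := by linear_combination h2
        exact (mul_eq_zero.1 this).resolve_right h
      exact ⟨h3, h4⟩
    have h6 := finrank_span_eq_card hli
    have h5 : Set.range ![e, f] = {e, f} := by
      ext x
      simp [Fin.exists_fin_two, eq_comm]
      exact or_comm
    rw [h5] at h6
    simpa using h6

/-- The case `T² = -1`, odd characteristic. -/
theorem exists_nd_neg (hA : B.IsAlt) (h2 : (2 : F) ≠ 0) (hI : ∀ u v, B (T u) (T v) = B u v) (hT : ∀ u, T (T u) = - u) :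
    ∀ (a : ℕ) (W : Submodule F V), IsInv T W → Nd B W → 2 * a ≤ finrank F W → ∃ W', W' ≤ W ∧ IsInv T W' ∧ Nd B W' ∧ finrank F W' = 2 * a := by
  intro a
  induction a with
  | zero =>
    intro W _ _ _
    exact ⟨⊥, bot_le, isInv_bot T, Nd_bot, by simp⟩
  | succ a ih =>
    intro W hW hNd hdim
    have hne : W ≠ ⊥ := by
      rintro rfl
      rw [finrank_bot] at hdim
      omega
    obtain ⟨x, hxW, hx0⟩ := Submodule.exists_mem_ne_zero_of_ne_bot hne
    obtain ⟨v, hvW, hv⟩ := hNd x hxW hx0
    have hsym : ∀ a b, B a (T b) = B b (T a) := by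
      intro a b
      have h1 := hI a (T b)
      rw [hT b, map_neg] at h1
      rw [← h1, swap_val hA b (T a)]
    let v' : V := - T v
    have hv'W : v' ∈ W := W.neg_mem (hW v hvW)
    have hTv' : T v' = v := by
      show T (- T v) = v
      rw [map_neg, hT, neg_neg]
    obtain ⟨u, huW, hu⟩ : ∃ u ∈ W, B u (T u) ≠ 0 := by
      by_contra hcon
      push Not at hcon
      have h1 := hcon (x + v') (W.add_mem hxW hv'W)
      simp only [map_add, LinearMap.add_apply] at h1
      rw [hcon x hxW, hcon v' hv'W, hsym v' x, hTv'] at h1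
      apply hv
      have h3 : (2 : F) * B x v = 0 := by linear_combination h1
      exact (mul_eq_zero.1 h3).resolve_left h2
    obtain ⟨hPNd, hPd⟩ := plane_facts hA hu
    have hPW : Submodule.span F {u, T u} ≤ W := by
      rw [Submodule.span_le]
      rintro y (rfl | rfl)
      · exact huW
      · exact hW _ huW
    have hPinv : IsInv T (Submodule.span F {u, T u}) := by
      intro y hy
      obtain ⟨c, d, rfl⟩ := Submodule.mem_span_pair.1 hy
      rw [map_add, map_smul, map_smul, hT]
      refine Submodule.add_mem _ (Submodule.smul_mem _ _ (Submodule.subset_span (by simp))) (Submodule.smul_mem _ _ ?_)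
      exact Submodule.neg_mem _ (Submodule.subset_span (by simp))
    have hT4 : T ^ 4 = 1 := by
      apply LinearMap.ext
      intro y
      have e : (T ^ 4) y = T (T (T (T y))) := rfl
      rw [e, hT, hT, neg_neg]
      rfl
    have hW₁inv := isInv_orthIn hA hI (r := 4) (by norm_num) hT4 hW hPinv
    have hW₁Nd := Nd_orthIn hA hPW hPNd hNd
    have h3 := finrank_orthIn hA hPW hPNd
    rw [hPd] at h3
    obtain ⟨W', h5, h6, h7, h8⟩ := ih _ hW₁inv hW₁Nd (by omega)
    have horth : ∀ s ∈ Submodule.span F {u, T u}, ∀ t ∈ W', B s t = 0 := by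
      intro s hs t ht
      exact swap_zero hA (((mem_orthIn hA).1 (h5 ht)).2 s hs)
    refine ⟨_ ⊔ W', sup_le hPW (h5.trans inf_le_left), hPinv.sup h6, Nd_sup hA hPNd h7 horth, ?_⟩
    have h9 := Submodule.finrank_sup_add_finrank_inf_eq (Submodule.span F {u, T u}) W'
    rw [inf_eq_bot_of_orth hPNd horth hA, finrank_bot, add_zero, hPd, h8] at h9
    omega

/-- The case `T² = 1`, odd characteristic. -/
theorem exists_nd_one (hA : B.IsAlt) (hN : B.Nondegenerate) (h2 : ((2 : ℕ) : F) ≠ 0) (hI : ∀ u v, B (T u) (T v) = B u v) (hT : T ^ 2 = 1)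
    {s : ℕ} (hs : 2 * s ≤ finrank F V) : ∃ W : Submodule F V, IsInv T W ∧ Nd B W ∧ finrank F W = 2 * s := by
  have hF := Nd_Fix_top hA hN hI h2 hT
  have hK := Nd_Ker_top hA hN hI h2 hT
  have hd := finrank_Fix_add h2 hT
  obtain ⟨e, he⟩ := hF.even hA
  obtain ⟨g, hg⟩ := hK.even hA
  obtain ⟨s₁, s₂, h12, hs₁, hs₂⟩ : ∃ s₁ s₂, s₁ + s₂ = s ∧ s₁ ≤ e ∧ s₂ ≤ g := by
    refine ⟨min s e, s - min s e, ?_, min_le_right _ _, ?_⟩ <;> omega
  obtain ⟨S₁, h1a, h1b, h1c⟩ := exists_even_sub hA s₁ (Fix T) hF (by omega)
  obtain ⟨S₂, h2a, h2b, h2c⟩ := exists_even_sub hA s₂ (Ker T 2) hK (by omega)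
  have hinv1 : IsInv T S₁ := by
    intro u hu
    rw [mem_Fix.1 (h1a hu)]
    exact hu
  have hinv2 : IsInv T S₂ := by
    intro u hu
    have h3 := mem_Ker.1 (h2a hu)
    have h4 : Polynomial.aeval T (Phi F 2) u = u + T u := by
      simp [Phi, Finset.sum_range_succ]
    rw [h4] at h3
    have h5 : T u = - u := by
      rw [eq_neg_iff_add_eq_zero, add_comm]
      exact h3
    rw [h5]
    exact S₂.neg_mem hu
  have horth : ∀ u ∈ S₁, ∀ v ∈ S₂, B u v = 0 := fun u hu v hv => orth_Fix_Ker hI h2 (h1a hu) (h2a hv)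
  refine ⟨S₁ ⊔ S₂, hinv1.sup hinv2, Nd_sup hA h1b h2b horth, ?_⟩
  have h9 := Submodule.finrank_sup_add_finrank_inf_eq S₁ S₂
  rw [inf_eq_bot_of_orth h1b horth hA, finrank_bot, add_zero, h1c, h2c] at h9
  omega

/-- Every even dimension occurs when `T² = ±1`, odd characteristic. -/
theorem exists_nd_two (hA : B.IsAlt) (hN : B.Nondegenerate) (h2 : (2 : F) ≠ 0) (hI : ∀ u v, B (T u) (T v) = B u v) {z : F} (hz : z * z = 1)
    (hT : T ^ 2 = z • 1) {s : ℕ} (hs : 2 * s ≤ finrank F V) : ∃ W : Submodule F V, IsInv T W ∧ Nd B W ∧ finrank F W = 2 * s := by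
  rcases mul_self_eq_one_iff.1 hz with rfl | rfl
  · rw [one_smul] at hT
    exact exists_nd_one hA hN (by simpa using h2) hI hT hs
  · obtain ⟨W', -, h1, h3, h4⟩ := exists_nd_neg hA h2 hI (T := T) (by
      intro u
      have := congrArg (fun S : Module.End F V => S u) hT
      simpa [_root_.sq] using this) s ⊤ (isInv_top T) (TiAbs.Nd_top hN) (by rwa [finrank_top])
    exact ⟨W', h1, h3, h4⟩

section Planes

open Cfsg.Agent.Lib.Classical.Elusive.Planes Cfsg.Agent.Lib.Classical.Elusive.Blocks

open _root_.Classical in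
/-- Subspaces given by sets of planes. -/
theorem plane_sup {J : Type} [Fintype J] {e f : J → V} {π : J → J} (hA : B.IsAlt) {W : Submodule F V} (hS : IsSys B T W e f π) (A : Finset J) :
    Nd B (A.sup fun j => Submodule.span F {e j, f j}) ∧ finrank F ↥(A.sup fun j => Submodule.span F {e j, f j}) = 2 * A.card := by
  induction A using Finset.induction_on with
  | empty =>
    simp only [Finset.sup_empty]
    exact ⟨Nd_bot, by simp⟩
  | insert j A hj ih =>
    rw [Finset.sup_insert]
    obtain ⟨h1, h3⟩ := plane_facts (e := e j) (f := f j) hA (by rw [hS.hyp]; exact one_ne_zero)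
    have horth : ∀ u ∈ Submodule.span F {e j, f j}, ∀ v ∈ (A.sup fun j => Submodule.span F {e j, f j}), B u v = 0 := by
      intro u hu v hv
      have h5 : (A.sup fun j => Submodule.span F {e j, f j}) ≤ LinearMap.ker (B u) := by
        apply Finset.sup_le
        intro i hi
        have hne : j ≠ i := by
          rintro rfl
          exact hj hi
        have h6 := hS.orth j i hne
        obtain ⟨a, b, rfl⟩ := Submodule.mem_span_pair.1 hu
        rw [Submodule.span_le]
        rintro y (rfl | rfl)
        · show B _ _ = 0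
          simp [h6.1, h6.2.2.1]
        · show B _ _ = 0
          simp [h6.2.1, h6.2.2.2]
      exact h5 hv
    refine ⟨Nd_sup hA h1 ih.1 horth, ?_⟩
    have h9 := Submodule.finrank_sup_add_finrank_inf_eq (Submodule.span F {e j, f j}) (A.sup fun j => Submodule.span F {e j, f j})
    rw [inf_eq_bot_of_orth h1 horth hA, finrank_bot, add_zero, h3, ih.2] at h9
    rw [h9, Finset.card_insert_of_notMem hj]
    ring

/-- Even dimensions from planes. -/
theorem exists_nd_planes (hA : B.IsAlt) (hN : B.Nondegenerate) (hI : ∀ u v, B (T u) (T v) = B u v) {z : F} (hz : z ≠ 0)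
    (hT : T ^ 2 = z • 1) {d k : ℕ} (hd : finrank F V = 2 * d) (hk : k ≤ d) (hc : Even k ∨ Odd d) :
    ∃ W : Submodule F V, IsInv T W ∧ Nd B W ∧ finrank F W = 2 * k := by
  classical
  obtain ⟨J, i1, i2, e, f, π, hS⟩ := exists_planes (B := B) (T := T) hA hI hz hT (finrank F (⊤ : Submodule F V)) ⊤ le_rfl (isInv_top T) (TiAbs.Nd_top hN)
  have hmemE : ∀ j ∈ (Finset.univ : Finset J), e j ∈ (Finset.univ.sup fun j => Submodule.span F {e j, f j}) := by
    intro j hj
    exact (Finset.le_sup (f := fun j => Submodule.span F {e j, f j}) hj) (Submodule.subset_span (by simp))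
  have hmemF : ∀ j ∈ (Finset.univ : Finset J), f j ∈ (Finset.univ.sup fun j => Submodule.span F {e j, f j}) := by
    intro j hj
    exact (Finset.le_sup (f := fun j => Submodule.span F {e j, f j}) hj) (Submodule.subset_span (by simp))
  have htop : (Finset.univ.sup fun j => Submodule.span F {e j, f j}) = ⊤ := by
    rw [eq_top_iff, ← hS.span, Submodule.span_le]
    rintro y (⟨j, rfl⟩ | ⟨j, rfl⟩)
    · exact hmemE j (Finset.mem_univ _)
    · exact hmemF j (Finset.mem_univ _)
  have hcard : Fintype.card J = d := by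
    have h1 := (plane_sup hA hS Finset.univ).2
    rw [htop, finrank_top, hd, Finset.card_univ] at h1
    omega
  have hcl : Closed π (Finset.univ : Finset J) := fun j _ => Finset.mem_univ _
  have hc' : Even k ∨ ∃ j ∈ (Finset.univ : Finset J), π j = j := by
    rcases hc with h | h
    · exact Or.inl h
    · right
      by_contra hcon
      push Not at hcon
      let σ : Equiv.Perm J := Function.Involutive.toPerm π hS.inv
      have h1 : σ ^ 2 = 1 := by
        apply Equiv.ext
        intro j
        rw [_root_.sq]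
        exact hS.inv j
      have h3 := Equiv.Perm.two_dvd_card_support h1
      have h4 : σ.support = Finset.univ := by
        ext j
        simp only [Equiv.Perm.mem_support, Finset.mem_univ, iff_true]
        exact hcon j (Finset.mem_univ _)
      rw [h4, Finset.card_univ, hcard] at h3
      obtain ⟨t, ht⟩ := h
      omega
  obtain ⟨A, -, hAc, hAk⟩ := exists_closed hS.inv k Finset.univ hcl (by rw [Finset.card_univ, hcard]; exact hk) hc'
  refine ⟨A.sup fun j => Submodule.span F {e j, f j}, ?_, (plane_sup hA hS A).1, ?_⟩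
  · have hle : (A.sup fun j => Submodule.span F {e j, f j}) ≤ (A.sup fun j => Submodule.span F {e j, f j}).comap T := by
      apply Finset.sup_le
      intro j hj
      rw [Submodule.span_le]
      have h5 : Submodule.span F {e (π j), f (π j)} ≤ (A.sup fun j => Submodule.span F {e j, f j}) :=
        Finset.le_sup (f := fun j => Submodule.span F {e j, f j}) (hAc j hj)
      rintro y (rfl | rfl)
      · exact h5 (hS.act j).1
      · exact h5 (hS.act j).2
    intro u hu
    exact hle hu
  · rw [(plane_sup hA hS A).2, hAk]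

end Planes

/-- Characteristic two: the involutions of type `a`. -/
theorem four_dvd (hA : B.IsAlt) (hc : (2 : F) = 0) {N : Module.End F V} (hI : ∀ u v, B (u + N u) (v + N v) = B u v) (hN2 : ∀ u, N (N u) = 0)
    (hdiag : ∀ u, B u (N u) = 0) (hTI : ∀ u v, N u = 0 → N v = 0 → B u v = 0) {W : Submodule F V} (hW : IsInv N W) (hNd : Nd B W) :
    4 ∣ finrank F W := by
  classical
  let K : Submodule F V := W ⊓ LinearMap.ker N
  have hKW : K ≤ W := inf_le_left
  have hKN : ∀ u ∈ K, N u = 0 := fun u hu => LinearMap.mem_ker.1 hu.2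
  obtain ⟨q, hq⟩ := Submodule.exists_isCompl K
  let U : Submodule F V := W ⊓ q
  have hUK : U ⊓ K = ⊥ := by
    rw [eq_bot_iff]
    rintro x ⟨hx1, hx2⟩
    exact hq.disjoint.le_bot ⟨hx2, hx1.2⟩
  have hUsup : K ⊔ U = W := by
    have h1 := sup_inf_assoc_of_le q hKW
    show K ⊔ (W ⊓ q) = W
    rw [inf_comm, ← h1, hq.sup_eq_top, top_inf_eq]
  have hdims := Submodule.finrank_sup_add_finrank_inf_eq K U
  rw [hUsup, inf_comm, hUK, finrank_bot, add_zero] at hdims
  have hNinj : ∀ u ∈ U, N u = 0 → u = 0 := by
    intro u hu h0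
    have : u ∈ U ⊓ K := ⟨hu, hu.1, LinearMap.mem_ker.2 h0⟩
    rw [hUK] at this
    exact (Submodule.mem_bot F).1 this
  have hle : finrank F U ≤ finrank F K := by
    let g : ↥U →ₗ[F] ↥K := (N.domRestrict U).codRestrict K (fun u => ⟨hW _ u.2.1, LinearMap.mem_ker.2 (hN2 _)⟩)
    have hg : Function.Injective g := by
      rw [injective_iff_map_eq_zero]
      intro u hu
      have h1 : N (u : V) = 0 := congrArg Subtype.val hu
      exact Subtype.ext (hNinj _ u.2 h1)
    exact LinearMap.finrank_le_finrank_of_injective hg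
  have hti := TiAbs.two_ti_le hA hNd hKW (fun u hu v hv => hTI u v (hKN u hu) (hKN v hv))
  -- the symmetric form
  let S : LinearMap.BilinForm F V := B.compl₂ N
  have hS : ∀ u v, S u v = B u (N v) := fun u v => rfl
  have hSalt : S.IsAlt := fun u => hdiag u
  have hNN : ∀ u v, B (N u) (N v) = 0 := fun u v => hTI _ _ (hN2 u) (hN2 v)
  have hadj : ∀ u v, B (N u) v = B u (N v) := by
    intro u v
    have h1 := hI u v
    simp only [map_add, LinearMap.add_apply, hNN] at h1
    have h3 : B (N u) v + B u (N v) = 0 := by linear_combination h1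
    have h4 : B u (N v) + B u (N v) = 0 := by
      rw [← two_mul, hc, zero_mul]
    linear_combination h3 - h4
  have hSNd : Nd S U := by
    intro u hu hu0
    have hNu : N u ≠ 0 := fun h => hu0 (hNinj u hu h)
    obtain ⟨w, hwW, hw⟩ := hNd _ (hW u hu.1) hNu
    rw [← hUsup] at hwW
    obtain ⟨k, hk, w₁, hw₁, rfl⟩ := Submodule.mem_sup.1 hwW
    rw [map_add, hTI _ _ (hN2 u) (hKN k hk), zero_add] at hw
    refine ⟨w₁, hw₁, ?_⟩
    rw [hS, ← hadj]
    exact hw
  obtain ⟨a, ha⟩ := hSNd.even hSalt
  have h5 : finrank F K = finrank F U := by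
    omega
  exact ⟨a, by omega⟩

end Cfsg.Agent.Lib.Classical.Elusive.NdAbs
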