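import Mathlib
import Cfsg.Agent.Lib.Classical.Elusive.SpAtoms
import Cfsg.Agent.Lib.Classical.Elusive.TiAbs

/-!
# The number of nondegenerate subspaces of a symplectic space
-/

set_option autoImplicit false
set_option linter.unusedSectionVars false
set_option linter.unusedSimpArgs false
set_option linter.unusedVariables false
set_option linter.style.haveILetI false

namespace Cfsg.Agent.Lib.Classical.Elusive.NdCount

open Module
open Cfsg.Agent.Lib.Classical.Elusive.SpAtoms

variable {F V : Type*} [Field F] [Fintype F] [AddCommGroup V] [Module F V] [FiniteDimensional F V]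

/-- Hyperbolic frames. -/
def Fr (B : LinearMap.BilinForm F V) (k : ℕ) : Type _ :=
  {v : Fin k → V × V // ∀ a b, B (v a).1 (v b).2 = (if a = b then 1 else 0) ∧ B (v a).1 (v b).1 = 0 ∧ B (v a).2 (v b).2 = 0}

/-- Nondegenerate subspaces. -/
def Nds (B : LinearMap.BilinForm F V) (m : ℕ) : Type _ :=
  {W : Submodule F V // finrank F W = m ∧ ∀ u ∈ W, u ≠ 0 → ∃ v ∈ W, B u v ≠ 0}

/-- The family of a frame. -/
def fam {k : ℕ} (v : Fin k → V × V) : Fin k ⊕ Fin k → V :=
  Sum.elim (fun a => (v a).1) (fun a => (v a).2)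

/-- The span of a frame. -/
def Sp {k : ℕ} (v : Fin k → V × V) : Submodule F V := Submodule.span F (Set.range (fam v))

variable {B : LinearMap.BilinForm F V}

theorem swap_val (hA : B.IsAlt) (x y : V) : B x y = - B y x :=
  (LinearMap.BilinForm.IsAlt.neg_eq hA y x).symm

theorem pair_right (hA : B.IsAlt) {k : ℕ} {v : Fin k → V × V}
    (hv : ∀ a b, B (v a).1 (v b).2 = (if a = b then 1 else 0) ∧ B (v a).1 (v b).1 = 0 ∧ B (v a).2 (v b).2 = 0)
    (c : Fin k ⊕ Fin k → F) (b : Fin k) : B (∑ x, c x • fam v x) (v b).2 = c (Sum.inl b) := by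
  rw [Fintype.sum_sum_type]
  simp only [fam, Sum.elim_inl, Sum.elim_inr, map_add, map_sum, map_smul, LinearMap.add_apply, LinearMap.sum_apply,
    LinearMap.smul_apply, smul_eq_mul]
  have h1 : ∑ a, c (Sum.inl a) * B (v a).1 (v b).2 = c (Sum.inl b) := by
    rw [Finset.sum_eq_single b]
    · rw [(hv b b).1, if_pos rfl, mul_one]
    · intro a _ hab
      rw [(hv a b).1, if_neg hab, mul_zero]
    · intro h
      exact absurd (Finset.mem_univ _) h
  have h2 : ∑ a, c (Sum.inr a) * B (v a).2 (v b).2 = 0 := by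
    apply Finset.sum_eq_zero
    intro a _
    rw [(hv a b).2.2, mul_zero]
  rw [h1, h2, add_zero]

theorem pair_left (hA : B.IsAlt) {k : ℕ} {v : Fin k → V × V}
    (hv : ∀ a b, B (v a).1 (v b).2 = (if a = b then 1 else 0) ∧ B (v a).1 (v b).1 = 0 ∧ B (v a).2 (v b).2 = 0)
    (c : Fin k ⊕ Fin k → F) (b : Fin k) : B (∑ x, c x • fam v x) (v b).1 = - c (Sum.inr b) := by
  rw [Fintype.sum_sum_type]
  simp only [fam, Sum.elim_inl, Sum.elim_inr, map_add, map_sum, map_smul, LinearMap.add_apply, LinearMap.sum_apply,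
    LinearMap.smul_apply, smul_eq_mul]
  have h1 : ∑ a, c (Sum.inr a) * B (v a).2 (v b).1 = - c (Sum.inr b) := by
    rw [Finset.sum_eq_single b]
    · rw [swap_val hA, (hv b b).1, if_pos rfl, mul_neg, mul_one]
    · intro a _ hab
      rw [swap_val hA, (hv b a).1, if_neg (Ne.symm hab), neg_zero, mul_zero]
    · intro h
      exact absurd (Finset.mem_univ _) h
  have h2 : ∑ a, c (Sum.inl a) * B (v a).1 (v b).1 = 0 := by
    apply Finset.sum_eq_zero
    intro a _
    rw [(hv a b).2.1, mul_zero]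
  rw [h1, h2, zero_add]

theorem fam_li (hA : B.IsAlt) {k : ℕ} {v : Fin k → V × V}
    (hv : ∀ a b, B (v a).1 (v b).2 = (if a = b then 1 else 0) ∧ B (v a).1 (v b).1 = 0 ∧ B (v a).2 (v b).2 = 0) :
    LinearIndependent F (fam v) := by
  rw [Fintype.linearIndependent_iff]
  intro c hc x
  rcases x with b | b
  · have := pair_right hA hv c b
    rw [hc] at this
    simpa using this.symm
  · have := pair_left hA hv c b
    rw [hc] at this
    simpa using this.symm

theorem finrank_Sp (hA : B.IsAlt) {k : ℕ} {v : Fin k → V × V}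
    (hv : ∀ a b, B (v a).1 (v b).2 = (if a = b then 1 else 0) ∧ B (v a).1 (v b).1 = 0 ∧ B (v a).2 (v b).2 = 0) :
    finrank F (Sp (F := F) v) = 2 * k := by
  have := finrank_span_eq_card (fam_li hA hv)
  unfold Sp
  rw [this, Fintype.card_sum, Fintype.card_fin]
  ring

theorem Nd_Sp (hA : B.IsAlt) {k : ℕ} {v : Fin k → V × V}
    (hv : ∀ a b, B (v a).1 (v b).2 = (if a = b then 1 else 0) ∧ B (v a).1 (v b).1 = 0 ∧ B (v a).2 (v b).2 = 0) :
    Nd B (Sp (F := F) v) := by
  intro u hu hu0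
  unfold Sp at hu
  rw [Submodule.mem_span_range_iff_exists_fun] at hu
  obtain ⟨c, rfl⟩ := hu
  by_contra hcon
  push Not at hcon
  apply hu0
  have h1 : ∀ x, c x = 0 := by
    rintro (b | b)
    · have h2 := pair_right hA hv c b
      have h3 := hcon _ (show (v b).2 ∈ Sp (F := F) v from Submodule.subset_span ⟨Sum.inr b, rfl⟩)
      rw [h3] at h2
      exact h2.symm
    · have h2 := pair_left hA hv c b
      have h3 := hcon _ (show (v b).1 ∈ Sp (F := F) v from Submodule.subset_span ⟨Sum.inl b, rfl⟩)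
      rw [h3] at h2
      simpa using h2.symm
  simp [h1]

/-- Hyperbolic pairs in a subspace. -/
def Hyp (B : LinearMap.BilinForm F V) (X : Submodule F V) : Type _ :=
  {p : V × V // p.1 ∈ X ∧ p.2 ∈ X ∧ B p.1 p.2 = 1}

theorem card_fib {X : Submodule F V} (hX : Nd B X) {e : V} (he : e ∈ X) (he0 : e ≠ 0) :
    Nat.card {f : V // f ∈ X ∧ B e f = 1} = Fintype.card F ^ (finrank F X - 1) := by
  classical
  obtain ⟨f₀, hf₀, hef₀⟩ := hX e he he0
  let φ : ↥X →ₗ[F] F := (B e).comp X.subtype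
  have hφ : ∀ x : ↥X, φ x = B e x := fun x => rfl
  have hsurj : Function.Surjective φ := by
    intro c
    refine ⟨(c / B e f₀) • ⟨f₀, hf₀⟩, ?_⟩
    rw [map_smul, hφ, smul_eq_mul]
    show c / B e f₀ * B e f₀ = c
    field_simp
  have hrn := LinearMap.finrank_range_add_finrank_ker φ
  rw [LinearMap.range_eq_top.2 hsurj, finrank_top, Module.finrank_self] at hrn
  obtain ⟨x₁, hx₁⟩ := hsurj 1
  have hcard : Nat.card ↥(LinearMap.ker φ) = Fintype.card F ^ (finrank F X - 1) := by
    have h3 := Module.natCard_eq_pow_finrank (K := F) (V := ↥(LinearMap.ker φ))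
    rw [Nat.card_eq_fintype_card (α := F)] at h3
    rw [h3]
    congr 1
    omega
  rw [← hcard]
  apply Nat.card_congr
  refine ⟨fun f => ⟨⟨f.1, f.2.1⟩ - x₁, ?_⟩, fun w => ⟨(w.1 : V) + x₁, X.add_mem w.1.2 x₁.2, ?_⟩, ?_, ?_⟩
  · rw [LinearMap.mem_ker, map_sub, hx₁, hφ]
    show B e f.1 - 1 = 0
    rw [f.2.2, sub_self]
  · have h1 : φ w.1 = 0 := LinearMap.mem_ker.1 w.2
    rw [map_add]
    have h2 : B e (w.1 : V) = 0 := h1
    have h3 : B e (x₁ : V) = 1 := hx₁
    rw [h2, h3, zero_add]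
  · rintro ⟨f, h1, h2⟩
    apply Subtype.ext
    simp
  · rintro ⟨w, hw⟩
    apply Subtype.ext
    apply Subtype.ext
    simp

theorem card_Hyp {X : Submodule F V} (hX : Nd B X) :
    Nat.card (Hyp B X) = (Fintype.card F ^ finrank F X - 1) * Fintype.card F ^ (finrank F X - 1) := by
  classical
  haveI : Finite V := Module.finite_of_finite F
  let E : Type _ := {e : V // e ∈ X ∧ e ≠ 0}
  haveI : Finite E := Subtype.finite
  haveI := Fintype.ofFinite E
  have hE : Nat.card E = Fintype.card F ^ finrank F X - 1 := by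
    have h1 : Nat.card E = Nat.card ↥((X : Set V) \ ({0} : Set V)) := by
      apply Nat.card_congr
      exact Equiv.subtypeEquivRight (fun x => by simp)
    rw [h1, Nat.card_coe_set_eq, Set.ncard_sdiff (by simp)]
    have h3 := Module.natCard_eq_pow_finrank (K := F) (V := ↥X)
    rw [Nat.card_eq_fintype_card (α := F)] at h3
    rw [← Nat.card_coe_set_eq]
    simp only [SetLike.coe_sort_coe, Set.ncard_singleton]
    rw [h3]
  have e1 : Hyp B X ≃ Σ e : E, {f : V // f ∈ X ∧ B e.1 f = 1} :=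
    { toFun := fun p => ⟨⟨p.1.1, p.2.1, by
        intro h0
        have h1 := p.2.2.2
        rw [h0, map_zero, LinearMap.zero_apply] at h1
        exact zero_ne_one h1⟩, ⟨p.1.2, p.2.2.1, p.2.2.2⟩⟩
      invFun := fun x => ⟨(x.1.1, x.2.1), x.1.2.1, x.2.2.1, x.2.2.2⟩
      left_inv := fun p => rfl
      right_inv := fun x => rfl }
  rw [Nat.card_congr e1, Nat.card_sigma]
  have h2 : ∀ e : E, Nat.card {f : V // f ∈ X ∧ B e.1 f = 1} = Fintype.card F ^ (finrank F X - 1) :=
    fun e => card_fib hX e.2.1 e.2.2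
  simp only [h2, Finset.sum_const, Finset.card_univ, smul_eq_mul]
  rw [← Nat.card_eq_fintype_card, hE]

/-- The step map. -/
def stepMap (hA : B.IsAlt) (k : ℕ) :
    (Σ v : Fr B k, Hyp B (orthIn B ⊤ (Sp (F := F) v.1))) → Fr B (k + 1) :=
  fun x => ⟨Fin.snoc x.1.1 x.2.1, by
    have h0 := x.1.2
    have hE := (mem_orthIn hA).1 x.2.2.1
    have hF := (mem_orthIn hA).1 x.2.2.2.1
    have h1 : ∀ a, B x.2.1.1 (x.1.1 a).1 = 0 := fun a => hE.2 _ (Submodule.subset_span ⟨Sum.inl a, rfl⟩)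
    have h2 : ∀ a, B x.2.1.1 (x.1.1 a).2 = 0 := fun a => hE.2 _ (Submodule.subset_span ⟨Sum.inr a, rfl⟩)
    have h3 : ∀ a, B x.2.1.2 (x.1.1 a).1 = 0 := fun a => hF.2 _ (Submodule.subset_span ⟨Sum.inl a, rfl⟩)
    have h4 : ∀ a, B x.2.1.2 (x.1.1 a).2 = 0 := fun a => hF.2 _ (Submodule.subset_span ⟨Sum.inr a, rfl⟩)
    have h5 := x.2.2.2.2
    intro a b
    refine Fin.lastCases ?_ (fun a => ?_) a
    · refine Fin.lastCases ?_ (fun b => ?_) b
      · simp only [Fin.snoc_last]
        exact ⟨by simp [h5], hA _, hA _⟩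
      · simp only [Fin.snoc_last, Fin.snoc_castSucc]
        refine ⟨by rw [h2, if_neg]; exact (Fin.castSucc_lt_last b).ne', h1 b, h4 b⟩
    · refine Fin.lastCases ?_ (fun b => ?_) b
      · simp only [Fin.snoc_last, Fin.snoc_castSucc]
        refine ⟨?_, swap_zero hA (h1 a), swap_zero hA (h4 a)⟩
        rw [swap_zero hA (h3 a), if_neg]
        exact (Fin.castSucc_lt_last a).ne
      · simp only [Fin.snoc_castSucc]
        have h6 := h0 a b
        refine ⟨?_, h6.2.1, h6.2.2⟩
        rw [h6.1]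
        simp only [Fin.castSucc_inj]⟩

theorem stepMap_bij (hA : B.IsAlt) (k : ℕ) : Function.Bijective (stepMap (B := B) hA k) := by
  constructor
  · rintro ⟨⟨v, hv⟩, ⟨w, hw⟩⟩ ⟨⟨v', hv'⟩, ⟨w', hw'⟩⟩ h
    have h1 : (Fin.snoc v w : Fin (k + 1) → V × V) = Fin.snoc v' w' := congrArg Subtype.val h
    have h2 : v = v' := by
      have := congrArg Fin.init h1
      simpa using this
    subst h2
    have h3 : w = w' := by
      have := congrFun h1 (Fin.last k)
      simpa using this
    subst h3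
    rfl
  · rintro ⟨x, hx⟩
    have hi : ∀ a, (Fin.init x : Fin k → V × V) a = x a.castSucc := fun a => rfl
    have hinit : ∀ a b, B ((Fin.init x : Fin k → V × V) a).1 ((Fin.init x : Fin k → V × V) b).2 = (if a = b then 1 else 0) ∧
        B ((Fin.init x : Fin k → V × V) a).1 ((Fin.init x : Fin k → V × V) b).1 = 0 ∧
        B ((Fin.init x : Fin k → V × V) a).2 ((Fin.init x : Fin k → V × V) b).2 = 0 := by
      intro a b
      have h6 := hx a.castSucc b.castSucc
      refine ⟨?_, h6.2.1, h6.2.2⟩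
      rw [hi, hi, h6.1]
      simp only [Fin.castSucc_inj]
    have hlast : ∀ (b : Fin k), B (x (Fin.last k)).1 (x b.castSucc).1 = 0 ∧ B (x (Fin.last k)).1 (x b.castSucc).2 = 0 ∧
        B (x (Fin.last k)).2 (x b.castSucc).1 = 0 ∧ B (x (Fin.last k)).2 (x b.castSucc).2 = 0 := by
      intro b
      have h6 := hx (Fin.last k) b.castSucc
      have h7 := hx b.castSucc (Fin.last k)
      refine ⟨h6.2.1, ?_, ?_, h6.2.2⟩
      · rw [h6.1, if_neg]
        exact (Fin.castSucc_lt_last b).ne'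
      · have h8 := h7.1
        rw [if_neg (Fin.castSucc_lt_last b).ne] at h8
        exact swap_zero hA h8
    have hmem : ∀ u : V, (∀ b, B u (x (Fin.castSucc b)).1 = 0 ∧ B u (x (Fin.castSucc b)).2 = 0) →
        u ∈ orthIn B ⊤ (Sp (F := F) (Fin.init x : Fin k → V × V)) := by
      intro u hu
      refine (mem_orthIn hA).2 ⟨trivial, ?_⟩
      intro s hs
      unfold Sp at hs
      have h9 : Submodule.span F (Set.range (fam (Fin.init x : Fin k → V × V))) ≤ LinearMap.ker (B u) := by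
        rw [Submodule.span_le]
        rintro _ ⟨y, rfl⟩
        rcases y with b | b
        · exact (hu b).1
        · exact (hu b).2
      exact h9 hs
    refine ⟨⟨⟨Fin.init x, hinit⟩, ⟨x (Fin.last k), hmem _ (fun b => ⟨(hlast b).1, (hlast b).2.1⟩),
      hmem _ (fun b => ⟨(hlast b).2.2.1, (hlast b).2.2.2⟩), ?_⟩⟩, ?_⟩
    · have h6 := (hx (Fin.last k) (Fin.last k)).1
      rw [if_pos rfl] at h6
      exact h6
    · apply Subtype.ext
      exact Fin.snoc_init_self x

/-- The number of hyperbolic frames. -/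
noncomputable def Y (q n k : ℕ) : ℕ := ∏ j ∈ Finset.range k, ((q ^ (2 * (n - j)) - 1) * q ^ (2 * (n - j) - 1))

theorem card_Fr (hA : B.IsAlt) (hN : B.Nondegenerate) {n : ℕ} (hn : finrank F V = 2 * n) (k : ℕ) (hk : k ≤ n) :
    Nat.card (Fr B k) = Y (Fintype.card F) n k := by
  haveI : Finite V := Module.finite_of_finite F
  induction k with
  | zero =>
    have : Unique (Fr B 0) := ⟨⟨⟨Fin.elim0, fun a => a.elim0⟩⟩, fun x => Subtype.ext (funext fun a => a.elim0)⟩
    simp [Y]
  | succ k ih =>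
    have h1 := ih (by omega)
    unfold Y at h1 ⊢
    rw [Finset.prod_range_succ, ← h1]
    rw [← Nat.card_congr (Equiv.ofBijective _ (stepMap_bij (B := B) hA k))]
    haveI : Finite (Fr B k) := Subtype.finite
    haveI := Fintype.ofFinite (Fr B k)
    haveI : ∀ X : Submodule F V, Finite (Hyp B X) := fun X => Subtype.finite
    rw [Nat.card_sigma]
    have h2 : ∀ v : Fr B k, Nat.card (Hyp B (orthIn B ⊤ (Sp (F := F) v.1))) =
        (Fintype.card F ^ (2 * (n - k)) - 1) * Fintype.card F ^ (2 * (n - k) - 1) := by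
      intro v
      have hNd : Nd B (orthIn B ⊤ (Sp (F := F) v.1)) :=
        Nd_orthIn hA le_top (Nd_Sp hA v.2) (TiAbs.Nd_top hN)
      have h3 := finrank_orthIn hA (Y := ⊤) (le_top : Sp (F := F) v.1 ≤ ⊤) (Nd_Sp hA v.2)
      rw [finrank_Sp hA v.2, finrank_top, hn] at h3
      have h4 : finrank F ↥(orthIn B ⊤ (Sp (F := F) v.1)) = 2 * (n - k) := by omega
      rw [card_Hyp hNd, h4]
    simp only [h2, Finset.sum_const, Finset.card_univ, smul_eq_mul]
    rw [Nat.card_eq_fintype_card]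

/-- The fibre map. -/
def fibMap (hA : B.IsAlt) (a : ℕ) : (Σ W : Nds B (2 * a), Fr (B.restrict W.1) a) → Fr B a :=
  fun x => ⟨fun b => (((x.2.1 b).1 : V), ((x.2.1 b).2 : V)), fun b c => x.2.2 b c⟩

theorem Sp_eq (hA : B.IsAlt) {a : ℕ} (W : Submodule F V) (hW : finrank F W = 2 * a) (s : Fr (B.restrict W) a) :
    Sp (F := F) (fun b => (((s.1 b).1 : V), ((s.1 b).2 : V))) = W := by
  have hv : ∀ b c, B ((s.1 b).1 : V) ((s.1 c).2 : V) = (if b = c then 1 else 0) ∧
      B ((s.1 b).1 : V) ((s.1 c).1 : V) = 0 ∧ B ((s.1 b).2 : V) ((s.1 c).2 : V) = 0 := fun b c => s.2 b c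
  apply Submodule.eq_of_le_of_finrank_eq
  · unfold Sp
    rw [Submodule.span_le]
    rintro _ ⟨y, rfl⟩
    rcases y with b | b
    · exact (s.1 b).1.2
    · exact (s.1 b).2.2
  · rw [hW]
    exact finrank_Sp hA (v := fun b => (((s.1 b).1 : V), ((s.1 b).2 : V))) hv

theorem fibMap_bij (hA : B.IsAlt) (a : ℕ) : Function.Bijective (fibMap (B := B) hA a) := by
  constructor
  · rintro ⟨W, s⟩ ⟨W', s'⟩ h
    have h1 : (fun b => (((s.1 b).1 : V), ((s.1 b).2 : V))) = (fun b => (((s'.1 b).1 : V), ((s'.1 b).2 : V))) :=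
      congrArg Subtype.val h
    have hWW : W = W' := by
      apply Subtype.ext
      rw [← Sp_eq hA W.1 W.2.1 s, ← Sp_eq hA W'.1 W'.2.1 s', h1]
    subst hWW
    have hss : s = s' := by
      apply Subtype.ext
      funext b
      have h2 := congrFun h1 b
      apply Prod.ext
      · apply Subtype.ext
        exact congrArg Prod.fst h2
      · apply Subtype.ext
        exact congrArg Prod.snd h2
    subst hss
    rfl
  · rintro ⟨v, hv⟩
    have hmem1 : ∀ b, (v b).1 ∈ Sp (F := F) v := fun b => Submodule.subset_span ⟨Sum.inl b, rfl⟩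
    have hmem2 : ∀ b, (v b).2 ∈ Sp (F := F) v := fun b => Submodule.subset_span ⟨Sum.inr b, rfl⟩
    refine ⟨⟨⟨Sp (F := F) v, finrank_Sp hA hv, Nd_Sp hA hv⟩,
      ⟨fun b => (⟨(v b).1, hmem1 b⟩, ⟨(v b).2, hmem2 b⟩), fun b c => hv b c⟩⟩, ?_⟩
    apply Subtype.ext
    funext b
    rfl

/-- The count of nondegenerate subspaces. -/
theorem card_Nds (hA : B.IsAlt) (hN : B.Nondegenerate) {n a : ℕ} (hn : finrank F V = 2 * n) (ha : a ≤ n) :
    Nat.card (Nds B (2 * a)) * Y (Fintype.card F) a a = Y (Fintype.card F) n a := by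
  haveI : Finite V := Module.finite_of_finite F
  rw [← card_Fr hA hN hn a ha, ← Nat.card_congr (Equiv.ofBijective _ (fibMap_bij (B := B) hA a))]
  haveI : Finite (Nds B (2 * a)) := Subtype.finite
  haveI := Fintype.ofFinite (Nds B (2 * a))
  haveI : ∀ W : Nds B (2 * a), Finite (Fr (B.restrict W.1) a) := fun W => by
    haveI : Finite ↥W.1 := Module.finite_of_finite F
    exact Subtype.finite
  rw [Nat.card_sigma]
  have h2 : ∀ W : Nds B (2 * a), Nat.card (Fr (B.restrict W.1) a) = Y (Fintype.card F) a a := by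
    intro W
    exact card_Fr (V := ↥W.1) (fun x => hA x.1) (Nd.restrict hA W.2.2) W.2.1 a le_rfl
  simp only [h2, Finset.sum_const, Finset.card_univ, smul_eq_mul]
  rw [Nat.card_eq_fintype_card]

/-- A prime dividing the number of nondegenerate subspaces. -/
theorem exists_dvd_of_dvd (hA : B.IsAlt) (hN : B.Nondegenerate) {n a r p q : ℕ} (hq : Fintype.card F = q) (hn : finrank F V = 2 * n) (ha : a ≤ n)
    (hr : r.Prime) (hrp : r ≠ p) (hp : p.Prime) (hpq : ∃ f, q = p ^ f) (hrN : r ∣ Nat.card (Nds B (2 * a))) :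
    ∃ j < a, r ∣ q ^ (2 * (n - j)) - 1 := by
  have h1 := card_Nds hA hN hn ha
  have h2 : r ∣ Y (Fintype.card F) n a := by
    rw [← h1]
    exact hrN.mul_right _
  unfold Y at h2
  rw [hq] at h2
  obtain ⟨j, hj, h3⟩ := (hr.prime.dvd_finsetProd_iff _).1 h2
  refine ⟨j, Finset.mem_range.1 hj, ?_⟩
  rcases (Nat.Prime.dvd_mul hr).1 h3 with h4 | h4
  · exact h4
  · exfalso
    have h5 := hr.dvd_of_dvd_pow h4
    obtain ⟨f, rfl⟩ := hpq
    have h6 := hr.dvd_of_dvd_pow h5
    exact hrp ((Nat.prime_dvd_prime_iff_eq hr hp).1 h6)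

end Cfsg.Agent.Lib.Classical.Elusive.NdCount
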