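import Mathlib
import Cfsg.Agent.Lib.Classical.Elusive.JordanType
import Cfsg.Agent.Lib.Classical.Elusive.SpAtoms
import Cfsg.Agent.Lib.Classical.OJordan.Parity

/-!
# Orthogonal blocks of a unipotent symplectic isometry

Every sub-multiset of the Jordan type of a unipotent isometry of an alternating form (odd characteristic)
with the parity condition is the type of an invariant nondegenerate subspace.
-/

set_option autoImplicit false
set_option linter.unusedSectionVars false
set_option linter.unusedSimpArgs false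
set_option linter.unusedVariables false
set_option linter.style.haveILetI false

namespace Cfsg.Agent.Lib.Classical.Elusive.NdJordan

open Module
open Cfsg.Agent.Lib.Classical.Elusive.Inv Cfsg.Agent.Lib.Classical.Elusive.Jordan
  Cfsg.Agent.Lib.Classical.Elusive.JordanType Cfsg.Agent.Lib.Classical.Elusive.SpAtoms
  Cfsg.Agent.Lib.Classical.Lin.JT1 Cfsg.Agent.Lib.Classical.OJordan.Parity

variable {F V : Type*} [Field F] [AddCommGroup V] [Module F V] [FiniteDimensional F V]
variable {B : LinearMap.BilinForm F V} {N : Module.End F V}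

/-- Basic adjunction. -/
theorem adj_one (hI : ∀ u v, B (u + N u) (v + N v) = B u v) (x z : V) : B (N x) z = - B ((1 + N) x) (N z) := by
  have h := hI x z
  have e : (1 + N) x = x + N x := rfl
  rw [e]
  simp only [map_add, LinearMap.add_apply] at h ⊢
  linear_combination h

theorem comm_Y (l : ℕ) (x : V) : ((1 + N) ^ l) (N x) = N (((1 + N) ^ l) x) := by
  have h : Commute ((1 + N) ^ l) N := Commute.pow_left (Commute.one_left N |>.add_left (Commute.refl N)) l
  have := congrArg (fun S : Module.End F V => S x) h.eq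
  simpa [Module.End.mul_apply] using this

theorem adj_pow (hI : ∀ u v, B (u + N u) (v + N v) = B u v) (l : ℕ) (x z : V) :
    B ((N ^ l) x) z = (-1) ^ l * B (((1 + N) ^ l) x) ((N ^ l) z) := by
  induction l generalizing x with
  | zero => simp
  | succ l ih =>
    have e1 : (N ^ (l + 1)) x = (N ^ l) (N x) := by
      rw [pow_succ, Module.End.mul_apply]
    rw [e1, ih, comm_Y, adj_one hI]
    have e2 : ((1 + N) ^ (l + 1)) x = (1 + N) (((1 + N) ^ l) x) := by
      rw [pow_succ', Module.End.mul_apply]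
    have e3 : (N ^ (l + 1)) z = N ((N ^ l) z) := by
      rw [pow_succ', Module.End.mul_apply]
    rw [e2, e3, pow_succ]
    ring

theorem zero_high (hI : ∀ u v, B (u + N u) (v + N v) = B u v) {e : ℕ} {z : V} (hz : (N ^ e) z = 0) {l j : ℕ} (h : e ≤ l + j) (x : V) :
    B ((N ^ l) x) ((N ^ j) z) = 0 := by
  rw [adj_pow hI]
  have e1 : (N ^ l) ((N ^ j) z) = (N ^ (l + j - e)) ((N ^ e) z) := by
    rw [← Module.End.mul_apply, ← Module.End.mul_apply, ← pow_add, ← pow_add]
    congr 2
    omega
  rw [e1, hz, map_zero, map_zero, mul_zero]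

theorem Y_inv (hI : ∀ u v, B (u + N u) (v + N v) = B u v) {E : ℕ} {z : V} (hz : (N ^ (E + 1)) z = 0) (l : ℕ) (x : V) :
    B (((1 + N) ^ l) x) ((N ^ E) z) = B x ((N ^ E) z) := by
  induction l generalizing x with
  | zero => simp
  | succ l ih =>
    rw [pow_succ, Module.End.mul_apply, ih]
    have e1 : (1 + N) x = x + N x := rfl
    rw [e1, map_add, LinearMap.add_apply, adj_one hI]
    have e2 : N ((N ^ E) z) = (N ^ (E + 1)) z := by
      rw [pow_succ', Module.End.mul_apply]
    rw [e2, hz, map_zero, neg_zero, add_zero]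

theorem top_val (hI : ∀ u v, B (u + N u) (v + N v) = B u v) {E : ℕ} {z : V} (hz : (N ^ (E + 1)) z = 0) {l j : ℕ} (h : l + j = E) (x : V) :
    B ((N ^ l) x) ((N ^ j) z) = (-1) ^ l * B x ((N ^ E) z) := by
  rw [adj_pow hI]
  have e1 : (N ^ l) ((N ^ j) z) = (N ^ E) z := by
    rw [← Module.End.mul_apply, ← pow_add, h]
  rw [e1, Y_inv hI hz]

theorem swap_val (hA : B.IsAlt) (x y : V) : B x y = - B y x :=
  (LinearMap.BilinForm.IsAlt.neg_eq hA y x).symm

/-- The key non-vanishing. -/
theorem key_zero (hI : ∀ u v, B (u + N u) (v + N v) = B u v) {E t : ℕ} {g : Fin t → V} (hg : ∀ a, (N ^ (E + 1)) (g a) = 0)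
    (hG : ∀ c : Fin t → F, (∀ b, ∑ a, c a * B (g a) ((N ^ E) (g b)) = 0) → c = 0)
    (c : (Σ _ : Fin t, Fin (E + 1)) → F)
    (h : ∀ (i : Fin (E + 1)) (b : Fin t), B (∑ p, c p • (N ^ (p.2 : ℕ)) (g p.1)) ((N ^ (E - (i : ℕ))) (g b)) = 0) : c = 0 := by
  have key : ∀ i : ℕ, ∀ hi : i < E + 1, ∀ a, c ⟨a, ⟨i, hi⟩⟩ = 0 := by
    intro i
    induction i using Nat.strong_induction_on with
    | _ i ih =>
      intro hi
      have h1 := hG (fun a => c ⟨a, ⟨i, hi⟩⟩)
      have h2 : (fun a => c ⟨a, ⟨i, hi⟩⟩) = (0 : Fin t → F) := by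
        apply h1
        intro b
        have h3 := h ⟨i, hi⟩ b
        rw [Fintype.sum_sigma] at h3
        simp only [map_sum, map_smul, LinearMap.sum_apply, LinearMap.smul_apply, smul_eq_mul] at h3
        have h4 : ∀ a, ∑ l : Fin (E + 1), c ⟨a, l⟩ * B ((N ^ (l : ℕ)) (g a)) ((N ^ (E - i)) (g b)) =
            c ⟨a, ⟨i, hi⟩⟩ * ((-1) ^ i * B (g a) ((N ^ E) (g b))) := by
          intro a
          rw [Finset.sum_eq_single (⟨i, hi⟩ : Fin (E + 1))]
          · rw [top_val hI (hg b) (by show i + (E - i) = E; omega)]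
          · intro l _ hl
            have hl' : (l : ℕ) ≠ i := fun h => hl (Fin.ext h)
            rcases lt_or_gt_of_ne hl' with h5 | h5
            · have := ih l h5 l.2 a
              simp only [Fin.eta] at this
              rw [this, zero_mul]
            · rw [zero_high hI (hg b) (by omega), mul_zero]
          · intro h
            exact absurd (Finset.mem_univ _) h
        simp only [h4] at h3
        have h6 : ∑ a, c ⟨a, ⟨i, hi⟩⟩ * ((-1) ^ i * B (g a) ((N ^ E) (g b))) =
            (-1) ^ i * ∑ a, c ⟨a, ⟨i, hi⟩⟩ * B (g a) ((N ^ E) (g b)) := by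
          rw [Finset.mul_sum]
          refine Finset.sum_congr rfl fun a _ => ?_
          ring
        rw [h6] at h3
        exact (mul_eq_zero.1 h3).resolve_left (pow_ne_zero _ (by norm_num))
      intro a
      exact congrFun h2 a
  funext ⟨a, l⟩
  exact key l l.2 a

/-- The chain generated by a family with nondegenerate top Gram matrix. -/
theorem chain_facts (hI : ∀ u v, B (u + N u) (v + N v) = B u v) {E t : ℕ} {g : Fin t → V} (hg : ∀ a, (N ^ (E + 1)) (g a) = 0)
    (hG : ∀ c : Fin t → F, (∀ b, ∑ a, c a * B (g a) ((N ^ E) (g b)) = 0) → c = 0) :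
    ∃ P : Submodule F V, IsChain N P g (fun _ => E + 1) ∧ Nd B P := by
  have hli : LinearIndependent F (chainB N g (fun _ => E + 1)) := by
    rw [Fintype.linearIndependent_iff]
    intro c hc
    have h1 := key_zero hI hg hG c (by
      intro i b
      have e : (∑ p, c p • (N ^ (p.2 : ℕ)) (g p.1)) = ∑ p, c p • chainB N g (fun _ => E + 1) p := rfl
      rw [e, hc, map_zero, LinearMap.zero_apply])
    intro p
    rw [h1]
    rfl
  refine ⟨Submodule.span F (Set.range (chainB N g (fun _ => E + 1))), ⟨fun _ => Nat.succ_pos _, hg, hli, rfl⟩, ?_⟩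
  intro u hu hu0
  rw [Submodule.mem_span_range_iff_exists_fun] at hu
  obtain ⟨c, rfl⟩ := hu
  by_contra hcon
  push Not at hcon
  apply hu0
  have h1 := key_zero hI hg hG c (by
    intro i b
    apply hcon
    exact Submodule.subset_span ⟨⟨b, ⟨E - (i : ℕ), by omega⟩⟩, rfl⟩)
  simp [h1]

theorem isInv_N_iff {y : Module.End F V} {W : Submodule F V} : IsInv (y - 1) W ↔ IsInv y W := by
  constructor
  · intro h u hu
    have : y u = (y - 1) u + u := by simp
    rw [this]
    exact W.add_mem (h u hu) hu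
  · intro h u hu
    have : (y - 1) u = y u - u := by simp
    rw [this]
    exact W.sub_mem (h u hu) hu

/-- An orthogonal block at the top of the Jordan type. -/
theorem exists_block (hA : B.IsAlt) (h2 : (2 : F) ≠ 0) (hI : ∀ u v, B (u + N u) (v + N v) = B u v) {M : ℕ} (hN : N ^ M = 0)
    {W : Submodule F V} (hW : IsInv N W) (hNd : Nd B W) (hne : W ≠ ⊥) :
    ∃ (t E : ℕ) (g : Fin t → V) (P : Submodule F V), ((t = 1 ∧ Odd E) ∨ (t = 2 ∧ Even E)) ∧ P ≤ W ∧ IsChain N P g (fun _ => E + 1) ∧ Nd B P := by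
  classical
  have hex : ∃ e, ∀ w ∈ W, (N ^ e) w = 0 := ⟨M, fun w _ => by rw [hN]; rfl⟩
  obtain ⟨e, he, hmin⟩ : ∃ e, (∀ w ∈ W, (N ^ e) w = 0) ∧ ∀ e' < e, ¬ ∀ w ∈ W, (N ^ e') w = 0 :=
    ⟨Nat.find hex, Nat.find_spec hex, fun e' h => Nat.find_min hex h⟩
  have he0 : e ≠ 0 := by
    rintro rfl
    apply hne
    rw [eq_bot_iff]
    intro w hw
    have := he w hw
    simpa using this
  obtain ⟨E, rfl⟩ := Nat.exists_eq_succ_of_ne_zero he0
  have hmin' := hmin E (Nat.lt_succ_self E)
  push Not at hmin'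
  obtain ⟨v, hvW, hv⟩ := hmin'
  have hkill : ∀ w ∈ W, (N ^ (E + 1)) w = 0 := he
  obtain ⟨u, huW, hu⟩ := hNd _ (hW.pow E hvW) hv
  have hu' : B u ((N ^ E) v) ≠ 0 := by
    intro h
    exact hu (swap_zero hA h)
  -- the symmetry of the form
  have hsym : ∀ x ∈ W, ∀ z ∈ W, B z ((N ^ E) x) = (-1) ^ (E + 1) * B x ((N ^ E) z) := by
    intro x hx z hz
    have h1 := top_val hI (hkill z hz) (l := E) (j := 0) (by omega) x
    rw [pow_zero, Module.End.one_apply] at h1
    rw [swap_val hA, h1, pow_succ]
    ring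
  rcases Nat.even_or_odd E with hE | hE
  · -- odd block size, two generators
    have hdiag : ∀ x ∈ W, B x ((N ^ E) x) = 0 := by
      intro x hx
      have h1 := hsym x hx x hx
      rw [pow_succ, hE.neg_one_pow] at h1
      have h3 : (2 : F) * B x ((N ^ E) x) = 0 := by
        linear_combination h1
      exact (mul_eq_zero.1 h3).resolve_left h2
    let g : Fin 2 → V := ![u, v]
    have hg : ∀ a, g a ∈ W := by
      intro a
      fin_cases a
      · exact huW
      · exact hvW
    obtain ⟨P, hP1, hP2⟩ := chain_facts hI (g := g) (fun a => hkill _ (hg a)) (by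
      intro c hc
      have h0 := hc 0
      have h1 := hc 1
      rw [Fin.sum_univ_two] at h0 h1
      have g0 : g 0 = u := rfl
      have g1 : g 1 = v := rfl
      rw [g0, g1] at h0 h1
      rw [hdiag u huW, mul_zero, zero_add] at h0
      rw [hdiag v hvW, mul_zero, add_zero] at h1
      have hc0 : c 0 = 0 := (mul_eq_zero.1 h1).resolve_right hu'
      have hc1 : c 1 = 0 := by
        refine (mul_eq_zero.1 h0).resolve_right ?_
        rw [hsym u huW v hvW, pow_succ, hE.neg_one_pow]
        intro h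
        apply hu'
        linear_combination -h
      funext a
      fin_cases a
      · exact hc0
      · exact hc1)
    refine ⟨2, E, g, P, Or.inr ⟨rfl, hE⟩, ?_, hP1, hP2⟩
    rw [← hP1.span, Submodule.span_le]
    rintro _ ⟨⟨a, l⟩, rfl⟩
    exact hW.pow _ (hg a)
  · -- even block size, one generator
    have hs : ∀ x ∈ W, ∀ z ∈ W, B z ((N ^ E) x) = B x ((N ^ E) z) := by
      intro x hx z hz
      rw [hsym x hx z hz, (hE.add_one).neg_one_pow, one_mul]
    obtain ⟨u₀, hu₀W, hu₀⟩ : ∃ u₀ ∈ W, B u₀ ((N ^ E) u₀) ≠ 0 := by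
      by_contra hcon
      push Not at hcon
      have h1 := hcon (u + v) (W.add_mem huW hvW)
      simp only [map_add, LinearMap.add_apply] at h1
      rw [hcon u huW, hcon v hvW, hs u huW v hvW] at h1
      apply hu'
      have h3 : (2 : F) * B u ((N ^ E) v) = 0 := by
        linear_combination h1
      exact (mul_eq_zero.1 h3).resolve_left h2
    let g : Fin 1 → V := fun _ => u₀
    obtain ⟨P, hP1, hP2⟩ := chain_facts hI (g := g) (fun a => hkill _ hu₀W) (by
      intro c hc
      have h0 := hc 0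
      rw [Fin.sum_univ_one] at h0
      have hc0 : c 0 = 0 := (mul_eq_zero.1 h0).resolve_right hu₀
      funext a
      fin_cases a
      exact hc0)
    refine ⟨1, E, g, P, Or.inl ⟨rfl, hE⟩, ?_, hP1, hP2⟩
    rw [← hP1.span, Submodule.span_le]
    rintro _ ⟨⟨a, l⟩, rfl⟩
    exact hW.pow _ hu₀W

theorem mu_const (t e : ℕ) : mu (fun _ : Fin t => e) = Multiset.replicate t e := by
  simp only [mu, Multiset.map_const', Finset.card_val, Finset.card_univ, Fintype.card_fin]

/-- Sub-multisets with the parity condition are realised. -/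
theorem exists_sub {y : Module.End F V} (hA : B.IsAlt) (h2 : (2 : F) ≠ 0) (hIy : ∀ u v, B (y u) (y v) = B u v) {R M : ℕ} (hR : 0 < R) (hy : y ^ R = 1)
    (hN : (y - 1) ^ M = 0) (n : ℕ) : ∀ W : Submodule F V, finrank F W = n → IsInv y W → Nd B W → ∀ μ : Multiset ℕ, (∀ a ∈ μ, 0 < a) →
      (∀ k, finrank F (W.map ((y - 1) ^ k)) = gg μ k) → ∀ ν ≤ μ, (∀ e : ℕ, Odd e → Even (ν.count e)) →
      ∃ W', W' ≤ W ∧ IsInv y W' ∧ Nd B W' ∧ finrank F W' = ν.sum := by
  classical
  have hI : ∀ u v, B (u + (y - 1) u) (v + (y - 1) v) = B u v := by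
    intro u v
    have e : ∀ x, x + (y - 1) x = y x := by
      intro x
      simp
    rw [e, e, hIy]
  induction n using Nat.strong_induction_on with
  | _ n ih =>
    intro W hWn hW hNd μ hμ hT ν hνμ hνp
    by_cases hne : W = ⊥
    · -- trivial
      have hμ0 : μ = 0 := by
        have h1 := finrank_eq_sum_of_type hT
        rw [hne, finrank_bot] at h1
        by_contra h
        obtain ⟨a, ha⟩ := Multiset.exists_mem_of_ne_zero h
        have h3 := Multiset.single_le_sum (fun x _ => Nat.zero_le x) a ha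
        have := hμ a ha
        omega
      subst hμ0
      have hν0 : ν = 0 := Multiset.le_zero.1 hνμ
      subst hν0
      exact ⟨⊥, bot_le, isInv_bot y, Nd_bot, by simp⟩
    obtain ⟨t, E, g, P, hcase, hPW, hC, hPNd⟩ := exists_block hA h2 hI hN (isInv_N_iff.2 hW) hNd hne
    have hPinvN : IsInv (y - 1) P := hC.inv
    have hPinv : IsInv y P := isInv_N_iff.1 hPinvN
    let W₁ := orthIn B W P
    have hW₁inv : IsInv y W₁ := isInv_orthIn hA hIy hR hy hW hPinv
    have hW₁Nd : Nd B W₁ := Nd_orthIn hA hPW hPNd hNd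
    have hsup : P ⊔ W₁ = W := sup_orthIn hA hPW hPNd
    have hinf : P ⊓ W₁ = ⊥ := inf_orthIn hA hPNd
    obtain ⟨ν₁, ν₂, hμeq, hν₁, hν₂, hT₁, hT₂⟩ := type_add hN hPinvN (isInv_N_iff.2 hW₁inv) hinf hsup hμ hT
    have hν₁eq : ν₁ = Multiset.replicate t (E + 1) := by
      rw [← mu_const]
      apply gg_inj hν₁ (mu_pos hC)
      intro k
      rw [← hT₁, hC.finrank_map_gg]
    subst hν₁eq
    have hPdim : finrank F P = t * (E + 1) := by
      rw [finrank_eq_sum_of_type hT₁]
      simp
    have htpos : 0 < t := by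
      rcases hcase with ⟨rfl, -⟩ | ⟨rfl, -⟩ <;> norm_num
    have hW₁lt : finrank F W₁ < n := by
      have h3 := finrank_orthIn hA hPW hPNd
      rw [hPdim, hWn] at h3
      have h4 : 0 < t * (E + 1) := by positivity
      have h5 : finrank F ↥(orthIn B W P) = finrank F W₁ := rfl
      omega
    by_cases hsub : Multiset.replicate t (E + 1) ≤ ν
    · -- the block is used
      obtain ⟨ν', rfl⟩ := Multiset.le_iff_exists_add.1 hsub
      rw [hμeq] at hνμ
      have hν'le : ν' ≤ ν₂ := (add_le_add_iff_left (a := Multiset.replicate t (E + 1))).1 hνμ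
      have hν'p : ∀ e : ℕ, Odd e → Even (ν'.count e) := by
        intro e he
        have h3 := hνp e he
        rw [Multiset.count_add, Multiset.count_replicate] at h3
        by_cases h4 : E + 1 = e
        · rcases hcase with ⟨rfl, hE⟩ | ⟨rfl, hE⟩
          · exfalso
            rw [← h4] at he
            exact (Nat.not_even_iff_odd.2 he) hE.add_one
          · rw [if_pos h4] at h3
            exact (Nat.even_add.1 h3).1 (by norm_num)
        · rw [if_neg h4, zero_add] at h3
          exact h3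
      obtain ⟨W', h5, h6, h7, h8⟩ := ih _ hW₁lt W₁ rfl hW₁inv hW₁Nd ν₂ hν₂ hT₂ ν' hν'le hν'p
      have hW'W : W' ≤ W := h5.trans inf_le_left
      have horth : ∀ u ∈ P, ∀ v ∈ W', B u v = 0 := by
        intro u hu v hv
        exact swap_zero hA (((mem_orthIn hA).1 (h5 hv)).2 u hu)
      refine ⟨P ⊔ W', sup_le hPW hW'W, hPinv.sup h6, Nd_sup hA hPNd h7 horth, ?_⟩
      have h9 := Submodule.finrank_sup_add_finrank_inf_eq P W'
      rw [inf_eq_bot_of_orth hPNd horth hA, finrank_bot, add_zero] at h9
      rw [h9, hPdim, h8]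
      simp
    · -- the block is not used
      have hcount : ν.count (E + 1) = 0 := by
        by_contra h0
        apply hsub
        rw [← Multiset.le_count_iff_replicate_le]
        rcases hcase with ⟨rfl, hE⟩ | ⟨rfl, hE⟩
        · omega
        · have h3 := hνp (E + 1) hE.add_one
          obtain ⟨s, hs⟩ := h3
          omega
      have hνle : ν ≤ ν₂ := by
        rw [Multiset.le_iff_count]
        intro a
        by_cases h3 : a = E + 1
        · rw [h3, hcount]
          exact Nat.zero_le _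
        · have h4 := Multiset.le_iff_count.1 hνμ a
          rw [hμeq, Multiset.count_add, Multiset.count_replicate, if_neg (Ne.symm h3), zero_add] at h4
          exact h4
      obtain ⟨W', h5, h6, h7, h8⟩ := ih _ hW₁lt W₁ rfl hW₁inv hW₁Nd ν₂ hν₂ hT₂ ν hνle hνp
      exact ⟨W', h5.trans inf_le_left, h6, h7, h8⟩

/-- Wall parity for alternating forms. -/
theorem even_count_alt (hA : B.IsAlt) {M : ℕ} (hN : N ^ M = 0) {W : Submodule F V} (hW : IsInv N W)
    (hnd : Nd B W) (hI : ∀ x y, B (x + N x) (y + N y) = B x y)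
    {ν : Multiset ℕ} (hν : ∀ a ∈ ν, 0 < a) (hT : ∀ k, finrank F (W.map (N ^ k)) = gg ν k) :
    ∀ e : ℕ, Odd e → Even (ν.count e) := by
  classical
  intro j hj
  obtain ⟨J, i1, i2, v0, e0, hC0⟩ := exists_chain hN (finrank F W) W le_rfl hW
  let σ : Fin (Fintype.card J) ≃ J := (Fintype.equivFin J).symm
  have hC := isChain_reindex hC0 σ
  let d : Fin (Fintype.card J) → ℕ := e0 ∘ σ
  let v : Fin (Fintype.card J) → V := v0 ∘ σ
  have hνeq : ν = mu d := by
    apply gg_inj hν (mu_pos hC)
    intro k
    rw [← hT, hC.finrank_map_gg]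
  let φ := coord N v d
  have hφnL : ∀ x, φ (nL F d x) = N (φ x) := coord_nL hC
  have hφmem : ∀ x, φ x ∈ W := coord_mem hC
  have hφinj : Function.Injective φ := coord_injective hC
  let B' : LinearMap.BilinForm F (Ix d → F) := LinearMap.BilinForm.comp B φ φ
  have hB' : ∀ x y, B' x y = B (φ x) (φ y) := fun x y => rfl
  have hnd' : B'.Nondegenerate := by
    constructor
    · intro x hx
      apply hφinj
      rw [map_zero]
      by_contra h0
      obtain ⟨w, hw, hw2⟩ := hnd _ (hφmem x) h0
      obtain ⟨y, rfl⟩ := exists_coord hC hw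
      exact hw2 (hx y)
    · intro y hy
      apply hφinj
      rw [map_zero]
      by_contra h0
      obtain ⟨w, hw, hw2⟩ := hnd _ (hφmem y) h0
      obtain ⟨x, rfl⟩ := exists_coord hC hw
      exact hw2 (swap_zero hA (hy x))
  have hJ : ∀ x y, B' (jL F d x) (jL F d y) = B' x y := by
    intro x y
    have e1 : ∀ z, φ (jL F d z) = φ z + N (φ z) := by
      intro z
      rw [jL_apply, map_add, hφnL]
    rw [hB', hB', e1, e1]
    exact hI _ _
  have := even_of_isAlt B' hJ hnd' (fun x => hA (φ x)) hj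
  rw [Fintype.card_subtype] at this
  rw [hνeq]
  have e1 : (mu d).count j = (Finset.univ.filter (fun k => d k = j)).card := by
    simp only [mu, Multiset.count_map]
    rw [← Finset.card_val, Finset.filter_val]
    congr 1
    apply Multiset.filter_congr
    intro a _
    exact eq_comm
  rw [e1]
  exact this

end Cfsg.Agent.Lib.Classical.Elusive.NdJordan
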