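import Mathlib
import Cfsg.Agent.Lib.Classical.Elusive.SpCore
import Cfsg.Agent.Lib.Classical.Ore.Lagr
import Cfsg.Agent.Lib.Classical.Symp.Count

/-!
# Counting pairs of complementary totally isotropic subspaces
-/

set_option autoImplicit false
set_option linter.unusedSectionVars false
set_option linter.unusedSimpArgs false
set_option linter.unusedVariables false
set_option linter.style.haveILetI false

namespace Cfsg.Agent.Lib.Classical.Elusive.SpPairs

open Matrix Module Cfsg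
open Cfsg.Agent.Lib.Classical.Symp.Basic Cfsg.Agent.Lib.Classical.Ore.Siegel

variable {F : Type*} [Field F] {d : ℕ}

/-- Ordered pairs of complementary totally isotropic subspaces. -/
abbrev Pairs (d : ℕ) (F : Type*) [Field F] :=
  {P : Submodule F (Fin d ⊕ Fin d → F) × Submodule F (Fin d ⊕ Fin d → F) //
    IsCompl P.1 P.2 ∧ (∀ u ∈ P.1, ∀ v ∈ P.1, Cfsg.sympForm d F u v = 0) ∧ (∀ u ∈ P.2, ∀ v ∈ P.2, Cfsg.sympForm d F u v = 0)}

theorem map_ti (g : symplecticGroup (Fin d) F) {P : Submodule F (Fin d ⊕ Fin d → F)}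
    (h : ∀ u ∈ P, ∀ v ∈ P, Cfsg.sympForm d F u v = 0) :
    ∀ u ∈ P.map (spToLin g : (Fin d ⊕ Fin d → F) →ₗ[F] (Fin d ⊕ Fin d → F)),
      ∀ v ∈ P.map (spToLin g : (Fin d ⊕ Fin d → F) →ₗ[F] (Fin d ⊕ Fin d → F)), Cfsg.sympForm d F u v = 0 := by
  rintro _ ⟨a, ha, rfl⟩ _ ⟨b, hb, rfl⟩
  have := mem_symplecticGroup_iff_forall.1 g.2 a b
  show Cfsg.sympForm d F ((g : Matrix _ _ F) *ᵥ a) ((g : Matrix _ _ F) *ᵥ b) = 0
  rw [this]
  exact h a ha b hb

/-- The action. -/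
noncomputable def actP (g : symplecticGroup (Fin d) F) (P : Pairs d F) : Pairs d F :=
  ⟨(P.1.1.map (spToLin g : (Fin d ⊕ Fin d → F) →ₗ[F] (Fin d ⊕ Fin d → F)),
    P.1.2.map (spToLin g : (Fin d ⊕ Fin d → F) →ₗ[F] (Fin d ⊕ Fin d → F))),
    (Submodule.orderIsoMapComap (spToLin g)).isCompl P.2.1, map_ti g P.2.2.1, map_ti g P.2.2.2⟩

noncomputable instance instActP : MulAction (symplecticGroup (Fin d) F) (Pairs d F) where
  smul := actP
  one_smul P := by
    apply Subtype.ext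
    have h1 : ∀ Q : Submodule F (Fin d ⊕ Fin d → F),
        Q.map (spToLin (1 : symplecticGroup (Fin d) F) : (Fin d ⊕ Fin d → F) →ₗ[F] (Fin d ⊕ Fin d → F)) = Q := by
      intro Q
      ext x
      constructor
      · rintro ⟨a, ha, rfl⟩
        have : ((1 : symplecticGroup (Fin d) F) : Matrix _ _ F) *ᵥ a = a := by simp
        show ((1 : symplecticGroup (Fin d) F) : Matrix _ _ F) *ᵥ a ∈ Q
        rwa [this]
      · intro hx
        refine ⟨x, hx, ?_⟩
        show ((1 : symplecticGroup (Fin d) F) : Matrix _ _ F) *ᵥ x = x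
        simp
    exact Prod.ext (h1 _) (h1 _)
  mul_smul g h P := by
    apply Subtype.ext
    have h1 : ∀ Q : Submodule F (Fin d ⊕ Fin d → F),
        Q.map (spToLin (g * h) : (Fin d ⊕ Fin d → F) →ₗ[F] (Fin d ⊕ Fin d → F)) =
          (Q.map (spToLin h : (Fin d ⊕ Fin d → F) →ₗ[F] (Fin d ⊕ Fin d → F))).map
            (spToLin g : (Fin d ⊕ Fin d → F) →ₗ[F] (Fin d ⊕ Fin d → F)) := by
      intro Q
      rw [← Submodule.map_comp]
      congr 1
      apply LinearMap.ext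
      intro x
      show ((g * h : symplecticGroup (Fin d) F) : Matrix (Fin d ⊕ Fin d) (Fin d ⊕ Fin d) F) *ᵥ x =
        ((g : symplecticGroup (Fin d) F) : Matrix (Fin d ⊕ Fin d) (Fin d ⊕ Fin d) F) *ᵥ
          (((h : symplecticGroup (Fin d) F) : Matrix (Fin d ⊕ Fin d) (Fin d ⊕ Fin d) F) *ᵥ x)
      rw [Matrix.mulVec_mulVec]
      rfl
    exact Prod.ext (h1 _) (h1 _)

theorem smul_val (g : symplecticGroup (Fin d) F) (P : Pairs d F) :
    (g • P).1 = (P.1.1.map (spToLin g : (Fin d ⊕ Fin d → F) →ₗ[F] (Fin d ⊕ Fin d → F)),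
      P.1.2.map (spToLin g : (Fin d ⊕ Fin d → F) →ₗ[F] (Fin d ⊕ Fin d → F))) := rfl

/-- The standard pair. -/
def U₀ (d : ℕ) (F : Type*) [Field F] : Submodule F (Fin d ⊕ Fin d → F) where
  carrier := {x | ∀ i, x (Sum.inr i) = 0}
  add_mem' := by
    intro a b ha hb i
    simp [ha i, hb i]
  zero_mem' := fun i => rfl
  smul_mem' := by
    intro c a ha i
    simp [ha i]

def W₀ (d : ℕ) (F : Type*) [Field F] : Submodule F (Fin d ⊕ Fin d → F) where
  carrier := {x | ∀ i, x (Sum.inl i) = 0}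
  add_mem' := by
    intro a b ha hb i
    simp [ha i, hb i]
  zero_mem' := fun i => rfl
  smul_mem' := by
    intro c a ha i
    simp [ha i]

theorem mem_U₀ {x : Fin d ⊕ Fin d → F} : x ∈ U₀ d F ↔ ∀ i, x (Sum.inr i) = 0 := Iff.rfl
theorem mem_W₀ {x : Fin d ⊕ Fin d → F} : x ∈ W₀ d F ↔ ∀ i, x (Sum.inl i) = 0 := Iff.rfl

theorem isCompl₀ : IsCompl (U₀ d F) (W₀ d F) := by
  constructor
  · rw [Submodule.disjoint_def]
    intro x h1 h2
    funext j
    cases j with
    | inl i => exact h2 i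
    | inr i => exact h1 i
  · rw [codisjoint_iff, eq_top_iff]
    intro x _
    have h1 : (Sum.elim (x ∘ Sum.inl) (0 : Fin d → F) : Fin d ⊕ Fin d → F) ∈ U₀ d F := fun i => rfl
    have h2 : (Sum.elim (0 : Fin d → F) (x ∘ Sum.inr) : Fin d ⊕ Fin d → F) ∈ W₀ d F := fun i => rfl
    have h3 : x = Sum.elim (x ∘ Sum.inl) (0 : Fin d → F) + Sum.elim (0 : Fin d → F) (x ∘ Sum.inr) := by
      funext j
      cases j <;> simp
    rw [h3]
    exact Submodule.add_mem_sup h1 h2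

theorem ti_U₀ : ∀ u ∈ U₀ d F, ∀ v ∈ U₀ d F, Cfsg.sympForm d F u v = 0 := by
  intro u hu v hv
  rw [sympForm_apply]
  apply Finset.sum_eq_zero
  intro i _
  rw [hu i, hv i]
  ring

theorem ti_W₀ : ∀ u ∈ W₀ d F, ∀ v ∈ W₀ d F, Cfsg.sympForm d F u v = 0 := by
  intro u hu v hv
  rw [sympForm_apply]
  apply Finset.sum_eq_zero
  intro i _
  rw [hu i, hv i]
  ring

/-- The standard point. -/
def P₀ (d : ℕ) (F : Type*) [Field F] : Pairs d F := ⟨(U₀ d F, W₀ d F), isCompl₀, ti_U₀, ti_W₀⟩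

/-- Transitivity. -/
theorem exists_smul_P₀ (P : Pairs d F) : ∃ g : symplecticGroup (Fin d) F, g • P₀ d F = P := by
  classical
  obtain ⟨⟨Λ, Λ'⟩, hc, h1, h2⟩ := P
  simp only at hc h1 h2
  obtain ⟨e, he, he1, he2⟩ := Cfsg.Agent.Lib.Classical.Ore.Lagr.exists_coord (B := sympBilin d F) sympBilin_isAlt sympBilin_nondegenerate
    (Λ := Λ) (Λ' := Λ') hc.sup_eq_top h1 h2 (m := d) (by
      rw [Module.finrank_fintype_fun_eq_card, Fintype.card_sum, Fintype.card_fin]
      ring)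
  have hmem : e.symm ∈ Cfsg.Agent.Lib.Classical.Symp.AltForm.IsomGroup (sympBilin d F) := by
    intro x y
    have := he (e.symm x) (e.symm y)
    simp only [LinearEquiv.apply_symm_apply, sympBilin_apply] at this ⊢
    exact this.symm
  let g : symplecticGroup (Fin d) F := ⟨LinearMap.toMatrix' (e.symm : (Fin d ⊕ Fin d → F) →ₗ[F] (Fin d ⊕ Fin d → F)),
    toMatrix_mem_symplecticGroup hmem⟩
  have hg : ∀ x, (g : Matrix _ _ F) *ᵥ x = e.symm x := fun x => by
    simp [g, LinearMap.toMatrix'_mulVec]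
  have hA : (U₀ d F).map (e.symm : (Fin d ⊕ Fin d → F) →ₗ[F] (Fin d ⊕ Fin d → F)) ≤ Λ := by
    rintro _ ⟨x, hx, rfl⟩
    have h3 : x = ∑ i, x (Sum.inl i) • (Pi.single (Sum.inl i) 1 : Fin d ⊕ Fin d → F) := by
      funext j
      cases j with
      | inl i =>
        simp [Finset.sum_apply, Pi.single_apply]
      | inr i =>
        simp [Finset.sum_apply, Pi.single_apply, hx i]
    rw [h3]
    simp only [map_sum, map_smul, LinearEquiv.coe_coe]
    exact Λ.sum_mem fun i _ => Λ.smul_mem _ (he2 i)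
  have hC : Λ' ≤ (W₀ d F).map (e.symm : (Fin d ⊕ Fin d → F) →ₗ[F] (Fin d ⊕ Fin d → F)) := by
    intro x hx
    exact ⟨e x, fun i => he1 x hx i, by simp⟩
  have hAC : IsCompl ((U₀ d F).map (e.symm : (Fin d ⊕ Fin d → F) →ₗ[F] (Fin d ⊕ Fin d → F)))
      ((W₀ d F).map (e.symm : (Fin d ⊕ Fin d → F) →ₗ[F] (Fin d ⊕ Fin d → F))) :=
    (Submodule.orderIsoMapComap e.symm).isCompl isCompl₀
  have htiC : ∀ u ∈ (W₀ d F).map (e.symm : (Fin d ⊕ Fin d → F) →ₗ[F] (Fin d ⊕ Fin d → F)),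
      ∀ v ∈ (W₀ d F).map (e.symm : (Fin d ⊕ Fin d → F) →ₗ[F] (Fin d ⊕ Fin d → F)), Cfsg.sympForm d F u v = 0 := by
    rintro _ ⟨a, ha, rfl⟩ _ ⟨b, hb, rfl⟩
    have := hmem a b
    simp only [sympBilin_apply] at this
    show Cfsg.sympForm d F (e.symm a) (e.symm b) = 0
    rw [this]
    exact ti_W₀ a ha b hb
  have hzero : ∀ x, x ∈ Λ → x ∈ (W₀ d F).map (e.symm : (Fin d ⊕ Fin d → F) →ₗ[F] (Fin d ⊕ Fin d → F)) → x = 0 := by
    intro x hx hx'
    have hxtop : ∀ w, Cfsg.sympForm d F x w = 0 := by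
      intro w
      have hw : w ∈ Λ ⊔ Λ' := by
        rw [hc.sup_eq_top]
        trivial
      obtain ⟨a, ha, b, hb, rfl⟩ := Submodule.mem_sup.1 hw
      have h5 : Cfsg.sympForm d F x (a + b) = sympBilin d F x (a + b) := rfl
      rw [h5, map_add, sympBilin_apply, sympBilin_apply, h1 x hx a ha, htiC x hx' b (hC hb), add_zero]
    exact sympBilin_nondegenerate.1 x hxtop
  have hEq1 : (U₀ d F).map (e.symm : (Fin d ⊕ Fin d → F) →ₗ[F] (Fin d ⊕ Fin d → F)) = Λ := by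
    apply le_antisymm hA
    intro x hx
    have hx' : x ∈ (U₀ d F).map (e.symm : (Fin d ⊕ Fin d → F) →ₗ[F] (Fin d ⊕ Fin d → F)) ⊔
        (W₀ d F).map (e.symm : (Fin d ⊕ Fin d → F) →ₗ[F] (Fin d ⊕ Fin d → F)) := by
      rw [hAC.sup_eq_top]
      trivial
    obtain ⟨a, ha, c, hc', rfl⟩ := Submodule.mem_sup.1 hx'
    have h6 : c ∈ Λ := by
      have := Λ.sub_mem hx (hA ha)
      simpa using this
    rw [hzero c h6 hc', add_zero]
    exact ha
  have hEq2 : (W₀ d F).map (e.symm : (Fin d ⊕ Fin d → F) →ₗ[F] (Fin d ⊕ Fin d → F)) = Λ' := by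
    apply le_antisymm _ hC
    intro x hx
    have hx' : x ∈ Λ ⊔ Λ' := by
      rw [hc.sup_eq_top]
      trivial
    obtain ⟨a, ha, c, hc', rfl⟩ := Submodule.mem_sup.1 hx'
    have h6 : a ∈ (W₀ d F).map (e.symm : (Fin d ⊕ Fin d → F) →ₗ[F] (Fin d ⊕ Fin d → F)) := by
      have := Submodule.sub_mem _ hx (hC hc')
      simpa using this
    rw [hzero a ha h6, zero_add]
    exact hc'
  have hmap : (spToLin g : (Fin d ⊕ Fin d → F) →ₗ[F] (Fin d ⊕ Fin d → F)) = (e.symm : (Fin d ⊕ Fin d → F) →ₗ[F] (Fin d ⊕ Fin d → F)) := by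
    apply LinearMap.ext
    intro x
    exact hg x
  refine ⟨g, ?_⟩
  apply Subtype.ext
  rw [smul_val]
  simp only [P₀]
  rw [hmap, hEq1, hEq2]

theorem hat_mulVec_U {a : (Matrix (Fin d) (Fin d) F)ˣ} {x : Fin d ⊕ Fin d → F} (hx : x ∈ U₀ d F) : hat a *ᵥ x ∈ U₀ d F := by
  intro i
  have h1 : x ∘ Sum.inr = 0 := by
    funext k
    exact hx k
  simp [hat, fromBlocks_mulVec, h1]

theorem hat_mulVec_W {a : (Matrix (Fin d) (Fin d) F)ˣ} {x : Fin d ⊕ Fin d → F} (hx : x ∈ W₀ d F) : hat a *ᵥ x ∈ W₀ d F := by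
  intro i
  have h1 : x ∘ Sum.inl = 0 := by
    funext k
    exact hx k
  simp [hat, fromBlocks_mulVec, h1]

theorem hat_inv_mulVec (a : (Matrix (Fin d) (Fin d) F)ˣ) (x : Fin d ⊕ Fin d → F) : hat a *ᵥ (hat a⁻¹ *ᵥ x) = x := by
  rw [Matrix.mulVec_mulVec, ← hat_mul, mul_inv_cancel, hat_one, one_mulVec]

theorem hatS_smul (a : (Matrix (Fin d) (Fin d) F)ˣ) : hatS a • P₀ d F = P₀ d F := by
  apply Subtype.ext
  rw [smul_val]
  apply Prod.ext
  · apply le_antisymm
    · rintro _ ⟨x, hx, rfl⟩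
      exact hat_mulVec_U hx
    · intro x hx
      exact ⟨hat a⁻¹ *ᵥ x, hat_mulVec_U hx, hat_inv_mulVec a x⟩
  · apply le_antisymm
    · rintro _ ⟨x, hx, rfl⟩
      exact hat_mulVec_W hx
    · intro x hx
      exact ⟨hat a⁻¹ *ᵥ x, hat_mulVec_W hx, hat_inv_mulVec a x⟩

/-- The stabilizer of the standard point is the Levi subgroup. -/
theorem exists_hat_of_stab (g : symplecticGroup (Fin d) F) (hg : g • P₀ d F = P₀ d F) :
    ∃ a : (Matrix (Fin d) (Fin d) F)ˣ, hatS a = g := by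
  classical
  have h1 := congrArg (fun P : Pairs d F => P.1.1) hg
  have h2 := congrArg (fun P : Pairs d F => P.1.2) hg
  simp only [smul_val, P₀] at h1 h2
  let M : Matrix (Fin d ⊕ Fin d) (Fin d ⊕ Fin d) F := g
  have hC : M.toBlocks₂₁ = 0 := by
    ext i j
    have h3 : M *ᵥ (Pi.single (Sum.inl j) 1) ∈ U₀ d F := by
      rw [← h1]
      exact ⟨_, fun k => by simp, rfl⟩
    have h4 := h3 i
    rw [mulVec_single_one] at h4
    exact h4
  have hB : M.toBlocks₁₂ = 0 := by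
    ext i j
    have h3 : M *ᵥ (Pi.single (Sum.inr j) 1) ∈ W₀ d F := by
      rw [← h2]
      exact ⟨_, fun k => by simp, rfl⟩
    have h4 := h3 i
    rw [mulVec_single_one] at h4
    exact h4
  have hM : M = fromBlocks M.toBlocks₁₁ 0 0 M.toBlocks₂₂ := by
    conv_lhs => rw [← fromBlocks_toBlocks M, hC, hB]
  have hsym : Mᵀ * J (Fin d) F * M = J (Fin d) F := SymplecticGroup.mem_iff'.1 g.2
  rw [hM] at hsym
  simp only [J, fromBlocks_transpose, fromBlocks_multiply] at hsym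
  simp only [zero_mul, mul_zero, add_zero, zero_add, mul_one, transpose_zero] at hsym
  have h5 := (fromBlocks_inj.1 hsym).2.2.1
  have h6 : M.toBlocks₂₂ᵀ * M.toBlocks₁₁ = 1 := h5
  have h7 : M.toBlocks₁₁ * M.toBlocks₂₂ᵀ = 1 := mul_eq_one_comm.1 h6
  let a : (Matrix (Fin d) (Fin d) F)ˣ := ⟨M.toBlocks₁₁, M.toBlocks₂₂ᵀ, h7, h6⟩
  refine ⟨a, ?_⟩
  apply Subtype.ext
  show hat a = M
  rw [hM]
  show fromBlocks M.toBlocks₁₁ 0 0 (M.toBlocks₂₂ᵀ)ᵀ = _
  rw [transpose_transpose]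

theorem card_pairs [Finite F] :
    Nat.card (Pairs d F) * Nat.card (GL (Fin d) F) = Nat.card (symplecticGroup (Fin d) F) := by
  classical
  haveI : Finite (Fin d ⊕ Fin d → F) := inferInstance
  have hstab : Nat.card (MulAction.stabilizer (symplecticGroup (Fin d) F) (P₀ d F)) = Nat.card (GL (Fin d) F) := by
    let f : GL (Fin d) F → MulAction.stabilizer (symplecticGroup (Fin d) F) (P₀ d F) :=
      fun a => ⟨hatS a, hatS_smul a⟩
    have hf : Function.Bijective f := by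
      constructor
      · intro a b hab
        have h0 : hatS a = hatS b := congrArg Subtype.val hab
        have h1 : hat a = hat b := congrArg Subtype.val h0
        have h2 := (fromBlocks_inj.1 h1).1
        exact Units.ext h2
      · rintro ⟨g, hg⟩
        obtain ⟨a, ha⟩ := exists_hat_of_stab g hg
        exact ⟨a, Subtype.ext ha⟩
    exact (Nat.card_congr (Equiv.ofBijective f hf)).symm
  haveI : Fintype (symplecticGroup (Fin d) F) := Fintype.ofFinite _
  haveI : Fintype (MulAction.orbit (symplecticGroup (Fin d) F) (P₀ d F)) := Fintype.ofFinite _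
  haveI : Fintype (MulAction.stabilizer (symplecticGroup (Fin d) F) (P₀ d F)) := Fintype.ofFinite _
  have horb := MulAction.card_orbit_mul_card_stabilizer_eq_card_group (symplecticGroup (Fin d) F) (P₀ d F)
  simp only [← Nat.card_eq_fintype_card] at horb
  have huniv : MulAction.orbit (symplecticGroup (Fin d) F) (P₀ d F) = Set.univ := by
    ext P
    simp only [Set.mem_univ, iff_true]
    obtain ⟨g, hg⟩ := exists_smul_P₀ P
    exact ⟨g, hg⟩
  rw [huniv, Nat.card_univ, hstab] at horb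
  exact horb

end Cfsg.Agent.Lib.Classical.Elusive.SpPairs
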