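import Mathlib
import Cfsg.Agent.Lib.Classical.Elusive.SpPairs

/-!
# Derangements of odd prime order on pairs of complementary totally isotropic subspaces
-/

set_option autoImplicit false
set_option linter.unusedSectionVars false
set_option linter.unusedSimpArgs false
set_option linter.unusedVariables false
set_option linter.style.haveILetI false

namespace Cfsg.Agent.Lib.Classical.Elusive.SpPairsMain

open Matrix Module Cfsg
open Cfsg.Agent.Lib.Classical.Symp.Basic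
open Cfsg.Agent.Lib.Classical.Elusive.Inv Cfsg.Agent.Lib.Classical.Elusive.PslNum
  Cfsg.Agent.Lib.Classical.Elusive.SpModel Cfsg.Agent.Lib.Classical.Elusive.SpCore
  Cfsg.Agent.Lib.Classical.Elusive.SpPairs

theorem prod_gl {q : ℕ} (hq : 2 ≤ q) (d : ℕ) :
    ∏ i : Fin d, (q ^ d - q ^ (i : ℕ)) = (∏ i ∈ Finset.range d, q ^ i) * ∏ j ∈ Finset.range d, (q ^ (j + 1) - 1) := by
  rw [Fin.prod_univ_eq_prod_range (fun i => q ^ d - q ^ i) d]
  rw [← Finset.prod_range_reflect (fun j => q ^ (j + 1) - 1) d, ← Finset.prod_mul_distrib]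
  refine Finset.prod_congr rfl fun i hi => ?_
  have hi' : i < d := Finset.mem_range.1 hi
  have h1 : d - 1 - i + 1 = d - i := by omega
  rw [h1, Nat.mul_sub, mul_one, ← pow_add]
  have h2 : i + (d - i) = d := by omega
  rw [h2]

theorem prod_sp {q : ℕ} (hq : 2 ≤ q) (d : ℕ) :
    ∏ j ∈ Finset.range d, (q ^ (2 * (j + 1)) - 1) =
      (∏ j ∈ Finset.range d, (q ^ (j + 1) - 1)) * ∏ j ∈ Finset.range d, (q ^ (j + 1) + 1) := by
  rw [← Finset.prod_mul_distrib]
  refine Finset.prod_congr rfl fun i _ => ?_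
  have h1 : 1 ≤ q ^ (i + 1) := Nat.one_le_pow _ _ (by omega)
  rw [mul_comm 2, pow_mul]
  obtain ⟨c, hc⟩ : ∃ c, q ^ (i + 1) = c + 1 := ⟨q ^ (i + 1) - 1, by omega⟩
  rw [hc]
  simp only [Nat.add_sub_cancel]
  rw [show (c + 1) ^ 2 - 1 = c * (c + 1 + 1) by
    rw [show (c + 1) ^ 2 = c * (c + 1 + 1) + 1 by ring]
    simp]

variable {F : Type*} [Field F]

theorem card_eq [Fintype F] {q : ℕ} (hF : Fintype.card F = q) (d : ℕ) :
    Nat.card (Pairs d F) * ∏ i ∈ Finset.range d, q ^ i = q ^ (d ^ 2) * ∏ j ∈ Finset.range d, (q ^ (j + 1) + 1) := by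
  have hq : 2 ≤ q := by
    rw [← hF]
    exact Fintype.one_lt_card
  have h1 := card_pairs (F := F) (d := d)
  rw [Matrix.card_GL_field, hF, prod_gl hq,
    Cfsg.Agent.Lib.Classical.Symp.Count.card_symplecticGroup (q := q) (by rw [Nat.card_eq_fintype_card, hF]) d, prod_sp hq] at h1
  have h2 : 0 < ∏ j ∈ Finset.range d, (q ^ (j + 1) - 1) := by
    apply Finset.prod_pos
    intro j _
    have : 2 ^ (j + 1) ≤ q ^ (j + 1) := Nat.pow_le_pow_left hq _
    have h3 : 2 ≤ 2 ^ (j + 1) := by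
      rw [pow_succ]
      have := Nat.one_le_two_pow (n := j)
      omega
    omega
  have h3 : (Nat.card (Pairs d F) * ∏ i ∈ Finset.range d, q ^ i) * ∏ j ∈ Finset.range d, (q ^ (j + 1) - 1) =
      (q ^ (d ^ 2) * ∏ j ∈ Finset.range d, (q ^ (j + 1) + 1)) * ∏ j ∈ Finset.range d, (q ^ (j + 1) - 1) := by
    rw [mul_assoc, h1]
    ring
  exact Nat.eq_of_mul_eq_mul_right h2 h3

theorem exists_dvd_of_dvd_card [Fintype F] {p : ℕ} [Fact p.Prime] [CharP F p] {q r : ℕ} (hF : Fintype.card F = q) (d : ℕ) (hr : r.Prime)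
    (hrp : r ≠ p) (h : r ∣ Nat.card (Pairs d F)) : ∃ j, j < d ∧ r ∣ q ^ (j + 1) + 1 := by
  have h1 := card_eq hF d
  have h2 : r ∣ q ^ (d ^ 2) * ∏ j ∈ Finset.range d, (q ^ (j + 1) + 1) := by
    rw [← h1]
    exact h.mul_right _
  have hrq : ¬ r ∣ q := by
    obtain ⟨n, hp, hn⟩ := FiniteField.card F p
    rw [← hF, hn]
    intro h3
    have h4 := hr.dvd_of_dvd_pow h3
    exact hrp ((Nat.prime_dvd_prime_iff_eq hr hp).1 h4)
  have h3 := (hr.dvd_mul.1 h2).resolve_left (fun h4 => hrq (hr.dvd_of_dvd_pow h4))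
  obtain ⟨j, hj, hj'⟩ := (Prime.dvd_finsetProd_iff hr.prime _).1 h3
  exact ⟨j, Finset.mem_range.1 hj, hj'⟩

theorem two_dvd_card [Fintype F] {q : ℕ} (hF : Fintype.card F = q) (d : ℕ) (hd : 1 ≤ d) (hodd : Odd q) : 2 ∣ Nat.card (Pairs d F) := by
  have h1 := card_eq hF d
  have h2 : 2 ∣ q ^ (d ^ 2) * ∏ j ∈ Finset.range d, (q ^ (j + 1) + 1) := by
    apply Dvd.dvd.mul_left
    have h3 : q ^ (0 + 1) + 1 ∣ ∏ j ∈ Finset.range d, (q ^ (j + 1) + 1) :=
      Finset.dvd_prod_of_mem (fun j => q ^ (j + 1) + 1) (Finset.mem_range.2 (by omega))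
    refine Dvd.dvd.trans ?_ h3
    simp only [zero_add, pow_one]
    exact (Odd.add_one hodd).two_dvd
  rw [← h1] at h2
  have h3 : Nat.Coprime 2 (∏ i ∈ Finset.range d, q ^ i) := by
    apply Nat.Coprime.prod_right
    intro i _
    apply Nat.Coprime.pow_right
    exact (Nat.coprime_two_left).2 hodd
  exact h3.dvd_of_dvd_mul_right h2

theorem arith {q r j : ℕ} [Fact r.Prime] (hr2 : r ≠ 2) (hj : 0 < j) (h : r ∣ q ^ j + 1) :
    ∃ b, orderOf (q : ZMod r) = 2 * b ∧ 0 < b ∧ b ≤ j ∧ r ∣ q ^ b + 1 := by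
  have hr : r.Prime := Fact.out
  haveI : Fact (2 < r) := ⟨by have := hr.two_le; omega⟩
  set x := (q : ZMod r) with hx
  have h1 : x ^ j = -1 := by
    have h2 : ((q ^ j + 1 : ℕ) : ZMod r) = 0 := (ZMod.natCast_eq_zero_iff _ _).2 h
    push_cast at h2
    exact eq_neg_of_add_eq_zero_left h2
  have hne : (-1 : ZMod r) ≠ 1 := ZMod.neg_one_ne_one
  have h2 : orderOf x ∣ 2 * j := by
    apply orderOf_dvd_of_pow_eq_one
    rw [mul_comm, pow_mul, h1]
    ring
  have h3 : ¬ orderOf x ∣ j := by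
    intro h4
    have h5 := orderOf_dvd_iff_pow_eq_one.1 h4
    rw [h1] at h5
    exact hne h5
  have h4 : Even (orderOf x) := by
    by_contra h5
    rw [Nat.not_even_iff_odd] at h5
    apply h3
    have h6 : Nat.Coprime (orderOf x) 2 := (Nat.coprime_two_right).2 h5
    exact h6.dvd_of_dvd_mul_left h2
  obtain ⟨b, hb⟩ := h4
  have hb2 : orderOf x = 2 * b := by omega
  have hpos : 0 < orderOf x := Nat.pos_of_dvd_of_pos h2 (by omega)
  have hb0 : 0 < b := by omega
  have h5 : b ∣ j := by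
    rw [hb2] at h2
    exact Nat.dvd_of_mul_dvd_mul_left (by norm_num) h2
  refine ⟨b, hb2, hb0, Nat.le_of_dvd hj h5, ?_⟩
  have h6 : x ^ b * x ^ b = 1 := by
    rw [← pow_add, ← hb, pow_orderOf_eq_one]
  have h7 : x ^ b ≠ 1 := by
    intro h8
    have h9 := orderOf_dvd_of_pow_eq_one h8
    rw [hb2] at h9
    have h10 := Nat.le_of_dvd hb0 h9
    omega
  have h8 : x ^ b = -1 := (mul_self_eq_one_iff.1 h6).resolve_left h7
  apply (ZMod.natCast_eq_zero_iff _ _).1
  push_cast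
  rw [← hx, h8]
  ring

/-- The core: no invariant pair. -/
theorem no_pair {V : Type*} [AddCommGroup V] [Module F V] [FiniteDimensional F V] {B : LinearMap.BilinForm F V} (hA : B.IsAlt)
    (hN : B.Nondegenerate) {y : Module.End F V} (hI : ∀ u v, B (y u) (y v) = B u v) {r i : ℕ} (hr : (r : F) ≠ 0) (hy : y ^ r = 1)
    (hi : 0 < i) (hfac : ∀ d : Polynomial F, Irreducible d → d ∣ Phi F r → d.natDegree = i)
    (hdim : finrank F (Fix y) + i = finrank F V) {U W : Submodule F V} (hc : IsCompl U W) (hU : IsInv y U) (hW : IsInv y W)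
    (htU : ∀ u ∈ U, ∀ v ∈ U, B u v = 0) (htW : ∀ u ∈ W, ∀ v ∈ W, B u v = 0) : False := by
  have hK : finrank F (Ker y r) = i := by
    have := finrank_Fix_add hr hy
    omega
  obtain ⟨k₁, hk₁⟩ := dim_split hr hy hi hfac hU
  obtain ⟨k₂, hk₂⟩ := dim_split hr hy hi hfac hW
  have hs1 := finrank_split hr hy hU
  have hs2 := finrank_split hr hy hW
  have hsum := Submodule.finrank_add_eq_of_isCompl hc
  have hdisj : finrank F ↥(U ⊓ Fix y) + finrank F ↥(W ⊓ Fix y) ≤ finrank F (Fix y) := by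
    have h1 := Submodule.finrank_sup_add_finrank_inf_eq (U ⊓ Fix y) (W ⊓ Fix y)
    have h2 : (U ⊓ Fix y) ⊓ (W ⊓ Fix y) = ⊥ := by
      rw [eq_bot_iff]
      rintro x ⟨⟨hx1, _⟩, ⟨hx2, _⟩⟩
      exact hc.disjoint.le_bot ⟨hx1, hx2⟩
    rw [h2, finrank_bot, add_zero] at h1
    rw [← h1]
    exact Submodule.finrank_mono (sup_le inf_le_right inf_le_right)
  have hk : 1 ≤ k₁ + k₂ := by
    by_contra hcon
    have h0 : k₁ = 0 ∧ k₂ = 0 := by omega
    obtain ⟨rfl, rfl⟩ := h0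
    simp only [mul_zero, add_zero] at hk₁ hk₂
    omega
  have key : ∀ {Z : Submodule F V} (k : ℕ), finrank F ↥(Z ⊓ Ker y r) = i * k → 1 ≤ k → (∀ u ∈ Z, ∀ v ∈ Z, B u v = 0) → False := by
    intro Z k hZ hk1 htZ
    have h1 : i ≤ finrank F ↥(Z ⊓ Ker y r) := by
      rw [hZ]
      exact Nat.le_mul_of_pos_right i hk1
    have h2 : Z ⊓ Ker y r = Ker y r := by
      apply Submodule.eq_of_le_of_finrank_le inf_le_right
      omega
    have h3 : Ker y r ≤ Z := by
      rw [← h2]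
      exact inf_le_left
    have h4 : Ker y r ≠ ⊥ := by
      intro h5
      rw [h5, finrank_bot] at hK
      omega
    obtain ⟨u, hu, hu0⟩ := (Submodule.ne_bot_iff _).1 h4
    obtain ⟨v, hv, hv'⟩ := ker_nondeg hA hN hI hr hy hu hu0
    exact hv' (htZ u (h3 hu) v (h3 hv))
  by_cases h1 : 1 ≤ k₁
  · exact key k₁ (by omega) h1 htU
  · exact key k₂ (by omega) (by omega) htW

universe u

theorem main {F : Type u} [Field F] [Fintype F] {p : ℕ} [Fact p.Prime] [CharP F p] {q : ℕ} (hq : Fintype.card F = q)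
    (d : ℕ) (hd : 2 ≤ d) (hodd : Odd q) (r : ℕ) [Fact r.Prime] (hr2 : r ≠ 2) (hrp : r ≠ p)
    (hΩ : r ∣ Nat.card (Pairs d F) / 2) :
    ∃ x : ↥(Matrix.symplecticGroup (Fin d) F),
      (∃ z : F, ((x ^ r : ↥(Matrix.symplecticGroup (Fin d) F)) : Matrix (Fin d ⊕ Fin d) (Fin d ⊕ Fin d) F) = z • (1 : Matrix (Fin d ⊕ Fin d) (Fin d ⊕ Fin d) F)) ∧
      (∀ z : F, (x : Matrix (Fin d ⊕ Fin d) (Fin d ⊕ Fin d) F) ≠ z • (1 : Matrix (Fin d ⊕ Fin d) (Fin d ⊕ Fin d) F)) ∧
      ¬ (∃ U W : Submodule F (Fin d ⊕ Fin d → F), IsCompl U W ∧ (∀ u ∈ U, ∀ v ∈ U, Cfsg.sympForm d F u v = 0) ∧ (∀ u ∈ W, ∀ v ∈ W, Cfsg.sympForm d F u v = 0) ∧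
        ((U.map (Matrix.toLin' (x : Matrix (Fin d ⊕ Fin d) (Fin d ⊕ Fin d) F)) = U ∧ W.map (Matrix.toLin' (x : Matrix (Fin d ⊕ Fin d) (Fin d ⊕ Fin d) F)) = W) ∨
         (U.map (Matrix.toLin' (x : Matrix (Fin d ⊕ Fin d) (Fin d ⊕ Fin d) F)) = W ∧ W.map (Matrix.toLin' (x : Matrix (Fin d ⊕ Fin d) (Fin d ⊕ Fin d) F)) = U))) := by
  classical
  have hr : r.Prime := Fact.out
  have hr0 : (r : F) ≠ 0 := cast_ne_zero_of_ne hr hrp
  have hrodd : Odd r := hr.odd_of_ne_two hr2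
  have h2 := two_dvd_card hq d (by omega) hodd
  have hrN : r ∣ Nat.card (Pairs d F) := hΩ.trans (Nat.div_dvd_of_dvd h2)
  obtain ⟨j, hj, hj'⟩ := exists_dvd_of_dvd_card hq d hr hrp hrN
  obtain ⟨b, hb, hb0, hbj, hbr⟩ := arith hr2 (Nat.succ_pos j) hj'
  have hbd : b ≤ d := by omega
  have hReal := ((reali_half hq hr hrp hb hb0 hbr).nsmul (d - b) 1)
  have hdb : b * 1 + (d - b) = d := by omega
  rw [hdb, mul_one] at hReal
  obtain ⟨y, hyr, hyF⟩ := hReal.toSp
  let T := Matrix.toLin' (y : Matrix (Fin d ⊕ Fin d) (Fin d ⊕ Fin d) F)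
  have hT : ∀ v, T v = (y : Matrix (Fin d ⊕ Fin d) (Fin d ⊕ Fin d) F) *ᵥ v := fun v => rfl
  have hI : ∀ u v, sympBilin d F (T u) (T v) = sympBilin d F u v := by
    intro u v
    simp only [sympBilin_apply]
    exact mem_symplecticGroup_iff_forall.1 y.2 u v
  have hTr : T ^ r = 1 := by
    show (Matrix.toLin' (y : Matrix (Fin d ⊕ Fin d) (Fin d ⊕ Fin d) F)) ^ r = 1
    rw [← Matrix.toLin'_pow, hyr, Matrix.toLin'_one]
    rfl
  have hdimV : finrank F (Fin d ⊕ Fin d → F) = 2 * d := by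
    rw [Module.finrank_fintype_fun_eq_card, Fintype.card_sum, Fintype.card_fin]
    ring
  refine ⟨y, ⟨1, ?_⟩, ?_, ?_⟩
  · rw [one_smul]
    show (y : Matrix (Fin d ⊕ Fin d) (Fin d ⊕ Fin d) F) ^ r = 1
    exact hyr
  · intro z hz
    have hTz : ∀ v, T v = z • v := by
      intro v
      rw [hT, hz]
      simp [smul_mulVec]
    have hz1 : z = 1 := by
      -- the scalar has square one and odd order
      obtain ⟨u, v, huv⟩ : ∃ u v : Fin d ⊕ Fin d → F, sympBilin d F u v ≠ 0 := by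
        haveI : Nonempty (Fin d) := ⟨⟨0, by omega⟩⟩
        let i₀ : Fin d := ⟨0, by omega⟩
        have hne : (Pi.single (Sum.inl i₀) 1 : Fin d ⊕ Fin d → F) ≠ 0 := by
          intro h
          have := congrFun h (Sum.inl i₀)
          simp at this
        by_contra hcon
        push Not at hcon
        exact hne (sympBilin_nondegenerate.1 _ (hcon _))
      have h3 := hI u v
      rw [hTz, hTz, map_smul, map_smul, LinearMap.smul_apply, smul_smul, smul_eq_mul] at h3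
      have h4 : z * z = 1 := by
        have h5 : (z * z - 1) * sympBilin d F u v = 0 := by
          rw [sub_mul, h3, one_mul, sub_self]
        exact sub_eq_zero.1 ((mul_eq_zero.1 h5).resolve_right huv)
      have h6 : ∀ k : ℕ, ∀ v, (T ^ k) v = z ^ k • v := by
        intro k
        induction k with
        | zero => intro v; simp
        | succ k ih =>
          intro v
          rw [pow_succ', Module.End.mul_apply, ih, hTz, pow_succ', mul_smul, smul_comm]
      have h7 : z ^ r = 1 := by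
        have h8 := h6 r u
        rw [hTr] at h8
        have hu0 : u ≠ 0 := by
          rintro rfl
          simp at huv
        have h9 : (z ^ r - 1) • u = 0 := by
          rw [sub_smul, ← h8, one_smul]
          simp
        exact sub_eq_zero.1 ((smul_eq_zero.1 h9).resolve_right hu0)
      obtain ⟨s, hs⟩ := hrodd
      rw [hs, pow_succ, pow_mul, _root_.sq, h4, one_pow, one_mul] at h7
      exact h7
    have hFix : Fix T = ⊤ := by
      rw [eq_top_iff]
      intro v _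
      rw [mem_Fix, hTz, hz1, one_smul]
    have h3 : finrank F (Fix T) + 2 * b = 2 * d := hyF
    rw [hFix, finrank_top, hdimV] at h3
    omega
  · rintro ⟨U, W, hc, htU, htW, hcase⟩
    have hU1 : U.map T = U := by
      rcases hcase with ⟨h3, _⟩ | ⟨h3, h4⟩
      · exact h3
      · exact fix_of_swap hrodd hTr h3 h4
    have hW1 : W.map T = W := by
      rcases hcase with ⟨_, h3⟩ | ⟨h3, h4⟩
      · exact h3
      · exact fix_of_swap hrodd hTr h4 h3
    have hU2 : IsInv T U := fun u hu => by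
      rw [← hU1]
      exact ⟨u, hu, rfl⟩
    have hW2 : IsInv T W := fun u hu => by
      rw [← hW1]
      exact ⟨u, hu, rfl⟩
    refine no_pair (F := F) (B := sympBilin d F) sympBilin_isAlt sympBilin_nondegenerate hI hr0 hTr (i := orderOf (q : ZMod r)) ?_
      (fac_Phi hq hr hrp) ?_ hc hU2 hW2 htU htW
    · rw [hb]
      omega
    · rw [hb, hdimV]
      exact hyF

end Cfsg.Agent.Lib.Classical.Elusive.SpPairsMain
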