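import Mathlib
import Cfsg.Agent.Lib.Classical.Elusive.SpAtoms
import Cfsg.Agent.Lib.Classical.Elusive.SpPairsMain
import Cfsg.Agent.Lib.Classical.Symp.SympBasis
import Cfsg.Agent.Lib.Classical.Symp.SpGL
import Cfsg.Agent.Lib.Classical.Elusive.SpModel
import Cfsg.Agent.Lib.Classical.Elusive.PslNum

/-!
# Elements of odd prime order of `PSp_{2d}(q)` and imprimitive subgroups
-/

set_option autoImplicit false
set_option linter.unusedSectionVars false
set_option linter.unusedSimpArgs false
set_option linter.unusedVariables false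
set_option linter.style.haveILetI false

namespace Cfsg.Agent.Lib.Classical.Elusive.SpImprim

open Polynomial Module Matrix
open Cfsg.Agent.Lib.Classical.Elusive.Inv Cfsg.Agent.Lib.Classical.Elusive.SpCore Cfsg.Agent.Lib.Classical.Elusive.SpAtoms
open Cfsg.Agent.Lib.Classical.Symp.Basic Cfsg.Agent.Lib.Classical.Symp.SpGL

section Group

theorem card_dvd_of_free {G X : Type*} [Group G] [MulAction G X] [Finite G] [Finite X] (hfree : ∀ (g : G) (x : X), g • x = x → g = 1) :
    Nat.card G ∣ Nat.card X := by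
  classical
  rw [Nat.card_congr (MulAction.selfEquivSigmaOrbits G X)]
  haveI : Fintype (Quotient (MulAction.orbitRel G X)) := Fintype.ofFinite _
  rw [Nat.card_sigma]
  apply Finset.dvd_sum
  intro ω _
  have h1 : Nat.card (MulAction.orbit G (Quotient.out ω)) = Nat.card G := by
    symm
    apply Nat.card_congr
    refine Equiv.ofBijective (fun g => ⟨g • Quotient.out ω, g, rfl⟩) ⟨?_, ?_⟩
    · intro a b h
      have h2 : a • Quotient.out ω = b • Quotient.out ω := congrArg Subtype.val h
      have h3 : (b⁻¹ * a) • Quotient.out ω = Quotient.out ω := by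
        rw [mul_smul, h2, inv_smul_smul]
      have h4 := hfree _ _ h3
      rw [inv_mul_eq_one] at h4
      exact h4.symm
    · rintro ⟨_, g, rfl⟩
      exact ⟨g, rfl⟩
  rw [h1]

end Group

section Orbit

variable {F V : Type*} [Field F] [AddCommGroup V] [Module F V] [FiniteDimensional F V]

theorem eq_zero_of_sum_eq_zero' {t : ℕ} {D : Fin t → Submodule F V} (hD : iSupIndep D) {m : ℕ} {g : ℕ → Fin t}
    (hg : Set.InjOn g (Set.Iio m)) {w : ℕ → V} (hw : ∀ k < m, w k ∈ D (g k)) (hs : ∑ k ∈ Finset.range m, w k = 0) :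
    ∀ k < m, w k = 0 := by
  classical
  intro k₀ hk₀
  have h1 : w k₀ = - ∑ k ∈ (Finset.range m).erase k₀, w k := by
    rw [← Finset.add_sum_erase _ _ (Finset.mem_range.2 hk₀)] at hs
    exact eq_neg_of_add_eq_zero_left hs
  have h2 : w k₀ ∈ ⨆ l ≠ g k₀, D l := by
    rw [h1]
    apply Submodule.neg_mem
    apply Submodule.sum_mem
    intro k hk
    rw [Finset.mem_erase, Finset.mem_range] at hk
    have hne : g k ≠ g k₀ := fun h => hk.1 (hg hk.2 hk₀ h)
    have h4 : D (g k) ≤ ⨆ l ≠ g k₀, D l := le_iSup₂_of_le (g k) hne le_rfl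
    exact h4 (hw k hk.2)
  have h3 := (hD (g k₀)).le_bot ⟨hw k₀ hk₀, h2⟩
  exact h3

/-- A moved summand forces large fixed space and large `Ker`. -/
theorem orbit_dims {r : ℕ} (hr : r.Prime) {y : Module.End F V} (hy : y ^ r = 1) {t a : ℕ} {D : Fin t → Submodule F V}
    (hdim : ∀ j, finrank F (D j) = a) (ha : 0 < a) (hD : iSupIndep D) {σ : Equiv.Perm (Fin t)}
    (hσ : ∀ j, (D j).map y = D (σ j)) {j₀ : Fin t} (hj₀ : σ j₀ ≠ j₀) :
    a ≤ finrank F (Fix y) ∧ (r - 1) * a ≤ finrank F (Ker y r) := by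
  classical
  have hmem : ∀ (k : ℕ) (v : V), v ∈ D j₀ → (y ^ k) v ∈ D ((σ ^ k) j₀) := by
    intro k v hv
    induction k with
    | zero => simpa using hv
    | succ k ih =>
      have h1 : (y ^ (k + 1)) v = y ((y ^ k) v) := by rw [pow_succ', Module.End.mul_apply]
      have h2 : (σ ^ (k + 1)) j₀ = σ ((σ ^ k) j₀) := by rw [pow_succ', Equiv.Perm.mul_apply]
      rw [h1, h2, ← hσ]
      exact ⟨_, ih, rfl⟩
  have hmap : ∀ k : ℕ, (D j₀).map (y ^ k) = D ((σ ^ k) j₀) := by
    intro k
    induction k with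
    | zero =>
      simp only [pow_zero]
      exact Submodule.map_id _
    | succ k ih =>
      have h2 : (σ ^ (k + 1)) j₀ = σ ((σ ^ k) j₀) := by rw [pow_succ', Equiv.Perm.mul_apply]
      rw [h2, ← hσ, ← ih, ← Submodule.map_comp, pow_succ']
      rfl
  have hper : (σ ^ r) j₀ = j₀ := by
    by_contra hne
    have h1 : D ((σ ^ r) j₀) = D j₀ := by
      rw [← hmap, hy]
      exact Submodule.map_id _
    have h2 : Disjoint (D ((σ ^ r) j₀)) (D j₀) := hD.pairwiseDisjoint hne
    rw [h1] at h2
    have h3 : D j₀ = ⊥ := disjoint_self.1 h2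
    have h4 := hdim j₀
    rw [h3, finrank_bot] at h4
    omega
  have hperiod : Function.IsPeriodicPt σ r j₀ := by
    show σ^[r] j₀ = j₀
    rw [Equiv.Perm.iterate_eq_pow]
    exact hper
  have hmin : Function.minimalPeriod σ j₀ = r := by
    have h1 := hperiod.minimalPeriod_dvd
    rcases (Nat.dvd_prime hr).1 h1 with h2 | h2
    · exfalso
      apply hj₀
      exact Function.minimalPeriod_eq_one_iff_isFixedPt.1 h2
    · exact h2
  have hg : Set.InjOn (fun k : ℕ => (σ ^ k) j₀) (Set.Iio r) := by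
    have h1 := Function.iterate_injOn_Iio_minimalPeriod (f := σ) (x := j₀)
    rw [hmin] at h1
    intro k hk l hl hkl
    apply h1 hk hl
    simp only [Equiv.Perm.iterate_eq_pow]
    exact hkl
  have hPhi : ∀ v, Polynomial.aeval y (Phi F r) v = ∑ k ∈ Finset.range r, (y ^ k) v := by
    intro v
    simp [Phi, map_sum, LinearMap.sum_apply]
  constructor
  · have hinj : Function.Injective ((Polynomial.aeval y (Phi F r)).domRestrict (D j₀)) := by
      rw [injective_iff_map_eq_zero]
      rintro ⟨v, hv⟩ h0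
      have h1 : Polynomial.aeval y (Phi F r) v = 0 := h0
      rw [hPhi] at h1
      have h2 := eq_zero_of_sum_eq_zero' hD hg (w := fun k => (y ^ k) v) (fun k _ => hmem k v hv) h1 0 hr.pos
      apply Subtype.ext
      simpa using h2
    have h1 := LinearMap.finrank_range_of_inj hinj
    rw [LinearMap.range_domRestrict, hdim] at h1
    rw [← h1]
    apply Submodule.finrank_mono
    rintro _ ⟨v, -, rfl⟩
    exact mem_Fix.2 (aeval_Phi_sub hy v)
  · obtain ⟨n, hn⟩ : ∃ n, r = n + 1 := ⟨r - 1, by have := hr.pos; omega⟩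
    have hn' : r - 1 = n := by omega
    rw [hn']
    let L : (Fin n → D j₀) →ₗ[F] V :=
      ∑ k : Fin n, ((y ^ ((k : ℕ) + 1) - 1).comp (D j₀).subtype).comp (LinearMap.proj k)
    have hL : ∀ v, L v = ∑ k : Fin n, ((y ^ ((k : ℕ) + 1)) (v k : V) - (v k : V)) := by
      intro v
      simp [L, LinearMap.sum_apply]
    have hinj : Function.Injective L := by
      rw [injective_iff_map_eq_zero]
      intro v h0
      rw [hL, Finset.sum_sub_distrib] at h0
      let w : ℕ → V := fun k => match k with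
        | 0 => - ∑ i : Fin n, (v i : V)
        | k + 1 => if h : k < n then (y ^ (k + 1)) (v ⟨k, h⟩ : V) else 0
      have hw : ∀ k < r, w k ∈ D ((σ ^ k) j₀) := by
        intro k hk
        cases k with
        | zero =>
          simp only [w, pow_zero, Equiv.Perm.one_apply]
          apply Submodule.neg_mem
          exact Submodule.sum_mem _ fun i _ => (v i).2
        | succ k =>
          have h1 : k < n := by omega
          simp only [w, dif_pos h1]
          exact hmem _ _ (v _).2
      have hs : ∑ k ∈ Finset.range r, w k = 0 := by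
        rw [hn, Finset.sum_range_succ']
        have h1 : ∑ k ∈ Finset.range n, w (k + 1) = ∑ i : Fin n, (y ^ ((i : ℕ) + 1)) (v i : V) := by
          rw [Finset.sum_range]
          refine Finset.sum_congr rfl fun i _ => ?_
          simp only [w, dif_pos i.2]
        rw [h1]
        change _ + (- ∑ i : Fin n, (v i : V)) = 0
        rw [← sub_eq_add_neg]
        exact h0
      have h2 := eq_zero_of_sum_eq_zero' hD hg hw hs
      funext i
      apply Subtype.ext
      have h3 := h2 (i + 1) (by have := i.2; omega)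
      simp only [w, dif_pos i.2] at h3
      have h4 : (y ^ (r - ((i : ℕ) + 1))) ((y ^ ((i : ℕ) + 1)) (v i : V)) = (v i : V) := by
        rw [← Module.End.mul_apply, ← pow_add, show r - ((i : ℕ) + 1) + ((i : ℕ) + 1) = r by have := i.2; omega, hy]
        rfl
      rw [Fin.eta] at h3
      rw [h3, map_zero] at h4
      exact h4.symm
    have h1 := LinearMap.finrank_range_of_inj hinj
    have h2 : finrank F (Fin n → D j₀) = n * a := by
      rw [Module.finrank_pi_fintype]
      simp [hdim]
    rw [h2] at h1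
    rw [← h1]
    apply Submodule.finrank_mono
    rintro _ ⟨v, rfl⟩
    rw [hL]
    apply Submodule.sum_mem
    intro k _
    rw [mem_Ker, map_sub]
    have h3 : Polynomial.aeval y (Phi F r) ((y ^ ((k : ℕ) + 1)) (v k : V)) = Polynomial.aeval y (Phi F r) (v k : V) := by
      have h4 : ∀ (m : ℕ) (u : V), (y ^ m) (Polynomial.aeval y (Phi F r) u) = Polynomial.aeval y (Phi F r) u := by
        intro m u
        induction m with
        | zero => simp
        | succ m ih =>
          rw [pow_succ, Module.End.mul_apply, aeval_Phi_sub hy, ih]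
      rw [← h4 ((k : ℕ) + 1) (v k : V), ← Module.End.mul_apply, ← Module.End.mul_apply]
      have h5 : Commute (Polynomial.aeval y (Phi F r)) (y ^ ((k : ℕ) + 1)) := by
        have h6 : Polynomial.aeval y (X ^ ((k : ℕ) + 1) : F[X]) = y ^ ((k : ℕ) + 1) := by simp
        rw [← h6, Commute, SemiconjBy, ← map_mul, ← map_mul, mul_comm]
      rw [h5.eq]
    rw [h3, sub_self]

/-- Dimensions add up over independent families. -/
theorem finrank_iSup_of_indep {t : ℕ} {E : Fin t → Submodule F V} (hE : iSupIndep E) :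
    ∑ j, finrank F (E j) = finrank F ↥(⨆ j, E j) := by
  classical
  have key : ∀ s : Finset (Fin t), ∑ j ∈ s, finrank F (E j) = finrank F ↥(⨆ j ∈ s, E j) := by
    intro s
    induction s using Finset.induction_on with
    | empty =>
      have h0 : (⨆ j ∈ (∅ : Finset (Fin t)), E j) = ⊥ := by simp
      rw [h0, finrank_bot]
      simp
    | insert j s hj ih =>
      rw [Finset.sum_insert hj, ih, Finset.iSup_insert]
      have h1 := Submodule.finrank_sup_add_finrank_inf_eq (E j) (⨆ i ∈ s, E i)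
      have h2 : Disjoint (E j) (⨆ i ∈ s, E i) := hE.disjoint_biSup (y := (s : Set (Fin t))) (by simpa using hj)
      rw [h2.eq_bot, finrank_bot, add_zero] at h1
      exact h1.symm
  have h1 := key Finset.univ
  have h2 : (⨆ j ∈ (Finset.univ : Finset (Fin t)), E j) = ⨆ j, E j := by
    simp only [Finset.mem_univ, iSup_pos]
  rw [h2] at h1
  exact h1

end Orbit

section Abstract

variable {F V : Type*} [Field F] [AddCommGroup V] [Module F V] [FiniteDimensional F V]
  {B : LinearMap.BilinForm F V} {y : Module.End F V} {r c : ℕ}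

theorem Nd_top (hN : B.Nondegenerate) : Nd B (⊤ : Submodule F V) := by
  intro u _ hu
  by_contra h
  push Not at h
  exact hu (hN.1 u fun v => h v trivial)

theorem indep_of_orth (hA : B.IsAlt) {t : ℕ} {D : Fin t → Submodule F V} (hNd : ∀ j, Nd B (D j))
    (hO : ∀ j j', j ≠ j' → ∀ u ∈ D j, ∀ v ∈ D j', B u v = 0) : iSupIndep D := by
  intro j
  rw [disjoint_iff]
  apply inf_eq_bot_of_orth (hNd j) _ hA
  intro u hu v hv
  have h : (⨆ l, ⨆ (_ : l ≠ j), D l) ≤ LinearMap.ker (B u) :=
    iSup₂_le fun l hl v hv => hO j l hl.symm u hu v hv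
  exact h hv

/-- Construction of an invariant decomposition. -/
theorem exists_inv_decomp (hA : B.IsAlt) (hN : B.Nondegenerate) (hI : ∀ u v, B (y u) (y v) = B u v) (hr : (r : F) ≠ 0)
    (hr0 : 0 < r) (hy : y ^ r = 1) (hb : HasBlocks B y r c) (hc : 0 < c) (hce : Even c) {a t : ℕ} (hae : Even a)
    (hdim : finrank F V = a * t) (hk : finrank F V % c = t * (a % c)) :
    ∃ D : Fin t → Submodule F V, (∀ j, IsInv y (D j) ∧ Nd B (D j) ∧ finrank F (D j) = a) ∧
      (∀ j j', j ≠ j' → ∀ u ∈ D j, ∀ v ∈ D j', B u v = 0) ∧ ⨆ j, D j = ⊤ := by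
  have hcK : c ∣ finrank F (Ker y r) :=
    dvd_of_blocks hA hI hr0 hy hb hc _ _ rfl (isInv_Ker y r) (fun u hu h0 => ker_nondeg hA hN hI hr hy hu h0) le_rfl
  have hsum := finrank_Fix_add hr hy
  have hfix : t * (a % c) ≤ finrank F ↥((⊤ : Submodule F V) ⊓ Fix y) := by
    rw [top_inf_eq, ← hk, ← hsum]
    obtain ⟨m, hm⟩ := hcK
    rw [hm, Nat.add_mul_mod_self_left]
    exact Nat.mod_le _ _
  obtain ⟨D, h1, h2, h3⟩ := exists_D hA hI hr hr0 hy hb hc (a₀ := a / c) (l := a % c) (by rw [Nat.div_add_mod']) hae hce t ⊤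
    (isInv_top y) (Nd_top hN) (by rw [finrank_top, hdim]) hfix
  exact ⟨D, fun j => (h1 j).2, h2, h3⟩

/-- If a decomposition is stabilized and no summand moves, each summand is invariant. -/
theorem inv_of_fixed {t : ℕ} {D : Fin t → Submodule F V} {σ : Equiv.Perm (Fin t)}
    (hσ : ∀ j, (D j).map y = D (σ j)) {j : Fin t} (hj : σ j = j) : IsInv y (D j) := by
  intro u hu
  have h1 := hσ j
  rw [hj] at h1
  rw [← h1]
  exact ⟨u, hu, rfl⟩

theorem step1 (hA : B.IsAlt) (hI : ∀ u v, B (y u) (y v) = B u v) (hr : (r : F) ≠ 0) (hrp : r.Prime) (hy : y ^ r = 1)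
    (hb : HasBlocks B y r c) (hc : 0 < c) (hrc : c ≤ r - 1) {a t : ℕ} {D : Fin t → Submodule F V}
    (hdim : ∀ j, finrank F (D j) = a) (ha : 2 ≤ a) (hD : iSupIndep D) (hTop : ⨆ j, D j = ⊤) (hNd : ∀ j, Nd B (D j))
    {σ : Equiv.Perm (Fin t)} (hσ : ∀ j, (D j).map y = D (σ j)) (hKc : finrank F (Ker y r) = c) : c ≤ a := by
  by_contra hac
  push Not at hac
  by_cases hmv : ∃ j, σ j ≠ j
  · obtain ⟨j₀, hj₀⟩ := hmv
    have h1 := (orbit_dims hrp hy hdim (by omega) hD hσ hj₀).2
    rw [hKc] at h1
    have h2 : (r - 1) * 2 ≤ (r - 1) * a := Nat.mul_le_mul_left _ ha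
    omega
  · push Not at hmv
    have hle : ∀ j, D j ≤ Fix y := by
      intro j
      have hinv := inv_of_fixed hσ (hmv j)
      have h1 : c ∣ finrank F ↥(D j ⊓ Ker y r) :=
        dvd_of_blocks hA hI hrp.pos hy hb hc _ _ rfl (hinv.inf (isInv_Ker y r)) (Nd_Ker hA hI hr hy hinv (hNd j)) inf_le_right
      have h2 := finrank_split hr hy hinv
      rw [hdim] at h2
      have h3 : finrank F ↥(D j ⊓ Ker y r) = 0 := by
        apply Nat.eq_zero_of_dvd_of_lt h1
        omega
      have h4 : D j ⊓ Fix y = D j := by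
        apply Submodule.eq_of_le_of_finrank_eq inf_le_left
        rw [hdim]
        omega
      rw [← h4]
      exact inf_le_right
    have h1 : Fix y = ⊤ := by
      rw [eq_top_iff, ← hTop]
      exact iSup_le hle
    have h2 := finrank_Fix_add hr hy
    rw [h1, finrank_top, hKc] at h2
    omega

theorem step2 (hA : B.IsAlt) (hI : ∀ u v, B (y u) (y v) = B u v) (hr : (r : F) ≠ 0) (hrp : r.Prime) (hy : y ^ r = 1)
    (hb : HasBlocks B y r c) (hc : 0 < c) {a t : ℕ} {D : Fin t → Submodule F V}
    (hdim : ∀ j, finrank F (D j) = a) (ha : 0 < a) (hD : iSupIndep D) (hNd : ∀ j, Nd B (D j))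
    {σ : Equiv.Perm (Fin t)} (hσ : ∀ j, (D j).map y = D (σ j)) (hlt : finrank F (Fix y) < a) :
    t * (a % c) ≤ finrank F (Fix y) := by
  by_cases hmv : ∃ j, σ j ≠ j
  · obtain ⟨j₀, hj₀⟩ := hmv
    have h1 := (orbit_dims hrp hy hdim ha hD hσ hj₀).1
    omega
  · push Not at hmv
    have hle : ∀ j, a % c ≤ finrank F ↥(D j ⊓ Fix y) := by
      intro j
      have hinv := inv_of_fixed hσ (hmv j)
      obtain ⟨m, hm⟩ : c ∣ finrank F ↥(D j ⊓ Ker y r) :=
        dvd_of_blocks hA hI hrp.pos hy hb hc _ _ rfl (hinv.inf (isInv_Ker y r)) (Nd_Ker hA hI hr hy hinv (hNd j)) inf_le_right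
      have h2 := finrank_split hr hy hinv
      rw [hdim, hm] at h2
      rw [h2, Nat.add_mul_mod_self_left]
      exact Nat.mod_le _ _
    have h1 : iSupIndep fun j => D j ⊓ Fix y := hD.mono fun j => inf_le_left
    have h2 := finrank_iSup_of_indep h1
    have h3 : ∑ j : Fin t, (a % c) ≤ ∑ j, finrank F ↥(D j ⊓ Fix y) := Finset.sum_le_sum fun j _ => hle j
    rw [Finset.sum_const, Finset.card_univ, Fintype.card_fin, smul_eq_mul] at h3
    have h4 : finrank F ↥(⨆ j, D j ⊓ Fix y) ≤ finrank F (Fix y) :=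
      Submodule.finrank_mono (iSup_le fun j => inf_le_right)
    omega

end Abstract

section Blocks

variable {F V : Type*} [Field F] [Fintype F] [AddCommGroup V] [Module F V] [FiniteDimensional F V]
  {B : LinearMap.BilinForm F V} {y : Module.End F V} {p : ℕ} [Fact p.Prime] [CharP F p]

theorem hasBlocks {q r : ℕ} [Fact r.Prime] (hF : Fintype.card F = q) (hr2 : r ≠ 2) (hrp : r ≠ p) (hA : B.IsAlt)
    (hI : ∀ u v, B (y u) (y v) = B u v) (hy : y ^ r = 1) :
    HasBlocks B y r (if Even (orderOf (q : ZMod r)) then orderOf (q : ZMod r) else 2 * orderOf (q : ZMod r)) := by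
  have hr : r.Prime := Fact.out
  have hr0 : (r : F) ≠ 0 := PslNum.cast_ne_zero_of_ne hr hrp
  have hrodd : Odd r := hr.odd_of_ne_two hr2
  have hfac := PslNum.fac_Phi (F := F) (p := p) hF hr hrp
  have hipos : 0 < orderOf (q : ZMod r) := by
    obtain ⟨g, -, hg2, -, hg4⟩ := SpModel.exists_factor (F := F) (p := p) hF hr hrp
    rw [← hg4]
    exact hg2.natDegree_pos
  intro Y hY hNd hYK hne
  split_ifs with he
  · obtain ⟨b, hb⟩ := he
    have hr1 : r ∣ Fintype.card F ^ b + 1 := by
      rw [hF]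
      haveI : Fact (2 < r) := ⟨by have := hr.two_le; omega⟩
      set x := (q : ZMod r) with hx
      have h6 : x ^ b * x ^ b = 1 := by
        rw [← pow_add, ← hb, pow_orderOf_eq_one]
      have h7 : x ^ b ≠ 1 := by
        intro h8
        have h9 := orderOf_dvd_of_pow_eq_one h8
        have hb0 : 0 < b := by omega
        have h10 := Nat.le_of_dvd hb0 h9
        omega
      have h8 : x ^ b = -1 := (mul_self_eq_one_iff.1 h6).resolve_left h7
      apply (ZMod.natCast_eq_zero_iff _ _).1
      push_cast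
      rw [← hx, h8]
      ring
    exact exists_block_even hA hI hr0 hrodd hy hipos hfac hr1 hY hNd hYK hne
  · exact exists_block_odd hA hI hr0 hr.pos hy hipos hfac (Nat.not_even_iff_odd.1 he) hY hNd hYK hne

end Blocks

end Cfsg.Agent.Lib.Classical.Elusive.SpImprim
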