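import Mathlib
import Cfsg.Agent.Lib.Classical.Elusive.SpImprim
import Cfsg.Agent.Lib.Classical.Symp.Count

/-!
# Orthogonal decompositions of the symplectic space: actions and counting
-/

set_option autoImplicit false
set_option linter.unusedSectionVars false
set_option linter.unusedSimpArgs false
set_option linter.unusedVariables false
set_option linter.style.haveILetI false

namespace Cfsg.Agent.Lib.Classical.Elusive.SpImprimDec

open Polynomial Module Matrix
open Cfsg.Agent.Lib.Classical.Elusive.Inv Cfsg.Agent.Lib.Classical.Elusive.SpCore Cfsg.Agent.Lib.Classical.Elusive.SpAtoms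
  Cfsg.Agent.Lib.Classical.Elusive.SpImprim
open Cfsg.Agent.Lib.Classical.Symp.Basic Cfsg.Agent.Lib.Classical.Symp.SpGL

variable {F : Type*} [Field F] {d t a : ℕ}

/-- The orthogonal decompositions of the statement. -/
abbrev Dec (d t a : ℕ) (F : Type*) [Field F] :=
  {D : Fin t → Submodule F (Fin d ⊕ Fin d → F) // (Cfsg.Geo.IsMDecomposition a D ∧ (∀ j, ∀ u ∈ D j, u ≠ 0 → ∃ v ∈ D j, Cfsg.sympForm d F u v ≠ 0) ∧
          (∀ j j', j ≠ j' → ∀ u ∈ D j, ∀ v ∈ D j', Cfsg.sympForm d F u v = 0))}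

theorem map_one_eq (Q : Submodule F (Fin d ⊕ Fin d → F)) :
    Q.map (spToLin (1 : symplecticGroup (Fin d) F) : (Fin d ⊕ Fin d → F) →ₗ[F] (Fin d ⊕ Fin d → F)) = Q := by
  ext x
  constructor
  · rintro ⟨a, ha, rfl⟩
    have : ((1 : symplecticGroup (Fin d) F) : Matrix _ _ F) *ᵥ a = a := by simp
    show ((1 : symplecticGroup (Fin d) F) : Matrix _ _ F) *ᵥ a ∈ Q
    rwa [this]
  · intro hx
    refine ⟨x, hx, ?_⟩
    show ((1 : symplecticGroup (Fin d) F) : Matrix _ _ F) *ᵥ x = x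
    simp

theorem map_mul_eq (g h : symplecticGroup (Fin d) F) (Q : Submodule F (Fin d ⊕ Fin d → F)) :
    Q.map (spToLin (g * h) : (Fin d ⊕ Fin d → F) →ₗ[F] (Fin d ⊕ Fin d → F)) =
      (Q.map (spToLin h : (Fin d ⊕ Fin d → F) →ₗ[F] (Fin d ⊕ Fin d → F))).map
        (spToLin g : (Fin d ⊕ Fin d → F) →ₗ[F] (Fin d ⊕ Fin d → F)) := by
  rw [← Submodule.map_comp]
  congr 1
  apply LinearMap.ext
  intro x
  show ((g * h : symplecticGroup (Fin d) F) : Matrix (Fin d ⊕ Fin d) (Fin d ⊕ Fin d) F) *ᵥ x =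
    ((g : symplecticGroup (Fin d) F) : Matrix (Fin d ⊕ Fin d) (Fin d ⊕ Fin d) F) *ᵥ
      (((h : symplecticGroup (Fin d) F) : Matrix (Fin d ⊕ Fin d) (Fin d ⊕ Fin d) F) *ᵥ x)
  rw [Matrix.mulVec_mulVec]
  rfl

theorem spToLin_form (g : symplecticGroup (Fin d) F) (u v : Fin d ⊕ Fin d → F) :
    Cfsg.sympForm d F (spToLin g u) (spToLin g v) = Cfsg.sympForm d F u v :=
  mem_symplecticGroup_iff_forall.1 g.2 u v

/-- The image of a decomposition under an isometry. -/
theorem map_mem (g : symplecticGroup (Fin d) F) (D : Dec d t a F) :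
    Cfsg.Geo.IsMDecomposition a (fun j => (D.1 j).map (spToLin g : (Fin d ⊕ Fin d → F) →ₗ[F] (Fin d ⊕ Fin d → F))) ∧
      (∀ j, ∀ u ∈ (D.1 j).map (spToLin g : (Fin d ⊕ Fin d → F) →ₗ[F] (Fin d ⊕ Fin d → F)), u ≠ 0 →
        ∃ v ∈ (D.1 j).map (spToLin g : (Fin d ⊕ Fin d → F) →ₗ[F] (Fin d ⊕ Fin d → F)), Cfsg.sympForm d F u v ≠ 0) ∧
      (∀ j j', j ≠ j' → ∀ u ∈ (D.1 j).map (spToLin g : (Fin d ⊕ Fin d → F) →ₗ[F] (Fin d ⊕ Fin d → F)),
        ∀ v ∈ (D.1 j').map (spToLin g : (Fin d ⊕ Fin d → F) →ₗ[F] (Fin d ⊕ Fin d → F)), Cfsg.sympForm d F u v = 0) := by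
  obtain ⟨D, h1, h2, h3⟩ := D
  refine ⟨⟨h1.two_le, h1.pos, fun j => ?_, ?_, ?_⟩, ?_, ?_⟩
  · show finrank F ((D j).map (spToLin g : (Fin d ⊕ Fin d → F) →ₗ[F] (Fin d ⊕ Fin d → F))) = a
    rw [LinearEquiv.finrank_map_eq]
    exact h1.finrank_eq j
  · exact h1.indep.map_orderIso (Submodule.orderIsoMapComap (spToLin g))
  · have h4 := map_iSup (Submodule.orderIsoMapComap (spToLin g)) D
    have h5 : ⨆ j, (D j).map (spToLin g : (Fin d ⊕ Fin d → F) →ₗ[F] (Fin d ⊕ Fin d → F)) =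
        (⨆ j, D j).map (spToLin g : (Fin d ⊕ Fin d → F) →ₗ[F] (Fin d ⊕ Fin d → F)) := h4.symm
    show ⨆ j, (D j).map (spToLin g : (Fin d ⊕ Fin d → F) →ₗ[F] (Fin d ⊕ Fin d → F)) = ⊤
    rw [h5, h1.iSup_eq_top, Submodule.map_top]
    exact LinearEquiv.range _
  · rintro j _ ⟨u, hu, rfl⟩ hu0
    have hu1 : u ≠ 0 := by
      rintro rfl
      exact hu0 (map_zero _)
    obtain ⟨v, hv, hv1⟩ := h2 j u hu hu1
    refine ⟨spToLin g v, ⟨v, hv, rfl⟩, ?_⟩
    show Cfsg.sympForm d F (spToLin g u) (spToLin g v) ≠ 0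
    rwa [spToLin_form]
  · rintro j j' hjj _ ⟨u, hu, rfl⟩ _ ⟨v, hv, rfl⟩
    show Cfsg.sympForm d F (spToLin g u) (spToLin g v) = 0
    rw [spToLin_form]
    exact h3 j j' hjj u hu v hv

noncomputable instance instActDec : MulAction (symplecticGroup (Fin d) F) (Dec d t a F) where
  smul g D := ⟨fun j => (D.1 j).map (spToLin g : (Fin d ⊕ Fin d → F) →ₗ[F] (Fin d ⊕ Fin d → F)), map_mem g D⟩
  one_smul D := Subtype.ext (funext fun j => map_one_eq (D.1 j))
  mul_smul g h D := Subtype.ext (funext fun j => map_mul_eq g h (D.1 j))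

theorem smul_val (g : symplecticGroup (Fin d) F) (D : Dec d t a F) (j : Fin t) :
    (g • D).1 j = (D.1 j).map (spToLin g : (Fin d ⊕ Fin d → F) →ₗ[F] (Fin d ⊕ Fin d → F)) := rfl

section Trans

variable {m : ℕ}

/-- The map built from a family of coordinate systems. -/
noncomputable def mkL (D : Fin t → Submodule F (Fin d ⊕ Fin d → F)) (e : ∀ j, D j ≃ₗ[F] (Fin m ⊕ Fin m → F)) :
    (Fin t → (Fin m ⊕ Fin m → F)) →ₗ[F] (Fin d ⊕ Fin d → F) :=
  ∑ j, (D j).subtype ∘ₗ (e j).symm.toLinearMap ∘ₗ LinearMap.proj j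

theorem mkL_apply (D : Fin t → Submodule F (Fin d ⊕ Fin d → F)) (e : ∀ j, D j ≃ₗ[F] (Fin m ⊕ Fin m → F))
    (w : Fin t → (Fin m ⊕ Fin m → F)) : mkL D e w = ∑ j, (((e j).symm (w j) : D j) : Fin d ⊕ Fin d → F) := by
  simp [mkL, LinearMap.sum_apply]

theorem form_mkL (D : Fin t → Submodule F (Fin d ⊕ Fin d → F)) (e : ∀ j, D j ≃ₗ[F] (Fin m ⊕ Fin m → F))
    (he : ∀ j (u v : D j), Cfsg.sympForm m F (e j u) (e j v) = Cfsg.sympForm d F (u : Fin d ⊕ Fin d → F) v)
    (hO : ∀ j j', j ≠ j' → ∀ u ∈ D j, ∀ v ∈ D j', Cfsg.sympForm d F u v = 0) (w w' : Fin t → (Fin m ⊕ Fin m → F)) :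
    Cfsg.sympForm d F (mkL D e w) (mkL D e w') = ∑ j, Cfsg.sympForm m F (w j) (w' j) := by
  classical
  have h1 : ∀ x y : Fin d ⊕ Fin d → F, Cfsg.sympForm d F x y = sympBilin d F x y := fun _ _ => rfl
  rw [h1, mkL_apply, mkL_apply, map_sum]
  simp only [LinearMap.sum_apply, map_sum]
  refine Finset.sum_congr rfl fun j _ => ?_
  rw [Finset.sum_eq_single j]
  · rw [← h1, ← he, LinearEquiv.apply_symm_apply, LinearEquiv.apply_symm_apply]
  · intro l _ hl
    rw [← h1]
    exact hO l j hl _ ((e l).symm (w l)).2 _ ((e j).symm (w' j)).2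
  · intro h
    exact absurd (Finset.mem_univ j) h

theorem mkL_injective (D : Fin t → Submodule F (Fin d ⊕ Fin d → F)) (e : ∀ j, D j ≃ₗ[F] (Fin m ⊕ Fin m → F))
    (he : ∀ j (u v : D j), Cfsg.sympForm m F (e j u) (e j v) = Cfsg.sympForm d F (u : Fin d ⊕ Fin d → F) v)
    (hO : ∀ j j', j ≠ j' → ∀ u ∈ D j, ∀ v ∈ D j', Cfsg.sympForm d F u v = 0) : Function.Injective (mkL D e) := by
  classical
  rw [injective_iff_map_eq_zero]
  intro w hw
  funext j
  have h1 : ∀ x, Cfsg.sympForm m F (w j) x = 0 := by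
    intro x
    have h2 := form_mkL D e he hO w (Function.update 0 j x)
    rw [hw] at h2
    have h3 : Cfsg.sympForm d F 0 (mkL D e (Function.update 0 j x)) = 0 :=
      show sympBilin d F 0 _ = 0 by simp
    rw [h3, Finset.sum_eq_single j] at h2
    · rw [Function.update_self] at h2
      exact h2.symm
    · intro l _ hl
      rw [Function.update_of_ne hl]
      exact (map_zero (sympBilin m F (w l)))
    · intro h
      exact absurd (Finset.mem_univ j) h
  exact sympBilin_nondegenerate.1 _ h1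

theorem mkL_single (D : Fin t → Submodule F (Fin d ⊕ Fin d → F)) (e : ∀ j, D j ≃ₗ[F] (Fin m ⊕ Fin m → F)) (j : Fin t) (u : D j) :
    mkL D e (Function.update 0 j (e j u)) = u := by
  classical
  rw [mkL_apply, Finset.sum_eq_single j]
  · rw [Function.update_self, LinearEquiv.symm_apply_apply]
  · intro l _ hl
    rw [Function.update_of_ne hl]
    simp
  · intro h
    exact absurd (Finset.mem_univ j) h

theorem mkL_mem (D : Fin t → Submodule F (Fin d ⊕ Fin d → F)) (e : ∀ j, D j ≃ₗ[F] (Fin m ⊕ Fin m → F)) (j : Fin t) (x : Fin m ⊕ Fin m → F) :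
    mkL D e (Function.update 0 j x) ∈ D j := by
  classical
  rw [mkL_apply, Finset.sum_eq_single j]
  · exact ((e j).symm _).2
  · intro l _ hl
    rw [Function.update_of_ne hl]
    simp
  · intro h
    exact absurd (Finset.mem_univ j) h

/-- Coordinate systems on the summands. -/
theorem exists_coord (hm : a = 2 * m) (D : Dec d t a F) (j : Fin t) :
    ∃ e : D.1 j ≃ₗ[F] (Fin m ⊕ Fin m → F),
      ∀ u v : D.1 j, Cfsg.sympForm m F (e u) (e v) = Cfsg.sympForm d F (u : Fin d ⊕ Fin d → F) v := by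
  have hA : (sympBilin d F).IsAlt := sympBilin_isAlt
  have hNd : Nd (sympBilin d F) (D.1 j) := D.2.2.1 j
  obtain ⟨e, he⟩ := Cfsg.Agent.Lib.Classical.Symp.SympBasis.exists_sympEquiv ((sympBilin d F).restrict (D.1 j))
    (fun u => hA u) (hNd.restrict hA) (by rw [D.2.1.finrank_eq j, hm])
  exact ⟨e, he⟩

theorem exists_smul_eq (hm : a = 2 * m) (D D' : Dec d t a F) : ∃ g : symplecticGroup (Fin d) F, g • D = D' := by
  classical
  choose e he using exists_coord hm D
  choose e' he' using exists_coord hm D'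
  have hL := mkL_injective D.1 e he D.2.2.2
  have hL' := mkL_injective D'.1 e' he' D'.2.2.2
  have hform : ∀ w w', Cfsg.sympForm d F (mkL D'.1 e' w) (mkL D'.1 e' w') = Cfsg.sympForm d F (mkL D.1 e w) (mkL D.1 e w') := by
    intro w w'
    rw [form_mkL D.1 e he D.2.2.2, form_mkL D'.1 e' he' D'.2.2.2]
  obtain ⟨g, hg, hgL⟩ := exists_spGL_of_injective (mkL D.1 e) (mkL D'.1 e') hL hL' hform
  let s : symplecticGroup (Fin d) F := ⟨g, coe_mem_symplecticGroup hg⟩
  refine ⟨s, Subtype.ext (funext fun j => ?_)⟩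
  apply Submodule.eq_of_le_of_finrank_eq
  · rintro _ ⟨u, hu, rfl⟩
    show ((g : Matrix _ _ F) *ᵥ u) ∈ D'.1 j
    have h1 := mkL_single D.1 e j ⟨u, hu⟩
    have h2 : (g : Matrix _ _ F) *ᵥ u = mkL D'.1 e' (Function.update 0 j (e j ⟨u, hu⟩)) := by
      rw [← hgL, h1]
    rw [h2]
    exact mkL_mem _ _ _ _
  · rw [smul_val, LinearEquiv.finrank_map_eq, D.2.1.finrank_eq j, D'.2.1.finrank_eq j]

theorem card_dvd [Finite F] (hm : a = 2 * m) (D₀ : Dec d t a F) :
    Nat.card (Dec d t a F) ∣ Nat.card (symplecticGroup (Fin d) F) := by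
  classical
  haveI : Fintype (symplecticGroup (Fin d) F) := Fintype.ofFinite _
  haveI : Finite (Dec d t a F) := inferInstance
  haveI : Fintype (MulAction.orbit (symplecticGroup (Fin d) F) D₀) := Fintype.ofFinite _
  haveI : Fintype (MulAction.stabilizer (symplecticGroup (Fin d) F) D₀) := Fintype.ofFinite _
  have horb := MulAction.card_orbit_mul_card_stabilizer_eq_card_group (symplecticGroup (Fin d) F) D₀
  simp only [← Nat.card_eq_fintype_card] at horb
  have huniv : MulAction.orbit (symplecticGroup (Fin d) F) D₀ = Set.univ := by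
    ext P
    simp only [Set.mem_univ, iff_true]
    obtain ⟨g, hg⟩ := exists_smul_eq hm D₀ P
    exact ⟨g, hg⟩
  rw [huniv, Nat.card_coe_set_eq, Set.ncard_univ] at horb
  exact ⟨_, horb.symm⟩

end Trans

section PermAct

noncomputable instance instPermDec : MulAction (Equiv.Perm (Fin t)) (Dec d t a F) where
  smul π D := ⟨fun j => D.1 (π⁻¹ j), by
    obtain ⟨D, h1, h2, h3⟩ := D
    refine ⟨⟨h1.two_le, h1.pos, fun j => h1.finrank_eq _, ?_, ?_⟩, fun j => h2 _, fun j j' hjj => h3 _ _ ?_⟩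
    · exact h1.indep.comp (π⁻¹).injective
    · rw [← h1.iSup_eq_top]
      exact Equiv.iSup_comp (π⁻¹)
    · intro h
      exact hjj ((π⁻¹).injective h)⟩
  one_smul D := by
    apply Subtype.ext
    funext j
    rfl
  mul_smul g h D := by
    apply Subtype.ext
    funext j
    show D.1 ((g * h)⁻¹ j) = D.1 (h⁻¹ (g⁻¹ j))
    rw [_root_.mul_inv_rev]
    rfl

theorem perm_smul_val (π : Equiv.Perm (Fin t)) (D : Dec d t a F) (j : Fin t) : (π • D).1 j = D.1 (π⁻¹ j) := rfl

theorem factorial_dvd [Finite F] : t.factorial ∣ Nat.card (Dec d t a F) := by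
  classical
  have h1 : Nat.card (Equiv.Perm (Fin t)) = t.factorial := by
    rw [Nat.card_eq_fintype_card, Fintype.card_perm, Fintype.card_fin]
  rw [← h1]
  apply card_dvd_of_free
  intro π D hD
  have hne : ∀ j, D.1 j ≠ ⊥ := by
    intro j h0
    have h2 := D.2.1.finrank_eq j
    have h3 := D.2.1.pos
    rw [h0, finrank_bot] at h2
    omega
  have hinj := D.2.1.indep.injective hne
  have h2 : ∀ j, π⁻¹ j = j := by
    intro j
    apply hinj
    have h3 := congrArg (fun E : Dec d t a F => E.1 j) hD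
    exact h3
  have h3 : π⁻¹ = 1 := by
    ext j
    rw [h2]
    rfl
  rw [← inv_eq_one]
  exact h3

end PermAct

section Nonempty

/-- There is at least one orthogonal decomposition. -/
theorem exists_dec {r : ℕ} (hr : (r : F) ≠ 0) (hr0 : 0 < r) [FiniteDimensional F (Fin d ⊕ Fin d → F)] (hat : 2 * d = a * t) (ha : 2 ≤ a) (hae : Even a) (ht : 2 ≤ t) :
    Nonempty (Dec d t a F) := by
  have hdimV : finrank F (Fin d ⊕ Fin d → F) = 2 * d := by
    rw [Module.finrank_fintype_fun_eq_card, Fintype.card_sum, Fintype.card_fin]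
    ring
  have hI : ∀ u v : Fin d ⊕ Fin d → F, sympBilin d F ((1 : Module.End F (Fin d ⊕ Fin d → F)) u) ((1 : Module.End F (Fin d ⊕ Fin d → F)) v) = sympBilin d F u v := fun u v => rfl
  have hb : HasBlocks (sympBilin d F) (1 : Module.End F (Fin d ⊕ Fin d → F)) r 2 := by
    intro Y hY hNd hYK hne
    exfalso
    apply hne
    rw [eq_bot_iff]
    intro u hu
    have h1 := mem_Ker.1 (hYK hu)
    rw [aeval_Phi_of_fixed (y := (1 : Module.End F (Fin d ⊕ Fin d → F))) (v := u) rfl] at h1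
    exact (smul_eq_zero.1 h1).resolve_left hr
  have ha2 : a % 2 = 0 := Nat.even_iff.1 hae
  obtain ⟨D, h1, h2, h3⟩ := exists_inv_decomp (B := sympBilin d F) (y := 1) (r := r) (c := 2) sympBilin_isAlt sympBilin_nondegenerate hI hr hr0 (one_pow r)
    hb (by norm_num) even_two (a := a) (t := t) hae (by rw [hdimV, hat]) (by rw [hdimV, ha2]; simp)
  refine ⟨⟨D, ⟨ht, by omega, fun j => (h1 j).2.2, ?_, h3⟩, fun j => (h1 j).2.1, h2⟩⟩
  exact indep_of_orth sympBilin_isAlt (fun j => (h1 j).2.1) h2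

end Nonempty

section Card

variable [Fintype F] {p : ℕ} [Fact p.Prime] [CharP F p]

/-- The block size is at most the dimension. -/
theorem c_le {q : ℕ} (hq : Fintype.card F = q) (hat : 2 * d = a * t) (ha : 2 ≤ a) (hae : Even a) (ht : 2 ≤ t)
    {r : ℕ} [Fact r.Prime] (hrp : r ≠ p)
    (hΩ : r ∣ Nat.card (Dec d t a F) / t.factorial) {i c : ℕ} (hi : i = orderOf (q : ZMod r)) (hc : c = if Even i then i else 2 * i) :
    c ≤ 2 * d := by
  classical
  have hr : r.Prime := Fact.out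
  have hr0 : (r : F) ≠ 0 := PslNum.cast_ne_zero_of_ne hr hrp
  have hrN : r ∣ Nat.card (Dec d t a F) := hΩ.trans (Nat.div_dvd_of_dvd factorial_dvd)
  obtain ⟨m, hm⟩ := hae
  have hm' : a = 2 * m := by omega
  obtain ⟨D₀⟩ := exists_dec (F := F) (d := d) (t := t) (a := a) hr0 hr.pos hat ha ⟨m, hm⟩ ht
  have h1 := hrN.trans (card_dvd hm' D₀)
  rw [Cfsg.Agent.Lib.Classical.Symp.Count.card_symplecticGroup (q := q) (by rw [Nat.card_eq_fintype_card, hq]) d] at h1
  have hqpos : 2 ≤ q := by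
    rw [← hq]
    exact Fintype.one_lt_card
  have hrq : ¬ r ∣ q := by
    obtain ⟨n, hp, hn⟩ := FiniteField.card F p
    rw [← hq, hn]
    intro h3
    have h4 := hr.dvd_of_dvd_pow h3
    exact hrp ((Nat.prime_dvd_prime_iff_eq hr hp).1 h4)
  have h3 := (hr.dvd_mul.1 h1).resolve_left (fun h4 => hrq (hr.dvd_of_dvd_pow h4))
  obtain ⟨j, hj, hj'⟩ := (Prime.dvd_finsetProd_iff hr.prime _).1 h3
  rw [Finset.mem_range] at hj
  haveI : Fact r.Prime := ⟨hr⟩
  have h4 : i ∣ 2 * (j + 1) := by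
    rw [hi]
    exact (PslNum.pow_eq_one_iff' (by omega)).2 hj'
  have h5 : c ∣ 2 * (j + 1) := by
    rw [hc]
    split_ifs with he
    · exact h4
    · have h6 : Nat.Coprime i 2 := (Nat.coprime_two_right).2 (Nat.not_even_iff_odd.1 he)
      have h7 : i ∣ j + 1 := h6.dvd_of_dvd_mul_left h4
      exact Nat.mul_dvd_mul_left 2 h7
  have h6 := Nat.le_of_dvd (by omega) h5
  omega

end Card

end Cfsg.Agent.Lib.Classical.Elusive.SpImprimDec
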