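import Mathlib
import Cfsg.Agent.Lib.Classical.Elusive.SpImprimDec

/-!
# Elements of odd prime order of `PSp_{2d}(q)` and imprimitive subgroups: the main theorem
-/

set_option autoImplicit false
set_option linter.unusedSectionVars false
set_option linter.unusedSimpArgs false
set_option linter.unusedVariables false
set_option linter.style.haveILetI false

namespace Cfsg.Agent.Lib.Classical.Elusive.SpImprimMain

open Polynomial Module Matrix
open Cfsg.Agent.Lib.Classical.Elusive.Inv Cfsg.Agent.Lib.Classical.Elusive.SpCore Cfsg.Agent.Lib.Classical.Elusive.SpAtoms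
  Cfsg.Agent.Lib.Classical.Elusive.SpImprim Cfsg.Agent.Lib.Classical.Elusive.SpImprimDec
open Cfsg.Agent.Lib.Classical.Symp.Basic Cfsg.Agent.Lib.Classical.Symp.SpGL

universe u

theorem dvd_pow_add_one {q r b : ℕ} [Fact r.Prime] (hr2 : r ≠ 2) (hb : orderOf (q : ZMod r) = 2 * b) (hb0 : 0 < b) : r ∣ q ^ b + 1 := by
  have hr : r.Prime := Fact.out
  haveI : Fact (2 < r) := ⟨by have := hr.two_le; omega⟩
  set x := (q : ZMod r) with hx
  have h6 : x ^ b * x ^ b = 1 := by
    rw [← pow_add, show b + b = 2 * b by ring, ← hb, pow_orderOf_eq_one]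
  have h7 : x ^ b ≠ 1 := by
    intro h8
    have h9 := orderOf_dvd_of_pow_eq_one h8
    have h10 := Nat.le_of_dvd hb0 h9
    omega
  have h8 : x ^ b = -1 := (mul_self_eq_one_iff.1 h6).resolve_left h7
  apply (ZMod.natCast_eq_zero_iff _ _).1
  push_cast
  rw [← hx, h8]
  ring

variable {F : Type u} [Field F]

theorem exists_form_ne {d : ℕ} (hd : 0 < d) : ∃ u v : Fin d ⊕ Fin d → F, sympBilin d F u v ≠ 0 := by
  let i₀ : Fin d := ⟨0, hd⟩
  have hne : (Pi.single (Sum.inl i₀) 1 : Fin d ⊕ Fin d → F) ≠ 0 := by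
    intro h
    have := congrFun h (Sum.inl i₀)
    simp at this
  by_contra hcon
  push Not at hcon
  exact hne (sympBilin_nondegenerate.1 _ (hcon _))

theorem toLin_isom {d : ℕ} (x : symplecticGroup (Fin d) F) (u v : Fin d ⊕ Fin d → F) :
    sympBilin d F (Matrix.toLin' (x : Matrix (Fin d ⊕ Fin d) (Fin d ⊕ Fin d) F) u) (Matrix.toLin' (x : Matrix (Fin d ⊕ Fin d) (Fin d ⊕ Fin d) F) v) =
      sympBilin d F u v :=
  mem_symplecticGroup_iff_forall.1 x.2 u v

/-- A nontrivial model is not scalar. -/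
theorem nonscalar_of_K {d r : ℕ} (hrodd : Odd r) (hd : 0 < d) (y : symplecticGroup (Fin d) F)
    (hyr : (y : Matrix (Fin d ⊕ Fin d) (Fin d ⊕ Fin d) F) ^ r = 1) {K : ℕ} (hK : 0 < K)
    (hyF : finrank F (Fix (Matrix.toLin' (y : Matrix (Fin d ⊕ Fin d) (Fin d ⊕ Fin d) F))) + K = 2 * d) (z : F) :
    (y : Matrix (Fin d ⊕ Fin d) (Fin d ⊕ Fin d) F) ≠ z • (1 : Matrix (Fin d ⊕ Fin d) (Fin d ⊕ Fin d) F) := by
  intro hz
  have hdimV : finrank F (Fin d ⊕ Fin d → F) = 2 * d := by
    rw [Module.finrank_fintype_fun_eq_card, Fintype.card_sum, Fintype.card_fin]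
    ring
  let T := Matrix.toLin' (y : Matrix (Fin d ⊕ Fin d) (Fin d ⊕ Fin d) F)
  have hI : ∀ u v, sympBilin d F (T u) (T v) = sympBilin d F u v := toLin_isom y
  have hTr : T ^ r = 1 := by
    show (Matrix.toLin' (y : Matrix (Fin d ⊕ Fin d) (Fin d ⊕ Fin d) F)) ^ r = 1
    rw [← Matrix.toLin'_pow, hyr, Matrix.toLin'_one]
    rfl
  have hTz : ∀ v, T v = z • v := by
    intro v
    show (y : Matrix (Fin d ⊕ Fin d) (Fin d ⊕ Fin d) F) *ᵥ v = _
    rw [hz]
    simp [smul_mulVec]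
  have hz1 : z = 1 := by
    obtain ⟨u, v, huv⟩ := exists_form_ne (F := F) hd
    have h3 := hI u v
    rw [hTz, hTz, map_smul, map_smul, LinearMap.smul_apply, smul_smul, smul_eq_mul] at h3
    have h4 : z * z = 1 := by
      have h5 : (z * z - 1) * sympBilin d F u v = 0 := by
        rw [sub_mul, h3, one_mul, sub_self]
      exact sub_eq_zero.1 ((mul_eq_zero.1 h5).resolve_right huv)
    have h6 : ∀ k : ℕ, ∀ v, (T ^ k) v = z ^ k • v := by
      intro k
      induction k with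
      | zero => intro v; simp
      | succ k ih =>
        intro v
        rw [pow_succ', Module.End.mul_apply, ih, hTz, pow_succ', mul_smul, smul_comm]
    have h7 : z ^ r = 1 := by
      have h8 := h6 r u
      rw [hTr] at h8
      have hu0 : u ≠ 0 := by
        rintro rfl
        simp at huv
      have h9 : (z ^ r - 1) • u = 0 := by
        rw [sub_smul, ← h8, one_smul]
        simp
      exact sub_eq_zero.1 ((smul_eq_zero.1 h9).resolve_right hu0)
    obtain ⟨s, hs⟩ := hrodd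
    rw [hs, pow_succ, pow_mul, _root_.sq, h4, one_pow, one_mul] at h7
    exact h7
  have hFix : Fix T = ⊤ := by
    rw [eq_top_iff]
    intro v _
    rw [mem_Fix, hTz, hz1, one_smul]
  have h3 : finrank F (Fix T) + K = 2 * d := hyF
  rw [hFix, finrank_top, hdimV] at h3
  omega

theorem main [Fintype F] {p : ℕ} [Fact p.Prime] [CharP F p] {q : ℕ} (hq : Fintype.card F = q)
    (d : ℕ) (hd : 2 ≤ d)
    (a t : ℕ) (hat : 2 * d = a * t) (ha : 2 ≤ a) (hae : Even a) (ht : 2 ≤ t)
    (r : ℕ) [Fact r.Prime] (hr2 : r ≠ 2) (hrp : r ≠ p) (hΩ : r ∣ Nat.card {D : Fin t → Submodule F (Fin d ⊕ Fin d → F) // (Cfsg.Geo.IsMDecomposition a D ∧ (∀ j, ∀ u ∈ D j, u ≠ 0 → ∃ v ∈ D j, Cfsg.sympForm d F u v ≠ 0) ∧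
          (∀ j j', j ≠ j' → ∀ u ∈ D j, ∀ v ∈ D j', Cfsg.sympForm d F u v = 0))} / Nat.factorial t)
    (i c : ℕ) (hi : i = orderOf (q : ZMod r)) (hc : c = if Even i then i else 2 * i) :
    (∀ x : ↥(Matrix.symplecticGroup (Fin d) F),
      (∃ z : F, ((x ^ r : ↥(Matrix.symplecticGroup (Fin d) F)) : Matrix (Fin d ⊕ Fin d) (Fin d ⊕ Fin d) F) = z • (1 : Matrix (Fin d ⊕ Fin d) (Fin d ⊕ Fin d) F)) →
      (∀ z : F, (x : Matrix (Fin d ⊕ Fin d) (Fin d ⊕ Fin d) F) ≠ z • (1 : Matrix (Fin d ⊕ Fin d) (Fin d ⊕ Fin d) F)) →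
      ∃ D : Fin t → Submodule F (Fin d ⊕ Fin d → F), (Cfsg.Geo.IsMDecomposition a D ∧ (∀ j, ∀ u ∈ D j, u ≠ 0 → ∃ v ∈ D j, Cfsg.sympForm d F u v ≠ 0) ∧
          (∀ j j', j ≠ j' → ∀ u ∈ D j, ∀ v ∈ D j', Cfsg.sympForm d F u v = 0)) ∧
        ∃ σ : Equiv.Perm (Fin t), ∀ j, (D j).map (Matrix.toLin' (x : Matrix (Fin d ⊕ Fin d) (Fin d ⊕ Fin d) F)) = D (σ j)) ↔
    (c ≤ a ∧ (2 * d) % c = t * (a % c)) := by
  classical
  have hr : r.Prime := Fact.out
  have hr0 : (r : F) ≠ 0 := PslNum.cast_ne_zero_of_ne hr hrp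
  have hrodd : Odd r := hr.odd_of_ne_two hr2
  have hqpos : 2 ≤ q := by
    rw [← hq]
    exact Fintype.one_lt_card
  have hrq : ¬ r ∣ q := by
    obtain ⟨n, hp, hn⟩ := FiniteField.card F p
    rw [← hq, hn]
    intro h3
    have h4 := hr.dvd_of_dvd_pow h3
    exact hrp ((Nat.prime_dvd_prime_iff_eq hr hp).1 h4)
  have hdimV : finrank F (Fin d ⊕ Fin d → F) = 2 * d := by
    rw [Module.finrank_fintype_fun_eq_card, Fintype.card_sum, Fintype.card_fin]
    ring
  have hA : (sympBilin d F).IsAlt := sympBilin_isAlt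
  have hN : (sympBilin d F).Nondegenerate := sympBilin_nondegenerate
  have hipos : 0 < i := by
    obtain ⟨g, -, hg2, -, hg4⟩ := SpModel.exists_factor (F := F) (p := p) hq hr hrp
    rw [hi, ← hg4]
    exact hg2.natDegree_pos
  have hcpos : 0 < c := by
    rw [hc]
    split_ifs <;> omega
  have hce : Even c := by
    rw [hc]
    split_ifs with he
    · exact he
    · exact even_two_mul i
  have hir : i ∣ r - 1 := by
    rw [hi]
    apply ZMod.orderOf_dvd_card_sub_one
    intro h0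
    exact hrq ((ZMod.natCast_eq_zero_iff _ _).1 h0)
  have hcr : c ≤ r - 1 := by
    apply Nat.le_of_dvd (by have := hr.two_le; have : r ≠ 2 := hr2; omega)
    rw [hc]
    split_ifs with he
    · exact hir
    · have h1 : Nat.Coprime 2 i := (Nat.coprime_two_left).2 (Nat.not_even_iff_odd.1 he)
      have h2 : 2 ∣ r - 1 := by
        obtain ⟨s, hs⟩ := hrodd
        exact ⟨s, by omega⟩
      exact h1.mul_dvd_of_dvd_of_dvd h2 hir
  have hB : ∀ y : Module.End F (Fin d ⊕ Fin d → F), (∀ u v, sympBilin d F (y u) (y v) = sympBilin d F u v) → y ^ r = 1 →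
      HasBlocks (sympBilin d F) y r c := by
    intro y hI hy
    have h1 := hasBlocks (F := F) (p := p) (B := sympBilin d F) (y := y) (r := r) hq hr2 hrp hA hI hy
    rwa [← hi, ← hc] at h1
  constructor
  · intro H
    have hcd : c ≤ 2 * d := c_le hq hat ha hae ht hrp hΩ hi hc
    obtain ⟨b, hb⟩ := hce
    have hb0 : 0 < b := by omega
    have hR : SpModel.Reali F r b (2 * b) := by
      by_cases he : Even i
      · have hci : c = i := by rw [hc, if_pos he]
        have hib : orderOf (q : ZMod r) = 2 * b := by rw [← hi]; omega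
        exact SpModel.reali_half (p := p) hq hr hrp hib hb0 (dvd_pow_add_one hr2 hib hb0)
      · have hci : c = 2 * i := by rw [hc, if_neg he]
        have hbi : b = orderOf (q : ZMod r) := by rw [← hi]; omega
        rw [hbi]
        exact SpModel.reali_full (p := p) hq hr hrp
    have hbd : b ≤ d := by omega
    have key : ∀ K, 0 < K → ∀ y : symplecticGroup (Fin d) F, (y : Matrix (Fin d ⊕ Fin d) (Fin d ⊕ Fin d) F) ^ r = 1 →
        finrank F (Fix (Matrix.toLin' (y : Matrix (Fin d ⊕ Fin d) (Fin d ⊕ Fin d) F))) + K = 2 * d →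
        ∃ D : Fin t → Submodule F (Fin d ⊕ Fin d → F), (Cfsg.Geo.IsMDecomposition a D ∧ (∀ j, ∀ u ∈ D j, u ≠ 0 → ∃ v ∈ D j, Cfsg.sympForm d F u v ≠ 0) ∧
          (∀ j j', j ≠ j' → ∀ u ∈ D j, ∀ v ∈ D j', Cfsg.sympForm d F u v = 0)) ∧
        ∃ σ : Equiv.Perm (Fin t), ∀ j, (D j).map (Matrix.toLin' (y : Matrix (Fin d ⊕ Fin d) (Fin d ⊕ Fin d) F)) = D (σ j) := by
      intro K hK y hyr hyF
      apply H y
      · refine ⟨1, ?_⟩
        rw [one_smul]
        show (y : Matrix (Fin d ⊕ Fin d) (Fin d ⊕ Fin d) F) ^ r = 1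
        exact hyr
      · exact fun z => nonscalar_of_K hrodd (by omega) y hyr hK hyF z
    have hpow : ∀ y : symplecticGroup (Fin d) F, (y : Matrix (Fin d ⊕ Fin d) (Fin d ⊕ Fin d) F) ^ r = 1 →
        (Matrix.toLin' (y : Matrix (Fin d ⊕ Fin d) (Fin d ⊕ Fin d) F)) ^ r = 1 := by
      intro y hyr
      rw [← Matrix.toLin'_pow, hyr, Matrix.toLin'_one]
      rfl
    -- first model: one block
    have hac : c ≤ a := by
      have hReal := hR.nsmul (d - b) 1
      have hdb : b * 1 + (d - b) = d := by omega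
      rw [hdb, mul_one] at hReal
      obtain ⟨y, hyr, hyF⟩ := hReal.toSp
      obtain ⟨D, ⟨h1, h2, h3⟩, σ, hσ⟩ := key (2 * b) (by omega) y hyr hyF
      have hTr := hpow y hyr
      have hKc : finrank F (Ker (Matrix.toLin' (y : Matrix (Fin d ⊕ Fin d) (Fin d ⊕ Fin d) F)) r) = c := by
        have h4 := finrank_Fix_add hr0 hTr
        rw [hdimV] at h4
        omega
      exact step1 hA (toLin_isom y) hr0 hr hTr (hB _ (toLin_isom y) hTr) hcpos hcr h1.finrank_eq ha h1.indep h1.iSup_eq_top h2 hσ hKc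
    refine ⟨hac, ?_⟩
    -- second model: as many blocks as possible
    have hReal := hR.nsmul (d % b) (d / b)
    rw [Nat.div_add_mod] at hReal
    obtain ⟨y, hyr, hyF⟩ := hReal.toSp
    have hdb1 : 1 ≤ d / b := (Nat.one_le_div_iff hb0).2 hbd
    have hKpos : 0 < 2 * b * (d / b) := by positivity
    obtain ⟨D, ⟨h1, h2, h3⟩, σ, hσ⟩ := key _ hKpos y hyr hyF
    have hTr := hpow y hyr
    have hmod := Nat.div_add_mod d b
    have hmodlt := Nat.mod_lt d hb0
    have hfix : finrank F (Fix (Matrix.toLin' (y : Matrix (Fin d ⊕ Fin d) (Fin d ⊕ Fin d) F))) = 2 * (d % b) := by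
      have h4 : 2 * b * (d / b) = 2 * (b * (d / b)) := by ring
      omega
    have hlt : finrank F (Fix (Matrix.toLin' (y : Matrix (Fin d ⊕ Fin d) (Fin d ⊕ Fin d) F))) < c := by omega
    have h4 := step2 hA (toLin_isom y) hr0 hr hTr (hB _ (toLin_isom y) hTr) hcpos h1.finrank_eq (by omega) h1.indep h2 hσ (by omega)
    have h5 : t * (a % c) < c := by omega
    have h6 : a * t = c * ((a / c) * t) + t * (a % c) := by
      conv_lhs => rw [← Nat.div_add_mod a c]
      ring
    rw [hat, h6, Nat.mul_add_mod, Nat.mod_eq_of_lt h5]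
  · rintro ⟨hca, hk⟩ x ⟨z, hz⟩ hns
    let T := Matrix.toLin' (x : Matrix (Fin d ⊕ Fin d) (Fin d ⊕ Fin d) F)
    have hTv : ∀ v, T v = (x : Matrix (Fin d ⊕ Fin d) (Fin d ⊕ Fin d) F) *ᵥ v := fun v => rfl
    have hI : ∀ u v, sympBilin d F (T u) (T v) = sympBilin d F u v := toLin_isom x
    have hzm : (x : Matrix (Fin d ⊕ Fin d) (Fin d ⊕ Fin d) F) ^ r = z • (1 : Matrix (Fin d ⊕ Fin d) (Fin d ⊕ Fin d) F) := hz
    have hTr : ∀ v, (T ^ r) v = z • v := by
      intro v
      show (Matrix.toLin' (x : Matrix (Fin d ⊕ Fin d) (Fin d ⊕ Fin d) F) ^ r) v = z • v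
      rw [← Matrix.toLin'_pow, hzm, Matrix.toLin'_apply]
      simp [smul_mulVec]
    have hIk : ∀ (k : ℕ) u v, sympBilin d F ((T ^ k) u) ((T ^ k) v) = sympBilin d F u v := by
      intro k
      induction k with
      | zero => intro u v; rfl
      | succ k ih =>
        intro u v
        rw [pow_succ', Module.End.mul_apply, Module.End.mul_apply, hI, ih]
    have hzz : z * z = 1 := by
      obtain ⟨u, v, huv⟩ := exists_form_ne (F := F) (d := d) (by omega)
      have h3 := hIk r u v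
      rw [hTr, hTr, map_smul, map_smul, LinearMap.smul_apply, smul_smul, smul_eq_mul] at h3
      have h5 : (z * z - 1) * sympBilin d F u v = 0 := by
        rw [sub_mul, h3, one_mul, sub_self]
      exact sub_eq_zero.1 ((mul_eq_zero.1 h5).resolve_right huv)
    let y : Module.End F (Fin d ⊕ Fin d → F) := z • T
    have hyv : ∀ v, y v = z • T v := fun v => rfl
    have hIy : ∀ u v, sympBilin d F (y u) (y v) = sympBilin d F u v := by
      intro u v
      rw [hyv, hyv, map_smul, map_smul, LinearMap.smul_apply, hI, smul_smul, smul_eq_mul, hzz, one_mul]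
    have hyr : y ^ r = 1 := by
      apply LinearMap.ext
      intro v
      have h1 : ∀ k : ℕ, y ^ k = z ^ k • T ^ k := fun k => smul_pow z T k
      rw [h1, LinearMap.smul_apply, hTr, smul_smul, ← pow_succ, Module.End.one_apply]
      obtain ⟨s, hs⟩ := hrodd
      have h2 : r + 1 = 2 * (s + 1) := by omega
      rw [h2, pow_mul, _root_.sq, hzz, one_pow, one_smul]
    obtain ⟨D, h1, h2, h3⟩ := exists_inv_decomp hA hN hIy hr0 hr.pos hyr (hB y hIy hyr) hcpos hce (a := a) (t := t) hae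
      (by rw [hdimV, hat]) (by rw [hdimV, hk])
    refine ⟨D, ⟨⟨ht, by omega, fun j => (h1 j).2.2, indep_of_orth hA (fun j => (h1 j).2.1) h2, h3⟩, fun j => (h1 j).2.1, h2⟩, 1, fun j => ?_⟩
    show (D j).map T = D j
    have hT : T = ((spToLin x : (Fin d ⊕ Fin d → F) ≃ₗ[F] (Fin d ⊕ Fin d → F)) : (Fin d ⊕ Fin d → F) →ₗ[F] (Fin d ⊕ Fin d → F)) := by
      apply LinearMap.ext
      intro v
      rfl
    apply Submodule.eq_of_le_of_finrank_eq
    · rintro _ ⟨u, hu, rfl⟩
      have h5 : T u = z • y u := by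
        rw [hyv, smul_smul, hzz, one_smul]
      show T u ∈ D j
      rw [h5]
      exact (D j).smul_mem _ ((h1 j).1 u hu)
    · rw [hT, LinearEquiv.finrank_map_eq]

end Cfsg.Agent.Lib.Classical.Elusive.SpImprimMain
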