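import Mathlib
import Cfsg.Agent.Lib.Classical.Elusive.NdAbs
import Cfsg.Agent.Lib.Classical.Elusive.NdCount
import Cfsg.Agent.Lib.Classical.Elusive.NdJordan
import Cfsg.Agent.Lib.Classical.Elusive.SpImprimMain
import Cfsg.Agent.Lib.Classical.Elusive.SpModel
import Cfsg.Agent.Lib.Classical.OJordan.Plus
import Cfsg.Agent.Lib.Classical.Lin.JT3
import Cfsg.Agent.S2582

/-!
# Elements of prime order of `PSp_{2d}(q)` and nondegenerate subspaces
-/

set_option autoImplicit false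
set_option linter.unusedSectionVars false
set_option linter.unusedSimpArgs false
set_option linter.unusedVariables false
set_option linter.style.haveILetI false

namespace Cfsg.Agent.Lib.Classical.Elusive.NdMain

open Polynomial Module Matrix
open Cfsg.Agent.Lib.Classical.Elusive.Inv Cfsg.Agent.Lib.Classical.Elusive.SpCore Cfsg.Agent.Lib.Classical.Elusive.SpAtoms
  Cfsg.Agent.Lib.Classical.Elusive.TiBlock Cfsg.Agent.Lib.Classical.Elusive.SpImprimMain
  Cfsg.Agent.Lib.Classical.Elusive.Jordan Cfsg.Agent.Lib.Classical.Elusive.JordanType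
  Cfsg.Agent.Lib.Classical.Elusive.NdJordan Cfsg.Agent.Lib.Classical.Elusive.NdAbs
open Cfsg.Agent.Lib.Classical.Symp.Basic

universe u

attribute [local instance] _root_.Classical.propDecidable

variable {F : Type u} [Field F] [Fintype F] {p : ℕ} [Fact p.Prime] [CharP F p] {q : ℕ}

/-- What has to be found. -/
def Fixes {d : ℕ} (x : ↥(Matrix.symplecticGroup (Fin d) F)) (m : ℕ) : Prop :=
  ∃ W : Submodule F (Fin d ⊕ Fin d → F), Module.finrank F ↥W = m ∧ (∀ u ∈ W, u ≠ 0 → ∃ v ∈ W, Cfsg.sympForm d F u v ≠ 0) ∧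
    W.map (Matrix.toLin' (x : Matrix (Fin d ⊕ Fin d) (Fin d ⊕ Fin d) F)) ≤ W

theorem finrank_V (d : ℕ) : finrank F (Fin d ⊕ Fin d → F) = 2 * d := by
  rw [Module.finrank_fintype_fun_eq_card, Fintype.card_sum, Fintype.card_fin]
  ring

theorem fixes_of {d m : ℕ} (x : ↥(Matrix.symplecticGroup (Fin d) F)) {W : Submodule F (Fin d ⊕ Fin d → F)}
    (h1 : IsInv (Matrix.toLin' (x : Matrix (Fin d ⊕ Fin d) (Fin d ⊕ Fin d) F)) W) (h2 : Nd (sympBilin d F) W) (h3 : finrank F W = m) : Fixes x m := by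
  refine ⟨W, h3, h2, ?_⟩
  rintro _ ⟨u, hu, rfl⟩
  exact h1 u hu

/-- The scalar of a symplectic matrix with scalar power. -/
theorem scalar_facts {d r : ℕ} (hd : 0 < d) (x : ↥(Matrix.symplecticGroup (Fin d) F))
    {z : F} (hz : ((x ^ r : ↥(Matrix.symplecticGroup (Fin d) F)) : Matrix (Fin d ⊕ Fin d) (Fin d ⊕ Fin d) F) = z • (1 : Matrix (Fin d ⊕ Fin d) (Fin d ⊕ Fin d) F)) :
    z * z = 1 ∧ (Matrix.toLin' (x : Matrix (Fin d ⊕ Fin d) (Fin d ⊕ Fin d) F)) ^ r = z • 1 := by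
  let T := Matrix.toLin' (x : Matrix (Fin d ⊕ Fin d) (Fin d ⊕ Fin d) F)
  have hI : ∀ u v, sympBilin d F (T u) (T v) = sympBilin d F u v := toLin_isom x
  have hzm : (x : Matrix (Fin d ⊕ Fin d) (Fin d ⊕ Fin d) F) ^ r = z • (1 : Matrix (Fin d ⊕ Fin d) (Fin d ⊕ Fin d) F) := hz
  have hTr : T ^ r = z • 1 := by
    show (Matrix.toLin' (x : Matrix (Fin d ⊕ Fin d) (Fin d ⊕ Fin d) F)) ^ r = _
    rw [← Matrix.toLin'_pow, hzm]
    apply LinearMap.ext
    intro v
    simp [Matrix.toLin'_apply, Matrix.smul_mulVec]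
  have hIk : ∀ (k : ℕ) u v, sympBilin d F ((T ^ k) u) ((T ^ k) v) = sympBilin d F u v := by
    intro k
    induction k with
    | zero => intro u v; rfl
    | succ k ih =>
      intro u v
      rw [pow_succ', Module.End.mul_apply, Module.End.mul_apply, hI, ih]
  refine ⟨?_, hTr⟩
  obtain ⟨u, v, huv⟩ := exists_form_ne (F := F) (d := d) hd
  have h3 := hIk r u v
  rw [hTr] at h3
  simp only [LinearMap.smul_apply, Module.End.one_apply, map_smul, smul_eq_mul] at h3
  have h5 : (z * z - 1) * sympBilin d F u v = 0 := by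
    rw [sub_mul, mul_assoc, h3, one_mul, sub_self]
  exact sub_eq_zero.1 ((mul_eq_zero.1 h5).resolve_right huv)

/-- The case `r = 2 ≠ p`. -/
theorem case_two (hp2 : p ≠ 2) {d m : ℕ} (hd : 0 < d) (hme : Even m) (hmd : m ≤ 2 * d) (x : ↥(Matrix.symplecticGroup (Fin d) F))
    (hx : ∃ z : F, ((x ^ 2 : ↥(Matrix.symplecticGroup (Fin d) F)) : Matrix (Fin d ⊕ Fin d) (Fin d ⊕ Fin d) F) = z • (1 : Matrix (Fin d ⊕ Fin d) (Fin d ⊕ Fin d) F)) :
    Fixes x m := by
  obtain ⟨z, hz⟩ := hx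
  obtain ⟨hzz, hT⟩ := scalar_facts hd x hz
  have hp : p.Prime := Fact.out
  have h2F : (2 : F) ≠ 0 := by
    have := PslNum.cast_ne_zero_of_ne (F := F) (p := p) Nat.prime_two hp2.symm
    simpa using this
  obtain ⟨s, hs⟩ := hme
  obtain ⟨W, h1, h3, h4⟩ := exists_nd_two (B := sympBilin d F) sympBilin_isAlt sympBilin_nondegenerate h2F (toLin_isom x) hzz hT (s := s)
    (by rw [finrank_V]; omega)
  exact fixes_of x h1 h3 (by omega)

/-- The case `r = p = 2`, sufficiency. -/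
theorem case_char2_suff {d m : ℕ} (hd : 0 < d) (hme : Even m) (hmd : m ≤ 2 * d) (hc : (2 * d) % 4 = 2 ∨ m % 4 = 0) (x : ↥(Matrix.symplecticGroup (Fin d) F))
    (hx : ∃ z : F, ((x ^ 2 : ↥(Matrix.symplecticGroup (Fin d) F)) : Matrix (Fin d ⊕ Fin d) (Fin d ⊕ Fin d) F) = z • (1 : Matrix (Fin d ⊕ Fin d) (Fin d ⊕ Fin d) F)) :
    Fixes x m := by
  obtain ⟨z, hz⟩ := hx
  obtain ⟨hzz, hT⟩ := scalar_facts hd x hz
  have hz0 : z ≠ 0 := by
    rintro rfl
    simp at hzz
  obtain ⟨s, hs⟩ := hme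
  obtain ⟨W, h1, h3, h4⟩ := exists_nd_planes (B := sympBilin d F) sympBilin_isAlt sympBilin_nondegenerate (toLin_isom x) hz0 hT (finrank_V d) (k := s) (by omega) (by
    rcases hc with h | h
    · right
      rw [Nat.odd_iff]
      omega
    · left
      rw [Nat.even_iff]
      omega)
  exact fixes_of x h1 h3 (by omega)

/-- The involution of type `a`. -/
noncomputable def nMap {d : ℕ} (σ : Equiv.Perm (Fin d)) : Module.End F (Fin d ⊕ Fin d → F) where
  toFun u := Sum.elim (fun i => u (Sum.inr (σ i))) (fun _ => 0)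
  map_add' u v := by
    funext s
    rcases s with i | i <;> simp
  map_smul' c u := by
    funext s
    rcases s with i | i <;> simp

theorem nMap_inl {d : ℕ} (σ : Equiv.Perm (Fin d)) (u : Fin d ⊕ Fin d → F) (i : Fin d) : nMap σ u (Sum.inl i) = u (Sum.inr (σ i)) := rfl

theorem nMap_inr {d : ℕ} (σ : Equiv.Perm (Fin d)) (u : Fin d ⊕ Fin d → F) (i : Fin d) : nMap σ u (Sum.inr i) = 0 := rfl

/-- The model in characteristic two. -/
theorem exists_model_char2 (hc : (2 : F) = 0) {d : ℕ} (hd : Even d) (hd0 : 0 < d) :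
    ∃ x : ↥(Matrix.symplecticGroup (Fin d) F),
      (∃ z : F, ((x ^ 2 : ↥(Matrix.symplecticGroup (Fin d) F)) : Matrix (Fin d ⊕ Fin d) (Fin d ⊕ Fin d) F) = z • (1 : Matrix (Fin d ⊕ Fin d) (Fin d ⊕ Fin d) F)) ∧
      (∀ z : F, (x : Matrix (Fin d ⊕ Fin d) (Fin d ⊕ Fin d) F) ≠ z • (1 : Matrix (Fin d ⊕ Fin d) (Fin d ⊕ Fin d) F)) ∧
      ∀ W : Submodule F (Fin d ⊕ Fin d → F), IsInv (Matrix.toLin' (x : Matrix (Fin d ⊕ Fin d) (Fin d ⊕ Fin d) F)) W → Nd (sympBilin d F) W → 4 ∣ finrank F W := by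
  obtain ⟨σ, hσ1, hσ2⟩ := Cfsg.Agent.Lib.Classical.Lin.JT3.exists_fpf_invol (α := Fin d) (by rw [Fintype.card_fin]; exact hd)
  let N : Module.End F (Fin d ⊕ Fin d → F) := nMap σ
  have hB : ∀ u v, sympBilin d F u v = ∑ i, (u (Sum.inr i) * v (Sum.inl i) - u (Sum.inl i) * v (Sum.inr i)) := by
    intro u v
    rw [sympBilin_apply, sympForm_apply]
  have hN2 : ∀ u, N (N u) = 0 := by
    intro u
    funext s
    rcases s with i | i
    · rfl
    · rfl
  have hNN : ∀ u v, sympBilin d F (N u) (N v) = 0 := by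
    intro u v
    rw [hB]
    apply Finset.sum_eq_zero
    intro i _
    rw [show N u (Sum.inr i) = 0 from rfl, show N v (Sum.inr i) = 0 from rfl]
    ring
  have h1 : ∀ u v, sympBilin d F u (N v) = ∑ i, u (Sum.inr i) * v (Sum.inr (σ i)) := by
    intro u v
    rw [hB]
    refine Finset.sum_congr rfl fun i _ => ?_
    rw [show N v (Sum.inr i) = 0 from rfl, show N v (Sum.inl i) = v (Sum.inr (σ i)) from rfl]
    ring
  have h3 : ∀ u v, sympBilin d F (N u) v = - ∑ i, u (Sum.inr i) * v (Sum.inr (σ i)) := by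
    intro u v
    rw [hB, ← Equiv.sum_comp σ (fun i => u (Sum.inr i) * v (Sum.inr (σ i))), ← Finset.sum_neg_distrib]
    refine Finset.sum_congr rfl fun i _ => ?_
    rw [show N u (Sum.inr i) = 0 from rfl, show N u (Sum.inl i) = u (Sum.inr (σ i)) from rfl, hσ1]
    ring
  have hI : ∀ u v, sympBilin d F (u + N u) (v + N v) = sympBilin d F u v := by
    intro u v
    simp only [map_add, LinearMap.add_apply]
    rw [hNN, h1, h3]
    ring
  have hdiag : ∀ u, sympBilin d F u (N u) = 0 := by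
    intro u
    rw [h1]
    refine Finset.sum_involution (fun a _ => σ a) ?_ ?_ (fun a _ => Finset.mem_univ _) (fun a _ => hσ1 a)
    · intro a _
      rw [hσ1]
      have : u (Sum.inr a) * u (Sum.inr (σ a)) + u (Sum.inr (σ a)) * u (Sum.inr a) = 2 * (u (Sum.inr a) * u (Sum.inr (σ a))) := by ring
      rw [this, hc, zero_mul]
    · intro a _ _
      exact hσ2 a
  have hzero : ∀ u, N u = 0 → ∀ i, u (Sum.inr i) = 0 := by
    intro u hu i
    have := congrFun hu (Sum.inl (σ i))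
    rw [show N u (Sum.inl (σ i)) = u (Sum.inr (σ (σ i))) from rfl, hσ1] at this
    exact this
  have hTI : ∀ u v, N u = 0 → N v = 0 → sympBilin d F u v = 0 := by
    intro u v hu hv
    rw [hB]
    apply Finset.sum_eq_zero
    intro i _
    rw [hzero u hu i, hzero v hv i]
    ring
  let T : Module.End F (Fin d ⊕ Fin d → F) := 1 + N
  have hT : ∀ u, T u = u + N u := fun u => rfl
  let XM : Matrix (Fin d ⊕ Fin d) (Fin d ⊕ Fin d) F := LinearMap.toMatrix' T
  have hX : ∀ u, XM *ᵥ u = T u := fun u => LinearMap.toMatrix'_mulVec T u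
  have hXmem : XM ∈ Matrix.symplecticGroup (Fin d) F := by
    rw [mem_symplecticGroup_iff_forall]
    intro u v
    rw [hX, hX, hT, hT]
    exact hI u v
  let x : ↥(Matrix.symplecticGroup (Fin d) F) := ⟨XM, hXmem⟩
  have hXL : Matrix.toLin' (x : Matrix (Fin d ⊕ Fin d) (Fin d ⊕ Fin d) F) = T := by
    show Matrix.toLin' XM = T
    simp [XM]
  refine ⟨x, ⟨1, ?_⟩, ?_, ?_⟩
  · show XM ^ 2 = (1 : F) • (1 : Matrix (Fin d ⊕ Fin d) (Fin d ⊕ Fin d) F)
    rw [one_smul]
    apply Matrix.toLin'.injective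
    rw [Matrix.toLin'_pow]
    have : Matrix.toLin' XM = T := hXL
    rw [this, Matrix.toLin'_one]
    apply LinearMap.ext
    intro u
    rw [_root_.sq, Module.End.mul_apply, hT, hT, map_add, hN2, add_zero]
    have h5 : u + N u + N u = u + (2 : F) • N u := by
      rw [two_smul, add_assoc]
    rw [h5, hc, zero_smul, add_zero]
    rfl
  · intro z hz
    let i₀ : Fin d := ⟨0, hd0⟩
    let u : Fin d ⊕ Fin d → F := Pi.single (Sum.inr i₀) 1
    have h5 : XM *ᵥ u = z • u := by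
      have : XM = z • (1 : Matrix (Fin d ⊕ Fin d) (Fin d ⊕ Fin d) F) := hz
      rw [this, Matrix.smul_mulVec, Matrix.one_mulVec]
    rw [hX, hT] at h5
    have h6 := congrFun h5 (Sum.inl (σ i₀))
    simp only [Pi.add_apply, Pi.smul_apply, smul_eq_mul] at h6
    rw [show N u (Sum.inl (σ i₀)) = u (Sum.inr (σ (σ i₀))) from rfl, hσ1] at h6
    simp [u] at h6
  · intro W hW hNd
    rw [hXL] at hW
    refine four_dvd sympBilin_isAlt hc hI hN2 hdiag hTI ?_ hNd
    intro u hu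
    have h5 : N u = T u - u := by
      rw [hT]
      abel
    rw [h5]
    exact W.sub_mem (hW u hu) hu

end Cfsg.Agent.Lib.Classical.Elusive.NdMain
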