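import Mathlib
import Cfsg.Agent.Lib.Classical.Elusive.NdMain

/-!
# Elements of prime order of `PSp_{2d}(q)` and nondegenerate subspaces: the main theorem
-/

set_option autoImplicit false
set_option linter.unusedSectionVars false
set_option linter.unusedSimpArgs false
set_option linter.unusedVariables false
set_option linter.style.haveILetI false

namespace Cfsg.Agent.Lib.Classical.Elusive.NdFinal

open Polynomial Module Matrix
open Cfsg.Agent.Lib.Classical.Elusive.Inv Cfsg.Agent.Lib.Classical.Elusive.SpCore Cfsg.Agent.Lib.Classical.Elusive.SpAtoms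
  Cfsg.Agent.Lib.Classical.Elusive.TiBlock Cfsg.Agent.Lib.Classical.Elusive.SpImprimMain
  Cfsg.Agent.Lib.Classical.Elusive.Jordan Cfsg.Agent.Lib.Classical.Elusive.JordanType
  Cfsg.Agent.Lib.Classical.Elusive.NdJordan Cfsg.Agent.Lib.Classical.Elusive.NdAbs
  Cfsg.Agent.Lib.Classical.Elusive.NdMain
open Cfsg.Agent.Lib.Classical.Symp.Basic

universe u

attribute [local instance] _root_.Classical.propDecidable

variable {F : Type u} [Field F] [Fintype F] {p : ℕ} [Fact p.Prime] [CharP F p] {q : ℕ}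

/-- The partition clause, necessity. -/
theorem clause_forward (hp2 : p ≠ 2) {d m : ℕ} (hd : 0 < d) (hme : Even m) (hmd : m ≤ 2 * d)
    (H : ∀ x : ↥(Matrix.symplecticGroup (Fin d) F),
      (∃ z : F, ((x ^ p : ↥(Matrix.symplecticGroup (Fin d) F)) : Matrix (Fin d ⊕ Fin d) (Fin d ⊕ Fin d) F) = z • (1 : Matrix (Fin d ⊕ Fin d) (Fin d ⊕ Fin d) F)) →
      (∀ z : F, (x : Matrix (Fin d ⊕ Fin d) (Fin d ⊕ Fin d) F) ≠ z • (1 : Matrix (Fin d ⊕ Fin d) (Fin d ⊕ Fin d) F)) → Fixes x m)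
    (μ : Multiset ℕ) (hμ : ∀ a ∈ μ, 0 < a ∧ a ≤ p) (hodd : ∀ a : ℕ, Odd a → Even (μ.count a)) (hs : μ.sum = 2 * d) :
    ∃ ν : Multiset ℕ, ν ≤ μ ∧ ν.sum = m ∧ ∀ a : ℕ, Odd a → Even (ν.count a) := by
  classical
  have hp : p.Prime := Fact.out
  by_cases h1 : ∀ a ∈ μ, a = 1
  · have h3 := Multiset.eq_replicate_card.2 h1
    have h4 : Multiset.card μ = 2 * d := by
      rw [← hs, h3]
      simp
    refine ⟨Multiset.replicate m 1, ?_, by simp, ?_⟩
    · rw [h3]
      exact (Multiset.replicate_le_replicate 1).2 (by omega)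
    · intro a _
      rw [Multiset.count_replicate]
      split_ifs
      · exact hme
      · exact Even.zero
  push Not at h1
  obtain ⟨a₀, ha₀, ha₀1⟩ := h1
  have ha₀2 : 2 ≤ a₀ := by
    have := (hμ a₀ ha₀).1
    omega
  obtain ⟨t, dd, hdd⟩ := Cfsg.Agent.Lib.Classical.OJordan.Model.exists_family μ
  subst hdd
  have hdpos : ∀ k, 0 < dd k := by
    intro k
    exact (hμ (dd k) (Multiset.mem_map.2 ⟨k, Finset.mem_def.1 (Finset.mem_univ k), rfl⟩)).1
  have hsum : ∑ k, dd k = 2 * d := hs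
  obtain ⟨e, A, hc⟩ := (Cfsg.Agent.S2582.result (F := F) dd (fun k => hdpos k) hsum).2 (by
    intro j hj
    rw [Cfsg.Agent.Lib.Classical.OJordan.Model.card_filter_mu]
    exact hodd j hj)
  obtain ⟨φ, hφ⟩ := Cfsg.Agent.Lib.Classical.Lin.JT1.exists_phi e hc
  let T : Module.End F (Fin d ⊕ Fin d → F) := Matrix.toLin' (A : Matrix (Fin d ⊕ Fin d) (Fin d ⊕ Fin d) F)
  let N : Module.End F (Fin d ⊕ Fin d → F) := T - 1
  have hTN : T = 1 + N := by simp [N]
  have hNφ : ∀ x, N (φ x) = φ (Cfsg.Agent.Lib.Classical.Lin.JT1.nL F dd x) := by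
    intro x
    have h3 : T (φ x) = φ (Cfsg.Agent.Lib.Classical.Lin.JT1.jL F dd x) := (hφ x).symm
    have h4 : N (φ x) = T (φ x) - φ x := rfl
    rw [h4, h3, Cfsg.Agent.Lib.Classical.Lin.JT1.jL_apply, map_add]
    abel
  have hNk : ∀ (k : ℕ) x, (N ^ k) (φ x) = φ (((Cfsg.Agent.Lib.Classical.Lin.JT1.nL F dd) ^ k) x) := by
    intro k
    induction k with
    | zero => intro x; rfl
    | succ k ih =>
      intro x
      rw [pow_succ', Module.End.mul_apply, ih, hNφ, pow_succ', Module.End.mul_apply]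
  have hT : ∀ k, finrank F ((⊤ : Submodule F (Fin d ⊕ Fin d → F)).map (N ^ k)) = gg (mu dd) k := by
    intro k
    rw [← (Cfsg.Agent.Lib.Classical.OJordan.Model.isChain_nL (F := F) hdpos).finrank_map_gg k]
    have e1 : (⊤ : Submodule F (Fin d ⊕ Fin d → F)).map (N ^ k) =
        ((⊤ : Submodule F (Cfsg.Agent.Lib.Classical.Lin.JT1.Ix dd → F)).map ((Cfsg.Agent.Lib.Classical.Lin.JT1.nL F dd) ^ k)).map (φ : (Cfsg.Agent.Lib.Classical.Lin.JT1.Ix dd → F) →ₗ[F] _) := by
      ext y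
      simp only [Submodule.mem_map, Submodule.mem_top, true_and]
      constructor
      · rintro ⟨v, rfl⟩
        obtain ⟨x, rfl⟩ := φ.surjective v
        exact ⟨_, ⟨x, rfl⟩, (hNk k x).symm⟩
      · rintro ⟨_, ⟨x, rfl⟩, rfl⟩
        exact ⟨φ x, hNk k x⟩
    rw [e1]
    exact LinearEquiv.finrank_map_eq φ _
  have hNp : N ^ p = 0 := Cfsg.Agent.Lib.Classical.OJordan.Plus.eq_zero_of_gg hT (fun e he => (hμ e he).2)
  have hTp : T ^ p = 1 := by
    rw [hTN, one_add_pow_char, hNp, add_zero]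
  have hAp : ((A ^ p : ↥(Matrix.symplecticGroup (Fin d) F)) : Matrix (Fin d ⊕ Fin d) (Fin d ⊕ Fin d) F) = (1 : F) • (1 : Matrix (Fin d ⊕ Fin d) (Fin d ⊕ Fin d) F) := by
    show (A : Matrix (Fin d ⊕ Fin d) (Fin d ⊕ Fin d) F) ^ p = _
    rw [one_smul]
    apply Matrix.toLin'.injective
    rw [Matrix.toLin'_pow, Matrix.toLin'_one]
    exact hTp
  have hnonsc : ∀ z : F, (A : Matrix (Fin d ⊕ Fin d) (Fin d ⊕ Fin d) F) ≠ z • (1 : Matrix (Fin d ⊕ Fin d) (Fin d ⊕ Fin d) F) := by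
    intro z hz
    have h3 : N = (z - 1) • (1 : Module.End F (Fin d ⊕ Fin d → F)) := by
      apply LinearMap.ext
      intro v
      have h4 : T v = (A : Matrix (Fin d ⊕ Fin d) (Fin d ⊕ Fin d) F) *ᵥ v := rfl
      show T v - v = _
      rw [h4, hz, Matrix.smul_mulVec, Matrix.one_mulVec]
      simp [sub_smul]
    let i₀ : Fin d := ⟨0, hd⟩
    have hz1 : z - 1 = 0 := by
      have h4 := hNp
      rw [h3, _root_.smul_pow, one_pow] at h4
      have h5 := congrArg (fun S : Module.End F (Fin d ⊕ Fin d → F) => S (Pi.single (Sum.inl i₀) 1) (Sum.inl i₀)) h4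
      simp at h5
      exact h5.1
    have h5 : N = 0 := by
      rw [h3, hz1, zero_smul]
    have h6 := hT 1
    rw [pow_one, h5, Submodule.map_zero, finrank_bot] at h6
    have h7 := le_of_gg_eq_zero h6.symm a₀ ha₀
    omega
  obtain ⟨W, hWd, hWNd, hWmap⟩ := H A ⟨1, hAp⟩ hnonsc
  have hWT : IsInv T W := fun u hu => hWmap ⟨u, hu, rfl⟩
  have hWN : IsInv N W := isInv_N_iff.2 hWT
  have hA' : (sympBilin d F).IsAlt := sympBilin_isAlt
  have hI : ∀ u v, sympBilin d F (T u) (T v) = sympBilin d F u v := toLin_isom A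
  have hNd : Nd (sympBilin d F) W := hWNd
  have hW₁ := isInv_orthIn hA' hI hp.pos hTp (isInv_top T) hWT
  have hμ' : ∀ a ∈ mu dd, 0 < a := fun a ha => (hμ a ha).1
  obtain ⟨ν, ν', hμeq, hν, hν', hT₁, hT₂⟩ := type_add hNp hWN (isInv_N_iff.2 hW₁) (inf_orthIn hA' hNd) (sup_orthIn hA' le_top hNd) hμ' hT
  refine ⟨ν, by rw [hμeq]; exact Multiset.le_add_right _ _, ?_, ?_⟩
  · rw [← finrank_eq_sum_of_type hT₁, hWd]
  · refine even_count_alt hA' hNp hWN hNd ?_ hν hT₁
    intro u v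
    have e1 : ∀ x, x + N x = T x := by
      intro x
      simp [N]
    rw [e1, e1, hI]

/-- The partition clause, sufficiency. -/
theorem clause_backward (hp2 : p ≠ 2) {d m : ℕ} (hd : 0 < d)
    (PC : ∀ μ : Multiset ℕ, (∀ a ∈ μ, 0 < a ∧ a ≤ p) → (∀ a : ℕ, Odd a → Even (μ.count a)) → μ.sum = 2 * d →
        ∃ ν : Multiset ℕ, ν ≤ μ ∧ ν.sum = m ∧ ∀ a : ℕ, Odd a → Even (ν.count a))
    (x : ↥(Matrix.symplecticGroup (Fin d) F))
    (hx : ∃ z : F, ((x ^ p : ↥(Matrix.symplecticGroup (Fin d) F)) : Matrix (Fin d ⊕ Fin d) (Fin d ⊕ Fin d) F) = z • (1 : Matrix (Fin d ⊕ Fin d) (Fin d ⊕ Fin d) F)) :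
    Fixes x m := by
  classical
  have hp : p.Prime := Fact.out
  have hpodd : Odd p := hp.odd_of_ne_two hp2
  have h2F : (2 : F) ≠ 0 := by
    have := PslNum.cast_ne_zero_of_ne (F := F) (p := p) Nat.prime_two hp2.symm
    simpa using this
  obtain ⟨z, hz⟩ := hx
  obtain ⟨hzz, hTr⟩ := scalar_facts hd x hz
  let T : Module.End F (Fin d ⊕ Fin d → F) := Matrix.toLin' (x : Matrix (Fin d ⊕ Fin d) (Fin d ⊕ Fin d) F)
  have hI : ∀ u v, sympBilin d F (T u) (T v) = sympBilin d F u v := toLin_isom x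
  let y : Module.End F (Fin d ⊕ Fin d → F) := z • T
  have hyv : ∀ v, y v = z • T v := fun v => rfl
  have hIy : ∀ u v, sympBilin d F (y u) (y v) = sympBilin d F u v := by
    intro u v
    rw [hyv, hyv, map_smul, map_smul, LinearMap.smul_apply, hI, smul_smul, smul_eq_mul, hzz, one_mul]
  have hyr : y ^ p = 1 := by
    show (z • T) ^ p = 1
    rw [_root_.smul_pow]
    have e1 : T ^ p = z • 1 := hTr
    rw [e1, smul_smul, ← pow_succ]
    obtain ⟨s, hs⟩ := hpodd
    have h3 : p + 1 = 2 * (s + 1) := by omega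
    rw [h3, pow_mul, _root_.sq, hzz, one_pow, one_smul]
  let N : Module.End F (Fin d ⊕ Fin d → F) := y - 1
  have hNp : N ^ p = 0 := by
    show (y - 1) ^ p = 0
    rw [sub_one_pow_char, hyr, sub_self]
  obtain ⟨μ, hμ, hT⟩ := exists_type hNp (W := ⊤) (isInv_top N)
  have hA' : (sympBilin d F).IsAlt := sympBilin_isAlt
  have hN' : (sympBilin d F).Nondegenerate := sympBilin_nondegenerate
  have hle : ∀ a ∈ μ, a ≤ p := by
    apply le_of_gg_eq_zero
    rw [← hT, hNp, Submodule.map_zero, finrank_bot]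
  have hodd := even_count_alt hA' hNp (isInv_top N) (TiAbs.Nd_top hN') (by
    intro u v
    have e1 : ∀ x, x + N x = y x := by
      intro x
      simp [N]
    rw [e1, e1, hIy]) hμ hT
  have hs : μ.sum = 2 * d := by
    rw [← finrank_eq_sum_of_type hT, finrank_top, finrank_V]
  obtain ⟨ν, h1, h3, h4⟩ := PC μ (fun a ha => ⟨hμ a ha, hle a ha⟩) hodd hs
  obtain ⟨W', -, h6, h7, h8⟩ := exists_sub hA' h2F hIy hp.pos hyr hNp _ ⊤ rfl (isInv_top y) (TiAbs.Nd_top hN') μ hμ hT ν h1 h4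
  refine fixes_of x ?_ h7 (by rw [h8, h3])
  intro u hu
  have e2 : T u = z • y u := by
    rw [hyv, smul_smul, hzz, one_smul]
  show T u ∈ W'
  rw [e2]
  exact W'.smul_mem _ (h6 u hu)

theorem num_c {c m d e J : ℕ} (hc0 : 0 < c) (hce : Even c) (hme : Even m) (h1 : e + c * J = 2 * d) (h2 : m % c ≤ (2 * d) % c) (h3 : m ≤ 2 * d) :
    ∃ K s, K ≤ J ∧ c * K + 2 * s = m ∧ 2 * s ≤ e := by
  have hd := Nat.div_add_mod m c
  have hmod : (2 * d) % c ≤ e := by
    rw [← h1, Nat.add_mul_mod_self_left]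
    exact Nat.mod_le _ _
  obtain ⟨c', hc'⟩ := hce
  obtain ⟨m', hm'⟩ := hme
  have hcc : c = 2 * c' := by omega
  by_cases hle : m / c ≤ J
  · have h4 : Even (m % c) := by
      rw [Nat.even_iff, hm', hcc]
      rw [Nat.mod_mul_right_mod]
      omega
    obtain ⟨s, hs⟩ := h4
    exact ⟨m / c, s, hle, by omega, by omega⟩
  · push Not at hle
    have h5 : c * (J + 1) ≤ c * (m / c) := Nat.mul_le_mul_left _ hle
    have h6 : c * (J + 1) = c * J + c := by ring
    have h7 : Even (m - c * J) := by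
      rw [Nat.even_sub (by omega)]
      constructor
      · intro _
        rw [hcc, mul_assoc]
        exact even_two_mul _
      · intro _
        exact ⟨m', hm'⟩
    obtain ⟨s, hs⟩ := h7
    exact ⟨J, s, le_rfl, by omega, by omega⟩

/-- The case of odd `r`, sufficiency. -/
theorem odd_suff (hq : Fintype.card F = q) {d m : ℕ} (hd : 0 < d) (hme : Even m) (hmd : m ≤ 2 * d)
    (r : ℕ) [Fact r.Prime] (hr2 : r ≠ 2) (hrp : r ≠ p) (i c : ℕ) (hi : i = orderOf (q : ZMod r)) (hc : c = if Even i then i else 2 * i)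
    (h2 : m % c ≤ (2 * d) % c) (x : ↥(Matrix.symplecticGroup (Fin d) F))
    (hx : ∃ z : F, ((x ^ r : ↥(Matrix.symplecticGroup (Fin d) F)) : Matrix (Fin d ⊕ Fin d) (Fin d ⊕ Fin d) F) = z • (1 : Matrix (Fin d ⊕ Fin d) (Fin d ⊕ Fin d) F)) :
    Fixes x m := by
  classical
  have hr : r.Prime := Fact.out
  have hr0 : (r : F) ≠ 0 := PslNum.cast_ne_zero_of_ne hr hrp
  have hrodd : Odd r := hr.odd_of_ne_two hr2
  have hipos : 0 < i := by
    obtain ⟨g, -, hg2, -, hg4⟩ := SpModel.exists_factor (F := F) (p := p) hq hr hrp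
    rw [hi, ← hg4]
    exact hg2.natDegree_pos
  have hc0 : 0 < c := by
    rw [hc]
    split_ifs <;> omega
  have hce : Even c := by
    rw [hc]
    split_ifs with h
    · exact h
    · exact even_two_mul _
  obtain ⟨z, hz⟩ := hx
  obtain ⟨hzz, hTr⟩ := scalar_facts hd x hz
  let T : Module.End F (Fin d ⊕ Fin d → F) := Matrix.toLin' (x : Matrix (Fin d ⊕ Fin d) (Fin d ⊕ Fin d) F)
  have hI : ∀ u v, sympBilin d F (T u) (T v) = sympBilin d F u v := toLin_isom x
  let y : Module.End F (Fin d ⊕ Fin d → F) := z • T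
  have hyv : ∀ v, y v = z • T v := fun v => rfl
  have hIy : ∀ u v, sympBilin d F (y u) (y v) = sympBilin d F u v := by
    intro u v
    rw [hyv, hyv, map_smul, map_smul, LinearMap.smul_apply, hI, smul_smul, smul_eq_mul, hzz, one_mul]
  have hyr : y ^ r = 1 := by
    show (z • T) ^ r = 1
    rw [_root_.smul_pow]
    have e1 : T ^ r = z • 1 := hTr
    rw [e1, smul_smul, ← pow_succ]
    obtain ⟨s, hs⟩ := hrodd
    have h3 : r + 1 = 2 * (s + 1) := by omega
    rw [h3, pow_mul, _root_.sq, hzz, one_pow, one_smul]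
  have hA : (sympBilin d F).IsAlt := sympBilin_isAlt
  have hN : (sympBilin d F).Nondegenerate := sympBilin_nondegenerate
  have hb : HasBlocks (sympBilin d F) y r c := by
    have := SpImprim.hasBlocks (F := F) (p := p) hq hr2 hrp hA hIy hyr
    rw [← hi, ← hc] at this
    exact this
  have hF := Nd_Fix_top hA hN hIy hr0 hyr
  have hK := Nd_Ker_top hA hN hIy hr0 hyr
  have hfd := finrank_Fix_add hr0 hyr
  rw [finrank_V] at hfd
  obtain ⟨J, hJ⟩ := dvd_of_blocks hA hIy hr.pos hyr hb hc0 _ (Ker y r) rfl (isInv_Ker y r) hK le_rfl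
  obtain ⟨K, s, hKJ, hm, hse⟩ := num_c (e := finrank F (Fix y)) (J := J) (d := d) hc0 hce hme (by rw [← hJ]; exact hfd) h2 hmd
  obtain ⟨A, hA1, hA2, hA3, hA4⟩ := exists_sub_block hA hIy hr.pos hyr hb hc0 K (Ker y r) (isInv_Ker y r) hK le_rfl (by
    rw [hJ]
    exact Nat.mul_le_mul_left _ hKJ)
  obtain ⟨S, hS1, hS2, hS3⟩ := exists_even_sub hA s (Fix y) hF hse
  have hSinv : IsInv y S := by
    intro u hu
    rw [mem_Fix.1 (hS1 hu)]
    exact hu
  have horth : ∀ u ∈ A, ∀ v ∈ S, sympBilin d F u v = 0 := fun u hu v hv => orth_Ker_Fix hA hIy hr0 (hA1 hu) (hS1 hv)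
  have h9 := Submodule.finrank_sup_add_finrank_inf_eq A S
  rw [inf_eq_bot_of_orth hA3 horth hA, finrank_bot, add_zero, hA4, hS3] at h9
  refine fixes_of x ?_ (Nd_sup hA hA3 hS2 horth) (by omega)
  intro u hu
  have e2 : T u = z • y u := by
    rw [hyv, smul_smul, hzz, one_smul]
  show T u ∈ A ⊔ S
  rw [e2]
  exact Submodule.smul_mem _ _ ((hA2.sup hSinv) u hu)

/-- The case of odd `r`, the model. -/
theorem odd_nec (hq : Fintype.card F = q) {d m : ℕ} (hd : 0 < d) (hmd : m ≤ 2 * d)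
    (r : ℕ) [Fact r.Prime] (hr2 : r ≠ 2) (hrp : r ≠ p) (i c : ℕ) (hi : i = orderOf (q : ZMod r)) (hc : c = if Even i then i else 2 * i)
    (H : ∀ x : ↥(Matrix.symplecticGroup (Fin d) F),
      (∃ z : F, ((x ^ r : ↥(Matrix.symplecticGroup (Fin d) F)) : Matrix (Fin d ⊕ Fin d) (Fin d ⊕ Fin d) F) = z • (1 : Matrix (Fin d ⊕ Fin d) (Fin d ⊕ Fin d) F)) →
      (∀ z : F, (x : Matrix (Fin d ⊕ Fin d) (Fin d ⊕ Fin d) F) ≠ z • (1 : Matrix (Fin d ⊕ Fin d) (Fin d ⊕ Fin d) F)) → Fixes x m) :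
    m % c ≤ (2 * d) % c := by
  classical
  have hr : r.Prime := Fact.out
  have hr0 : (r : F) ≠ 0 := PslNum.cast_ne_zero_of_ne hr hrp
  have hrodd : Odd r := hr.odd_of_ne_two hr2
  have hipos : 0 < i := by
    obtain ⟨g, -, hg2, -, hg4⟩ := SpModel.exists_factor (F := F) (p := p) hq hr hrp
    rw [hi, ← hg4]
    exact hg2.natDegree_pos
  have hc0 : 0 < c := by
    rw [hc]
    split_ifs <;> omega
  obtain ⟨b', hcb, hb0, hR⟩ : ∃ b', c = 2 * b' ∧ 0 < b' ∧ SpModel.Reali F r b' (2 * b') := by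
    by_cases hie : Even i
    · obtain ⟨b, hb⟩ := hie
      have hb2 : i = 2 * b := by omega
      have hb0 : 0 < b := by omega
      have hord : orderOf (q : ZMod r) = 2 * b := by rw [← hi]; exact hb2
      have hrb : r ∣ q ^ b + 1 := dvd_pow_add_one hr2 hord hb0
      refine ⟨b, ?_, hb0, SpModel.reali_half (p := p) hq hr hrp hord hb0 hrb⟩
      rw [hc, if_pos (by rw [hb2]; exact even_two_mul b), hb2]
    · refine ⟨i, ?_, hipos, ?_⟩
      · rw [hc, if_neg hie]
      · rw [hi]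
        exact SpModel.reali_full (p := p) hq hr hrp
  by_cases hb : b' ≤ d
  · have hReal := hR.nsmul (d % b') (d / b')
    rw [Nat.div_add_mod] at hReal
    obtain ⟨y, hyr, hyF⟩ := hReal.toSp
    have hdb1 : 1 ≤ d / b' := (Nat.one_le_div_iff hb0).2 hb
    have hKpos : 0 < 2 * b' * (d / b') := by positivity
    obtain ⟨W, hW, hnd, hinv⟩ := H y ⟨1, by
      rw [one_smul]
      exact hyr⟩ (fun z => nonscalar_of_K hrodd hd y hyr hKpos hyF z)
    let T := Matrix.toLin' (y : Matrix (Fin d ⊕ Fin d) (Fin d ⊕ Fin d) F)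
    have hI : ∀ u v, sympBilin d F (T u) (T v) = sympBilin d F u v := toLin_isom y
    have hTr : T ^ r = 1 := by
      show (Matrix.toLin' (y : Matrix (Fin d ⊕ Fin d) (Fin d ⊕ Fin d) F)) ^ r = 1
      rw [← Matrix.toLin'_pow, hyr, Matrix.toLin'_one]
      rfl
    have hWi : IsInv T W := fun u hu => hinv ⟨u, hu, rfl⟩
    have hA : (sympBilin d F).IsAlt := sympBilin_isAlt
    have hb' : HasBlocks (sympBilin d F) T r c := by
      have := SpImprim.hasBlocks (F := F) (p := p) hq hr2 hrp hA hI hTr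
      rw [← hi, ← hc] at this
      exact this
    have hNd : Nd (sympBilin d F) W := hnd
    have hNK := Nd_Ker hA hI hr0 hTr hWi hNd
    obtain ⟨K, hK⟩ := dvd_of_blocks hA hI hr.pos hTr hb' hc0 _ (W ⊓ Ker T r) rfl (hWi.inf (isInv_Ker T r)) hNK inf_le_right
    have hsup := sup_Fix_Ker_of hr0 hTr hWi
    have hinf : (W ⊓ Fix T) ⊓ (W ⊓ Ker T r) = ⊥ := by
      rw [eq_bot_iff]
      rintro u ⟨⟨-, h1⟩, ⟨-, h2⟩⟩
      have : u ∈ Fix T ⊓ Ker T r := ⟨h1, h2⟩
      rw [Fix_inf_Ker hr0] at this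
      exact this
    have h9 := Submodule.finrank_sup_add_finrank_inf_eq (W ⊓ Fix T) (W ⊓ Ker T r)
    rw [hsup, hinf, finrank_bot, add_zero, hW, hK] at h9
    have hFix : finrank F ↥(W ⊓ Fix T) ≤ finrank F (Fix T) := Submodule.finrank_mono inf_le_right
    have hfix : finrank F (Fix T) = (2 * d) % c := by
      have h4 : finrank F (Fix T) + 2 * b' * (d / b') = 2 * d := hyF
      have h5 := Nat.div_add_mod d b'
      rw [hcb, Nat.mul_mod_mul_left]
      have h6 : 2 * b' * (d / b') = 2 * (b' * (d / b')) := by ring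
      omega
    have h5 : m % c = finrank F ↥(W ⊓ Fix T) % c := by
      rw [h9, Nat.add_mul_mod_self_left]
    rw [h5, ← hfix]
    exact (Nat.mod_le _ _).trans hFix
  · have h1 : 2 * d < c := by omega
    rw [Nat.mod_eq_of_lt h1]
    exact (Nat.mod_le _ _).trans hmd

/-- The count forces `c ≤ m`. -/
theorem odd_count (hq : Fintype.card F = q) {d a : ℕ} (ha : 2 * a ≤ 2 * d)
    (r : ℕ) [Fact r.Prime] (hr2 : r ≠ 2) (hrp : r ≠ p) (i c : ℕ) (hi : i = orderOf (q : ZMod r)) (hc : c = if Even i then i else 2 * i)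
    (hrΩ : r ∣ Nat.card {W : Submodule F (Fin d ⊕ Fin d → F) // Module.finrank F ↥W = 2 * a ∧ (∀ u ∈ W, u ≠ 0 → ∃ v ∈ W, Cfsg.sympForm d F u v ≠ 0)})
    (h : (2 * a) % c ≤ (2 * d) % c) : c ≤ 2 * a := by
  classical
  have hr : r.Prime := Fact.out
  have hp : p.Prime := Fact.out
  have hq1 : 1 ≤ q := by
    rw [← hq]
    exact Fintype.card_pos
  have hipos : 0 < i := by
    obtain ⟨g, -, hg2, -, hg4⟩ := SpModel.exists_factor (F := F) (p := p) hq hr hrp
    rw [hi, ← hg4]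
    exact hg2.natDegree_pos
  have hc0 : 0 < c := by
    rw [hc]
    split_ifs <;> omega
  by_contra hlt
  push Not at hlt
  have hrΩ' : r ∣ Nat.card (NdCount.Nds (sympBilin d F) (2 * a)) := hrΩ
  obtain ⟨n, hpn, hn⟩ := FiniteField.card F p
  obtain ⟨j, hj, hjd⟩ := NdCount.exists_dvd_of_dvd (B := sympBilin d F) sympBilin_isAlt sympBilin_nondegenerate hq (finrank_V d) (by omega) hr hrp hp
    ⟨n, by rw [← hq, hn]⟩ hrΩ'
  have hidvd : i ∣ 2 * (d - j) := by
    rw [hi]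
    exact (PslNum.pow_eq_one_iff' hq1).2 hjd
  have hcdvd : c ∣ 2 * (d - j) := by
    rw [hc]
    split_ifs with he
    · exact hidvd
    · have h1 : Nat.Coprime i 2 := (Nat.coprime_two_right).2 (Nat.not_even_iff_odd.1 he)
      exact Nat.mul_dvd_mul_left 2 (h1.dvd_of_dvd_mul_left hidvd)
  obtain ⟨w, hw⟩ := hcdvd
  have h1 : 2 * d = c * w + 2 * j := by omega
  have h3 : (2 * d) % c = 2 * j := by
    rw [h1, Nat.mul_add_mod, Nat.mod_eq_of_lt (by omega)]
  rw [h3, Nat.mod_eq_of_lt hlt] at h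
  omega

/-- The main theorem. -/
theorem main (hq : Fintype.card F = q)
    (d m : ℕ) (hd : 2 ≤ d) (hm : 2 ≤ m) (hme : Even m) (hmd : m < d)
    (r : ℕ) [Fact r.Prime]
    (hrΩ : r ∣ Nat.card {W : Submodule F (Fin d ⊕ Fin d → F) // Module.finrank F ↥W = m ∧ (∀ u ∈ W, u ≠ 0 → ∃ v ∈ W, Cfsg.sympForm d F u v ≠ 0)})
    (i c : ℕ) (hi : i = orderOf (q : ZMod r)) (hc : c = if Even i then i else 2 * i) :
    (∀ x : ↥(Matrix.symplecticGroup (Fin d) F),
      (∃ z : F, ((x ^ r : ↥(Matrix.symplecticGroup (Fin d) F)) : Matrix (Fin d ⊕ Fin d) (Fin d ⊕ Fin d) F) = z • (1 : Matrix (Fin d ⊕ Fin d) (Fin d ⊕ Fin d) F)) →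
      (∀ z : F, (x : Matrix (Fin d ⊕ Fin d) (Fin d ⊕ Fin d) F) ≠ z • (1 : Matrix (Fin d ⊕ Fin d) (Fin d ⊕ Fin d) F)) →
      ∃ W : Submodule F (Fin d ⊕ Fin d → F), Module.finrank F ↥W = m ∧ (∀ u ∈ W, u ≠ 0 → ∃ v ∈ W, Cfsg.sympForm d F u v ≠ 0) ∧
        W.map (Matrix.toLin' (x : Matrix (Fin d ⊕ Fin d) (Fin d ⊕ Fin d) F)) ≤ W) ↔
    ((r = p ∧ 2 < p ∧ (∀ μ : Multiset ℕ, (∀ a ∈ μ, 0 < a ∧ a ≤ p) → (∀ a : ℕ, Odd a → Even (μ.count a)) → μ.sum = 2 * d →
        ∃ ν : Multiset ℕ, ν ≤ μ ∧ ν.sum = m ∧ ∀ a : ℕ, Odd a → Even (ν.count a))) ∨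
     (r = p ∧ p = 2 ∧ ((2 * d) % 4 = 2 ∨ m % 4 = 0)) ∨
     (r = 2 ∧ p ≠ 2) ∨
     (r ≠ p ∧ 2 < r ∧ c ≤ m ∧ m % c ≤ (2 * d) % c)) := by
  have hd0 : 0 < d := by omega
  have hm2 : m ≤ 2 * d := by omega
  have hp : p.Prime := Fact.out
  have hr : r.Prime := Fact.out
  by_cases hrp : r = p
  · by_cases hp2 : p = 2
    · have hr2' : r = 2 := hrp.trans hp2
      subst hr2'
      have hpc : p = 2 := hp2
      have hc2 : (2 : F) = 0 := by
        have h1 := CharP.cast_eq_zero F p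
        rw [hpc] at h1
        exact_mod_cast h1
      constructor
      · intro H
        right
        left
        refine ⟨hrp, hp2, ?_⟩
        by_contra hcon
        push Not at hcon
        obtain ⟨h1, h3⟩ := hcon
        obtain ⟨x, hx1, hx2, hx3⟩ := exists_model_char2 hc2 (d := d) (by rw [Nat.even_iff]; omega) hd0
        obtain ⟨W, hWd, hWNd, hWmap⟩ := H x hx1 hx2
        have h4 := hx3 W (fun u hu => hWmap ⟨u, hu, rfl⟩) hWNd
        rw [hWd] at h4
        omega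
      · intro hcond x hx _
        have hc3 : (2 * d) % 4 = 2 ∨ m % 4 = 0 := by
          rcases hcond with ⟨-, h1, -⟩ | ⟨-, -, h1⟩ | ⟨-, h1⟩ | ⟨h1, -⟩
          · omega
          · exact h1
          · exact absurd hp2 h1
          · exact absurd hrp h1
        exact case_char2_suff hd0 hme hm2 hc3 x hx
    · subst hrp
      constructor
      · intro H
        left
        refine ⟨rfl, ?_, ?_⟩
        · have := hr.two_le
          omega
        · intro μ h1 h3 h4
          exact clause_forward hp2 hd0 hme hm2 H μ h1 h3 h4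
      · intro hcond x hx _
        have PC : ∀ μ : Multiset ℕ, (∀ a ∈ μ, 0 < a ∧ a ≤ r) → (∀ a : ℕ, Odd a → Even (μ.count a)) → μ.sum = 2 * d →
            ∃ ν : Multiset ℕ, ν ≤ μ ∧ ν.sum = m ∧ ∀ a : ℕ, Odd a → Even (ν.count a) := by
          rcases hcond with ⟨-, -, h1⟩ | ⟨-, h1, -⟩ | ⟨h1, -⟩ | ⟨h1, -⟩
          · exact h1
          · exact absurd h1 hp2
          · exact absurd h1 hp2
          · exact absurd rfl h1
        exact clause_backward hp2 hd0 PC x hx
  · by_cases hr2 : r = 2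
    · subst hr2
      constructor
      · intro _
        right
        right
        left
        exact ⟨rfl, fun h => hrp h.symm⟩
      · intro _ x hx _
        exact case_two (fun h => hrp h.symm) hd0 hme hm2 x hx
    · have hgt : 2 < r := by
        have := hr.two_le
        omega
      constructor
      · intro H
        have h1 := odd_nec (F := F) (p := p) hq hd0 hm2 r hr2 hrp i c hi hc H
        obtain ⟨a, rfl⟩ : ∃ a, m = 2 * a := by
          obtain ⟨a, ha⟩ := hme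
          exact ⟨a, by omega⟩
        have h3 := odd_count (F := F) (p := p) hq hm2 r hr2 hrp i c hi hc hrΩ h1
        right
        right
        right
        exact ⟨hrp, hgt, h3, h1⟩
      · intro hcond x hx _
        have h1 : m % c ≤ (2 * d) % c := by
          rcases hcond with ⟨h1, -⟩ | ⟨h1, -⟩ | ⟨h1, -⟩ | ⟨-, -, -, h1⟩
          · exact absurd h1 hrp
          · exact absurd h1 hrp
          · exact absurd h1 hr2
          · exact h1
        exact odd_suff (F := F) (p := p) hq hd0 hme hm2 r hr2 hrp i c hi hc h1 x hx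

end Cfsg.Agent.Lib.Classical.Elusive.NdFinal
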