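import Mathlib
import Cfsg.Agent.Lib.Classical.Elusive.Common
import Cfsg.Agent.Lib.Classical.Orth.DicksonRank
import Cfsg.Agent.Lib.Classical.Witt.Index
import Cfsg.Agent.Lib.MinDeg.Omega.Count
import Cfsg.Agent.Lib.Linalg.Bridge
import Cfsg.Prelude.Def_GeometricClasses

/-!
# Elements of prime order fixing no nonsingular line, characteristic two

The generic part: reduction to elements with `g ^ r = 1` and a fixed nonsingular vector, involutions
with a totally singular fixed space, and odd order elements lie in `Ω`.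
-/

set_option autoImplicit false
set_option linter.unusedSectionVars false
set_option linter.unusedSimpArgs false
set_option linter.unusedVariables false

namespace Cfsg.Agent.Lib.Classical.Elusive.NonSing

open Matrix QuadraticMap Module
open Cfsg.Agent.Lib.Classical.Orth.Basic
open Cfsg.Agent.Lib.Classical.Orth.CartanDieudonne
open Cfsg.Agent.Lib.Classical.Orth.Dickson
open Cfsg.Agent.Lib.Classical.Orth.DicksonRank
open Cfsg.Agent.Lib.Classical.Witt.Hyp Cfsg.Agent.Lib.Classical.Witt.TS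
open Cfsg.Agent.Lib.Linalg.Bridge

variable {ι : Type} [Fintype ι] [DecidableEq ι] {F : Type*} [Field F] [Fintype F] [CharP F 2]
variable (Q : QuadraticForm F (ι → F))

/-- The statement that every element of order `r` fixes a nonsingular line. -/
def Elus (r : ℕ) : Prop :=
  ∀ x : GL ι F, x ∈ Cfsg.Geo.omegaGL (⇑Q) →
    (∃ z : F, ((x ^ r : GL ι F) : Matrix ι ι F) = z • (1 : Matrix ι ι F)) →
    (∀ z : F, (x : Matrix ι ι F) ≠ z • (1 : Matrix ι ι F)) →
    ∃ W : Submodule F (ι → F), (finrank F W = 1 ∧ ∃ v ∈ W, Q v ≠ 0) ∧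
      W.map (Matrix.toLin' (x : Matrix ι ι F)) ≤ W

theorem eq_one_of_Q_smul {c : F} {v : ι → F} (hv : Q v ≠ 0) (h : Q (c • v) = Q v) : c = 1 := by
  rw [Q_smul] at h
  have h1 : c * c = 1 := mul_right_cancel₀ hv (by rw [h, one_mul])
  have h2 : (c - 1) ^ 2 = 0 := by
    linear_combination h1 + (1 - c) * (CharTwo.two_eq_zero (R := F))
  have h3 := pow_eq_zero_iff (two_ne_zero) |>.1 h2
  exact sub_eq_zero.1 h3

theorem elus_iff {r : ℕ} (hex : ∃ v, Q v ≠ 0) :
    Elus Q r ↔ ∀ g : ↥(Cfsg.isometryGroup F (⇑Q)), g ∈ Cfsg.Omega F (⇑Q) → g ^ r = 1 → g ≠ 1 →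
      ∃ v, Q v ≠ 0 ∧ act g v = v := by
  obtain ⟨v0, hv0⟩ := hex
  constructor
  · intro h g hg hr hne
    have hns : ∀ z : F, ((g : GL ι F) : Matrix ι ι F) ≠ z • (1 : Matrix ι ι F) := by
      intro z hz
      have h1 : act g v0 = z • v0 := by
        change ((g : GL ι F) : Matrix ι ι F) *ᵥ v0 = _
        rw [hz, Matrix.smul_mulVec, Matrix.one_mulVec]
      have h2 : z = 1 := eq_one_of_Q_smul Q hv0 (by rw [← h1, Q_act])
      apply hne
      apply Subtype.ext
      apply Units.ext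
      rw [hz, h2, one_smul]
      rfl
    obtain ⟨W, ⟨hW, v, hv, hQv⟩, hmap⟩ := h (g : GL ι F) ⟨g, hg, rfl⟩ ⟨1, by
      have h1 : ((g : GL ι F) ^ r : GL ι F) = ((g ^ r : ↥(Cfsg.isometryGroup F (⇑Q))) : GL ι F) := rfl
      rw [h1, hr, one_smul]
      rfl⟩ hns
    refine ⟨v, hQv, ?_⟩
    have hv1 : v ≠ 0 := by
      rintro rfl
      simp at hQv
    have h2 : act g v ∈ W := hmap ⟨v, hv, rfl⟩
    rw [Cfsg.Agent.Lib.Classical.Elusive.eq_span_of_mem hW hv hv1] at h2
    obtain ⟨c, hc⟩ := Submodule.mem_span_singleton.1 h2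
    have h3 : c = 1 := eq_one_of_Q_smul Q hQv (by rw [hc, Q_act])
    rw [← hc, h3, one_smul]
  · rintro h x ⟨g, hg, rfl⟩ ⟨z, hz⟩ hns
    have hz1 : z = 1 := by
      apply eq_one_of_Q_smul Q hv0
      have h1 : z • v0 = act (g ^ r) v0 := by
        change _ = (((g ^ r : ↥(Cfsg.isometryGroup F (⇑Q))) : GL ι F) : Matrix ι ι F) *ᵥ v0
        have h2 : (((g ^ r : ↥(Cfsg.isometryGroup F (⇑Q))) : GL ι F) : Matrix ι ι F) = z • (1 : Matrix ι ι F) := hz
        rw [h2, Matrix.smul_mulVec, Matrix.one_mulVec]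
      rw [h1, Q_act]
    have hgr : g ^ r = 1 := by
      apply Subtype.ext
      apply Units.ext
      have h2 : (((g ^ r : ↥(Cfsg.isometryGroup F (⇑Q))) : GL ι F) : Matrix ι ι F) = z • (1 : Matrix ι ι F) := hz
      rw [h2, hz1, one_smul]
      rfl
    have hne : g ≠ 1 := by
      rintro rfl
      apply hns 1
      rw [one_smul]
      rfl
    obtain ⟨v, hQv, hv⟩ := h g hg hgr hne
    have hv1 : v ≠ 0 := by
      rintro rfl
      simp at hQv
    refine ⟨Submodule.span F {v}, ⟨finrank_span_singleton hv1, v, Submodule.mem_span_singleton_self v, hQv⟩, ?_⟩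
    rw [Submodule.map_span_le]
    intro m hm
    have hm' : m = v := hm
    rw [hm']
    change act g v ∈ _
    rw [hv]
    exact Submodule.mem_span_singleton_self v

/-- An involution with totally singular fixed space. -/
theorem fix_of_invol (hQ : PolarNondeg Q) (g : ↥(Cfsg.isometryGroup F (⇑Q))) (hg : g ^ 2 = 1)
    (hts : ∀ v, act g v = v → Q v = 0) :
    2 * fixDim g = Fintype.card ι ∧ (((g : GL ι F) : Matrix ι ι F) - 1).rank = fixDim g := by
  have h1 := rank_add_fixDim g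
  have h2 : 2 * fixDim g ≤ finrank F (ι → F) :=
    IsTS.two_mul_finrank_le hQ (U := fixSpace g) (fun w hw => hts w (mem_fixSpace.1 hw))
  rw [Module.finrank_fintype_fun_eq_card] at h2
  have h3 : (((g : GL ι F) : Matrix ι ι F) - 1).rank ≤ fixDim g := by
    unfold Matrix.rank fixDim
    apply Submodule.finrank_mono
    rintro _ ⟨x, rfl⟩
    rw [mem_fixSpace]
    have e1 : Matrix.mulVecLin (((g : GL ι F) : Matrix ι ι F) - 1) x = act g x - x := by
      rw [Matrix.mulVecLin_apply, Matrix.sub_mulVec, Matrix.one_mulVec]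
    rw [e1, act_sub]
    have e2 : act g (act g x) = x := by
      rw [← act_mul, ← _root_.sq, hg, act_one]
    rw [e2]
    funext i
    simp only [Pi.sub_apply]
    rw [CharTwo.sub_eq_add, CharTwo.sub_eq_add, add_comm]
  omega

/-- Odd order elements lie in `Ω`. -/
theorem mem_omega_of_odd (hQ : (polarBilin Q).Nondegenerate)
    (hF : (∃ c : F, c ≠ 0 ∧ c ≠ 1) ∨ Fintype.card ι ≠ 4) (hι : Nonempty ι)
    (g : ↥(Cfsg.isometryGroup F (⇑Q))) {r : ℕ} (hr : Odd r) (hg : g ^ r = 1) : g ∈ Cfsg.Omega F (⇑Q) := by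
  obtain ⟨s, rfl⟩ := hr
  have h1 : g = (g ^ (s + 1)) ^ 2 := by
    rw [← pow_mul]
    have : (s + 1) * 2 = 2 * s + 1 + 1 := by ring
    rw [this, pow_succ, hg, one_mul]
  rw [h1]
  exact Subgroup.sq_mem_of_index_two (omega_index_char_two hQ hF hι) _

/-- An isometry as an element of the isometry group. -/
noncomputable def mkG (g : (ι → F) ≃ₗ[F] (ι → F)) (hg : ∀ v, Q (g v) = Q v) : ↥(Cfsg.isometryGroup F (⇑Q)) :=
  ⟨glOfEquiv g, (mem_isometryGroup_iff Q _).2 (fun x => by rw [glOfEquiv_mulVec]; exact hg x)⟩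

theorem act_mkG (g : (ι → F) ≃ₗ[F] (ι → F)) (hg : ∀ v, Q (g v) = Q v) (v : ι → F) :
    act (mkG Q g hg) v = g v :=
  glOfEquiv_mulVec g v

theorem act_pow (g : ↥(Cfsg.isometryGroup F (⇑Q))) (n : ℕ) (v : ι → F) :
    act (g ^ n) v = (act g)^[n] v := by
  induction n generalizing v with
  | zero => simp [act_one]
  | succ n ih =>
    rw [pow_succ, act_mul, ih, Function.iterate_succ_apply]

/-- A fixed point free isometry of odd prime order gives a counterexample. -/
theorem not_elus_of_G (hQ : (polarBilin Q).Nondegenerate)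
    (hF : (∃ c : F, c ≠ 0 ∧ c ≠ 1) ∨ Fintype.card ι ≠ 4) (hι : Nonempty ι) (hex : ∃ v, Q v ≠ 0)
    {r : ℕ} (hr : Odd r) (G : ↥(Cfsg.isometryGroup F (⇑Q))) (hpow : G ^ r = 1)
    (hfree : ∀ v, act G v = v → v = 0) : ¬ Elus Q r := by
  intro h
  rw [elus_iff Q hex] at h
  obtain ⟨v, hv, hfix⟩ := h G (mem_omega_of_odd Q hQ hF hι _ hr hpow) hpow (by
    intro h1
    obtain ⟨v, hv⟩ := hex
    apply hv
    have h2 : act G v = v := by
      rw [h1, act_one]
    rw [hfree v h2, map_zero])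
  apply hv
  rw [hfree v hfix, map_zero]

/-- A fixed point free isometry of odd prime order gives a counterexample. -/
theorem not_elus_of_fpf (hQ : (polarBilin Q).Nondegenerate)
    (hF : (∃ c : F, c ≠ 0 ∧ c ≠ 1) ∨ Fintype.card ι ≠ 4) (hι : Nonempty ι) (hex : ∃ v, Q v ≠ 0)
    {r : ℕ} (hr : Odd r) (g : (ι → F) ≃ₗ[F] (ι → F)) (hg : ∀ v, Q (g v) = Q v)
    (hgr : (g : Module.End F (ι → F)) ^ r = 1) (hfree : ∀ v, g v = v → v = 0) : ¬ Elus Q r := by
  have hpow : (mkG Q g hg) ^ r = 1 := by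
    apply ext_act
    intro v
    rw [act_pow, act_one]
    have h1 : act (mkG Q g hg) = (g : Module.End F (ι → F)) := by
      funext w
      exact act_mkG Q g hg w
    rw [h1, ← Module.End.pow_apply, hgr]
    rfl
  exact not_elus_of_G Q hQ hF hι hex hr _ hpow (fun v hv => hfree v (by rwa [← act_mkG Q g hg]))

/-- An involution in `Ω` with no fixed nonsingular vector. -/
theorem not_elus_of_invol (hex : ∃ v, Q v ≠ 0) (G : ↥(Cfsg.isometryGroup F (⇑Q))) (hG : G ∈ Cfsg.Omega F (⇑Q))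
    (hG2 : G ^ 2 = 1) (hts : ∀ v, act G v = v → Q v = 0) : ¬ Elus Q 2 := by
  intro h
  rw [elus_iff Q hex] at h
  obtain ⟨v, hv, hfix⟩ := h G hG hG2 (by
    rintro rfl
    obtain ⟨v, hv⟩ := hex
    exact hv (hts v (act_one v)))
  exact hv (hts v hfix)

theorem exists_nonsing (hQ : PolarNondeg Q) (hι : Nonempty ι) : ∃ v, Q v ≠ 0 := by
  by_contra hcon
  push Not at hcon
  obtain ⟨i⟩ := hι
  have h1 : (Pi.single i 1 : ι → F) = 0 := by
    apply hQ
    intro y
    simp [polar, hcon]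
  have h2 := congrFun h1 i
  simp at h2

/-- An involution in `Ω` with totally singular fixed space gives a dimension with even half. -/
theorem even_of_invol (hQ : (polarBilin Q).Nondegenerate)
    (hF : (∃ c : F, c ≠ 0 ∧ c ≠ 1) ∨ Fintype.card ι ≠ 4)
    (g : ↥(Cfsg.isometryGroup F (⇑Q))) (hg : g ^ 2 = 1)
    (hts : ∀ v, act g v = v → Q v = 0) {d : ℕ} (hd : Fintype.card ι = 2 * d) :
    fixDim g = d ∧ (g ∈ Cfsg.Omega F (⇑Q) ↔ Even d) := by
  have hQ' : PolarNondeg Q := polarNondeg_of_nondeg Q hQ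
  obtain ⟨h1, h2⟩ := fix_of_invol Q hQ' g hg hts
  have h3 : fixDim g = d := by omega
  refine ⟨h3, ?_⟩
  rw [mem_omega_iff_rank_even hQ hF, h2, h3]

/-- Involutions have nonsingular fixed vectors when the half dimension is odd. -/
theorem elus_two_of_odd (hQ : (polarBilin Q).Nondegenerate)
    (hF : (∃ c : F, c ≠ 0 ∧ c ≠ 1) ∨ Fintype.card ι ≠ 4) (hex : ∃ v, Q v ≠ 0) {d : ℕ}
    (hd : Fintype.card ι = 2 * d) (hodd : Odd d) : Elus Q 2 := by
  rw [elus_iff Q hex]
  intro g hg hg2 hne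
  by_contra hcon
  push Not at hcon
  have hts : ∀ v, act g v = v → Q v = 0 := by
    intro v hv
    by_contra h0
    exact hcon v h0 hv
  have h1 := (even_of_invol Q hQ hF g hg2 hts hd).2.1 hg
  exact (Nat.not_even_iff_odd.2 hodd) h1

/-- Involutions in a space with no totally singular subspace of half the dimension. -/
theorem elus_two_of_no_ts (hQ : (polarBilin Q).Nondegenerate) (hex : ∃ v, Q v ≠ 0) {d : ℕ}
    (hd : Fintype.card ι = 2 * d) (hts : ∀ U : Submodule F (ι → F), (∀ w ∈ U, Q w = 0) → finrank F U ≠ d) :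
    Elus Q 2 := by
  rw [elus_iff Q hex]
  intro g hg hg2 hne
  by_contra hcon
  push Not at hcon
  have hts' : ∀ v, act g v = v → Q v = 0 := by
    intro v hv
    by_contra h0
    exact hcon v h0 hv
  obtain ⟨h1, h2⟩ := fix_of_invol Q (polarNondeg_of_nondeg Q hQ) g hg2 hts'
  exact hts (fixSpace g) (fun w hw => hts' w (mem_fixSpace.1 hw)) (by
    change fixDim g = d
    omega)

section Count

open Cfsg.Agent.Lib.MinDeg.Omega

theorem natCard_nonsing {V : Type*} [Fintype V] [DecidableEq F] (P : V → F) :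
    (Nat.card {v // P v ≠ 0} : ℂ) = (Fintype.card V : ℂ) - ZZ P := by
  classical
  have h1 : ZZ P = ((Finset.univ.filter (fun v => P v = 0)).card : ℂ) := by
    unfold ZZ
    rw [Finset.sum_boole]
  have h2 : Nat.card {v // P v ≠ 0} = (Finset.univ.filter (fun v => P v ≠ 0)).card := by
    rw [Nat.card_eq_fintype_card, Fintype.card_subtype]
  have h3 := Finset.card_filter_add_card_filter_not (s := (Finset.univ : Finset V)) (fun v => P v = 0)
  rw [h1, h2, Finset.card_univ] at *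
  rw [← h3]
  push_cast
  ring

end Count

end Cfsg.Agent.Lib.Classical.Elusive.NonSing
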