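import Mathlib
import Cfsg.Agent.Lib.Classical.Elusive.NonSing
import Cfsg.Agent.Lib.Classical.Herm.OrthFinal
import Cfsg.Agent.Lib.Classical.Orth.Levi

/-!
# Orthogonal groups in characteristic two: elements with no fixed nonsingular line
-/

set_option autoImplicit false
set_option linter.unusedSectionVars false
set_option linter.unusedSimpArgs false
set_option linter.unusedVariables false
set_option linter.style.haveILetI false
set_option linter.unnecessarySeqFocus false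

namespace Cfsg.Agent.Lib.Classical.Elusive.NonSingMain

open Matrix QuadraticMap Module Polynomial
open Cfsg.Agent.Lib.Classical.Orth.Basic
open Cfsg.Agent.Lib.Classical.Orth.CartanDieudonne
open Cfsg.Agent.Lib.Classical.Orth.Dickson
open Cfsg.Agent.Lib.Classical.Orth.DicksonRank
open Cfsg.Agent.Lib.Classical.Witt.Hyp Cfsg.Agent.Lib.Classical.Witt.TS Cfsg.Agent.Lib.Classical.Witt.Index
open Cfsg.Agent.Lib.Linalg.Bridge Cfsg.Agent.Lib.Linalg.OrthModels
open Cfsg.Agent.Lib.Classical.Elusive Cfsg.Agent.Lib.Classical.Elusive.NonSing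
open Cfsg.Agent.Lib.MinDeg.Omega
open Cfsg.Agent.Lib.Classical.Herm.OrthFinal Cfsg.Agent.Lib.Classical.Herm.OrthEmbed

universe u

section Count

variable {F : Type u} [Field F] [Fintype F] [CharP F 2]

/-- The number of nonsingular lines and the number of nonsingular vectors. -/
theorem card_lines_form {ι : Type} [Fintype ι] (Q : QuadraticForm F (ι → F)) :
    Nat.card {W : Submodule F (ι → F) // finrank F W = 1 ∧ ∃ v ∈ W, Q v ≠ 0} * (Fintype.card F - 1)
      = Nat.card {v : ι → F // Q v ≠ 0} :=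
  card_lines (fun v => Q v ≠ 0) (by simp) (fun c v hc hv => by
    change Q (c • v) ≠ 0
    rw [QuadraticMap.map_smul]
    exact smul_ne_zero (mul_ne_zero hc hc) hv)

/-- The line count of the plus form. -/
theorem card_plus_lines (d : ℕ) :
    Fintype.card F * Nat.card {W : Submodule F (Fin d ⊕ Fin d → F) // finrank F W = 1 ∧ ∃ v ∈ W, Cfsg.quadFormPlus d F v ≠ 0}
      + Fintype.card F ^ d = Fintype.card F ^ (2 * d) := by
  classical
  have hq : 1 < Fintype.card F := Fintype.one_lt_card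
  have h1 := card_lines_form (plusQ d F)
  have h2 : (Nat.card {v : Fin d ⊕ Fin d → F // plusQ d F v ≠ 0} : ℂ) = _ := natCard_nonsing (quadFormPlus d F)
  have h3 := ZZ_plus (F := F) d
  rw [← h1] at h2
  set N := Nat.card {W : Submodule F (Fin d ⊕ Fin d → F) // finrank F W = 1 ∧ ∃ v ∈ W, Cfsg.quadFormPlus d F v ≠ 0} with hN
  have hcard : (Fintype.card (Fin d ⊕ Fin d → F) : ℂ) = (Fintype.card F : ℂ) ^ (2 * d) := by
    rw [Fintype.card_fun, Fintype.card_sum, Fintype.card_fin, two_mul]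
    push_cast
    rfl
  rw [hcard] at h2
  have h4 : (N : ℂ) * ((Fintype.card F : ℂ) - 1) = (Fintype.card F : ℂ) ^ (2 * d) - ZZ (quadFormPlus d F) := by
    rw [← h2]
    push_cast [Nat.cast_sub hq.le]
    rfl
  have hq1 : ((Fintype.card F : ℂ) - 1) ≠ 0 := by
    rw [sub_ne_zero]
    exact_mod_cast hq.ne'
  have h5 : ((Fintype.card F : ℂ) - 1) * ((Fintype.card F : ℂ) * (N : ℂ) + (Fintype.card F : ℂ) ^ d - (Fintype.card F : ℂ) ^ (2 * d)) = 0 := by
    linear_combination (Fintype.card F : ℂ) * h4 - h3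
  have h6 := (mul_eq_zero.1 h5).resolve_left hq1
  have h7 : (Fintype.card F : ℂ) * (N : ℂ) + (Fintype.card F : ℂ) ^ d = (Fintype.card F : ℂ) ^ (2 * d) :=
    sub_eq_zero.1 h6
  exact_mod_cast h7

/-- The line count of the minus form. -/
theorem card_minus_lines (m : ℕ) {a b : F}
    (hab : ∀ z₁ z₂ : F, z₁ ^ 2 + a * z₁ * z₂ + b * z₂ ^ 2 = 0 → z₁ = 0 ∧ z₂ = 0) :
    Fintype.card F * Nat.card {W : Submodule F ((Fin m ⊕ Fin m) ⊕ Fin 2 → F) // finrank F W = 1 ∧ ∃ v ∈ W, Cfsg.quadFormMinus m F a b v ≠ 0}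
      = Fintype.card F ^ (2 * (m + 1)) + Fintype.card F ^ (m + 1) := by
  classical
  have hq : 1 < Fintype.card F := Fintype.one_lt_card
  have h1 := card_lines_form (minusQ m F a b)
  have h2 : (Nat.card {v : (Fin m ⊕ Fin m) ⊕ Fin 2 → F // minusQ m F a b v ≠ 0} : ℂ) = _ := natCard_nonsing (quadFormMinus m F a b)
  have h3 := ZZ_minus (F := F) m hab
  rw [← h1] at h2
  set N := Nat.card {W : Submodule F ((Fin m ⊕ Fin m) ⊕ Fin 2 → F) // finrank F W = 1 ∧ ∃ v ∈ W, Cfsg.quadFormMinus m F a b v ≠ 0} with hN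
  have hcard : (Fintype.card ((Fin m ⊕ Fin m) ⊕ Fin 2 → F) : ℂ) = (Fintype.card F : ℂ) ^ (2 * m + 2) := by
    rw [Fintype.card_fun, Fintype.card_sum, Fintype.card_sum, Fintype.card_fin, Fintype.card_fin, two_mul]
    push_cast
    rfl
  rw [hcard] at h2
  have h4 : (N : ℂ) * ((Fintype.card F : ℂ) - 1) = (Fintype.card F : ℂ) ^ (2 * m + 2) - ZZ (quadFormMinus m F a b) := by
    rw [← h2]
    push_cast [Nat.cast_sub hq.le]
    rfl
  have hq1 : ((Fintype.card F : ℂ) - 1) ≠ 0 := by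
    rw [sub_ne_zero]
    exact_mod_cast hq.ne'
  have h5 : ((Fintype.card F : ℂ) - 1) * ((Fintype.card F : ℂ) * (N : ℂ) - (Fintype.card F : ℂ) ^ (2 * m + 2) - (Fintype.card F : ℂ) ^ (m + 1)) = 0 := by
    linear_combination (Fintype.card F : ℂ) * h4 - h3
  have h6 := (mul_eq_zero.1 h5).resolve_left hq1
  have h7 : (Fintype.card F : ℂ) * (N : ℂ) = (Fintype.card F : ℂ) ^ (2 * (m + 1)) + (Fintype.card F : ℂ) ^ (m + 1) := by
    have : 2 * (m + 1) = 2 * m + 2 := by ring
    rw [this]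
    linear_combination h6
  exact_mod_cast h7

end Count

section Plus

variable {F : Type u} [Field F] [Fintype F] [CharP F 2]

/-- A prime other than the characteristic does not divide powers of the order of the field. -/
theorem not_dvd_card_pow {r : ℕ} (hr : r.Prime) (hr2 : r ≠ 2) (d : ℕ) : ¬ r ∣ Fintype.card F ^ d := by
  intro h
  obtain ⟨n, hn, hc⟩ := FiniteField.card F 2
  rw [hc, ← pow_mul] at h
  have := hr.dvd_of_dvd_pow h
  exact hr2 ((Nat.prime_dvd_prime_iff_eq hr Nat.prime_two).1 this)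

theorem exists_fpf_invol {d : ℕ} (he : Even d) : ∃ σ : Fin d → Fin d, (∀ i, σ (σ i) = i) ∧ ∀ i, σ i ≠ i := by
  obtain ⟨k, rfl⟩ := he
  let e : Fin k ⊕ Fin k ≃ Fin (k + k) := finSumFinEquiv
  refine ⟨fun i => e (e.symm i).swap, ?_, ?_⟩
  · intro i
    simp
  · intro i h
    have h' : e (e.symm i).swap = i := h
    have h1 : (e.symm i).swap = e.symm i := by
      apply e.injective
      rw [h', Equiv.apply_symm_apply]
    cases h2 : e.symm i with
    | inl a => rw [h2] at h1; simp at h1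
    | inr a => rw [h2] at h1; simp at h1

/-- The involution of the plus form with totally singular fixed space. -/
noncomputable def plusInv {d : ℕ} (σ : Fin d → Fin d) (hσ : ∀ i, σ (σ i) = i) :
    (Fin d ⊕ Fin d → F) ≃ₗ[F] (Fin d ⊕ Fin d → F) :=
  LinearEquiv.ofInvolutive
    { toFun := fun v k => Sum.elim (fun i => v (Sum.inl i) + v (Sum.inr (σ i))) (fun i => v (Sum.inr i)) k
      map_add' := by
        intro x y
        funext k
        cases k <;> simp <;> ring
      map_smul' := by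
        intro c x
        funext k
        cases k <;> simp <;> ring }
    (by
      intro v
      funext k
      cases k with
      | inl i =>
        simp only [LinearMap.coe_mk, AddHom.coe_mk, Sum.elim_inl, Sum.elim_inr]
        rw [add_assoc, CharTwo.add_self_eq_zero, add_zero]
      | inr i => simp)

theorem plusInv_inl {d : ℕ} (σ : Fin d → Fin d) (hσ : ∀ i, σ (σ i) = i) (v : Fin d ⊕ Fin d → F) (i : Fin d) :
    plusInv σ hσ v (Sum.inl i) = v (Sum.inl i) + v (Sum.inr (σ i)) := rfl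

theorem plusInv_inr {d : ℕ} (σ : Fin d → Fin d) (hσ : ∀ i, σ (σ i) = i) (v : Fin d ⊕ Fin d → F) (i : Fin d) :
    plusInv σ hσ v (Sum.inr i) = v (Sum.inr i) := rfl

theorem plusInv_invol {d : ℕ} (σ : Fin d → Fin d) (hσ : ∀ i, σ (σ i) = i) (v : Fin d ⊕ Fin d → F) :
    plusInv σ hσ (plusInv σ hσ v) = v :=
  by
  funext k
  cases k with
  | inl i => rw [plusInv_inl, plusInv_inl, plusInv_inr, add_assoc, CharTwo.add_self_eq_zero, add_zero]
  | inr i => rw [plusInv_inr, plusInv_inr]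

theorem plusInv_isometry {d : ℕ} (σ : Fin d → Fin d) (hσ : ∀ i, σ (σ i) = i) (hσ' : ∀ i, σ i ≠ i) (v : Fin d ⊕ Fin d → F) :
    plusQ d F (plusInv σ hσ v) = plusQ d F v := by
  rw [plusQ_apply, plusQ_apply]
  unfold Cfsg.quadFormPlus
  simp only [plusInv_inl, plusInv_inr, add_mul, Finset.sum_add_distrib]
  have h : ∑ i : Fin d, v (Sum.inr (σ i)) * v (Sum.inr i) = 0 := by
    apply Finset.sum_involution (fun i _ => σ i)
    · intro i _
      rw [hσ, mul_comm, CharTwo.add_self_eq_zero]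
    · intro i _ _ h2
      exact hσ' i h2
    · intro i _
      exact Finset.mem_univ _
    · intro i _
      exact hσ i
  rw [h, add_zero]

theorem polarNondeg_plus (d : ℕ) : (polarBilin (plusQ d F)).Nondegenerate :=
  nondeg_of_polarNondeg _ (polarNondeg_plusQ d)

/-- No involution is good when `d` is even. -/
theorem not_elus_two_plus {d : ℕ} (hd : 4 ≤ d) (he : Even d) : ¬ Elus (plusQ d F) 2 := by
  obtain ⟨σ, hσ, hσ'⟩ := exists_fpf_invol he
  have hQ := polarNondeg_plus (F := F) d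
  have hcard : Fintype.card (Fin d ⊕ Fin d) = 2 * d := by simp [Fintype.card_sum]; ring
  haveI : Nonempty (Fin d ⊕ Fin d) := ⟨Sum.inl ⟨0, by omega⟩⟩
  have hex := exists_nonsing (plusQ d F) (polarNondeg_plusQ d) inferInstance
  have hF : (∃ c : F, c ≠ 0 ∧ c ≠ 1) ∨ Fintype.card (Fin d ⊕ Fin d) ≠ 4 := Or.inr (by omega)
  let G := mkG (plusQ d F) (plusInv σ hσ) (plusInv_isometry σ hσ hσ')
  have hG : ∀ v, act G v = plusInv σ hσ v := fun v => act_mkG _ _ _ v
  have hG2 : G ^ 2 = 1 := by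
    apply ext_act
    intro v
    rw [_root_.sq, act_mul, hG, hG, plusInv_invol, act_one]
  have hts : ∀ v, act G v = v → plusQ d F v = 0 := by
    intro v hv
    rw [hG] at hv
    have h1 : ∀ i, v (Sum.inr (σ i)) = 0 := by
      intro i
      have := congrFun hv (Sum.inl i)
      rw [plusInv_inl] at this
      simpa using this
    rw [plusQ_apply]
    unfold Cfsg.quadFormPlus
    apply Finset.sum_eq_zero
    intro i _
    have h2 := h1 (σ i)
    rw [hσ] at h2
    rw [h2, mul_zero]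
  have hΩ := (even_of_invol (plusQ d F) hQ hF G hG2 hts hcard).2.2 he
  exact not_elus_of_invol (plusQ d F) hex G hΩ hG2 hts

/-- The fixed point free element of the Levi factor. -/
theorem not_elus_plus_odd {d : ℕ} (hd : 4 ≤ d) {r : ℕ} [Fact r.Prime] (hr2 : r ≠ 2)
    (hr : r ∣ Fintype.card F ^ d - 1) : ¬ Elus (plusQ d F) r := by
  have hrp : r.Prime := Fact.out
  obtain ⟨A, hA, hfree⟩ := exists_gl_fpf (F := F) 2 (d := d) (by omega) hr
  have hQ := polarNondeg_plus (F := F) d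
  have hcard : Fintype.card (Fin d ⊕ Fin d) = 2 * d := by simp [Fintype.card_sum]; ring
  haveI : Nonempty (Fin d ⊕ Fin d) := ⟨Sum.inl ⟨0, by omega⟩⟩
  have hex := exists_nonsing (plusQ d F) (polarNondeg_plusQ d) inferInstance
  have hF : (∃ c : F, c ≠ 0 ∧ c ≠ 1) ∨ Fintype.card (Fin d ⊕ Fin d) ≠ 4 := Or.inr (by omega)
  -- the transpose inverse has no fixed vector either
  have hfree' : ∀ u : Fin d → F, ((A : Matrix (Fin d) (Fin d) F)⁻¹)ᵀ *ᵥ u = u → u = 0 := by
    intro u hu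
    by_contra hne
    have h1 : (((A : Matrix (Fin d) (Fin d) F)⁻¹)ᵀ - 1).det = 0 := by
      apply (Matrix.exists_mulVec_eq_zero_iff (M := ((A : Matrix (Fin d) (Fin d) F)⁻¹)ᵀ - 1)).1
      exact ⟨u, hne, by rw [Matrix.sub_mulVec, Matrix.one_mulVec, hu, sub_self]⟩
    have h2 : ((A : Matrix (Fin d) (Fin d) F)⁻¹ - 1).det = 0 := by
      rw [← Matrix.det_transpose, Matrix.transpose_sub, Matrix.transpose_one]
      exact h1
    obtain ⟨w, hw, hw'⟩ := (Matrix.exists_mulVec_eq_zero_iff (M := (A : Matrix (Fin d) (Fin d) F)⁻¹ - 1)).2 h2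
    rw [Matrix.sub_mulVec, Matrix.one_mulVec, sub_eq_zero] at hw'
    apply hw
    apply hfree
    have h3 : (A : Matrix (Fin d) (Fin d) F) * (A : Matrix (Fin d) (Fin d) F)⁻¹ = 1 := by
      rw [Matrix.mul_nonsing_inv]
      exact (Matrix.isUnit_iff_isUnit_det _).1 A.isUnit
    have h4 : (A : Matrix (Fin d) (Fin d) F) *ᵥ ((A : Matrix (Fin d) (Fin d) F)⁻¹ *ᵥ w) = w := by
      rw [Matrix.mulVec_mulVec, h3, Matrix.one_mulVec]
    rwa [hw'] at h4
  let G0 := Cfsg.Agent.Lib.Classical.Orth.Levi.gHom A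
  have hG0 : ((G0 : ↥(Cfsg.isometryGroup F (⇑(Cfsg.Agent.Lib.Classical.Orth.Models.plusForm d F)))) : GL (Fin d ⊕ Fin d) F).val =
      Matrix.fromBlocks (A : Matrix (Fin d) (Fin d) F) 0 0 ((A : Matrix (Fin d) (Fin d) F)⁻¹)ᵀ := rfl
  have hmem : ((G0 : ↥(Cfsg.isometryGroup F (⇑(Cfsg.Agent.Lib.Classical.Orth.Models.plusForm d F)))) : GL (Fin d ⊕ Fin d) F) ∈
      Cfsg.isometryGroup F (⇑(plusQ d F)) := by
    rw [mem_isometryGroup_iff]
    intro x
    rw [hG0, plusQ_apply, plusQ_apply, ← Cfsg.Agent.Lib.Classical.Orth.Models.coe_plusForm_apply,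
      ← Cfsg.Agent.Lib.Classical.Orth.Models.coe_plusForm_apply]
    exact Cfsg.Agent.Lib.Classical.Orth.Levi.plus_fromBlocks_apply A x
  let G : ↥(Cfsg.isometryGroup F (⇑(plusQ d F))) := ⟨_, hmem⟩
  have hodd : Odd r := hrp.odd_of_ne_two hr2
  refine not_elus_of_G (plusQ d F) hQ hF inferInstance hex hodd G ?_ ?_
  · apply Subtype.ext
    have h1 : G0 ^ r = 1 := by
      change Cfsg.Agent.Lib.Classical.Orth.Levi.gHom A ^ r = 1
      rw [← map_pow, hA, map_one]
    change ((G0 ^ r : ↥(Cfsg.isometryGroup F (⇑(Cfsg.Agent.Lib.Classical.Orth.Models.plusForm d F)))) : GL (Fin d ⊕ Fin d) F) = 1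
    rw [h1]
    rfl
  · intro v hv
    have hv' : Matrix.fromBlocks (A : Matrix (Fin d) (Fin d) F) 0 0 ((A : Matrix (Fin d) (Fin d) F)⁻¹)ᵀ *ᵥ v = v := hv
    have h1 : (A : Matrix (Fin d) (Fin d) F) *ᵥ (v ∘ Sum.inl) = v ∘ Sum.inl := by
      funext i
      have := congrFun hv' (Sum.inl i)
      simpa [Matrix.mulVec, dotProduct, Fintype.sum_sum_type] using this
    have h2 : ((A : Matrix (Fin d) (Fin d) F)⁻¹)ᵀ *ᵥ (v ∘ Sum.inr) = v ∘ Sum.inr := by
      funext i
      have := congrFun hv' (Sum.inr i)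
      simpa [Matrix.mulVec, dotProduct, Fintype.sum_sum_type] using this
    have h3 := hfree _ h1
    have h4 := hfree' _ h2
    funext k
    cases k with
    | inl i => exact congrFun h3 i
    | inr i => exact congrFun h4 i

/-- **The plus form.** -/
theorem main_plus (d : ℕ) (hd : 4 ≤ d) (r : ℕ) [Fact r.Prime]
    (hrΩ : r ∣ Nat.card {W : Submodule F (Fin d ⊕ Fin d → F) // finrank F W = 1 ∧ ∃ v ∈ W, Cfsg.quadFormPlus d F v ≠ 0}) :
    Elus (plusQ d F) r ↔ (r = 2 ∧ Odd d) := by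
  have hrp : r.Prime := Fact.out
  have hQ := polarNondeg_plus (F := F) d
  have hcard : Fintype.card (Fin d ⊕ Fin d) = 2 * d := by simp [Fintype.card_sum]; ring
  haveI : Nonempty (Fin d ⊕ Fin d) := ⟨Sum.inl ⟨0, by omega⟩⟩
  have hex := exists_nonsing (plusQ d F) (polarNondeg_plusQ d) inferInstance
  have hF : (∃ c : F, c ≠ 0 ∧ c ≠ 1) ∨ Fintype.card (Fin d ⊕ Fin d) ≠ 4 := Or.inr (by omega)
  constructor
  · intro h
    by_cases hr2 : r = 2
    · subst hr2
      refine ⟨rfl, ?_⟩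
      by_contra hod
      exact not_elus_two_plus hd (Nat.not_odd_iff_even.1 hod) h
    · exfalso
      have h1 := card_plus_lines (F := F) d
      set N := Nat.card {W : Submodule F (Fin d ⊕ Fin d → F) // finrank F W = 1 ∧ ∃ v ∈ W, Cfsg.quadFormPlus d F v ≠ 0}
      have hq1 : 1 ≤ Fintype.card F ^ d := Nat.one_le_pow _ _ Fintype.card_pos
      have h2 : Fintype.card F * N = Fintype.card F ^ d * (Fintype.card F ^ d - 1) := by
        have h3 : Fintype.card F ^ (2 * d) = Fintype.card F ^ d * Fintype.card F ^ d := by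
          rw [two_mul, pow_add]
        rw [Nat.mul_sub, mul_one, ← h3]
        omega
      have h3 : r ∣ Fintype.card F ^ d * (Fintype.card F ^ d - 1) := h2 ▸ Dvd.dvd.mul_left hrΩ _
      have h4 := (hrp.dvd_mul.1 h3).resolve_left (not_dvd_card_pow hrp hr2 d)
      exact not_elus_plus_odd hd hr2 h4 h
  · rintro ⟨rfl, hodd⟩
    exact elus_two_of_odd (plusQ d F) hQ hF hex hcard hodd

end Plus

section Minus

variable {F : Type u} [Field F] [Fintype F] [CharP F 2]

/-- The number theory behind the minus case. -/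
theorem exists_half {q r d : ℕ} (hr : r.Prime) (hr2 : r ≠ 2) (hq : r ∣ q ^ d + 1) (hd : 0 < d) :
    ∃ a, Even (orderOf (q : ZMod r)) ∧ orderOf (q : ZMod r) * a = 2 * d ∧ Odd a := by
  haveI : Fact r.Prime := ⟨hr⟩
  have h1 : (q : ZMod r) ^ d = -1 := by
    have : ((q ^ d + 1 : ℕ) : ZMod r) = 0 := (ZMod.natCast_eq_zero_iff _ _).2 hq
    push_cast at this
    exact eq_neg_of_add_eq_zero_left this
  have hne : (-1 : ZMod r) ≠ 1 := by
    intro h
    have h2 : (2 : ZMod r) = 0 := by linear_combination -h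
    have h3 : ((2 : ℕ) : ZMod r) = 0 := by exact_mod_cast h2
    rw [ZMod.natCast_eq_zero_iff] at h3
    exact hr2 ((Nat.prime_dvd_prime_iff_eq hr Nat.prime_two).1 h3)
  have h2 : (q : ZMod r) ^ (2 * d) = 1 := by
    rw [mul_comm, pow_mul, h1]
    norm_num
  set i := orderOf (q : ZMod r) with hi
  have h3 : i ∣ 2 * d := orderOf_dvd_of_pow_eq_one h2
  have h4 : ¬ i ∣ d := by
    intro h
    have := orderOf_dvd_iff_pow_eq_one.1 h
    rw [h1] at this
    exact hne this
  have hev : Even i := by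
    by_contra hod
    have hco : Nat.Coprime i 2 := Nat.coprime_two_right.2 (Nat.not_even_iff_odd.1 hod)
    exact h4 (hco.dvd_of_dvd_mul_left h3)
  obtain ⟨a, ha⟩ := h3
  refine ⟨a, hev, ha.symm, ?_⟩
  by_contra hod
  obtain ⟨b, hb⟩ := Nat.not_odd_iff_even.1 hod
  apply h4
  refine ⟨b, ?_⟩
  rw [hb] at ha
  have : 2 * d = 2 * (i * b) := by rw [ha]; ring
  omega

/-- The fixed point free element of the minus form. -/
theorem exists_minus_fpf {m : ℕ} {a b : F}
    (hab : ∀ z₁ z₂ : F, z₁ ^ 2 + a * z₁ * z₂ + b * z₂ ^ 2 = 0 → z₁ = 0 ∧ z₂ = 0) {r : ℕ} [Fact r.Prime] (hr2 : r ≠ 2)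
    (hr : r ∣ Fintype.card F ^ (m + 1) + 1) :
    ∃ g : ((Fin m ⊕ Fin m) ⊕ Fin 2 → F) ≃ₗ[F] ((Fin m ⊕ Fin m) ⊕ Fin 2 → F), (∀ v, minusQ m F a b (g v) = minusQ m F a b v) ∧
      (g : Module.End F ((Fin m ⊕ Fin m) ⊕ Fin 2 → F)) ^ r = 1 ∧ ∀ v, g v = v → v = 0 := by
  classical
  have hrp : r.Prime := Fact.out
  have hrp2 : r ≠ 2 := hr2
  obtain ⟨c, hev, hic, hodd⟩ := exists_half hrp hr2 hr (Nat.succ_pos m)
  set i := orderOf ((Fintype.card F : ℕ) : ZMod r) with hi
  -- the order divides `r - 1`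
  have hq0 : ((Fintype.card F : ℕ) : ZMod r) ≠ 0 := by
    intro h
    rw [ZMod.natCast_eq_zero_iff] at h
    exact not_dvd_card_pow hrp hr2 1 (by rwa [pow_one])
  obtain ⟨t, ht⟩ := ZMod.orderOf_dvd_card_sub_one hq0
  have ht' : t * i = r - 1 := by rw [ht, mul_comm]
  obtain ⟨D, H⟩ := exists_data (F := F) (p := 2) rfl hrp hr2 hrp2 hi ht'
  have hipos := H.hipos
  have hr3 : 1 < r := hrp.one_lt
  have htpos : 0 < t := by
    rcases Nat.eq_zero_or_pos t with h0 | h0
    · rw [h0] at ht'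
      omega
    · exact h0
  have hDne : D.Nonempty := by
    rw [← Finset.card_pos, H.hcard]
    exact htpos
  obtain ⟨d0, hd0⟩ := hDne
  let d1 : D := ⟨d0, hd0⟩
  let k : D → ℕ := fun x => if x = d1 then c else 0
  have hsum : ∑ x, k x = c := by
    simp [k]
  have hk : ∀ x, k (starD H x) = k x := by
    intro x
    rw [starD_eq_self_iff H hev]
  have hc0 : c ≠ 0 := by
    rintro rfl
    simp at hodd
  have hk0 : k ≠ 0 := by
    intro h
    have := congrFun h d1
    simp [k] at this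
    exact hc0 this
  have hfull : i * ∑ x, k x = 2 * (m + 1) := by rw [hsum, hic]
  obtain ⟨W, i1, i2, i3, QW, A, w, h1, h2', h3, h4, h5, h6, h7, h8⟩ := exists_W_half H hr2 rfl k hk hk0
  obtain ⟨ι, hι⟩ := exists_embed_minus QW h1 h8 h6 (m := m) (by omega) hab (by
    intro hwm
    exact not_plus_of_type H hr2 rfl k hev (by rw [hsum]; exact hodd) QW A h2' h3 h4 h8 h7)
  have hcard : Fintype.card ((Fin m ⊕ Fin m) ⊕ Fin 2) = 2 * (m + 1) := by
    simp [Fintype.card_sum]
    ring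
  obtain ⟨g, hg1, hg2, hg3⟩ := exists_g_of_iota H _ QW h1 ι hι A h2' h3 h4 (n := 2 * (m + 1))
    (by rw [Module.finrank_fintype_fun_eq_card, hcard]) h5
  rw [polyOf_full H k hfull] at hg3
  exact ⟨g, hg1, hg2, free_of_charpoly H g k hg3⟩

/-- **The minus form.** -/
theorem main_minus (d : ℕ) (hd : 4 ≤ d) {a b : F}
    (hab : ∀ x y : F, x ^ 2 + a * x * y + b * y ^ 2 = 0 → x = 0 ∧ y = 0) (r : ℕ) [Fact r.Prime]
    (hrΩ : r ∣ Nat.card {W : Submodule F ((Fin (d - 1) ⊕ Fin (d - 1)) ⊕ Fin 2 → F) // finrank F W = 1 ∧ ∃ v ∈ W, Cfsg.quadFormMinus (d - 1) F a b v ≠ 0}) :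
    Elus (minusQ (d - 1) F a b) r ↔ r = 2 := by
  have hrp : r.Prime := Fact.out
  have hQ' := polarNondeg_minusQ (F := F) (d - 1) hab
  have hQ := nondeg_of_polarNondeg _ hQ'
  have hcard : Fintype.card ((Fin (d - 1) ⊕ Fin (d - 1)) ⊕ Fin 2) = 2 * d := by
    simp [Fintype.card_sum]
    omega
  haveI : Nonempty ((Fin (d - 1) ⊕ Fin (d - 1)) ⊕ Fin 2) := ⟨Sum.inr 0⟩
  have hex := exists_nonsing (minusQ (d - 1) F a b) hQ' inferInstance
  have hF : (∃ c : F, c ≠ 0 ∧ c ≠ 1) ∨ Fintype.card ((Fin (d - 1) ⊕ Fin (d - 1)) ⊕ Fin 2) ≠ 4 := Or.inr (by omega)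
  constructor
  · intro h
    by_contra hr2
    have h1 := card_minus_lines (F := F) (d - 1) hab
    have hd1 : d - 1 + 1 = d := by omega
    rw [hd1] at h1
    set N := Nat.card {W : Submodule F ((Fin (d - 1) ⊕ Fin (d - 1)) ⊕ Fin 2 → F) // finrank F W = 1 ∧ ∃ v ∈ W, Cfsg.quadFormMinus (d - 1) F a b v ≠ 0}
    have h2 : Fintype.card F * N = Fintype.card F ^ d * (Fintype.card F ^ d + 1) := by
      rw [h1, two_mul, pow_add]
      ring
    have h3 : r ∣ Fintype.card F ^ d * (Fintype.card F ^ d + 1) := h2 ▸ Dvd.dvd.mul_left hrΩ _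
    have h4 := (hrp.dvd_mul.1 h3).resolve_left (not_dvd_card_pow hrp hr2 d)
    obtain ⟨g, hg1, hg2, hg3⟩ := exists_minus_fpf (m := d - 1) hab hr2 (by rw [hd1]; exact h4)
    exact not_elus_of_fpf _ hQ hF inferInstance hex (hrp.odd_of_ne_two hr2) g hg1 hg2 hg3 h
  · rintro rfl
    refine elus_two_of_no_ts _ hQ hex hcard ?_
    intro U hU
    exact no_ts_minus (by omega) hab U hU

end Minus

end Cfsg.Agent.Lib.Classical.Elusive.NonSingMain
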