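import Mathlib
import Cfsg.Agent.Lib.Classical.OSemi.Lag
import Cfsg.Agent.Lib.Classical.OSemi.LagFree
import Cfsg.Agent.Lib.Classical.OSemi.SingJ
import Cfsg.Agent.Lib.Classical.OSemi.Invol

/-!
# Pure lemmas for the field-extension subgroups of orthogonal groups
-/

set_option autoImplicit false
set_option linter.unusedSectionVars false
set_option linter.unusedVariables false
set_option linter.unusedSimpArgs false
set_option linter.style.haveILetI false

namespace Cfsg.Agent.Lib.Classical.Elusive.OFieldPure

open Module QuadraticMap Matrix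
open Cfsg.Agent.Lib.Classical.Witt.Hyp Cfsg.Agent.Lib.Classical.OSemi.Lag
open Cfsg.Agent.Lib.Classical.OSemi.LagFree
open Cfsg.Agent.Lib.Classical.Orth.Basic Cfsg.Agent.Lib.Classical.Orth.Adjust
open Cfsg.Agent.Lib.Classical.OSemi.SingJ Cfsg.Agent.Lib.Classical.OSemi.Invol
open Cfsg.Agent.Lib.Classical.OSemi.Decomp

universe u

theorem exists_fixed_of_odd {L : Type*} [Field L] {W : Type*} [AddCommGroup W] [Module L W] [FiniteDimensional L W]
    (h2 : (2 : L) ≠ 0) (g : LinearMap.BilinForm L W) (hs : g.IsSymm) (hn : g.Nondegenerate) (y : W →ₗ[L] W)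
    (hy : ∀ u v, g (y u) (y v) = g u v) {r : ℕ} (hr : Odd r) (hyr : y ^ r = 1) (hodd : Odd (finrank L W)) :
    ∃ w, w ≠ 0 ∧ y w = w := by
  classical
  let b := Module.finBasis L W
  let A := LinearMap.toMatrix b b y
  let G := LinearMap.BilinForm.toMatrix b g
  have hG : G.det ≠ 0 := (LinearMap.BilinForm.nondegenerate_iff_det_ne_zero (B := g) b).1 hn
  have hiso : Aᵀ * G * A = G := by
    have h1 := LinearMap.BilinForm.toMatrix_comp b b g y y
    have h3 : g.comp y y = g := by
      ext u v
      exact hy u v
    rw [h3] at h1
    exact h1.symm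
  have hdA : LinearMap.det y = A.det := (LinearMap.det_toMatrix b y).symm
  have h5 : A.det * A.det = 1 := by
    have h6 := congrArg Matrix.det hiso
    rw [Matrix.det_mul, Matrix.det_mul, Matrix.det_transpose] at h6
    have h7 : G.det * (A.det * A.det - 1) = 0 := by linear_combination h6
    have := (mul_eq_zero.1 h7).resolve_left hG
    linear_combination this
  have h6 : A.det ^ r = 1 := by
    rw [← hdA, ← map_pow, hyr, map_one]
  have h7 : A.det = 1 := by
    obtain ⟨k, hk⟩ := hr
    rw [hk, pow_succ, pow_mul, pow_two, h5, one_pow, one_mul] at h6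
    exact h6
  have h8 : (A - 1)ᵀ * G * A = G * (1 - A) := by
    rw [Matrix.transpose_sub, Matrix.transpose_one, Matrix.sub_mul, Matrix.sub_mul, hiso, Matrix.one_mul, Matrix.mul_sub, Matrix.mul_one]
  have h9 := congrArg Matrix.det h8
  rw [Matrix.det_mul, Matrix.det_mul, Matrix.det_mul, Matrix.det_transpose, h7, mul_one,
    show (1 : Matrix (Fin (finrank L W)) (Fin (finrank L W)) L) - A = -(A - 1) by abel, Matrix.det_neg, Fintype.card_fin, hodd.neg_one_pow] at h9
  have h10 : (2 : L) * (G.det * (A - 1).det) = 0 := by linear_combination h9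
  have h11 : (A - 1).det = 0 := by
    have := (mul_eq_zero.1 h10).resolve_left h2
    exact (mul_eq_zero.1 this).resolve_left hG
  have h12 : LinearMap.det (y - 1) = 0 := by
    rw [← LinearMap.det_toMatrix b, map_sub, LinearMap.toMatrix_one]
    exact h11
  have h13 := LinearMap.bot_lt_ker_of_det_eq_zero h12
  obtain ⟨w, hw, hw0⟩ := Submodule.exists_mem_ne_zero_of_ne_bot h13.ne'
  refine ⟨w, hw0, ?_⟩
  have := LinearMap.mem_ker.1 hw
  simpa [sub_eq_zero] using this

/-- Sums of two weighted squares are universal. -/
theorem exists_two_sq {L : Type u} [Field L] [Fintype L] (h2 : (2 : L) ≠ 0) {a b : L} (ha : a ≠ 0) (hb : b ≠ 0) (e : L) :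
    ∃ s t : L, a * (s * s) + b * (t * t) = e := by
  classical
  have hch : ringChar L ≠ 2 := by
    intro h
    apply h2
    have := CharP.cast_eq_zero L (ringChar L)
    rw [h] at this
    exact_mod_cast this
  have hf : (Polynomial.C a * Polynomial.X ^ 2 : Polynomial L).degree = 2 := Polynomial.degree_C_mul_X_pow 2 ha
  have hg : (Polynomial.C b * Polynomial.X ^ 2 - Polynomial.C e : Polynomial L).degree = 2 := by
    rw [Polynomial.degree_sub_C]
    · exact Polynomial.degree_C_mul_X_pow 2 hb
    · rw [Polynomial.degree_C_mul_X_pow 2 hb]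
      norm_num
  obtain ⟨s, t, hst⟩ := FiniteField.exists_root_sum_quadratic hf hg (FiniteField.odd_card_of_char_ne_two hch)
  refine ⟨s, t, ?_⟩
  simp only [Polynomial.eval_mul, Polynomial.eval_C, Polynomial.eval_pow, Polynomial.eval_X, Polynomial.eval_sub] at hst
  linear_combination hst

/-- The binary step. -/
theorem binary_step {L : Type u} [Field L] [Fintype L] (h2 : (2 : L) ≠ 0) {n : ℕ} (c : Fin n → L) (hc : ∀ j, c j ≠ 0) {i j : Fin n} (hij : i ≠ j)
    {e : L} (he : e ≠ 0) :
    ∃ φ : (Fin n → L) ≃ₗ[L] (Fin n → L),
      ∀ t, ∑ k, (Function.update (Function.update c i e) j (c i * c j * e)) k * (φ t k * φ t k) = ∑ k, c k * (t k * t k) := by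
  classical
  obtain ⟨w₁, w₂, hw⟩ := exists_two_sq h2 (hc i) (hc j) e
  set a := c i with ha
  set b := c j with hb
  -- the inverse map
  let φ : (Fin n → L) ≃ₗ[L] (Fin n → L) :=
    { toFun := fun t k => if k = i then (a * w₁ * t i + b * w₂ * t j) / e else if k = j then (- w₂ * t i + w₁ * t j) / e else t k
      invFun := fun t k => if k = i then w₁ * t i - b * w₂ * t j else if k = j then w₂ * t i + a * w₁ * t j else t k
      map_add' := by
        intro x y
        funext k
        by_cases hk : k = i
        · simp only [hk, if_true, Pi.add_apply]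
          ring
        · by_cases hk' : k = j
          · simp only [hk', hij.symm, if_false, if_true, Pi.add_apply]
            ring
          · simp [hk, hk']
      map_smul' := by
        intro r x
        funext k
        by_cases hk : k = i
        · simp only [hk, if_true, Pi.smul_apply, smul_eq_mul, RingHom.id_apply]
          ring
        · by_cases hk' : k = j
          · simp only [hk', hij.symm, if_false, if_true, Pi.smul_apply, smul_eq_mul, RingHom.id_apply]
            ring
          · simp [hk, hk']
      left_inv := by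
        intro x
        funext k
        by_cases hk : k = i
        · subst hk
          simp only [if_true, hij, hij.symm, if_false]
          field_simp
          linear_combination (x k) * hw
        · by_cases hk' : k = j
          · subst hk'
            simp only [hij, hij.symm, if_false, if_true]
            field_simp
            linear_combination (x k) * hw
          · simp [hk, hk']
      right_inv := by
        intro x
        funext k
        by_cases hk : k = i
        · subst hk
          simp only [if_true, hij, hij.symm, if_false]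
          field_simp
          linear_combination (x k) * hw
        · by_cases hk' : k = j
          · subst hk'
            simp only [hij, hij.symm, if_false, if_true]
            field_simp
            linear_combination (x k) * hw
          · simp [hk, hk'] }
  refine ⟨φ, fun t => ?_⟩
  have hsplit : ∀ (f : Fin n → L), ∑ k, f k = f i + f j + ∑ k ∈ (Finset.univ.erase i).erase j, f k := by
    intro f
    rw [← Finset.add_sum_erase _ _ (Finset.mem_univ i),
      ← Finset.add_sum_erase _ _ (Finset.mem_erase.2 ⟨hij.symm, Finset.mem_univ j⟩)]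
    ring
  rw [hsplit, hsplit (fun k => c k * (t k * t k))]
  have hrest : ∑ k ∈ (Finset.univ.erase i).erase j, (Function.update (Function.update c i e) j (a * b * e)) k * (φ t k * φ t k) =
      ∑ k ∈ (Finset.univ.erase i).erase j, c k * (t k * t k) := by
    apply Finset.sum_congr rfl
    intro k hk
    have hk1 : k ≠ j := (Finset.mem_erase.1 hk).1
    have hk2 : k ≠ i := (Finset.mem_erase.1 (Finset.mem_erase.1 hk).2).1
    rw [Function.update_of_ne hk1, Function.update_of_ne hk2]
    show c k * ((if k = i then _ else if k = j then _ else t k) * (if k = i then _ else if k = j then _ else t k)) = _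
    rw [if_neg hk2, if_neg hk1]
  rw [hrest]
  congr 1
  rw [Function.update_of_ne hij, Function.update_self, Function.update_self]
  have hi : φ t i = (a * w₁ * t i + b * w₂ * t j) / e := if_pos rfl
  have hj : φ t j = (- w₂ * t i + w₁ * t j) / e := by
    show (if j = i then _ else if j = j then _ else t j) = _
    rw [if_neg hij.symm, if_pos rfl]
  rw [hi, hj]
  field_simp
  linear_combination (a * t i ^ 2 + b * t j ^ 2) * hw

/-- (D3) Diagonal forms over a finite field of odd order with the same discriminant are isometric. -/
theorem diag_equiv {L : Type u} [Field L] [Fintype L] (h2 : (2 : L) ≠ 0) {n : ℕ} (c c' : Fin n → L)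
    (hc : ∀ j, c j ≠ 0) (hc' : ∀ j, c' j ≠ 0) (hdisc : IsSquare ((∏ j, c j) * ∏ j, c' j)) :
    ∃ φ : (Fin n → L) ≃ₗ[L] (Fin n → L), ∀ t, ∑ j, c' j * (φ t j * φ t j) = ∑ j, c j * (t j * t j) := by
  classical
  induction hm : (Finset.univ.filter fun j => c j ≠ c' j).card using Nat.strong_induction_on generalizing c with
  | _ m ih =>
    by_cases h0 : ∃ i, c i ≠ c' i
    · obtain ⟨i, hi⟩ := h0
      by_cases h1 : ∃ j, j ≠ i ∧ c j ≠ c' j
      · obtain ⟨j, hji, hj⟩ := h1
        set c₁ := Function.update (Function.update c i (c' i)) j (c i * c j * c' i) with hc₁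
        obtain ⟨φ₁, hφ₁⟩ := binary_step h2 c hc hji.symm (hc' i)
        have hc₁0 : ∀ k, c₁ k ≠ 0 := by
          intro k
          by_cases hk : k = j
          · subst hk
            rw [hc₁, Function.update_self]
            exact mul_ne_zero (mul_ne_zero (hc i) (hc _)) (hc' i)
          · rw [hc₁, Function.update_of_ne hk]
            by_cases hk' : k = i
            · subst hk'
              rw [Function.update_self]
              exact hc' _
            · rw [Function.update_of_ne hk']
              exact hc k
        have hprod : ∏ k, c₁ k = (∏ k, c k) * (c' i * c' i) := by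
          have hsplit : ∀ (f : Fin n → L), ∏ k, f k = f i * f j * ∏ k ∈ (Finset.univ.erase i).erase j, f k := by
            intro f
            rw [← Finset.mul_prod_erase _ _ (Finset.mem_univ i),
              ← Finset.mul_prod_erase _ _ (Finset.mem_erase.2 ⟨hji, Finset.mem_univ j⟩)]
            ring
          rw [hsplit, hsplit c]
          have hrest : ∏ k ∈ (Finset.univ.erase i).erase j, c₁ k = ∏ k ∈ (Finset.univ.erase i).erase j, c k := by
            apply Finset.prod_congr rfl
            intro k hk
            have hk1 : k ≠ j := (Finset.mem_erase.1 hk).1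
            have hk2 : k ≠ i := (Finset.mem_erase.1 (Finset.mem_erase.1 hk).2).1
            rw [hc₁, Function.update_of_ne hk1, Function.update_of_ne hk2]
          rw [hrest, hc₁, Function.update_of_ne hji.symm, Function.update_self, Function.update_self]
          ring
        have hdisc₁ : IsSquare ((∏ k, c₁ k) * ∏ k, c' k) := by
          rw [hprod]
          obtain ⟨w, hw⟩ := hdisc
          exact ⟨w * c' i, by rw [show (∏ k, c k) * (c' i * c' i) * ∏ k, c' k = ((∏ k, c k) * ∏ k, c' k) * (c' i * c' i) by ring, hw]; ring⟩
        have hlt : (Finset.univ.filter fun k => c₁ k ≠ c' k).card < m := by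
          rw [← hm]
          apply Finset.card_lt_card
          constructor
          · intro k hk
            rw [Finset.mem_filter] at hk ⊢
            refine ⟨Finset.mem_univ _, ?_⟩
            by_cases hkj : k = j
            · subst hkj
              exact hj
            · by_cases hki : k = i
              · subst hki
                exact hi
              · have h5 := hk.2
                rwa [hc₁, Function.update_of_ne hkj, Function.update_of_ne hki] at h5
          · intro hsub
            have h5 : i ∈ Finset.univ.filter fun k => c₁ k ≠ c' k := hsub (Finset.mem_filter.2 ⟨Finset.mem_univ _, hi⟩)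
            have h6 := (Finset.mem_filter.1 h5).2
            apply h6
            rw [hc₁, Function.update_of_ne hji.symm, Function.update_self]
        obtain ⟨φ₂, hφ₂⟩ := ih _ hlt c₁ hc₁0 hdisc₁ rfl
        refine ⟨φ₁.trans φ₂, fun t => ?_⟩
        rw [← hφ₁ t]
        exact hφ₂ (φ₁ t)
      · -- one index differs
        have hrest : ∀ k, k ≠ i → c k = c' k := by
          intro k hk
          by_contra h5
          exact h1 ⟨k, hk, h5⟩
        obtain ⟨w, hw⟩ := hdisc
        have hsplit : ∀ (f : Fin n → L), ∏ k, f k = f i * ∏ k ∈ Finset.univ.erase i, f k := by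
          intro f
          rw [Finset.mul_prod_erase _ _ (Finset.mem_univ i)]
        have hR : ∏ k ∈ Finset.univ.erase i, c' k = ∏ k ∈ Finset.univ.erase i, c k :=
          Finset.prod_congr rfl fun k hk => (hrest k (Finset.mem_erase.1 hk).1).symm
        set P := ∏ k ∈ Finset.univ.erase i, c k with hP
        have hP0 : P ≠ 0 := Finset.prod_ne_zero_iff.2 fun k _ => hc k
        rw [hsplit c, hsplit c', hR] at hw
        -- `c' i` is `c i` times a square
        set s := w / (P * c' i) with hs
        have hs0 : s * s * c' i = c i := by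
          rw [hs]
          have : c' i ≠ 0 := hc' i
          field_simp
          linear_combination -hw
        have hs1 : s ≠ 0 := by
          intro h5
          rw [h5] at hs0
          exact hc i (by rw [← hs0]; ring)
        let φ : (Fin n → L) ≃ₗ[L] (Fin n → L) :=
          { toFun := fun t k => if k = i then s * t k else t k
            invFun := fun t k => if k = i then s⁻¹ * t k else t k
            map_add' := by
              intro x y
              funext k
              by_cases hk : k = i <;> simp [hk, mul_add]
            map_smul' := by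
              intro r x
              funext k
              by_cases hk : k = i <;> simp [hk, mul_left_comm]
            left_inv := by
              intro x
              funext k
              by_cases hk : k = i <;> simp [hk, hs1]
            right_inv := by
              intro x
              funext k
              by_cases hk : k = i <;> simp [hk, hs1] }
        refine ⟨φ, fun t => ?_⟩
        apply Finset.sum_congr rfl
        intro k _
        show c' k * ((if k = i then s * t k else t k) * (if k = i then s * t k else t k)) = _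
        by_cases hk : k = i
        · subst hk
          rw [if_pos rfl, ← hs0]
          ring
        · rw [if_neg hk, hrest k hk]
    · have : c = c' := by
        funext k
        by_contra h5
        exact h0 ⟨k, h5⟩
      subst this
      exact ⟨LinearEquiv.refl _ _, fun _ => rfl⟩

section

variable {ι' : Type} [Fintype ι'] [DecidableEq ι'] {F : Type u} [Field F] [Fintype F] {Q : QuadraticForm F (ι' → F)}

/-- Orthonormal families adapted to an isometry with square `-1`. -/
theorem exists_family (h2 : (2 : F) ≠ 0) (hQ : PolarNondeg Q) {d : ℕ} (hcard : Fintype.card ι' = 2 * d)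
    (x : ↥(Cfsg.isometryGroup F ⇑Q)) (hx : ∀ v, act x (act x v) = -v) (k : ℕ) (hk : k ≤ d) :
    ∃ b : Fin k → (ι' → F), (∀ j, Q (b j) = 1) ∧ (∀ j l, j ≠ l → polar (⇑Q) (b j) (b l) = 0) ∧
      ∀ j l, polar (⇑Q) (b j) (act x (b l)) = 0 := by
  classical
  induction k with
  | zero => exact ⟨Fin.elim0, fun j => j.elim0, fun j => j.elim0, fun j => j.elim0⟩
  | succ k ih =>
    obtain ⟨b, hb1, hb2, hb3⟩ := ih (by omega)
    have hself : ∀ u : ι' → F, polar (⇑Q) u (act x u) = 0 := fun u => polar_J h2 x hx u
    let v : Fin k ⊕ Fin k → (ι' → F) := Sum.elim b (fun j => act x (b j))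
    let U : Submodule F (ι' → F) := Submodule.span F (Set.range v)
    let W : Submodule F (ι' → F) :=
      { carrier := {w | ∀ i, polar (⇑Q) (v i) w = 0}
        add_mem' := fun {a c} ha hc i => by rw [polar_add_right, ha i, hc i, add_zero]
        zero_mem' := fun i => polar_zero_right _ _
        smul_mem' := fun r a ha i => by rw [polar_smul_right, ha i, smul_zero] }
    have hW : ∀ w, w ∈ W ↔ ∀ i, polar (⇑Q) (v i) w = 0 := fun _ => Iff.rfl
    have hxx : ∀ j l, polar (⇑Q) (act x (b j)) (act x (b l)) = polar (⇑Q) (b j) (b l) := fun j l => polar_act x _ _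
    have hbb : ∀ j, polar (⇑Q) (b j) (b j) = 2 := by
      intro j
      rw [polar_self_eq, hb1, mul_one]
    have hvv : ∀ i l, polar (⇑Q) (v i) (v l) = if i = l then 2 else 0 := by
      rintro (i | i) (l | l)
      · simp only [v, Sum.elim_inl, Sum.inl.injEq]
        split_ifs with h
        · rw [h, hbb]
        · exact hb2 i l h
      · simp only [v, Sum.elim_inl, Sum.elim_inr, reduceCtorEq, if_false]
        exact hb3 i l
      · simp only [v, Sum.elim_inl, Sum.elim_inr, reduceCtorEq, if_false]
        rw [polar_comm]
        exact hb3 l i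
      · simp only [v, Sum.elim_inr, Sum.inr.injEq]
        rw [hxx]
        split_ifs with h
        · rw [h, hbb]
        · exact hb2 i l h
    have hsup : W ⊔ U = ⊤ := by
      rw [eq_top_iff]
      intro z _
      have hu : ∑ i, ((2 : F)⁻¹ * polar (⇑Q) (v i) z) • v i ∈ U :=
        Submodule.sum_mem _ fun i _ => Submodule.smul_mem _ _ (Submodule.subset_span ⟨i, rfl⟩)
      have hw : z - ∑ i, ((2 : F)⁻¹ * polar (⇑Q) (v i) z) • v i ∈ W := by
        rw [hW]
        intro i
        rw [polar_sub_right]
        have h3 : polar (⇑Q) (v i) (∑ l, ((2 : F)⁻¹ * polar (⇑Q) (v l) z) • v l) = polar (⇑Q) (v i) z := by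
          have h5 : polar (⇑Q) (v i) (∑ l, ((2 : F)⁻¹ * polar (⇑Q) (v l) z) • v l) =
              (polarBilin Q (v i)) (∑ l, ((2 : F)⁻¹ * polar (⇑Q) (v l) z) • v l) := rfl
          rw [h5, map_sum, Finset.sum_eq_single i]
          · rw [map_smul, polarBilin_apply_apply, hvv, if_pos rfl, smul_eq_mul]
            field_simp
          · intro l _ hl
            rw [map_smul, polarBilin_apply_apply, hvv, if_neg hl.symm, smul_zero]
          · intro h0
            exact absurd (Finset.mem_univ i) h0
        rw [h3, sub_self]
      have h3 : z = (z - ∑ i, ((2 : F)⁻¹ * polar (⇑Q) (v i) z) • v i) + ∑ i, ((2 : F)⁻¹ * polar (⇑Q) (v i) z) • v i := by abel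
      rw [h3]
      exact Submodule.add_mem _ (Submodule.mem_sup_left hw) (Submodule.mem_sup_right hu)
    have horth : ∀ a ∈ W, ∀ c ∈ U, polar (⇑Q) a c = 0 := by
      intro a ha c hc
      induction hc using Submodule.span_induction with
      | mem y hy =>
        obtain ⟨i, rfl⟩ := hy
        rw [polar_comm]
        exact ha i
      | zero => exact polar_zero_right _ _
      | add s t _ _ h₁ h₂ => rw [polar_add_right, h₁, h₂, add_zero]
      | smul r s _ h₁ => rw [polar_smul_right, h₁, smul_zero]
    have hWn : PolarNondeg (Q.comp W.subtype) := nondeg_of_orth_sup hQ hsup horth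
    have hUd : finrank F U ≤ 2 * k := by
      have h3 := finrank_range_le_card (R := F) v
      have h4 : (Set.range v).finrank F = finrank F U := rfl
      rw [h4] at h3
      simpa [two_mul] using h3
    have hWd : 2 ≤ finrank F W := by
      have h3 := Submodule.finrank_sup_add_finrank_inf_eq W U
      rw [hsup, finrank_top, Module.finrank_fintype_fun_eq_card, hcard] at h3
      omega
    obtain ⟨w, hw⟩ := exists_represent h2 (Q.comp W.subtype) hWn hWd 1
    have hw' : Q (w : ι' → F) = 1 := hw
    have hwv : ∀ i, polar (⇑Q) (v i) (w : ι' → F) = 0 := w.2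
    have hwb : ∀ j, polar (⇑Q) (b j) (w : ι' → F) = 0 := fun j => hwv (Sum.inl j)
    have hwx : ∀ j, polar (⇑Q) (act x (b j)) (w : ι' → F) = 0 := fun j => hwv (Sum.inr j)
    have hxw : ∀ j, polar (⇑Q) (b j) (act x (w : ι' → F)) = 0 := by
      intro j
      have h3 := polar_act x (act x (b j)) (w : ι' → F)
      rw [hx, polar_neg_left, hwx, neg_eq_zero] at h3
      exact h3
    refine ⟨Fin.snoc b (w : ι' → F), ?_, ?_, ?_⟩
    · intro j
      refine Fin.lastCases ?_ (fun i => ?_) j
      · simpa using hw'
      · simpa using hb1 i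
    · intro j l
      refine Fin.lastCases ?_ (fun i => ?_) j
      · refine Fin.lastCases ?_ (fun i' => ?_) l
        · intro h
          exact absurd rfl h
        · intro _
          simp only [Fin.snoc_last, Fin.snoc_castSucc]
          rw [polar_comm]
          exact hwb i'
      · refine Fin.lastCases ?_ (fun i' => ?_) l
        · intro _
          simp only [Fin.snoc_last, Fin.snoc_castSucc]
          exact hwb i
        · intro h
          simp only [Fin.snoc_castSucc]
          exact hb2 i i' (fun h' => h (by rw [h']))
    · intro j l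
      refine Fin.lastCases ?_ (fun i => ?_) j
      · refine Fin.lastCases ?_ (fun i' => ?_) l
        · simp only [Fin.snoc_last]
          exact hself _
        · simp only [Fin.snoc_last, Fin.snoc_castSucc]
          rw [polar_comm]
          exact hwx i'
      · refine Fin.lastCases ?_ (fun i' => ?_) l
        · simp only [Fin.snoc_last, Fin.snoc_castSucc]
          exact hxw i
        · simp only [Fin.snoc_castSucc]
          exact hb3 i i'

/-- The family as a basis. -/
theorem exists_basis (h2 : (2 : F) ≠ 0) (hQ : PolarNondeg Q) {d : ℕ} (hd : 1 ≤ d) (hcard : Fintype.card ι' = 2 * d)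
    (x : ↥(Cfsg.isometryGroup F ⇑Q)) (hx : ∀ v, act x (act x v) = -v) :
    ∃ B : Basis (Fin d ⊕ Fin d) F (ι' → F), (∀ j l, polar (⇑Q) (B j) (B l) = if j = l then 2 else 0) ∧
      (∀ j, act x (B (Sum.inl j)) = B (Sum.inr j)) ∧ (∀ j, act x (B (Sum.inr j)) = - B (Sum.inl j)) := by
  classical
  obtain ⟨b, hb1, hb2, hb3⟩ := exists_family h2 hQ hcard x hx d le_rfl
  let v : Fin d ⊕ Fin d → (ι' → F) := Sum.elim b (fun j => act x (b j))
  have hxx : ∀ j l, polar (⇑Q) (act x (b j)) (act x (b l)) = polar (⇑Q) (b j) (b l) := fun j l => polar_act x _ _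
  have hbb : ∀ j, polar (⇑Q) (b j) (b j) = 2 := by
    intro j
    rw [polar_self_eq, hb1, mul_one]
  have hvv : ∀ i l, polar (⇑Q) (v i) (v l) = if i = l then 2 else 0 := by
    rintro (i | i) (l | l)
    · simp only [v, Sum.elim_inl, Sum.inl.injEq]
      split_ifs with h
      · rw [h, hbb]
      · exact hb2 i l h
    · simp only [v, Sum.elim_inl, Sum.elim_inr, reduceCtorEq, if_false]
      exact hb3 i l
    · simp only [v, Sum.elim_inl, Sum.elim_inr, reduceCtorEq, if_false]
      rw [polar_comm]
      exact hb3 l i
    · simp only [v, Sum.elim_inr, Sum.inr.injEq]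
      rw [hxx]
      split_ifs with h
      · rw [h, hbb]
      · exact hb2 i l h
  have hli : LinearIndependent F v := by
    rw [Fintype.linearIndependent_iff]
    intro g hg i
    have h3 := congrArg (polarBilin Q (v i)) hg
    rw [map_sum, map_zero, Finset.sum_eq_single i] at h3
    · rw [map_smul, polarBilin_apply_apply, hvv, if_pos rfl, smul_eq_mul] at h3
      exact (mul_eq_zero.1 h3).resolve_right h2
    · intro l _ hl
      rw [map_smul, polarBilin_apply_apply, hvv, if_neg hl.symm, smul_zero]
    · intro h0
      exact absurd (Finset.mem_univ i) h0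
  haveI : Nonempty (Fin d ⊕ Fin d) := ⟨Sum.inl ⟨0, by omega⟩⟩
  have hcardB : Fintype.card (Fin d ⊕ Fin d) = finrank F (ι' → F) := by
    rw [Module.finrank_fintype_fun_eq_card, hcard]
    simp [two_mul]
  let B := basisOfLinearIndependentOfCardEqFinrank hli hcardB
  have hB : ∀ i, B i = v i := fun i => by
    simp [B]
  refine ⟨B, fun j l => ?_, fun j => ?_, fun j => ?_⟩
  · rw [hB, hB, hvv]
  · rw [hB, hB]
    rfl
  · rw [hB, hB]
    exact hx _

/-- (D2) Two isometries with square `-1` of a nondegenerate quadratic space are conjugate in the isometry group. -/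
theorem conj_of_sq_neg_one (h2 : (2 : F) ≠ 0) (hQ : PolarNondeg Q) {d : ℕ} (hd : 1 ≤ d) (hcard : Fintype.card ι' = 2 * d)
    (x y : ↥(Cfsg.isometryGroup F ⇑Q)) (hx : ∀ v, act x (act x v) = -v) (hy : ∀ v, act y (act y v) = -v) :
    ∃ h : ↥(Cfsg.isometryGroup F ⇑Q), ∀ v, act h (act x v) = act y (act h v) := by
  classical
  obtain ⟨B, hB1, hB2, hB3⟩ := exists_basis h2 hQ hd hcard x hx
  obtain ⟨B', hB1', hB2', hB3'⟩ := exists_basis h2 hQ hd hcard y hy
  let e : (ι' → F) ≃ₗ[F] (ι' → F) := B.equiv B' (Equiv.refl _)
  have he : ∀ i, e (B i) = B' i := fun i => by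
    simp [e]
  have hpol : ∀ u w, polar (⇑Q) (e u) (e w) = polar (⇑Q) u w := by
    have h3 : (polarBilin Q).compl₁₂ (e : (ι' → F) →ₗ[F] (ι' → F)) (e : (ι' → F) →ₗ[F] (ι' → F)) = polarBilin Q := by
      apply B.ext
      intro i
      apply B.ext
      intro l
      simp only [LinearMap.compl₁₂_apply, polarBilin_apply_apply, LinearEquiv.coe_coe, he]
      rw [hB1, hB1']
    intro u w
    have h5 := congrArg (fun f => f u w) h3
    exact h5
  have hQe : ∀ v, Q (e v) = Q v := by
    intro v
    have h3 := hpol v v
    rw [polar_self_eq, polar_self_eq] at h3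
    exact mul_left_cancel₀ h2 h3
  refine ⟨isoOfEquiv e hQe, fun v => ?_⟩
  rw [act_isoOfEquiv, act_isoOfEquiv]
  let ax : (ι' → F) →ₗ[F] (ι' → F) := { toFun := act x, map_add' := act_add x, map_smul' := act_smul x }
  let ay : (ι' → F) →ₗ[F] (ι' → F) := { toFun := act y, map_add' := act_add y, map_smul' := act_smul y }
  have h3 : (e : (ι' → F) →ₗ[F] (ι' → F)) ∘ₗ ax = ay ∘ₗ (e : (ι' → F) →ₗ[F] (ι' → F)) := by
    apply B.ext
    rintro (j | j)
    · show e (act x (B (Sum.inl j))) = act y (e (B (Sum.inl j)))
      rw [hB2, he, he, hB2']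
    · show e (act x (B (Sum.inr j))) = act y (e (B (Sum.inr j)))
      rw [hB3, map_neg, he, he, hB3']
  exact congrArg (fun f => f v) h3

end

/-- The `F`-form `t ↦ Tr (∑ c_j t_j²)` on `L^n`. -/
noncomputable def T {F : Type u} [Field F] {L : Type u} [Field L] [Algebra F L] {n : ℕ} (c : Fin n → L) :
    QuadraticForm F (Fin n → L) :=
  (Algebra.trace F L).compQuadraticMap (QuadraticMap.restrictScalars (S := F) (QuadraticMap.weightedSumSquares L c))

theorem T_apply {F : Type u} [Field F] {L : Type u} [Field L] [Algebra F L] {n : ℕ} (c : Fin n → L) (t : Fin n → L) :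
    T (F := F) c t = Algebra.trace F L (∑ j, c j * (t j * t j)) := by
  show Algebra.trace F L (weightedSumSquares L c t) = _
  rw [weightedSumSquares_apply]
  simp only [smul_eq_mul]

section

variable {F : Type u} [Field F] [Fintype F] {L : Type u} [Field L] [Algebra F L] [Fintype L]

/-- Nondegeneracy of the forms. -/
theorem polar_T {n : ℕ} (c : Fin n → L) (s t : Fin n → L) :
    polar (T (F := F) c) s t = Algebra.trace F L (∑ j, 2 * c j * (s j * t j)) := by
  rw [polar, T_apply, T_apply, T_apply, ← map_sub, ← map_sub, ← Finset.sum_sub_distrib, ← Finset.sum_sub_distrib]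
  congr 1
  apply Finset.sum_congr rfl
  intro j _
  simp only [Pi.add_apply]
  ring

theorem polarNondeg_T (h2L : (2 : L) ≠ 0) {n : ℕ} {c : Fin n → L} (hc : ∀ j, c j ≠ 0) : PolarNondeg (T (F := F) c) := by
  classical
  haveI : FiniteDimensional F L := Module.Finite.of_finite
  intro s hs
  funext j
  have hn := traceForm_nondegenerate F L
  have h1 : 2 * c j * s j = 0 := by
    apply hn.1
    intro a
    have h3 := hs (Pi.single j a)
    rw [polar_T, Finset.sum_eq_single j] at h3
    · rw [Algebra.traceForm_apply]
      simp only [Pi.single_eq_same] at h3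
      rw [← h3]
      congr 1
      ring
    · intro k _ hk
      simp [Pi.single_apply, hk]
    · intro h0
      exact absurd (Finset.mem_univ j) h0
  have h3 : 2 * c j ≠ 0 := mul_ne_zero h2L (hc j)
  exact (mul_eq_zero.1 h1).resolve_left h3

/-- The form on a line. -/
noncomputable def lineT (ν : L) : QuadraticForm F L :=
  (Algebra.trace F L).compQuadraticMap (QuadraticMap.restrictScalars (S := F) (ν • QuadraticMap.sq (R := L)))

theorem lineT_apply (ν u : L) : lineT (F := F) ν u = Algebra.trace F L (ν * (u * u)) := rfl

theorem polar_lineT (ν u w : L) : polar (lineT (F := F) ν) u w = Algebra.trace F L (2 * ν * (u * w)) := by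
  rw [polar, lineT_apply, lineT_apply, lineT_apply, ← map_sub, ← map_sub]
  congr 1
  ring

theorem polarNondeg_lineT (h2L : (2 : L) ≠ 0) {ν : L} (hν : ν ≠ 0) : PolarNondeg (lineT (F := F) ν) := by
  haveI : FiniteDimensional F L := Module.Finite.of_finite
  intro u hu
  have hn := traceForm_nondegenerate F L
  have h1 : 2 * ν * u = 0 := by
    apply hn.1
    intro a
    have h3 := hu a
    rw [polar_lineT] at h3
    rw [Algebra.traceForm_apply, ← h3]
    congr 1
    ring
  exact (mul_eq_zero.1 h1).resolve_left (mul_ne_zero h2L hν)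

/-- Elements of the base field are squares in the quadratic extension. -/
theorem isSquare_algebraMap (h2 : (2 : F) ≠ 0) (hL : finrank F L = 2) (f : F) : IsSquare (algebraMap F L f) := by
  classical
  haveI : FiniteDimensional F L := Module.Finite.of_finite
  by_cases hf : f = 0
  · rw [hf, map_zero]
    exact IsSquare.zero
  have hf' : algebraMap F L f ≠ 0 := (map_ne_zero _).2 hf
  have h2L : (2 : L) ≠ 0 := by
    intro h
    apply h2
    have : algebraMap F L 2 = 0 := by rw [map_ofNat]; exact h
    exact (map_eq_zero _).1 this
  have hchL : ringChar L ≠ 2 := by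
    intro h
    apply h2L
    have := CharP.cast_eq_zero L (ringChar L)
    rw [h] at this
    exact_mod_cast this
  have hch : ringChar F ≠ 2 := by
    intro h
    apply h2
    have := CharP.cast_eq_zero F (ringChar F)
    rw [h] at this
    exact_mod_cast this
  rw [FiniteField.isSquare_iff hchL hf']
  have hcardL : Fintype.card L = Fintype.card F ^ 2 := by
    rw [← hL]
    exact Module.card_eq_pow_finrank
  obtain ⟨k, hk⟩ := Nat.odd_iff.2 (FiniteField.odd_card_of_char_ne_two hch)
  have h3 : Fintype.card L / 2 = (Fintype.card F - 1) * (k + 1) := by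
    rw [hcardL, hk]
    have : (2 * k + 1) ^ 2 = 2 * ((2 * k + 1 - 1) * (k + 1)) + 1 := by
      rw [Nat.add_sub_cancel]
      ring
    rw [this]
    omega
  rw [h3, pow_mul, ← map_pow, FiniteField.pow_card_sub_one_eq_one f hf, map_one, one_pow]

/-- The type of a line. -/
theorem lag_lineT (h2 : (2 : F) ≠ 0) (hL : finrank F L = 2) {ω : L} (hω0 : ω ≠ 0) (hω : Algebra.trace F L ω = 0) {c : L}
    (hc : c ≠ 0) : Lag (lineT (F := F) c) ↔ IsSquare (ω * c) := by
  classical
  haveI : FiniteDimensional F L := Module.Finite.of_finite
  constructor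
  · rintro ⟨X, hX, hd⟩
    rw [hL] at hd
    have hX1 : finrank F X = 1 := by omega
    have hXne : X ≠ ⊥ := by
      rintro rfl
      simp at hX1
    obtain ⟨t, htX, ht0⟩ := Submodule.exists_mem_ne_zero_of_ne_bot hXne
    have htr : Algebra.trace F L (c * (t * t)) = 0 := hX t htX
    have hker : finrank F (LinearMap.ker (Algebra.trace F L)) = 1 := by
      have h5 := LinearMap.finrank_range_add_finrank_ker (Algebra.trace F L)
      rw [LinearMap.range_eq_top.2 (Algebra.trace_surjective F L), finrank_top, Module.finrank_self, hL] at h5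
      omega
    have hω' : (⟨ω, hω⟩ : LinearMap.ker (Algebra.trace F L)) ≠ 0 := by
      intro h5
      exact hω0 (congrArg Subtype.val h5)
    obtain ⟨e, he⟩ := (finrank_eq_one_iff_of_nonzero' _ hω').1 hker ⟨c * (t * t), htr⟩
    have he' : e • ω = c * (t * t) := congrArg Subtype.val he
    obtain ⟨r, hr⟩ := isSquare_algebraMap h2 hL e
    refine ⟨r * (ω / t), ?_⟩
    rw [Algebra.smul_def, hr] at he'
    field_simp
    linear_combination (-1) * he'
  · rintro ⟨s, hs⟩
    have hs0 : s ≠ 0 := by
      rintro rfl
      exact (mul_ne_zero hω0 hc) (by simpa using hs)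
    refine ⟨Submodule.span F {ω / s}, ?_, ?_⟩
    · intro x hx
      obtain ⟨e, rfl⟩ := Submodule.mem_span_singleton.1 hx
      have h5 : lineT (F := F) c (ω / s) = 0 := by
        rw [lineT_apply, show c * (ω / s * (ω / s)) = ω by
          field_simp
          linear_combination hs, hω]
      rw [QuadraticMap.map_smul, h5, smul_zero]
    · rw [finrank_span_singleton (div_ne_zero hω0 hs0), hL]

/-- The type of the trace form. -/
theorem lag_T (h2 : (2 : F) ≠ 0)
    (hL : finrank F L = 2) {ω : L} (hω0 : ω ≠ 0) (hω : Algebra.trace F L ω = 0) {n : ℕ} (c : Fin n → L) (hc : ∀ j, c j ≠ 0) :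
    Lag (T (F := F) c) ↔ IsSquare (ω ^ n * ∏ j, c j) := by
  classical
  haveI : FiniteDimensional F L := Module.Finite.of_finite
  have h2L : (2 : L) ≠ 0 := by
    intro h
    apply h2
    have : algebraMap F L 2 = 0 := by rw [map_ofNat]; exact h
    exact (map_eq_zero _).1 this
  induction n with
  | zero =>
    simp only [pow_zero, Finset.univ_eq_empty, Finset.prod_empty, mul_one]
    exact ⟨fun _ => IsSquare.one, fun _ => lag_of_finrank_zero _ Module.finrank_zero_of_subsingleton⟩
  | succ n ih =>
    have hc' : ∀ j : Fin n, (Fin.tail c) j ≠ 0 := fun j => hc _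
    let φ : (L × (Fin n → L)) ≃ₗ[F] (Fin (n + 1) → L) :=
      { toFun := fun p => Fin.cons p.1 p.2
        invFun := fun t => (t 0, Fin.tail t)
        map_add' := by
          rintro ⟨a, u⟩ ⟨b, v⟩
          funext j
          refine Fin.cases ?_ (fun i => ?_) j <;> simp
        map_smul' := by
          rintro r ⟨a, u⟩
          funext j
          refine Fin.cases ?_ (fun i => ?_) j <;> simp
        left_inv := by
          rintro ⟨a, u⟩
          simp
        right_inv := by
          intro t
          simp }
    have hφ : ∀ p, T (F := F) c (φ p) = ((lineT (F := F) (c 0)).prod (T (F := F) (Fin.tail c))) p := by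
      rintro ⟨a, u⟩
      show T (F := F) c (Fin.cons a u) = lineT (F := F) (c 0) a + T (F := F) (Fin.tail c) u
      rw [T_apply, T_apply, lineT_apply, Fin.sum_univ_succ, map_add]
      simp [Fin.tail]
    have h1 := (lag_congr_iff φ hφ).symm
    have h3 := ih (Fin.tail c) hc'
    have h4 := lag_lineT h2 hL hω0 hω (hc 0)
    have h5 : Lag ((lineT (F := F) (c 0)).prod (T (F := F) (Fin.tail c))) ↔ (Lag (lineT (F := F) (c 0)) ↔ Lag (T (F := F) (Fin.tail c))) :=
      lag_prod h2 (polarNondeg_lineT h2L (hc 0)) (polarNondeg_T h2L hc') (m₁ := 1) (m₂ := n) (by rw [hL]) (by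
        rw [Module.finrank_pi_fintype]
        simp [hL]
        ring)
    have h00 : (∏ j, Fin.tail c j) ≠ 0 := Finset.prod_ne_zero_iff.2 fun j _ => hc' j
    have h6 := isSquare_mul_iff h2L (mul_ne_zero hω0 (hc 0)) (mul_ne_zero (pow_ne_zero n hω0) h00)
    have h7 : ω * c 0 * (ω ^ n * ∏ j, Fin.tail c j) = ω ^ (n + 1) * ∏ j, c j := by
      rw [Fin.prod_univ_succ, pow_succ]
      have : (∏ j, Fin.tail c j) = ∏ j, c (Fin.succ j) := rfl
      rw [this]
      ring
    rw [h7] at h6
    exact (h1.trans (h5.trans (iff_congr h4 h3))).trans h6.symm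

end

end Cfsg.Agent.Lib.Classical.Elusive.OFieldPure
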