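import Mathlib
import Cfsg.Agent.Lib.Classical.Symp.SympBasis
import Cfsg.Agent.Lib.Classical.Symp.DecompMax

/-!
# Alternating forms that are traces of forms over an extension field

`F ⊆ L` a finite separable extension acting on `V`, and `B` an alternating `F`-form with
`B (a u) v = B u (a v)`, `B (a v) v = 0`. Then `B = Tr ∘ g` for an `L`-alternating form `g`.
-/

set_option autoImplicit false
set_option linter.unusedSectionVars false
set_option linter.unusedVariables false

namespace Cfsg.Agent.Lib.Classical.Elusive.SpFieldAbs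

open Module

universe u

section Mod

variable {F : Type u} [Field F] {L : Type u} [Field L] [Algebra F L] [FiniteDimensional F L] [Algebra.IsSeparable F L]
  {V : Type u} [AddCommGroup V] [Module F V] [Module L V] [IsScalarTower F L V]

/-- The functional `a ↦ B (a u) v`. -/
noncomputable def fn (B : LinearMap.BilinForm F V) (u v : V) : Dual F L :=
  (B.flip v) ∘ₗ ((LinearMap.toSpanSingleton L V u).restrictScalars F)

theorem fn_apply (B : LinearMap.BilinForm F V) (u v : V) (a : L) : fn B u v a = B (a • u) v := by
  simp [fn]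

/-- The value of the `L`-form. -/
noncomputable def gVal (B : LinearMap.BilinForm F V) (u v : V) : L :=
  ((Algebra.traceForm F L).toDual (traceForm_nondegenerate F L)).symm (fn B u v)

theorem gVal_spec (B : LinearMap.BilinForm F V) (u v : V) (a : L) :
    Algebra.trace F L (a * gVal B u v) = B (a • u) v := by
  have h := LinearMap.BilinForm.apply_toDual_symm_apply (B := Algebra.traceForm F L) (hB := traceForm_nondegenerate F L) (fn B u v) a
  rw [Algebra.traceForm_apply, fn_apply, mul_comm] at h
  exact h

theorem eq_of_trace (x y : L) (h : ∀ a : L, Algebra.trace F L (a * x) = Algebra.trace F L (a * y)) : x = y := by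
  have hn := traceForm_nondegenerate F L
  rw [← sub_eq_zero]
  apply hn.1
  intro a
  rw [Algebra.traceForm_apply, mul_comm, mul_sub, map_sub, h a, sub_self]

variable (B : LinearMap.BilinForm F V) (hS : ∀ (a : L) (u v : V), B (a • u) v = B u (a • v))

include hS in
/-- The `L`-bilinear form. -/
theorem gVal_smul_right (c : L) (u v : V) : gVal (L := L) B u (c • v) = c * gVal (L := L) B u v := by
  apply eq_of_trace (F := F)
  intro a
  rw [gVal_spec, ← hS, smul_smul, ← gVal_spec]
  congr 1
  ring

theorem gVal_smul_left (c : L) (u v : V) : gVal (L := L) B (c • u) v = c * gVal (L := L) B u v := by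
  apply eq_of_trace (F := F)
  intro a
  rw [gVal_spec, smul_smul, ← gVal_spec, mul_assoc]

theorem gVal_add_left (u u' v : V) : gVal (L := L) B (u + u') v = gVal (L := L) B u v + gVal (L := L) B u' v := by
  apply eq_of_trace (F := F)
  intro a
  rw [gVal_spec, mul_add, map_add, gVal_spec, gVal_spec, smul_add, map_add, LinearMap.add_apply]

theorem gVal_add_right (u v v' : V) : gVal (L := L) B u (v + v') = gVal (L := L) B u v + gVal (L := L) B u v' := by
  apply eq_of_trace (F := F)
  intro a
  rw [gVal_spec, map_add, mul_add, map_add, gVal_spec, gVal_spec]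

/-- The `L`-form. -/
noncomputable def gForm : LinearMap.BilinForm L V :=
  LinearMap.mk₂ L (fun u v => gVal (L := L) B u v) (gVal_add_left B) (gVal_smul_left B) (gVal_add_right B)
    (fun c u v => by
      show gVal (L := L) B u (c • v) = c • gVal (L := L) B u v
      rw [smul_eq_mul]
      exact gVal_smul_right B hS c u v)

theorem gForm_apply (u v : V) : gForm B hS u v = gVal (L := L) B u v := rfl

theorem trace_gForm (u v : V) : Algebra.trace F L (gForm B hS u v) = B u v := by
  have := gVal_spec (L := L) B u v 1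
  rw [one_mul, one_smul] at this
  exact this

theorem gForm_isAlt (hAlt : ∀ (a : L) (v : V), B (a • v) v = 0) : (gForm B hS).IsAlt := by
  intro v
  rw [gForm_apply]
  apply eq_of_trace (F := F)
  intro a
  rw [gVal_spec, hAlt, mul_zero, map_zero]

variable [FiniteDimensional F V]

include hS in
/-- Nondegenerate on a subspace. -/
theorem exists_even (hAlt : ∀ (a : L) (v : V), B (a • v) v = 0) (W : Submodule L V) (hW : ∀ u ∈ W, u ≠ 0 → ∃ v ∈ W, B u v ≠ 0) :
    ∃ m, finrank L W = 2 * m := by
  haveI : FiniteDimensional L V := FiniteDimensional.right F L V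
  have hA := gForm_isAlt B hS hAlt
  have hA' : ((gForm B hS).restrict W).IsAlt := fun v => hA v.1
  have hl : ∀ x : W, (∀ y : W, (gForm B hS).restrict W x y = 0) → x = 0 := by
    intro x hx
    by_contra hx0
    obtain ⟨v, hv, hv2⟩ := hW x.1 x.2 (fun h => hx0 (Subtype.ext h))
    apply hv2
    have h1 := hx ⟨v, hv⟩
    rw [← trace_gForm B hS]
    have h2 : gForm B hS x.1 v = 0 := h1
    rw [h2, map_zero]
  have hN : ((gForm B hS).restrict W).Nondegenerate := by
    refine ⟨hl, ?_⟩
    intro y hy
    apply hl
    intro x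
    have h1 := hy x
    have h2 := LinearMap.BilinForm.IsAlt.neg_eq hA' x y
    rw [h1] at h2
    rw [← neg_eq_zero]
    simpa using h2.symm
  exact Cfsg.Agent.Lib.Classical.Symp.DecompMax.even_finrank _ _ hA' hN rfl

include hS in
/-- Frames. -/
theorem exists_frame (hAlt : ∀ (a : L) (v : V), B (a • v) v = 0) (hN : B.Nondegenerate) :
    ∃ (d' : ℕ) (e : V ≃ₗ[L] (Fin d' ⊕ Fin d' → L)), finrank L V = 2 * d' ∧
      ∀ u v, B u v = Algebra.trace F L (Cfsg.sympForm d' L (e u) (e v)) := by
  haveI : FiniteDimensional L V := FiniteDimensional.right F L V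
  have hA := gForm_isAlt B hS hAlt
  have hl : ∀ x : V, (∀ y : V, gForm B hS x y = 0) → x = 0 := by
    intro x hx
    apply hN.1 x
    intro y
    rw [← trace_gForm B hS, hx, map_zero]
  have hN' : (gForm B hS).Nondegenerate := by
    refine ⟨hl, ?_⟩
    intro y hy
    apply hl
    intro x
    have h1 := hy x
    have h2 := LinearMap.BilinForm.IsAlt.neg_eq hA x y
    rw [h1] at h2
    rw [← neg_eq_zero]
    simpa using h2.symm
  obtain ⟨d', hd'⟩ := Cfsg.Agent.Lib.Classical.Symp.DecompMax.even_finrank _ _ hA hN' rfl
  obtain ⟨e, he⟩ := Cfsg.Agent.Lib.Classical.Symp.SympBasis.exists_sympEquiv _ hA hN' hd'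
  refine ⟨d', e, hd', fun u v => ?_⟩
  rw [he, trace_gForm]

end Mod

section Rho

variable {F : Type u} [Field F] {L : Type u} [Field L] [Algebra F L] [FiniteDimensional F L] [Algebra.IsSeparable F L]
  {V : Type u} [AddCommGroup V] [Module F V] [FiniteDimensional F V]

/-- An action of `L` on `V` by `B`-self-adjoint maps with alternating twists. -/
structure Data (B : LinearMap.BilinForm F V) (ρ : L →ₐ[F] Module.End F V) : Prop where
  selfadj : ∀ (a : L) (u v : V), B (ρ a u) v = B u (ρ a v)
  alt : ∀ (a : L) (v : V), B (ρ a v) v = 0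

variable {B : LinearMap.BilinForm F V} {ρ : L →ₐ[F] Module.End F V}

/-- Stable nondegenerate subspaces have dimension divisible by `2 [L : F]`. -/
theorem even_of_stable (D : Data B ρ) (W : Submodule F V) (hst : ∀ (a : L), ∀ u ∈ W, ρ a u ∈ W)
    (hW : ∀ u ∈ W, u ≠ 0 → ∃ v ∈ W, B u v ≠ 0) : ∃ m, finrank F W = 2 * finrank F L * m := by
  letI : Module L V := Module.compHom V ρ.toRingHom
  have hsmul : ∀ (a : L) (v : V), a • v = ρ a v := fun a v => rfl
  haveI : IsScalarTower F L V := ⟨fun c a v => by
    rw [hsmul, hsmul, map_smul]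
    rfl⟩
  let W' : Submodule L V :=
    { carrier := W
      add_mem' := W.add_mem
      zero_mem' := W.zero_mem
      smul_mem' := fun a v hv => hst a v hv }
  obtain ⟨m, hm⟩ := exists_even (L := L) B D.selfadj D.alt W' hW
  haveI : FiniteDimensional L V := FiniteDimensional.right F L V
  refine ⟨m, ?_⟩
  have h1 : finrank F W' = finrank F L * finrank L W' := (Module.finrank_mul_finrank F L W').symm
  have h2 : finrank F W = finrank F W' := rfl
  rw [h2, h1, hm]
  ring

/-- Frames for the action. -/
theorem exists_frame_rho (D : Data B ρ) (hN : B.Nondegenerate) :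
    ∃ (d' : ℕ) (X : V ≃ₗ[F] (Fin d' ⊕ Fin d' → L)), finrank F V = 2 * d' * finrank F L ∧
      (∀ (a : L) (v : V), X (ρ a v) = a • X v) ∧ 
      ∀ u v, B u v = Algebra.trace F L (Cfsg.sympForm d' L (X u) (X v)) := by
  letI : Module L V := Module.compHom V ρ.toRingHom
  have hsmul : ∀ (a : L) (v : V), a • v = ρ a v := fun a v => rfl
  haveI : IsScalarTower F L V := ⟨fun c a v => by
    rw [hsmul, hsmul, map_smul]
    rfl⟩
  obtain ⟨d', e, hd, he⟩ := exists_frame (L := L) B D.selfadj D.alt hN
  refine ⟨d', e.restrictScalars F, ?_, fun a v => e.map_smul a v, he⟩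
  rw [← Module.finrank_mul_finrank F L V, hd]
  ring

end Rho

end Cfsg.Agent.Lib.Classical.Elusive.SpFieldAbs
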