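import Mathlib
import Cfsg.Agent.Lib.Classical.Elusive.OFieldPure
import Cfsg.Agent.Lib.Classical.Elusive.SpFieldAbs
import Cfsg.Agent.Lib.Classical.OSemi.LagFree
import Cfsg.Agent.Lib.Classical.OSemi.SingInvol
import Cfsg.Agent.Lib.Classical.Orth.Adjust
import Cfsg.Prelude.Def_GeometricClasses

/-!
# Orthogonal groups and quadratic field extensions: coordinates

`K` is a self-adjoint quadratic field subalgebra of the matrices for the polar form of `Q`; we write `V` as `L^d` with
`Q = Tr (∑ c_j t_j²)`.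
-/

set_option autoImplicit false
set_option linter.unusedSectionVars false
set_option linter.unusedVariables false
set_option linter.unusedSimpArgs false
set_option linter.style.haveILetI false

namespace Cfsg.Agent.Lib.Classical.Elusive.OFieldA

open Module QuadraticMap Matrix
open Cfsg.Agent.Lib.Classical.Witt.Hyp Cfsg.Agent.Lib.Classical.OSemi.Lag
open Cfsg.Agent.Lib.Classical.Orth.Basic Cfsg.Agent.Lib.Classical.Elusive.OFieldPure
open Cfsg.Agent.Lib.Classical.Elusive.SpFieldAbs

universe u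

section Model

variable {ι : Type} [Fintype ι] [DecidableEq ι] {F : Type u} [Field F] [Fintype F]

/-- `K` as an abstract field. -/
theorem exists_fieldModel [Nonempty ι] {k : ℕ} {K : Subalgebra F (Matrix ι ι F)} (hK : Cfsg.Geo.IsFieldSubalgebra k K) :
    ∃ (L : Type u) (_ : Field L) (_ : Algebra F L) (_ : Fintype L) (ρ : L →ₐ[F] Matrix ι ι F),
      (∀ m, m ∈ K ↔ ∃ a, ρ a = m) ∧ finrank F L = k := by
  classical
  have hne : (1 : Matrix ι ι F) ≠ 0 := one_ne_zero
  have hf : IsField K :=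
    { exists_pair_ne := ⟨0, 1, fun h => hne (congrArg Subtype.val h).symm⟩
      mul_comm := fun x y => Subtype.ext (hK.comm x.1 x.2 y.1 y.2)
      mul_inv_cancel := by
        intro a ha
        obtain ⟨b, hb, hab⟩ := hK.inv a.1 a.2 (fun h => ha (Subtype.ext h))
        exact ⟨⟨b, hb⟩, Subtype.ext hab⟩ }
  refine ⟨K, hf.toField, inferInstance, Fintype.ofFinite _, K.val, ?_, hK.finrank_eq⟩
  intro m
  constructor
  · intro hm
    exact ⟨⟨m, hm⟩, rfl⟩
  · rintro ⟨a, rfl⟩
    exact a.2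

variable {L : Type u} [Field L] [Algebra F L]

theorem rho_inj [Nonempty ι] (ρ : L →ₐ[F] Matrix ι ι F) : Function.Injective ρ := ρ.toRingHom.injective

variable {K : Subalgebra F (Matrix ι ι F)} {ρ : L →ₐ[F] Matrix ι ι F}

/-- Semilinear maps normalize. -/
theorem mem_normalizer_of (hmem : ∀ m, m ∈ K ↔ ∃ a, ρ a = m) (T : GL ι F) (σ : L ≃ₐ[F] L)
    (h : ∀ a, (T : Matrix ι ι F) * ρ a = ρ (σ a) * (T : Matrix ι ι F)) :
    T ∈ Cfsg.Geo.subalgebraNormalizer K := by
  set G : Matrix ι ι F := (T : Matrix ι ι F) with hG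
  set Gi : Matrix ι ι F := ((T⁻¹ : GL ι F) : Matrix ι ι F) with hGi
  have h1 : G * Gi = 1 := by
    rw [hG, hGi, ← Units.val_mul, mul_inv_cancel, Units.val_one]
  have h3 : Gi * G = 1 := by
    rw [hG, hGi, ← Units.val_mul, inv_mul_cancel, Units.val_one]
  intro k
  constructor
  · intro hk
    obtain ⟨a, rfl⟩ := (hmem k).1 hk
    refine (hmem _).2 ⟨σ a, ?_⟩
    show _ = G * ρ a * Gi
    rw [h a, mul_assoc, h1, mul_one]
  · intro hk
    obtain ⟨b, hb⟩ := (hmem _).1 hk
    refine (hmem _).2 ⟨σ.symm b, ?_⟩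
    have h5 := h (σ.symm b)
    rw [AlgEquiv.apply_symm_apply] at h5
    have hb' : ρ b = G * k * Gi := hb
    rw [hb'] at h5
    have h6 : G * ρ (σ.symm b) = G * k := by
      rw [h5, mul_assoc, mul_assoc, h3, mul_one]
    calc ρ (σ.symm b) = (Gi * G) * ρ (σ.symm b) := by rw [h3, one_mul]
      _ = Gi * (G * ρ (σ.symm b)) := by rw [mul_assoc]
      _ = Gi * (G * k) := by rw [h6]
      _ = (Gi * G) * k := by rw [mul_assoc]
      _ = k := by rw [h3, one_mul]

/-- The automorphism induced by an element of the normalizer. -/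
theorem exists_phi [Nonempty ι] [FiniteDimensional F L] (hmem : ∀ m, m ∈ K ↔ ∃ a, ρ a = m) {T : GL ι F} (hT : T ∈ Cfsg.Geo.subalgebraNormalizer K) :
    ∃ φ : L ≃ₐ[F] L, ∀ a, (T : Matrix ι ι F) * ρ a = ρ (φ a) * (T : Matrix ι ι F) := by
  set G : Matrix ι ι F := (T : Matrix ι ι F) with hG
  set Gi : Matrix ι ι F := ((T⁻¹ : GL ι F) : Matrix ι ι F) with hGi
  have h1 : G * Gi = 1 := by
    rw [hG, hGi, ← Units.val_mul, mul_inv_cancel, Units.val_one]
  have h3 : Gi * G = 1 := by
    rw [hG, hGi, ← Units.val_mul, inv_mul_cancel, Units.val_one]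
  have hex : ∀ a : L, ∃ b : L, ρ b = G * ρ a * Gi := fun a => (hmem _).1 ((hT (ρ a)).1 ((hmem _).2 ⟨a, rfl⟩))
  choose f hf using hex
  have hinj := rho_inj ρ
  let φ₀ : L →ₐ[F] L :=
    { toFun := f
      map_one' := by
        apply hinj
        rw [hf, map_one, mul_one, h1]
      map_mul' := by
        intro x y
        apply hinj
        rw [hf, map_mul, map_mul, hf, hf]
        rw [show G * ρ x * Gi * (G * ρ y * Gi) = G * ρ x * (Gi * G) * ρ y * Gi by simp only [mul_assoc], h3, mul_one]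
        simp only [mul_assoc]
      map_zero' := by
        apply hinj
        rw [hf, map_zero, mul_zero, zero_mul]
      map_add' := by
        intro x y
        apply hinj
        rw [hf, map_add, map_add, hf, hf, mul_add, add_mul]
      commutes' := by
        intro c
        apply hinj
        rw [hf, AlgHom.commutes, Algebra.algebraMap_eq_smul_one, mul_smul_comm, smul_mul_assoc, mul_one, h1] }
  refine ⟨AlgEquiv.ofBijective φ₀ φ₀.bijective, fun a => ?_⟩
  show G * ρ a = ρ (f a) * G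
  rw [hf, mul_assoc, h3, mul_one]

theorem phi_pow {T : Matrix ι ι F} {φ : L ≃ₐ[F] L}
    (h : ∀ a, T * ρ a = ρ (φ a) * T) (n : ℕ) (a : L) : T ^ n * ρ a = ρ ((φ ^ n) a) * T ^ n := by
  induction n generalizing a with
  | zero => simp
  | succ n ih =>
    rw [pow_succ, mul_assoc, h, ← mul_assoc, ih, mul_assoc, pow_succ]
    rfl

theorem phi_pow_eq_one [Nonempty ι] {T : Matrix ι ι F} {φ : L ≃ₐ[F] L}
    (h : ∀ a, T * ρ a = ρ (φ a) * T) {n : ℕ} (hn : T ^ n = 1) : φ ^ n = 1 := by
  ext a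
  have h1 := phi_pow h n a
  rw [hn, one_mul, mul_one] at h1
  exact (rho_inj ρ h1).symm

/-- Elements of odd order of the normalizer of a quadratic field centralize it. -/
theorem commute_of_odd [Nonempty ι] [Fintype L] (hL : finrank F L = 2) (hmem : ∀ m, m ∈ K ↔ ∃ a, ρ a = m) {T : GL ι F}
    (hT : T ∈ Cfsg.Geo.subalgebraNormalizer K) {n : ℕ} (hn : Odd n) (hTn : T ^ n = 1) (a : L) :
    (T : Matrix ι ι F) * ρ a = ρ a * (T : Matrix ι ι F) := by
  haveI : FiniteDimensional F L := Module.Finite.of_finite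
  obtain ⟨φ, hφ⟩ := exists_phi hmem hT
  have h1 : φ ^ n = 1 := phi_pow_eq_one hφ (by
    have := congrArg (fun g : GL ι F => (g : Matrix ι ι F)) hTn
    simpa using this)
  have h2 : φ ^ 2 = 1 := by
    have hcard : Nat.card (L ≃ₐ[F] L) ∣ 2 := by
      have h3 : Fintype.card (L ≃ₐ[F] L) ≤ 2 := by
        have := AlgEquiv.card_le (F := F) (K := L)
        rw [hL] at this
        exact this
      rw [Nat.card_eq_fintype_card]
      have hpos : 0 < Fintype.card (L ≃ₐ[F] L) := Fintype.card_pos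
      interval_cases h : Fintype.card (L ≃ₐ[F] L) <;> simp
    exact orderOf_dvd_iff_pow_eq_one.1 ((orderOf_dvd_natCard φ).trans hcard)
  have h3 : φ = 1 := by
    obtain ⟨k, hk⟩ := hn
    rw [hk, pow_succ, pow_mul, h2, one_pow, one_mul] at h1
    exact h1
  rw [hφ, h3]
  rfl

end Model

section Package

variable {ι : Type} [Fintype ι] [DecidableEq ι] {F : Type u} [Field F] [Fintype F]
  {L : Type u} [Field L] [Algebra F L] [Fintype L]

/-- The coordinates. -/
theorem exists_package (h2 : (2 : F) ≠ 0) {Q : QuadraticForm F (ι → F)} (hQ : PolarNondeg Q) {d : ℕ}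
    (hcard : Fintype.card ι = 2 * d) (hL : finrank F L = 2) (ρ : L →ₐ[F] Matrix ι ι F)
    (hS : ∀ (a : L) u v, polar (⇑Q) (ρ a *ᵥ u) v = polar (⇑Q) u (ρ a *ᵥ v)) :
    ∃ (X : (ι → F) ≃ₗ[F] (Fin d → L)) (c : Fin d → L), (∀ j, c j ≠ 0) ∧ (∀ (a : L) v, X (ρ a *ᵥ v) = a • X v) ∧
      ∀ v, Q v = T (F := F) c (X v) := by
  classical
  haveI : FiniteDimensional F L := Module.Finite.of_finite
  let ρE : L →ₐ[F] Module.End F (ι → F) := (Matrix.toLinAlgEquiv' (R := F) (n := ι)).toAlgHom.comp ρ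
  have hρE : ∀ a v, ρE a v = ρ a *ᵥ v := fun a v => rfl
  letI : Module L (ι → F) := Module.compHom (ι → F) ρE.toRingHom
  have hsmul : ∀ (a : L) (v : ι → F), a • v = ρ a *ᵥ v := fun a v => rfl
  haveI : IsScalarTower F L (ι → F) := ⟨fun c a v => by
    rw [hsmul, hsmul, map_smul, Matrix.smul_mulVec]⟩
  haveI : FiniteDimensional L (ι → F) := FiniteDimensional.right F L (ι → F)
  let B : LinearMap.BilinForm F (ι → F) := polarBilin Q
  have hB : ∀ u v, B u v = polar (⇑Q) u v := fun u v => rfl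
  have hS' : ∀ (a : L) (u v : ι → F), B (a • u) v = B u (a • v) := by
    intro a u v
    rw [hsmul, hsmul, hB, hB]
    exact hS a u v
  let g : LinearMap.BilinForm L (ι → F) := gForm B hS'
  have hg : ∀ u v, Algebra.trace F L (g u v) = B u v := trace_gForm B hS'
  have hgs : ∀ u v, g u v = g v u := by
    intro u v
    apply eq_of_trace (F := F)
    intro a
    show Algebra.trace F L (a * gVal (L := L) B u v) = Algebra.trace F L (a * gVal (L := L) B v u)
    rw [gVal_spec, gVal_spec, hS', hB, hB, polar_comm]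
  have h2L : (2 : L) ≠ 0 := by
    intro h
    apply h2
    have : algebraMap F L 2 = 0 := by rw [map_ofNat]; exact h
    exact (map_eq_zero _).1 this
  let QL : QuadraticForm L (ι → F) := (2⁻¹ : L) • LinearMap.BilinMap.toQuadraticMap g
  have hQL : ∀ v, QL v = 2⁻¹ * g v v := fun v => by
    show (2⁻¹ : L) • (LinearMap.BilinMap.toQuadraticMap g v) = _
    rw [LinearMap.BilinMap.toQuadraticMap_apply, smul_eq_mul]
  have htr : ∀ v, Algebra.trace F L (QL v) = Q v := by
    intro v
    have h3 : QL v = algebraMap F L (2⁻¹ : F) * g v v := by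
      rw [hQL, map_inv₀, map_ofNat]
    rw [h3, ← Algebra.smul_def, map_smul, hg, hB, polar_self_eq, smul_eq_mul]
    field_simp
  have hpol : ∀ u v, polar QL u v = g u v := by
    intro u v
    rw [polar, hQL, hQL, hQL]
    simp only [map_add, LinearMap.add_apply]
    rw [hgs v u]
    field_simp
    ring
  have hQLn : PolarNondeg QL := by
    intro u hu
    apply hQ u
    intro v
    rw [← hB, ← hg, ← hpol, hu, map_zero]
  haveI : Invertible (2 : L) := invertibleOfNonzero h2L
  obtain ⟨w, ⟨e⟩⟩ := QuadraticForm.equivalent_weightedSumSquares_units_of_nondegenerate' QL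
    (Cfsg.Agent.Lib.Classical.OSemi.SingInvol.sep_of_polar h2L QL hQLn)
  have hd : d = finrank L (ι → F) := by
    have h3 := Module.finrank_mul_finrank F L (ι → F)
    rw [hL, Module.finrank_fintype_fun_eq_card, hcard] at h3
    omega
  subst hd
  refine ⟨e.toLinearEquiv.restrictScalars F, fun j => (w j : L), fun j => (w j).ne_zero, fun a v => ?_, fun v => ?_⟩
  · show e.toLinearEquiv (ρ a *ᵥ v) = a • e.toLinearEquiv v
    rw [← hsmul, map_smul]
  · rw [T_apply, ← htr]
    congr 1
    have h3 := e.map_app v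
    rw [← h3]
    show weightedSumSquares L w (e v) = _
    rw [weightedSumSquares_apply]
    apply Finset.sum_congr rfl
    intro j _
    rw [Units.smul_def, smul_eq_mul]
    rfl

/-- A change of the coefficients. -/
theorem package_change (h2L : (2 : L) ≠ 0) {Q : QuadraticForm F (ι → F)} {d : ℕ} {ρ : L →ₐ[F] Matrix ι ι F}
    {X : (ι → F) ≃ₗ[F] (Fin d → L)} {c c' : Fin d → L} (hc : ∀ j, c j ≠ 0) (hc' : ∀ j, c' j ≠ 0)
    (hdisc : IsSquare ((∏ j, c j) * ∏ j, c' j))
    (hX : ∀ (a : L) v, X (ρ a *ᵥ v) = a • X v) (hQX : ∀ v, Q v = T (F := F) c (X v)) :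
    ∃ X' : (ι → F) ≃ₗ[F] (Fin d → L), (∀ (a : L) v, X' (ρ a *ᵥ v) = a • X' v) ∧ ∀ v, Q v = T (F := F) c' (X' v) := by
  obtain ⟨φ, hφ⟩ := diag_equiv h2L c c' hc hc' hdisc
  refine ⟨X.trans (φ.restrictScalars F), fun a v => ?_, fun v => ?_⟩
  · show φ (X (ρ a *ᵥ v)) = a • φ (X v)
    rw [hX, map_smul]
  · rw [hQX, T_apply, T_apply]
    congr 1
    exact (hφ (X v)).symm

end Package

end Cfsg.Agent.Lib.Classical.Elusive.OFieldA
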