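import Mathlib
import Cfsg.Agent.Lib.Classical.Elusive.OFieldA
import Cfsg.Agent.Lib.Classical.OSemi.SingJ
import Cfsg.Agent.Lib.Classical.OSemi.Invol
import Cfsg.Agent.Lib.Classical.OSemi.SylowFix
import Cfsg.Agent.Lib.Classical.OSemi.NondegJ

/-!
# Orthogonal groups and quadratic field extensions: elements whose square is scalar
-/

set_option autoImplicit false
set_option linter.unusedSectionVars false
set_option linter.unusedVariables false
set_option linter.unusedSimpArgs false
set_option linter.style.haveILetI false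
set_option maxHeartbeats 1000000

namespace Cfsg.Agent.Lib.Classical.Elusive.OFieldC

open Module QuadraticMap Matrix
open Cfsg.Agent.Lib.Classical.Witt.Hyp Cfsg.Agent.Lib.Classical.OSemi.Lag
open Cfsg.Agent.Lib.Classical.Orth.Basic Cfsg.Agent.Lib.Classical.Elusive.OFieldPure
open Cfsg.Agent.Lib.Classical.Elusive.OFieldA
open Cfsg.Agent.Lib.Classical.Orth.Adjust Cfsg.Agent.Lib.Classical.Orth.Spinor
open Cfsg.Agent.Lib.Classical.OSemi.SingJ Cfsg.Agent.Lib.Classical.OSemi.Invol
open Cfsg.Agent.Lib.Classical.OSemi.SylowFix Cfsg.Agent.Lib.Classical.OSemi.LagFree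
open Cfsg.Agent.Lib.Classical.OSemi.Decomp Cfsg.Agent.Lib.Classical.OSemi.SingInvol
open Cfsg.Agent.Lib.Linalg.Bridge

universe u

section Iso

variable {ι : Type} [Fintype ι] [DecidableEq ι] {F : Type u} [Field F] [Fintype F]
  {L : Type u} [Field L] [Algebra F L] [Fintype L]
  {Q : QuadraticForm F (ι → F)} {d : ℕ} {X : (ι → F) ≃ₗ[F] (Fin d → L)} {c : Fin d → L}

/-- Isometries from the coordinates. -/
noncomputable def isoOf (X : (ι → F) ≃ₗ[F] (Fin d → L)) (c : Fin d → L) (hQX : ∀ v, Q v = T (F := F) c (X v))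
    (Y : (Fin d → L) ≃ₗ[F] (Fin d → L)) (hY : ∀ t, T (F := F) c (Y t) = T (F := F) c t) :
    ↥(Cfsg.isometryGroup F ⇑Q) :=
  isoOfEquiv (X.trans (Y.trans X.symm)) (fun v => by
    show Q (X.symm (Y (X v))) = Q v
    rw [hQX, hQX v, LinearEquiv.apply_symm_apply, hY])

theorem act_isoOf (hQX : ∀ v, Q v = T (F := F) c (X v)) (Y : (Fin d → L) ≃ₗ[F] (Fin d → L))
    (hY : ∀ t, T (F := F) c (Y t) = T (F := F) c t) (v : ι → F) :
    act (isoOf X c hQX Y hY) v = X.symm (Y (X v)) :=
  act_isoOfEquiv _ _ v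

theorem X_act_isoOf (hQX : ∀ v, Q v = T (F := F) c (X v)) (Y : (Fin d → L) ≃ₗ[F] (Fin d → L))
    (hY : ∀ t, T (F := F) c (Y t) = T (F := F) c t) (v : ι → F) :
    X (act (isoOf X c hQX Y hY) v) = Y (X v) := by
  rw [act_isoOf, LinearEquiv.apply_symm_apply]

theorem isoOf_mem [Nonempty ι] {K : Subalgebra F (Matrix ι ι F)} {ρ : L →ₐ[F] Matrix ι ι F}
    (hmem : ∀ m, m ∈ K ↔ ∃ a, ρ a = m) (hX : ∀ (a : L) v, X (ρ a *ᵥ v) = a • X v)
    (hQX : ∀ v, Q v = T (F := F) c (X v)) (Y : (Fin d → L) ≃ₗ[F] (Fin d → L))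
    (hY : ∀ t, T (F := F) c (Y t) = T (F := F) c t) (σ : L ≃ₐ[F] L) (hσ : ∀ (a : L) t, Y (a • t) = σ a • Y t) :
    ((isoOf X c hQX Y hY : ↥(Cfsg.isometryGroup F ⇑Q)) : GL ι F) ∈ Cfsg.Geo.subalgebraNormalizer K := by
  apply mem_normalizer_of hmem _ σ
  intro a
  apply matrix_eq_of_mulVec_eq
  intro v
  rw [← Matrix.mulVec_mulVec, ← Matrix.mulVec_mulVec]
  apply X.injective
  have h1 : ∀ w, ((isoOf X c hQX Y hY : ↥(Cfsg.isometryGroup F ⇑Q)) : GL ι F).1 *ᵥ w = act (isoOf X c hQX Y hY) w := fun w => rfl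
  rw [h1, X_act_isoOf, hX, hX, h1, X_act_isoOf, hσ]

/-- The closing step. -/
theorem finish {K : Subalgebra F (Matrix ι ι F)} (x y g : ↥(Cfsg.isometryGroup F ⇑Q))
    (hy : (y : GL ι F) ∈ Cfsg.Geo.subalgebraNormalizer K) (hg : g ∈ Cfsg.Omega F ⇑Q)
    (h : ∀ z, act g (act x z) = act y (act g z)) :
    ∃ g' ∈ Cfsg.Geo.omegaGL (⇑Q), g'⁻¹ * (x : GL ι F) * g' ∈ Cfsg.Geo.subalgebraNormalizer K := by
  refine ⟨((g⁻¹ : ↥(Cfsg.isometryGroup F ⇑Q)) : GL ι F), ⟨g⁻¹, inv_mem hg, rfl⟩, ?_⟩
  have h1 : g * x * g⁻¹ = y := by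
    apply ext_act
    intro z
    rw [act_mul, act_mul, h, act_act_inv]
  have h3 : ((g⁻¹ : ↥(Cfsg.isometryGroup F ⇑Q)) : GL ι F)⁻¹ * (x : GL ι F) * ((g⁻¹ : ↥(Cfsg.isometryGroup F ⇑Q)) : GL ι F) = (y : GL ι F) := by
    rw [← h1]
    simp
  rw [h3]
  exact hy

variable (Q)

/-- Adjusting with two reflections. -/
theorem adjust_right (hQ : (polarBilin Q).Nondegenerate) (h2 : (2 : F) ≠ 0) (g r₁ r₂ : ↥(Cfsg.isometryGroup F ⇑Q))
    (h1p : plusSign Q r₁ = -1) (h1s : spinorSign Q h2 r₁ = 1) (h2p : plusSign Q r₂ = 1) (h2s : spinorSign Q h2 r₂ = -1) :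
    g ∈ Cfsg.Omega F ⇑Q ∨ g * r₁ ∈ Cfsg.Omega F ⇑Q ∨ g * r₂ ∈ Cfsg.Omega F ⇑Q ∨ g * (r₁ * r₂) ∈ Cfsg.Omega F ⇑Q := by
  simp only [mem_omega_iff Q hQ h2, map_mul, h1p, h1s, h2p, h2s]
  rcases Int.units_eq_one_or (plusSign Q g) with h | h <;> rcases Int.units_eq_one_or (spinorSign Q h2 g) with h' | h' <;>
    simp [h, h']

theorem adjust_left (hQ : (polarBilin Q).Nondegenerate) (h2 : (2 : F) ≠ 0) (g r₁ r₂ : ↥(Cfsg.isometryGroup F ⇑Q))
    (h1p : plusSign Q r₁ = -1) (h1s : spinorSign Q h2 r₁ = 1) (h2p : plusSign Q r₂ = 1) (h2s : spinorSign Q h2 r₂ = -1) :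
    g ∈ Cfsg.Omega F ⇑Q ∨ r₁ * g ∈ Cfsg.Omega F ⇑Q ∨ r₂ * g ∈ Cfsg.Omega F ⇑Q ∨ r₁ * (r₂ * g) ∈ Cfsg.Omega F ⇑Q := by
  simp only [mem_omega_iff Q hQ h2, map_mul, h1p, h1s, h2p, h2s]
  rcases Int.units_eq_one_or (plusSign Q g) with h | h <;> rcases Int.units_eq_one_or (spinorSign Q h2 g) with h' | h' <;>
    simp [h, h']

theorem signs_one (h2 : (2 : F) ≠ 0) {v : ι → F} (hv : Q v = 1) (hv0 : Q v ≠ 0) :
    plusSign Q (reflectionIso Q v hv0) = -1 ∧ spinorSign Q h2 (reflectionIso Q v hv0) = 1 := by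
  have hs : IsSquare (Q v) := by rw [hv]; exact IsSquare.one
  rw [plusSign_reflection Q h2, spinorSign_reflection Q h2, if_pos hs, if_pos hs]
  exact ⟨rfl, rfl⟩

theorem signs_nonsq (h2 : (2 : F) ≠ 0) {v : ι → F} (hs : ¬ IsSquare (Q v)) (hv0 : Q v ≠ 0) :
    plusSign Q (reflectionIso Q v hv0) = 1 ∧ spinorSign Q h2 (reflectionIso Q v hv0) = -1 := by
  rw [plusSign_reflection Q h2, spinorSign_reflection Q h2, if_neg hs, if_neg hs]
  exact ⟨rfl, rfl⟩

end Iso

section Omega

variable {F : Type u} [Field F] [Fintype F] {L : Type u} [Field L] [Algebra F L] [Fintype L]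

/-- A nonzero element of trace zero. -/
theorem exists_omega (hL : finrank F L = 2) : ∃ ω : L, ω ≠ 0 ∧ Algebra.trace F L ω = 0 := by
  have h1 : LinearMap.ker (Algebra.trace F L) ≠ ⊥ := by
    apply LinearMap.ker_ne_bot_of_finrank_lt
    rw [hL, Module.finrank_self]
    omega
  obtain ⟨ω, hω, hω0⟩ := Submodule.exists_mem_ne_zero_of_ne_bot h1
  exact ⟨ω, hω0, hω⟩

theorem two_ne_zero_L (h2 : (2 : F) ≠ 0) : (2 : L) ≠ 0 := by
  intro h
  apply h2
  have : algebraMap F L 2 = 0 := by rw [map_ofNat]; exact h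
  exact (map_eq_zero _).1 this

/-- Choice of a square class. -/
theorem exists_alpha (h2L : (2 : L) ≠ 0) {w : L} (hw : w ≠ 0) (τ : Prop) : ∃ α : L, α ≠ 0 ∧ (IsSquare (w * α) ↔ τ) := by
  have hch : ringChar L ≠ 2 := by
    intro h
    apply h2L
    have := CharP.cast_eq_zero L (ringChar L)
    rw [h] at this
    exact_mod_cast this
  obtain ⟨ν, hν⟩ := FiniteField.exists_nonsquare hch
  have hν0 : ν ≠ 0 := by
    rintro rfl
    exact hν IsSquare.zero
  by_cases h : IsSquare w ↔ τ
  · exact ⟨1, one_ne_zero, by rw [mul_one]; exact h⟩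
  · refine ⟨ν, hν0, ?_⟩
    rw [isSquare_mul_iff h2L hw hν0]
    tauto

end Omega

section Invol

variable {ι : Type} [Fintype ι] [DecidableEq ι] {F : Type u} [Field F] [Fintype F]
  {L : Type u} [Field L] [Algebra F L] [Fintype L]
  {Q : QuadraticForm F (ι → F)} {d : ℕ}

/-- Extension by zero. -/
def ext0 {m : ℕ} (hm : m ≤ d) : (Fin m → L) →ₗ[F] (Fin d → L) where
  toFun t j := if h : (j : ℕ) < m then t ⟨j, h⟩ else 0
  map_add' a b := by
    funext j
    by_cases h : (j : ℕ) < m <;> simp [h]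
  map_smul' c a := by
    funext j
    by_cases h : (j : ℕ) < m <;> simp [h]

theorem T_ext0 {m : ℕ} (hm : m ≤ d) (c : Fin d → L) (t : Fin m → L) :
    T (F := F) c (ext0 (F := F) hm t) = T (F := F) (fun j : Fin m => c (Fin.castLE hm j)) t := by
  rw [T_apply, T_apply]
  congr 1
  symm
  apply Fintype.sum_of_injective (Fin.castLE hm) (Fin.castLE_injective hm)
  · intro j hj
    have h : ¬ (j : ℕ) < m := fun h => hj ⟨⟨j, h⟩, rfl⟩
    simp [ext0, h]
  · intro j
    simp [ext0]

/-- The negation of the first coordinates. -/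
def negFirst (m : ℕ) : (Fin d → L) ≃ₗ[L] (Fin d → L) where
  toFun t j := if (j : ℕ) < m then - t j else t j
  invFun t j := if (j : ℕ) < m then - t j else t j
  map_add' a b := by
    funext j
    by_cases h : (j : ℕ) < m <;> simp [h, add_comm]
  map_smul' c a := by
    funext j
    by_cases h : (j : ℕ) < m <;> simp [h]
  left_inv a := by
    funext j
    by_cases h : (j : ℕ) < m <;> simp [h]
  right_inv a := by
    funext j
    by_cases h : (j : ℕ) < m <;> simp [h]

/-- Elements of `Ω` with square one. -/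
theorem back_invol [Nonempty ι] (h2 : (2 : F) ≠ 0) (hQ : PolarNondeg Q) (hcard : Fintype.card ι = 2 * d) (hd : 2 ≤ d)
    (hL : finrank F L = 2) {K : Subalgebra F (Matrix ι ι F)} {ρ : L →ₐ[F] Matrix ι ι F}
    (hmem : ∀ m, m ∈ K ↔ ∃ a, ρ a = m)
    (hS : ∀ (a : L) u v, polar (⇑Q) (ρ a *ᵥ u) v = polar (⇑Q) u (ρ a *ᵥ v))
    (x : ↥(Cfsg.isometryGroup F ⇑Q)) (hxΩ : x ∈ Cfsg.Omega F ⇑Q) (hx : x ^ 2 = 1)
    (hns : ∀ z : F, ((x : GL ι F) : Matrix ι ι F) ≠ z • (1 : Matrix ι ι F)) :
    ∃ g ∈ Cfsg.Geo.omegaGL (⇑Q), g⁻¹ * (x : GL ι F) * g ∈ Cfsg.Geo.subalgebraNormalizer K := by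
  classical
  haveI : FiniteDimensional F L := Module.Finite.of_finite
  have h2L : (2 : L) ≠ 0 := two_ne_zero_L h2
  have hQn := nondeg_of_polarNondeg Q hQ
  have hV : finrank F (ι → F) = 2 * d := by
    rw [Module.finrank_fintype_fun_eq_card, hcard]
  have hxx : ∀ v, act x (act x v) = v := by
    intro v
    rw [← act_mul, ← pow_two, hx, act_one]
  let A : Submodule F (ι → F) :=
    { carrier := {v | act x v = v}
      add_mem' := fun {a b} ha hb => by
        show act x (a + b) = a + b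
        rw [act_add, ha, hb]
      zero_mem' := act_zero x
      smul_mem' := fun c v hv => by
        show act x (c • v) = c • v
        rw [act_smul, hv] }
  let B : Submodule F (ι → F) :=
    { carrier := {v | act x v = -v}
      add_mem' := fun {a b} ha hb => by
        show act x (a + b) = -(a + b)
        rw [act_add, ha, hb, neg_add]
      zero_mem' := by
        show act x 0 = -0
        rw [act_zero, neg_zero]
      smul_mem' := fun c v hv => by
        show act x (c • v) = -(c • v)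
        rw [act_smul, hv, smul_neg] }
  have hA : ∀ v, v ∈ A ↔ act x v = v := fun _ => Iff.rfl
  have hB : ∀ v, v ∈ B ↔ act x v = -v := fun _ => Iff.rfl
  have hs : A ⊔ B = ⊤ := by
    rw [eq_top_iff]
    intro v _
    have h3 : v = (2 : F)⁻¹ • (v + act x v) + (2 : F)⁻¹ • (v - act x v) := by
      rw [← smul_add]
      have : v + act x v + (v - act x v) = (2 : F) • v := by
        rw [two_smul]
        abel
      rw [this, smul_smul, inv_mul_cancel₀ h2, one_smul]
    rw [h3]
    refine Submodule.add_mem _ (Submodule.mem_sup_left ?_) (Submodule.mem_sup_right ?_)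
    · rw [hA, act_smul, act_add, hxx, add_comm]
    · rw [hB, act_smul, act_sub, hxx, ← smul_neg, neg_sub]
  have horth : ∀ a ∈ A, ∀ b ∈ B, polar Q a b = 0 := by
    intro a ha b hb
    have h3 := polar_act x a b
    rw [(hA a).1 ha, (hB b).1 hb, polar_neg_right] at h3
    have h5 : (2 : F) * polar Q a b = 0 := by
      have h6 : polar Q a b = - polar Q a b := by
        simpa using h3.symm
      linear_combination h6
    exact (mul_eq_zero.1 h5).resolve_left h2
  have hinf : A ⊓ B = ⊥ := by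
    rw [eq_bot_iff]
    intro v hv
    have h3 : v = -v := by
      have h4 := (hA v).1 hv.1
      have h5 := (hB v).1 hv.2
      rw [h4] at h5
      exact h5
    have h5 : (2 : F) • v = 0 := by
      rw [two_smul]
      nth_rewrite 1 [h3]
      simp
    rw [(smul_eq_zero.1 h5).resolve_left h2]
    exact Submodule.zero_mem _
  have hdim : finrank F A + finrank F B = 2 * d := by
    have h3 := Submodule.finrank_sup_add_finrank_inf_eq A B
    rw [hs, hinf, finrank_top, finrank_bot, add_zero, hV] at h3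
    exact h3.symm
  have hBn : PolarNondeg (Q.comp B.subtype) := nondeg_of_orth_sup hQ (by rw [sup_comm]; exact hs)
    (fun b hb a ha => by rw [polar_comm]; exact horth a ha b hb)
  obtain ⟨hBe, -⟩ := minus_facts Q h2 hQ x hxΩ hA hB hs horth
  obtain ⟨m, hm⟩ : ∃ m, finrank F B = 2 * m := by
    obtain ⟨m, hm⟩ := hBe
    exact ⟨m, by omega⟩
  have hm1 : 1 ≤ m := by
    by_contra h0
    have h3 : finrank F B = 0 := by omega
    have h4 : B = ⊥ := Submodule.finrank_eq_zero.1 h3
    rw [h4, sup_bot_eq] at hs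
    apply hns 1
    apply matrix_eq_of_mulVec_eq
    intro v
    have h5 : v ∈ A := by
      rw [hs]
      exact Submodule.mem_top
    rw [one_smul, Matrix.one_mulVec]
    exact h5
  have hmd : m < d := by
    by_contra h0
    have h3 : finrank F A = 0 := by omega
    have h4 : A = ⊥ := Submodule.finrank_eq_zero.1 h3
    rw [h4, bot_sup_eq] at hs
    apply hns (-1)
    apply matrix_eq_of_mulVec_eq
    intro v
    have h5 : v ∈ B := by
      rw [hs]
      exact Submodule.mem_top
    rw [neg_smul, one_smul, Matrix.neg_mulVec, Matrix.one_mulVec]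
    exact h5
  -- the coordinates
  obtain ⟨X₀, c₀, hc₀, hX₀, hQ₀⟩ := exists_package h2 hQ hcard hL ρ hS
  obtain ⟨ω, hω0, hωt⟩ := exists_omega (F := F) (L := L) hL
  obtain ⟨α, hα0, hα⟩ := exists_alpha h2L (pow_ne_zero m hω0) (Lag (Q.comp B.subtype))
  let j₀ : Fin d := ⟨0, by omega⟩
  let jl : Fin d := ⟨d - 1, by omega⟩
  have hj : j₀ ≠ jl := by
    intro h
    have := congrArg Fin.val h
    simp [j₀, jl] at this
    omega
  set D := ∏ j, c₀ j with hD
  have hD0 : D ≠ 0 := Finset.prod_ne_zero_iff.2 fun j _ => hc₀ j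
  let c' : Fin d → L := fun j => if j = j₀ then α else if j = jl then α * D else 1
  have hc'0 : ∀ j, c' j ≠ 0 := by
    intro j
    simp only [c']
    split_ifs
    · exact hα0
    · exact mul_ne_zero hα0 hD0
    · exact one_ne_zero
  have hprod : ∏ j, c' j = α * (α * D) := by
    rw [Finset.prod_eq_mul j₀ jl hj]
    · have e1 : c' j₀ = α := if_pos rfl
      have e2 : c' jl = α * D := by
        show (if jl = j₀ then _ else if jl = jl then _ else _) = _
        rw [if_neg hj.symm, if_pos rfl]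
      rw [e1, e2]
    · intro j _ hj'
      simp only [c']
      rw [if_neg hj'.1, if_neg hj'.2]
    · intro h
      exact absurd (Finset.mem_univ _) h
    · intro h
      exact absurd (Finset.mem_univ _) h
  obtain ⟨X, hX, hQX⟩ := package_change h2L hc₀ hc'0 ⟨α * D, by rw [hprod, ← hD]; ring⟩ hX₀ hQ₀
  have hmle : m ≤ d := hmd.le
  let c'' : Fin m → L := fun j => c' (Fin.castLE hmle j)
  have hc''0 : ∀ j, c'' j ≠ 0 := fun j => hc'0 _
  have hprod'' : ∏ j, c'' j = α := by
    rw [Finset.prod_eq_single (⟨0, by omega⟩ : Fin m)]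
    · simp only [c'']
      have : Fin.castLE hmle (⟨0, by omega⟩ : Fin m) = j₀ := rfl
      rw [this]
      simp [c']
    · intro j _ hj'
      simp only [c'']
      have h3 : Fin.castLE hmle j ≠ j₀ := by
        intro h
        apply hj'
        apply Fin.ext
        have := congrArg Fin.val h
        simpa [j₀] using this
      have h4 : Fin.castLE hmle j ≠ jl := by
        intro h
        have := congrArg Fin.val h
        simp [jl] at this
        have := j.2
        omega
      simp [c', h3, h4]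
    · intro h
      exact absurd (Finset.mem_univ _) h
  have hLag : Lag (T (F := F) c'') ↔ Lag (Q.comp B.subtype) := by
    rw [lag_T h2 hL hω0 hωt c'' hc''0, hprod'', hα]
  have hdim'' : finrank F (Fin m → L) = 2 * m := by
    have h3 : finrank F (Fin m → L) = m * finrank F L := by
      rw [Module.finrank_pi_fintype]
      simp
    rw [h3, hL]
    ring
  obtain ⟨φ, hφ⟩ := exists_equiv_of_type hBn (polarNondeg_T h2L hc''0) hm1 hm hdim'' hLag.symm
  let ψ : B →ₗ[F] (ι → F) := (X.symm : (Fin d → L) →ₗ[F] (ι → F)) ∘ₗ ext0 (F := F) hmle ∘ₗ (φ : B →ₗ[F] (Fin m → L))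
  have hψX : ∀ b, X (ψ b) = ext0 (F := F) hmle (φ b) := fun b => by
    show X (X.symm _) = _
    rw [LinearEquiv.apply_symm_apply]
    rfl
  have hψ : ∀ b : B, Q (ψ b) = Q (b : ι → F) := by
    intro b
    rw [hQX, hψX, T_ext0]
    exact hφ b
  have hψinj : Function.Injective ψ := by
    rw [injective_iff_map_eq_zero]
    intro b hb
    have h3 := hψX b
    rw [hb, map_zero] at h3
    have h4 : φ b = 0 := by
      funext j
      have h5 := congrFun h3.symm (Fin.castLE hmle j)
      simpa [ext0] using h5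
    exact φ.map_eq_zero_iff.1 h4
  obtain ⟨g, -, hg⟩ := exists_iso_of_witt hQn B (LinearMap.range ψ) (LinearEquiv.ofInjective ψ hψinj) (fun b => hψ b)
  have hgb : ∀ b : B, act g (b : ι → F) = ψ b := fun b => by
    rw [hg]
    rfl
  -- the element `y`
  let Y : (Fin d → L) ≃ₗ[F] (Fin d → L) := (negFirst (L := L) (d := d) m).restrictScalars F
  have hYa : ∀ t j, Y t j = if (j : ℕ) < m then - t j else t j := fun _ _ => rfl
  have hY : ∀ t, T (F := F) c' (Y t) = T (F := F) c' t := by
    intro t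
    rw [T_apply, T_apply]
    congr 1
    apply Finset.sum_congr rfl
    intro j _
    rw [hYa]
    split_ifs <;> ring
  let y := isoOf X c' hQX Y hY
  have hyN : (y : GL ι F) ∈ Cfsg.Geo.subalgebraNormalizer K :=
    isoOf_mem hmem hX hQX Y hY AlgEquiv.refl (fun a t => map_smul (negFirst (L := L) (d := d) m) a t)
  have hconj : ∀ z, act g (act x z) = act y (act g z) := by
    intro z
    have hz : z ∈ A ⊔ B := by
      rw [hs]
      exact Submodule.mem_top
    obtain ⟨a, ha, b, hb, rfl⟩ := Submodule.mem_sup.1 hz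
    rw [act_add, act_add, act_add, act_add, (hA a).1 ha, (hB b).1 hb, act_neg]
    congr 1
    · -- the fixed part
      apply X.injective
      rw [X_act_isoOf]
      funext j
      rw [hYa]
      split_ifs with hj'
      · -- orthogonality
        have h3 : X (act g a) j = 0 := by
          have hn := traceForm_nondegenerate F L
          have h1 : 2 * c' j * X (act g a) j = 0 := by
            apply hn.1
            intro s
            obtain ⟨b', hb'⟩ : ∃ b' : B, φ b' = Pi.single ⟨j, hj'⟩ s := ⟨φ.symm _, φ.apply_symm_apply _⟩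
            have h5 := polar_act g a (b' : ι → F)
            rw [horth a ha b' b'.2, hgb] at h5
            have h6 : polar (⇑Q) (act g a) (ψ b') = polar (T (F := F) c') (X (act g a)) (X (ψ b')) := by
              simp only [polar, hQX, map_add]
            have h7 := h6
            rw [h5, hψX, hb', polar_T, Finset.sum_eq_single j] at h7
            · rw [Algebra.traceForm_apply]
              have h8 : (ext0 (F := F) hmle (Pi.single ⟨j, hj'⟩ s : Fin m → L)) j = s := by
                simp [ext0, hj']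
              rw [h8] at h7
              rw [show 2 * c' j * X (act g a) j * s = 2 * c' j * (X (act g a) j * s) by ring]
              exact h7.symm
            · intro k _ hk
              have h8 : (ext0 (F := F) hmle (Pi.single ⟨j, hj'⟩ s : Fin m → L)) k = 0 := by
                have h9 : ¬ (k : ℕ) = j := fun h => hk (Fin.ext h)
                by_cases h10 : (k : ℕ) < m
                · simp only [ext0, LinearMap.coe_mk, AddHom.coe_mk, dif_pos h10]
                  rw [Pi.single_apply, if_neg]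
                  intro h11
                  have h12 : (k : ℕ) = (j : ℕ) := by
                    simpa using h11
                  exact h9 h12
                · simp [ext0, h10]
              rw [h8]
              ring
            · intro h0
              exact absurd (Finset.mem_univ _) h0
          exact (mul_eq_zero.1 h1).resolve_left (mul_ne_zero h2L (hc'0 j))
        rw [h3, neg_zero]
      · rfl
    · -- the moved part
      have hb2 : act g (-b) = - act g b := act_neg g b
      have h4 := hgb ⟨b, hb⟩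
      simp only at h4
      rw [h4]
      apply X.injective
      rw [X_act_isoOf, hψX, map_neg, hψX]
      funext j
      rw [hYa]
      split_ifs with hj'
      · rfl
      · simp [ext0, hj']
  -- the signs
  have hB2 : 2 ≤ finrank F B := by omega
  obtain ⟨v₁, hv₁⟩ := exists_represent h2 (Q.comp B.subtype) hBn hB2 1
  obtain ⟨v₂, hv₂⟩ := exists_represent h2 (Q.comp B.subtype) hBn hB2 (nonsq h2)
  have hv₁' : Q (v₁ : ι → F) = 1 := hv₁
  have hv₂' : Q (v₂ : ι → F) = nonsq h2 := hv₂
  have hv₁0 : Q (v₁ : ι → F) ≠ 0 := by rw [hv₁']; exact one_ne_zero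
  have hv₂0 : Q (v₂ : ι → F) ≠ 0 := by rw [hv₂']; exact nonsq_ne_zero h2
  have hcomm : ∀ (v : B) (hv : Q (v : ι → F) ≠ 0) z, act (reflectionIso Q (v : ι → F) hv) (act x z) =
      act x (act (reflectionIso Q (v : ι → F) hv) z) := by
    intro v hv z
    have hxv : act x (v : ι → F) = - v := v.2
    have h3 : polar (⇑Q) (v : ι → F) (act x z) = - polar (⇑Q) (v : ι → F) z := by
      have h4 := polar_act x (v : ι → F) (act x z)
      rw [hxx, hxv, polar_neg_left] at h4
      rw [← h4]
    rw [reflectionIso_act, reflectionIso_act, act_sub, act_smul, hxv, h3]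
    simp
  have hs1 := signs_one Q h2 hv₁' hv₁0
  have hs2 := signs_nonsq Q h2 (v := (v₂ : ι → F)) (by rw [hv₂']; exact nonsq_spec h2) hv₂0
  set r₁ := reflectionIso Q (v₁ : ι → F) hv₁0 with hr₁
  set r₂ := reflectionIso Q (v₂ : ι → F) hv₂0 with hr₂
  have hc₁ : ∀ z, act r₁ (act x z) = act x (act r₁ z) := hcomm v₁ hv₁0
  have hc₂ : ∀ z, act r₂ (act x z) = act x (act r₂ z) := hcomm v₂ hv₂0
  rcases adjust_right Q hQn h2 g r₁ r₂ hs1.1 hs1.2 hs2.1 hs2.2 with h | h | h | h
  · exact finish x y g hyN h hconj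
  · refine finish x y (g * r₁) hyN h (fun z => ?_)
    rw [act_mul, act_mul, hc₁, hconj]
  · refine finish x y (g * r₂) hyN h (fun z => ?_)
    rw [act_mul, act_mul, hc₂, hconj]
  · refine finish x y (g * (r₁ * r₂)) hyN h (fun z => ?_)
    rw [act_mul, act_mul, act_mul, act_mul, hc₂, hc₁, hconj]

end Invol

end Cfsg.Agent.Lib.Classical.Elusive.OFieldC
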