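import Mathlib
import Cfsg.Agent.Lib.Classical.Elusive.OFieldC

/-!
# Orthogonal groups and quadratic field extensions: isometries with square `-1`
-/

set_option autoImplicit false
set_option linter.unusedSectionVars false
set_option linter.unusedVariables false
set_option linter.unusedSimpArgs false
set_option linter.style.haveILetI false
set_option maxHeartbeats 1000000

namespace Cfsg.Agent.Lib.Classical.Elusive.OFieldJ

open Module QuadraticMap Matrix
open Cfsg.Agent.Lib.Classical.Witt.Hyp Cfsg.Agent.Lib.Classical.OSemi.Lag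
open Cfsg.Agent.Lib.Classical.Orth.Basic Cfsg.Agent.Lib.Classical.Elusive.OFieldPure
open Cfsg.Agent.Lib.Classical.Elusive.OFieldA Cfsg.Agent.Lib.Classical.Elusive.OFieldC
open Cfsg.Agent.Lib.Classical.Orth.Adjust Cfsg.Agent.Lib.Classical.Orth.Spinor
open Cfsg.Agent.Lib.Classical.OSemi.SingJ Cfsg.Agent.Lib.Classical.OSemi.Invol
open Cfsg.Agent.Lib.Classical.OSemi.SylowFix Cfsg.Agent.Lib.Classical.OSemi.LagFree

universe u

section Flip

variable {F : Type u} [Field F] [Fintype F] {M : Type*} [AddCommGroup M] [Module F M] [FiniteDimensional F M]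

/-- A reflection of a plane conjugates an isometry with square `-1` to its negative. -/
theorem flip_abs (h2 : (2 : F) ≠ 0) (hdim : finrank F M = 2) (Q₁ : QuadraticForm F M) (Y : M →ₗ[F] M)
    (hY : ∀ a, Q₁ (Y a) = Q₁ a) (hYY : ∀ a, Y (Y a) = -a) (u : M) (hu : Q₁ u ≠ 0) (τ : M) :
    let R : M → M := fun w => w - ((Q₁ u)⁻¹ * polar Q₁ u w) • u
    R (Y (R τ)) = - Y τ := by
  intro R
  have hpol : ∀ a b, polar Q₁ (Y a) (Y b) = polar Q₁ a b := by
    intro a b
    simp only [polar, ← map_add, hY]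
  have hself : polar Q₁ u u = 2 * Q₁ u := Cfsg.Agent.Lib.Classical.Witt.Hyp.polar_self Q₁ u
  have horth : polar Q₁ u (Y u) = 0 := by
    have h3 := hpol u (Y u)
    rw [hYY, polar_neg_right, polar_comm] at h3
    have h5 : (2 : F) * polar Q₁ u (Y u) = 0 := by linear_combination -h3
    exact (mul_eq_zero.1 h5).resolve_left h2
  have hu0 : u ≠ 0 := by
    rintro rfl
    simp at hu
  have hYu0 : Y u ≠ 0 := by
    intro h
    have h3 := hYY u
    rw [h, map_zero] at h3
    exact hu0 (neg_eq_zero.1 h3.symm)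
  have hli : LinearIndependent F ![u, Y u] := by
    rw [LinearIndependent.pair_iff]
    intro s t hst
    have h3 := congrArg (polar Q₁ u) hst
    simp only [polar_add_right, polar_smul_right, horth, hself, polar_zero_right, smul_eq_mul, mul_zero, add_zero] at h3
    have hs : s = 0 := by
      rcases mul_eq_zero.1 h3 with h | h
      · exact h
      · exact absurd h (mul_ne_zero h2 hu)
    subst hs
    rw [zero_smul, zero_add] at hst
    exact ⟨rfl, (smul_eq_zero.1 hst).resolve_right hYu0⟩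
  have hspan := hli.span_eq_top_of_card_eq_finrank' (by simp [hdim])
  have hτ : τ ∈ Submodule.span F (Set.range ![u, Y u]) := by
    rw [hspan]
    exact Submodule.mem_top
  have hr : Set.range ![u, Y u] = {u, Y u} := by
    ext w
    simp only [Set.mem_range, Set.mem_insert_iff, Set.mem_singleton_iff, Fin.exists_fin_two, Matrix.cons_val_zero,
      Matrix.cons_val_one]
    constructor
    · rintro (h | h)
      · exact Or.inl h.symm
      · exact Or.inr h.symm
    · rintro (h | h)
      · exact Or.inl h.symm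
      · exact Or.inr h.symm
  rw [hr, Submodule.mem_span_pair] at hτ
  obtain ⟨a, b, rfl⟩ := hτ
  have hRl : ∀ (s t : F), R (s • u + t • Y u) = (-s) • u + t • Y u := by
    intro s t
    simp only [R, polar_add_right, polar_smul_right, horth, hself, smul_eq_mul, mul_zero, add_zero]
    have h3 : (Q₁ u)⁻¹ * (s * (2 * Q₁ u)) = 2 * s := by
      field_simp
    rw [h3]
    module
  have hYl : ∀ (s t : F), Y (s • u + t • Y u) = (-t) • u + s • Y u := by
    intro s t
    rw [map_add, map_smul, map_smul, hYY, smul_neg, neg_smul, add_comm]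
  show R (Y (R (a • u + b • Y u))) = _
  rw [hRl a b, hYl, hRl, hYl]
  module

end Flip

section Semi

variable {F : Type u} [Field F] [Fintype F] {L : Type u} [Field L] [Algebra F L] [Fintype L] {d : ℕ}

/-- The data of the semilinear maps. -/
structure NB (σ : L ≃ₐ[F] L) (ν b : L) : Prop where
  hσσ : ∀ a, σ (σ a) = a
  hνb : ν * (b * b) = σ ν
  hN : σ b * b = -1

/-- The semilinear map. -/
noncomputable def Yl (σ : L ≃ₐ[F] L) (b : L) (s : Fin d → F) : (Fin d → L) →ₗ[F] (Fin d → L) where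
  toFun t j := σ (t j) * (algebraMap F L (s j) * b)
  map_add' a c := by
    funext j
    simp [add_mul]
  map_smul' r a := by
    funext j
    simp only [Pi.smul_apply, RingHom.id_apply, map_smul, smul_mul_assoc]

theorem Yl_apply (σ : L ≃ₐ[F] L) (b : L) (s : Fin d → F) (t : Fin d → L) (j : Fin d) :
    Yl σ b s t j = σ (t j) * (algebraMap F L (s j) * b) := rfl

variable {σ : L ≃ₐ[F] L} {ν b : L} {s : Fin d → F}

theorem Yl_Yl (H : NB σ ν b) (hs : ∀ j, s j * s j = 1) (t : Fin d → L) : Yl σ b s (Yl σ b s t) = - t := by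
  funext j
  rw [Yl_apply, Yl_apply, map_mul, map_mul, H.hσσ, AlgEquiv.commutes, Pi.neg_apply]
  have h1 : algebraMap F L (s j) * algebraMap F L (s j) = 1 := by
    rw [← map_mul, hs, map_one]
  linear_combination (t j * (σ b * b)) * h1 + t j * H.hN

/-- As an equivalence. -/
noncomputable def Ye (H : NB σ ν b) (hs : ∀ j, s j * s j = 1) : (Fin d → L) ≃ₗ[F] (Fin d → L) :=
  LinearEquiv.ofLinear (Yl σ b s) (- Yl σ b s)
    (LinearMap.ext fun t => by
      show Yl σ b s ((- Yl σ b s) t) = t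
      rw [LinearMap.neg_apply, map_neg, Yl_Yl H hs, neg_neg])
    (LinearMap.ext fun t => by
      show (- Yl σ b s) (Yl σ b s t) = t
      rw [LinearMap.neg_apply, Yl_Yl H hs, neg_neg])

theorem Ye_apply (H : NB σ ν b) (hs : ∀ j, s j * s j = 1) (t : Fin d → L) : Ye H hs t = Yl σ b s t := rfl

theorem T_Ye (H : NB σ ν b) (hs : ∀ j, s j * s j = 1) (t : Fin d → L) :
    T (F := F) (fun _ : Fin d => ν) (Ye H hs t) = T (F := F) (fun _ : Fin d => ν) t := by
  rw [T_apply, T_apply, ← Algebra.trace_eq_of_algEquiv σ (∑ j, ν * (t j * t j)), map_sum σ]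
  congr 1
  apply Finset.sum_congr rfl
  intro j _
  rw [Ye_apply, Yl_apply, map_mul σ, map_mul σ, ← H.hνb]
  have h1 : algebraMap F L (s j) * algebraMap F L (s j) = 1 := by
    rw [← map_mul, hs, map_one]
  linear_combination (ν * (b * b) * (σ (t j) * σ (t j))) * h1

theorem Ye_smul (H : NB σ ν b) (hs : ∀ j, s j * s j = 1) (a : L) (t : Fin d → L) : Ye H hs (a • t) = σ a • Ye H hs t := by
  funext j
  rw [Ye_apply, Pi.smul_apply, Ye_apply, Yl_apply, Yl_apply, Pi.smul_apply, smul_eq_mul, smul_eq_mul, map_mul]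
  ring

/-- The map on a line. -/
noncomputable def Y0 (σ : L ≃ₐ[F] L) (b' : L) : L →ₗ[F] L where
  toFun t := σ t * b'
  map_add' a c := by simp [add_mul]
  map_smul' r a := by simp [smul_mul_assoc]

/-- The flip in coordinates. -/
theorem flip_line (h2 : (2 : F) ≠ 0) (hL : finrank F L = 2) (H : NB σ ν b) {e : F} (he : e * e = 1) {u : L}
    (hu : lineT (F := F) ν u ≠ 0) (τ : L) :
    let R : L → L := fun w => w - ((lineT (F := F) ν u)⁻¹ * polar (lineT (F := F) ν) u w) • u
    R (σ (R τ) * (algebraMap F L e * b)) = σ τ * (algebraMap F L (-e) * b) := by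
  haveI : FiniteDimensional F L := Module.Finite.of_finite
  have h1 : algebraMap F L e * algebraMap F L e = 1 := by
    rw [← map_mul, he, map_one]
  have hY : ∀ a, lineT (F := F) ν (Y0 σ (algebraMap F L e * b) a) = lineT (F := F) ν a := by
    intro a
    show lineT (F := F) ν (σ a * (algebraMap F L e * b)) = _
    rw [lineT_apply, lineT_apply, ← Algebra.trace_eq_of_algEquiv σ (ν * (a * a)), map_mul σ, map_mul σ, ← H.hνb]
    congr 1
    linear_combination (ν * (b * b) * (σ a * σ a)) * h1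
  have hYY : ∀ a, Y0 σ (algebraMap F L e * b) (Y0 σ (algebraMap F L e * b) a) = - a := by
    intro a
    show σ (σ a * (algebraMap F L e * b)) * (algebraMap F L e * b) = - a
    rw [map_mul, map_mul, H.hσσ, AlgEquiv.commutes]
    linear_combination (a * (σ b * b)) * h1 + a * H.hN
  have := flip_abs h2 hL (lineT (F := F) ν) (Y0 σ (algebraMap F L e * b)) hY hYY u hu τ
  simp only at this ⊢
  have h3 : ∀ w, Y0 σ (algebraMap F L e * b) w = σ w * (algebraMap F L e * b) := fun _ => rfl
  rw [h3, h3] at this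
  rw [this, map_neg]
  ring

end Semi

section Main

variable {ι : Type} [Fintype ι] [DecidableEq ι] {F : Type u} [Field F] [Fintype F]
  {L : Type u} [Field L] [Algebra F L] [Fintype L]
  {Q : QuadraticForm F (ι → F)} {d : ℕ}

/-- Existence of the data. -/
theorem exists_NB (hq2 : (2 : F) ≠ 0) (hL : finrank F L = 2) {ν : L} (hν : ¬ IsSquare ν) :
    ∃ (σ : L ≃ₐ[F] L) (b : L), NB σ ν b := by
  classical
  haveI : FiniteDimensional F L := Module.Finite.of_finite
  have h2L : (2 : L) ≠ 0 := two_ne_zero_L hq2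
  have hν0 : ν ≠ 0 := by
    rintro rfl
    exact hν IsSquare.zero
  set q := Fintype.card F with hq
  have hcardL : Fintype.card L = q ^ 2 := by
    rw [hq, ← hL]
    exact Module.card_eq_pow_finrank
  have hch : ringChar F ≠ 2 := by
    intro h
    apply hq2
    have := CharP.cast_eq_zero F (ringChar F)
    rw [h] at this
    exact_mod_cast this
  have hchL : ringChar L ≠ 2 := by
    intro h
    apply h2L
    have := CharP.cast_eq_zero L (ringChar L)
    rw [h] at this
    exact_mod_cast this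
  have hqodd : Odd q := Nat.odd_iff.2 (FiniteField.odd_card_of_char_ne_two hch)
  obtain ⟨k, hk⟩ := hqodd
  let σ : L ≃ₐ[F] L := FiniteField.frobeniusAlgEquivOfAlgebraic F L
  have hσ : ∀ a, σ a = a ^ q := fun a => rfl
  refine ⟨σ, ν ^ k, ?_, ?_, ?_⟩
  · intro a
    rw [hσ, hσ, ← pow_mul, ← pow_two, ← hcardL, FiniteField.pow_card]
  · rw [hσ, ← pow_add, ← pow_succ', hk]
    congr 1
    ring
  · rw [hσ, ← pow_mul, ← pow_add]
    have h3 : (Fintype.card L) / 2 = k * q + k := by
      rw [hcardL, hk]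
      have : (2 * k + 1) ^ 2 = 2 * (k * (2 * k + 1) + k) + 1 := by ring
      rw [this]
      omega
    rw [← h3]
    rcases FiniteField.pow_dichotomy hchL hν0 with h | h
    · exact absurd ((FiniteField.isSquare_iff hchL hν0).2 h) hν
    · exact h

/-- The case of square `-1`. -/
theorem back_J [Nonempty ι] (h2 : (2 : F) ≠ 0) (hQ : PolarNondeg Q) (hcard : Fintype.card ι = 2 * d) (hd : 1 ≤ d)
    (hL : finrank F L = 2) {K : Subalgebra F (Matrix ι ι F)} {ρ : L →ₐ[F] Matrix ι ι F}
    (hmem : ∀ m, m ∈ K ↔ ∃ a, ρ a = m)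
    (hS : ∀ (a : L) u v, polar (⇑Q) (ρ a *ᵥ u) v = polar (⇑Q) u (ρ a *ᵥ v))
    (x : ↥(Cfsg.isometryGroup F ⇑Q)) (hxx : ∀ v, act x (act x v) = -v) :
    ∃ g ∈ Cfsg.Geo.omegaGL (⇑Q), g⁻¹ * (x : GL ι F) * g ∈ Cfsg.Geo.subalgebraNormalizer K := by
  classical
  haveI : FiniteDimensional F L := Module.Finite.of_finite
  have h2L : (2 : L) ≠ 0 := two_ne_zero_L h2
  have hQn := nondeg_of_polarNondeg Q hQ
  have hchL : ringChar L ≠ 2 := by
    intro h
    apply h2L
    have := CharP.cast_eq_zero L (ringChar L)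
    rw [h] at this
    exact_mod_cast this
  obtain ⟨ν, hν⟩ := FiniteField.exists_nonsquare hchL
  have hν0 : ν ≠ 0 := by
    rintro rfl
    exact hν IsSquare.zero
  obtain ⟨σ, b, H⟩ := exists_NB (F := F) h2 hL hν
  obtain ⟨X₀, c₀, hc₀, hX₀, hQ₀⟩ := exists_package h2 hQ hcard hL ρ hS
  obtain ⟨ω, hω0, hωt⟩ := exists_omega (F := F) (L := L) hL
  have hc : ∀ j : Fin d, (fun _ : Fin d => ν) j ≠ 0 := fun _ => hν0
  let s₀ : Fin d → F := fun _ => 1
  have hs₀ : ∀ j, s₀ j * s₀ j = 1 := fun _ => mul_one 1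
  -- the model
  let Q' : QuadraticForm F (ι → F) := (T (F := F) (fun _ : Fin d => ν)).comp (X₀ : (ι → F) →ₗ[F] (Fin d → L))
  have hQ'a : ∀ v, Q' v = T (F := F) (fun _ : Fin d => ν) (X₀ v) := fun _ => rfl
  have hQ'n : PolarNondeg Q' := by
    intro a ha
    apply X₀.injective
    rw [map_zero]
    apply polarNondeg_T (F := F) h2L hc
    intro y
    have h3 := ha (X₀.symm y)
    simpa only [polar, hQ'a, map_add, LinearEquiv.apply_symm_apply] using h3
  let y' : ↥(Cfsg.isometryGroup F ⇑Q') := isoOf X₀ _ hQ'a (Ye H hs₀) (T_Ye H hs₀)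
  have hy'y' : ∀ v, act y' (act y' v) = -v := by
    intro v
    apply X₀.injective
    rw [X_act_isoOf, X_act_isoOf, map_neg]
    exact Yl_Yl H hs₀ _
  have hLagQ' : Lag Q' ↔ Lag (T (F := F) (fun _ : Fin d => ν)) := lag_congr_iff X₀ (fun v => rfl)
  have hLagQ : Lag Q ↔ Lag (T (F := F) c₀) := lag_congr_iff X₀ (fun v => (hQ₀ v).symm)
  have hLL : Lag Q ↔ Lag Q' := by
    by_cases hm1 : IsSquare (-1 : F)
    · obtain ⟨s, hs⟩ := hm1
      exact ⟨fun _ => (J_split h2 hQ'n hcard y' hy'y' hs.symm).1, fun _ => (J_split h2 hQ hcard x hxx hs.symm).1⟩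
    · rw [(J_facts h2 hQ hcard x hxx).1 hm1, (J_facts h2 hQ'n hcard y' hy'y').1 hm1]
  have hdisc : IsSquare ((∏ j, c₀ j) * ∏ _j : Fin d, ν) := by
    have h3 := hLagQ.symm.trans (hLL.trans hLagQ')
    rw [lag_T h2 hL hω0 hωt c₀ hc₀, lag_T h2 hL hω0 hωt _ hc] at h3
    have hD0 : (∏ j, c₀ j) ≠ 0 := Finset.prod_ne_zero_iff.2 fun j _ => hc₀ j
    have hν'0 : (∏ _j : Fin d, ν) ≠ 0 := Finset.prod_ne_zero_iff.2 fun j _ => hν0
    have hw0 : ω ^ d ≠ 0 := pow_ne_zero d hω0
    obtain ⟨r', hr'⟩ := (isSquare_mul_iff h2L (mul_ne_zero hw0 hD0) (mul_ne_zero hw0 hν'0)).2 h3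
    refine ⟨r' / ω ^ d, ?_⟩
    field_simp
    linear_combination hr'
  obtain ⟨X, hX, hQX⟩ := package_change h2L hc₀ hc hdisc hX₀ hQ₀
  -- the elements
  let y (s : Fin d → F) (hs : ∀ j, s j * s j = 1) : ↥(Cfsg.isometryGroup F ⇑Q) := isoOf X _ hQX (Ye H hs) (T_Ye H hs)
  have hyN : ∀ s hs, ((y s hs : ↥(Cfsg.isometryGroup F ⇑Q)) : GL ι F) ∈ Cfsg.Geo.subalgebraNormalizer K :=
    fun s hs => isoOf_mem hmem hX hQX (Ye H hs) (T_Ye H hs) σ (Ye_smul H hs)
  have hyy : ∀ s hs v, act (y s hs) (act (y s hs) v) = -v := by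
    intro s hs v
    apply X.injective
    rw [X_act_isoOf, X_act_isoOf, map_neg]
    exact Yl_Yl H hs _
  obtain ⟨h₀, hh₀⟩ := conj_of_sq_neg_one h2 hQ hd hcard x (y s₀ hs₀) hxx (hyy s₀ hs₀)
  -- the reflections
  let j₀ : Fin d := ⟨0, by omega⟩
  have hrefl : ∀ (u : L) (hu : lineT (F := F) ν u ≠ 0), ∃ (v : ι → F) (hv : Q v ≠ 0), Q v = lineT (F := F) ν u ∧
      ∀ (g : ↥(Cfsg.isometryGroup F ⇑Q)), (∃ s hs, ∀ z, act g (act x z) = act (y s hs) (act g z)) →
        ∃ s hs, ∀ z, act (reflectionIso Q v hv * g) (act x z) = act (y s hs) (act (reflectionIso Q v hv * g) z) := by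
    intro u hu
    have hQv : Q (X.symm (Pi.single j₀ u)) = lineT (F := F) ν u := by
      rw [hQX, LinearEquiv.apply_symm_apply, T_apply, lineT_apply, Finset.sum_eq_single j₀]
      · simp
      · intro k _ hk
        simp [Pi.single_apply, hk]
      · intro h0
        exact absurd (Finset.mem_univ _) h0
    have hv : Q (X.symm (Pi.single j₀ u)) ≠ 0 := by rwa [hQv]
    refine ⟨_, hv, hQv, ?_⟩
    rintro g ⟨s, hs, hg⟩
    let s' : Fin d → F := Function.update s j₀ (- s j₀)
    have hs' : ∀ j, s' j * s' j = 1 := by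
      intro j
      by_cases hj : j = j₀
      · subst hj
        simp only [s', Function.update_self]
        rw [neg_mul_neg]
        exact hs _
      · simp only [s', Function.update_of_ne hj]
        exact hs j
    set R := reflectionIso Q (X.symm (Pi.single j₀ u)) hv with hR
    have hXR : ∀ z j, X (act R z) j = if j = j₀ then
        X z j₀ - ((lineT (F := F) ν u)⁻¹ * polar (lineT (F := F) ν) u (X z j₀)) • u else X z j := by
      intro z j
      rw [hR, reflectionIso_act, map_sub, map_smul, LinearEquiv.apply_symm_apply, hQv]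
      have hpol : polar (⇑Q) (X.symm (Pi.single j₀ u)) z = polar (lineT (F := F) ν) u (X z j₀) := by
        have h3 : polar (⇑Q) (X.symm (Pi.single j₀ u)) z = polar (T (F := F) (fun _ : Fin d => ν)) (Pi.single j₀ u) (X z) := by
          simp only [polar, hQX, map_add, LinearEquiv.apply_symm_apply]
        rw [h3, polar_T, polar_lineT, Finset.sum_eq_single j₀]
        · simp
        · intro k _ hk
          simp [Pi.single_apply, hk]
        · intro h0
          exact absurd (Finset.mem_univ _) h0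
      rw [hpol]
      by_cases hj : j = j₀
      · subst hj
        simp
      · simp [Pi.single_apply, hj]
    have hRR : ∀ z, act R (act R z) = z := by
      intro z
      rw [← act_mul, hR, reflectionIso_mul_self, act_one]
    have hflip : ∀ z, act R (act (y s hs) (act R z)) = act (y s' hs') z := by
      intro z
      apply X.injective
      rw [X_act_isoOf]
      funext j
      rw [hXR, Ye_apply, Yl_apply]
      by_cases hj : j = j₀
      · subst hj
        rw [if_pos rfl, X_act_isoOf, Ye_apply, Yl_apply, hXR, if_pos rfl]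
        have h3 := flip_line h2 hL H (hs j₀) hu (X z j₀)
        simp only at h3
        simp only [s', Function.update_self]
        exact h3
      · rw [if_neg hj, X_act_isoOf, Ye_apply, Yl_apply, hXR, if_neg hj]
        simp only [s', Function.update_of_ne hj]
    refine ⟨s', hs', fun z => ?_⟩
    rw [act_mul, act_mul, hg, ← hRR (act g z), ← hflip]
    simp only [hRR]
  obtain ⟨w₁, hw₁⟩ := exists_represent h2 (lineT (F := F) ν) (polarNondeg_lineT h2L hν0) hL.ge 1
  obtain ⟨w₂, hw₂⟩ := exists_represent h2 (lineT (F := F) ν) (polarNondeg_lineT h2L hν0) hL.ge (nonsq h2)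
  obtain ⟨v₁, hv₁, hQv₁, hstep₁⟩ := hrefl w₁ (by rw [hw₁]; exact one_ne_zero)
  obtain ⟨v₂, hv₂, hQv₂, hstep₂⟩ := hrefl w₂ (by rw [hw₂]; exact nonsq_ne_zero h2)
  have hs1 := signs_one Q h2 (hQv₁.trans hw₁) hv₁
  have hs2 := signs_nonsq Q h2 (v := v₂) (by rw [hQv₂, hw₂]; exact nonsq_spec h2) hv₂
  have hg0 : ∃ s hs, ∀ z, act h₀ (act x z) = act (y s hs) (act h₀ z) := ⟨s₀, hs₀, hh₀⟩
  have hcase : ∀ g, g ∈ Cfsg.Omega F ⇑Q → (∃ s hs, ∀ z, act g (act x z) = act (y s hs) (act g z)) →
      ∃ g' ∈ Cfsg.Geo.omegaGL (⇑Q), g'⁻¹ * (x : GL ι F) * g' ∈ Cfsg.Geo.subalgebraNormalizer K := by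
    rintro g hgΩ ⟨s, hs, hg⟩
    exact finish x (y s hs) g (hyN s hs) hgΩ hg
  rcases adjust_left Q hQn h2 h₀ _ _ hs1.1 hs1.2 hs2.1 hs2.2 with h | h | h | h
  · exact hcase _ h hg0
  · exact hcase _ h (hstep₁ _ hg0)
  · exact hcase _ h (hstep₂ _ hg0)
  · exact hcase _ h (hstep₁ _ (hstep₂ _ hg0))

end Main


end Cfsg.Agent.Lib.Classical.Elusive.OFieldJ
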