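import Mathlib
import Cfsg.Agent.Lib.Classical.Elusive.OFieldJ
import Cfsg.Agent.Lib.Classical.Orth.Siegel
import Cfsg.Agent.Lib.Classical.OSemi.SingInvE

/-!
# Orthogonal groups and quadratic field extensions: the backward direction and long root elements
-/

set_option autoImplicit false
set_option linter.unusedSectionVars false
set_option linter.unusedVariables false
set_option linter.unusedSimpArgs false
set_option linter.style.haveILetI false
set_option maxHeartbeats 1000000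

namespace Cfsg.Agent.Lib.Classical.Elusive.OFieldF1

open Module QuadraticMap Matrix
open Cfsg.Agent.Lib.Classical.Witt.Hyp Cfsg.Agent.Lib.Classical.OSemi.Lag
open Cfsg.Agent.Lib.Classical.Orth.Basic Cfsg.Agent.Lib.Classical.Elusive.OFieldPure
open Cfsg.Agent.Lib.Classical.Elusive.OFieldA Cfsg.Agent.Lib.Classical.Elusive.OFieldC
open Cfsg.Agent.Lib.Classical.Elusive.OFieldJ
open Cfsg.Agent.Lib.Classical.Orth.Adjust Cfsg.Agent.Lib.Classical.Orth.Spinor Cfsg.Agent.Lib.Classical.Orth.Siegel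
open Cfsg.Agent.Lib.Classical.OSemi.LagFree Cfsg.Agent.Lib.Linalg.Bridge

universe u

variable {ι : Type} [Fintype ι] [DecidableEq ι] {F : Type u} [Field F] [Fintype F] {p : ℕ} [Fact p.Prime] [CharP F p]
  {L : Type u} [Field L] [Algebra F L] [Fintype L]
  {Q : QuadraticForm F (ι → F)} {d : ℕ}

/-- The case `r = 2`. -/
theorem backward [Nonempty ι] (h2 : (2 : F) ≠ 0) (hQ : PolarNondeg Q) (hcard : Fintype.card ι = 2 * d) (hd : 2 ≤ d)
    {K : Subalgebra F (Matrix ι ι F)} (hK : Cfsg.Geo.IsFieldSubalgebra 2 K) (hKf : Cfsg.Geo.IsSelfAdjointFor (polar (⇑Q)) K)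
    (x : GL ι F) (hx : x ∈ Cfsg.Geo.omegaGL (⇑Q)) (hz : ∃ z : F, ((x ^ 2 : GL ι F) : Matrix ι ι F) = z • (1 : Matrix ι ι F))
    (hns : ∀ z : F, (x : Matrix ι ι F) ≠ z • (1 : Matrix ι ι F)) :
    ∃ g ∈ Cfsg.Geo.omegaGL (⇑Q), g⁻¹ * x * g ∈ Cfsg.Geo.subalgebraNormalizer K := by
  obtain ⟨L', _, _, _, ρ, hmem, hL'⟩ := exists_fieldModel hK
  have hS : ∀ (a : L') u v, polar (⇑Q) (ρ a *ᵥ u) v = polar (⇑Q) u (ρ a *ᵥ v) :=
    fun a u v => hKf (ρ a) ((hmem _).2 ⟨a, rfl⟩) u v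
  obtain ⟨x', hxΩ, rfl⟩ := hx
  obtain ⟨z, hz⟩ := hz
  rcases Cfsg.Agent.Lib.Classical.OSemi.NondegJ.two_cases h2 hQ x' hz with h | h
  · exact back_invol h2 hQ hcard hd hL' hmem hS x' hxΩ h hns
  · exact back_J h2 hQ hcard (by omega) hL' hmem hS x' h

/-- The property of the elements of order `r`. -/
def Key (Q : QuadraticForm F (ι → F)) (ρ : L →ₐ[F] Matrix ι ι F) (r : ℕ) : Prop :=
  ∀ x : ↥(Cfsg.isometryGroup F ⇑Q), orderOf x = r → ∃ y : ↥(Cfsg.isometryGroup F ⇑Q), (∃ h, y = h⁻¹ * x * h) ∧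
    ∀ (a : L) (v : ι → F), act y (ρ a *ᵥ v) = ρ a *ᵥ act y v

theorem key_of (p : ℕ) [Fact p.Prime] [CharP F p] [hne : Nonempty ι] (hQ : PolarNondeg Q) (hc4 : Fintype.card ι ≠ 4) (hL : finrank F L = 2)
    {K : Subalgebra F (Matrix ι ι F)} {ρ : L →ₐ[F] Matrix ι ι F} (hmem : ∀ m, m ∈ K ↔ ∃ a, ρ a = m)
    {r : ℕ} [hr : Fact r.Prime] (hr2 : r ≠ 2)
    (H : ∀ x ∈ Cfsg.Geo.omegaGL (⇑Q), (∃ z : F, ((x ^ r : GL ι F) : Matrix ι ι F) = z • (1 : Matrix ι ι F)) →
      (∀ z : F, (x : Matrix ι ι F) ≠ z • (1 : Matrix ι ι F)) →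
      ∃ g ∈ Cfsg.Geo.omegaGL (⇑Q), g⁻¹ * x * g ∈ Cfsg.Geo.subalgebraNormalizer K) : Key Q ρ r := by
  intro x hx
  have hodd : Odd r := hr.out.odd_of_ne_two hr2
  have hxr : x ^ r = 1 := by
    rw [← hx]
    exact pow_orderOf_eq_one x
  have hxΩ := mem_omega_of_odd_order (p := p) hQ hc4 hne x hodd hxr
  obtain ⟨h1, h2⟩ := Cfsg.Agent.Lib.Classical.OSemi.SingInvE.forward_reduce hQ hr2 x hx
  obtain ⟨g, ⟨h, hhΩ, rfl⟩, hg⟩ := H (x : GL ι F) ⟨x, hxΩ, rfl⟩ h1 h2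
  refine ⟨h⁻¹ * x * h, ⟨h, rfl⟩, fun a v => ?_⟩
  have hy : ((h⁻¹ * x * h : ↥(Cfsg.isometryGroup F ⇑Q)) : GL ι F) ∈ Cfsg.Geo.subalgebraNormalizer K := by
    simpa using hg
  have hyr : ((h⁻¹ * x * h : ↥(Cfsg.isometryGroup F ⇑Q)) : GL ι F) ^ r = 1 := by
    have h3 : (h⁻¹ * x * h) ^ r = 1 := by
      have h4 : h⁻¹ * x * h = MulAut.conj h⁻¹ x := by
        simp [MulAut.conj_apply]
      rw [h4, ← map_pow, hxr, map_one]
    rw [← Subgroup.coe_pow, h3]
    rfl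
  have h5 := commute_of_odd hL hmem hy hodd hyr a
  show ((h⁻¹ * x * h : ↥(Cfsg.isometryGroup F ⇑Q)) : GL ι F).1 *ᵥ (ρ a *ᵥ v) = ρ a *ᵥ (((h⁻¹ * x * h : ↥(Cfsg.isometryGroup F ⇑Q)) : GL ι F).1 *ᵥ v)
  rw [Matrix.mulVec_mulVec, Matrix.mulVec_mulVec]
  exact congrArg (fun m => m *ᵥ v) h5

/-- Nonzero elements of the field act injectively. -/
theorem rho_eq_zero [Nonempty ι] (ρ : L →ₐ[F] Matrix ι ι F) {u : L} (hu : u ≠ 0) {v : ι → F} (h : ρ u *ᵥ v = 0) : v = 0 := by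
  have h1 : ρ u⁻¹ *ᵥ (ρ u *ᵥ v) = v := by
    rw [Matrix.mulVec_mulVec, ← map_mul, inv_mul_cancel₀ hu, map_one, Matrix.one_mulVec]
  rw [← h1, h, Matrix.mulVec_zero]

/-- An element of the field which is not in the base field does not have eigenvectors. -/
theorem no_eigen [Nonempty ι] (h2 : (2 : F) ≠ 0) (hL : finrank F L = 2) (ρ : L →ₐ[F] Matrix ι ι F) {ω : L} (hω0 : ω ≠ 0)
    (hω : Algebra.trace F L ω = 0) {v : ι → F} (hv : v ≠ 0) (c : F) : ρ ω *ᵥ v ≠ c • v := by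
  intro h
  have hu : ω - algebraMap F L c ≠ 0 := by
    intro h5
    have h6 : ω = algebraMap F L c := sub_eq_zero.1 h5
    rw [h6, Algebra.trace_algebraMap, hL] at hω
    have h7 : (2 : F) * c = 0 := by
      rw [← hω]
      simp [two_mul, nsmul_eq_mul]
    have h8 : c = 0 := (mul_eq_zero.1 h7).resolve_left h2
    rw [h8, map_zero] at h6
    exact hω0 h6
  apply hv
  apply rho_eq_zero ρ hu
  rw [map_sub, Matrix.sub_mulVec, h, AlgHom.commutes, Algebra.algebraMap_eq_smul_one, Matrix.smul_mulVec, Matrix.one_mulVec,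
    sub_self]

section Eichler

theorem eichlerIso_congr {z b b' : ι → F} (hz : Q z = 0) (hb : polar (⇑Q) z b = 0) (hb' : polar (⇑Q) z b' = 0) (h : b = b') :
    eichlerIso hz hb = eichlerIso hz hb' := by
  subst h
  rfl

theorem eichler_pow {z b : ι → F} (hz : Q z = 0) (hb : polar (⇑Q) z b = 0) (n : ℕ) :
    (eichlerIso hz hb) ^ n = eichlerIso hz (by rw [polar_smul_right', hb, mul_zero] : polar (⇑Q) z ((n : F) • b) = 0) := by
  induction n with
  | zero =>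
    apply ext_act
    intro x
    rw [pow_zero, act_one, act_eichlerIso]
    simp
  | succ n ih =>
    rw [pow_succ, ih, eichlerIso_mul]
    apply eichlerIso_congr
    push_cast
    rw [add_smul, one_smul]

/-- The case `r = p`. -/
theorem false_of_key_p [hne : Nonempty ι] (h2 : (2 : F) ≠ 0) (hQ : PolarNondeg Q) (hcard : Fintype.card ι = 2 * d) (hd : 2 ≤ d)
    (hL : finrank F L = 2) (ρ : L →ₐ[F] Matrix ι ι F) (H : Key Q ρ p) : False := by
  classical
  have hQn := nondeg_of_polarNondeg Q hQ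
  have hdim : finrank F (ι → F) = 2 * d := by
    rw [Module.finrank_fintype_fun_eq_card, hcard]
  obtain ⟨z, hz0, hz⟩ := exists_singular_of_three_le Q (by rw [hdim]; omega)
  obtain ⟨b, hbQ, hbz⟩ := exists_nonsingular_orth hQn (U := Submodule.span F {z}) (by
    rw [finrank_span_singleton hz0, hcard]
    omega)
  have hzb : polar (⇑Q) z b = 0 := by
    rw [polar_comm]
    exact hbz z (Submodule.mem_span_singleton_self z)
  let x : ↥(Cfsg.isometryGroup F ⇑Q) := eichlerIso hz hzb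
  have hpF : (p : F) = 0 := CharP.cast_eq_zero F p
  have hxp : x ^ p = 1 := by
    rw [eichler_pow hz hzb p]
    apply ext_act
    intro v
    rw [act_eichlerIso, act_one, hpF]
    simp
  have hx1 : x ≠ 1 := by
    intro h
    have hex : ∃ v, polar (⇑Q) z v ≠ 0 := by
      by_contra hcon
      push Not at hcon
      exact hz0 (hQ z hcon)
    obtain ⟨v, hv⟩ := hex
    have h3 : act x v = v := by rw [h, act_one]
    rw [act_eichlerIso] at h3
    have h4 : b = ((polar (⇑Q) z v)⁻¹ * (polar (⇑Q) b v + Q b * polar (⇑Q) z v)) • z := by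
      have h5 : (polar (⇑Q) z v) • b = (polar (⇑Q) b v + Q b * polar (⇑Q) z v) • z := by
        have h6 : v + polar (⇑Q) z v • b - polar (⇑Q) b v • z - (Q b * polar (⇑Q) z v) • z - v = 0 := by
          rw [h3, sub_self]
        rw [add_smul]
        have h7 : polar (⇑Q) z v • b - (polar (⇑Q) b v • z + (Q b * polar (⇑Q) z v) • z) = 0 := by
          rw [← h6]
          abel
        exact sub_eq_zero.1 h7
      rw [mul_smul, ← h5, smul_smul, inv_mul_cancel₀ hv, one_smul]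
    apply hbQ
    rw [h4, Q_smul, hz, mul_zero]
  have hxo : orderOf x = p := orderOf_eq_prime hxp hx1
  obtain ⟨y, ⟨h, rfl⟩, hy⟩ := H x hxo
  obtain ⟨ω, hω0, hωt⟩ := exists_omega (F := F) (L := L) hL
  set z' := act h⁻¹ z with hz'
  set b' := act h⁻¹ b with hb'
  have hQz' : Q z' = 0 := by rw [hz', Q_act, hz]
  have hQb' : Q b' = Q b := by rw [hb', Q_act]
  have hz'b' : polar (⇑Q) z' b' = 0 := by rw [hz', hb', polar_act, hzb]
  have hz'0 : z' ≠ 0 := by
    intro h0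
    apply hz0
    have h3 := act_act_inv h z
    rw [← hz', h0, act_zero] at h3
    exact h3.symm
  have hy' : ∀ v, act (h⁻¹ * x * h) v = v + polar (⇑Q) z' v • b' - polar (⇑Q) b' v • z' - (Q b' * polar (⇑Q) z' v) • z' := by
    intro v
    have h3 := conj_eichlerIso h⁻¹ hz hzb
    rw [inv_inv] at h3
    have h5 : h⁻¹ * x * h = eichlerIso (by rwa [Q_act] : Q (act h⁻¹ z) = 0) (by rwa [polar_act] : polar (⇑Q) (act h⁻¹ z) (act h⁻¹ b) = 0) := h3
    rw [h5, act_eichlerIso]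
  set y := h⁻¹ * x * h with hy_def
  have hQ2 : (2 : F) * Q b' ≠ 0 := mul_ne_zero h2 (by rw [hQb']; exact hbQ)
  have hyz : act y z' = z' := by
    rw [hy', polar_self_eq, hQz', mul_zero, polar_comm, hz'b']
    simp
  have hyb : act y b' = b' - (2 * Q b') • z' := by
    rw [hy', polar_self_eq, hz'b']
    simp
  have hE : ∀ v, act y (act y v) - (2 : F) • act y v + v = - ((2 * Q b' * polar (⇑Q) z' v) • z') := by
    intro v
    have h3 : act y (act y v) = act y v + polar (⇑Q) z' v • (b' - (2 * Q b') • z') - polar (⇑Q) b' v • z' - (Q b' * polar (⇑Q) z' v) • z' := by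
      conv_lhs => rw [hy' v]
      rw [act_sub, act_sub, act_add, act_smul, act_smul, act_smul, hyz, hyb, hy' v]
    rw [h3, hy' v]
    module
  have hex : ∃ v, polar (⇑Q) z' v = 1 := by
    have hex : ∃ v, polar (⇑Q) z' v ≠ 0 := by
      by_contra hcon
      push Not at hcon
      exact hz'0 (hQ z' hcon)
    obtain ⟨v, hv⟩ := hex
    exact ⟨(polar (⇑Q) z' v)⁻¹ • v, by rw [polar_smul_right', inv_mul_cancel₀ hv]⟩
  obtain ⟨v₀, hv₀⟩ := hex
  have hcomm : act y (act y (ρ ω *ᵥ v₀)) - (2 : F) • act y (ρ ω *ᵥ v₀) + (ρ ω *ᵥ v₀) =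
      ρ ω *ᵥ (act y (act y v₀) - (2 : F) • act y v₀ + v₀) := by
    rw [hy, hy, Matrix.mulVec_add, Matrix.mulVec_sub, Matrix.mulVec_smul]
  rw [hE, hE, hv₀, mul_one, Matrix.mulVec_neg, Matrix.mulVec_smul, neg_inj] at hcomm
  apply no_eigen h2 hL ρ hω0 hωt hz'0 (polar (⇑Q) z' (ρ ω *ᵥ v₀))
  have h5 : (2 * Q b') • (ρ ω *ᵥ z') = (2 * Q b') • (polar (⇑Q) z' (ρ ω *ᵥ v₀) • z') := by
    rw [← hcomm, smul_smul]
  exact smul_right_injective _ hQ2 h5

end Eichler

end Cfsg.Agent.Lib.Classical.Elusive.OFieldF1
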