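import Mathlib
import Cfsg.Agent.Lib.Classical.Elusive.OFieldF1
import Cfsg.Agent.Lib.Classical.OSemi.EvenX
import Cfsg.Agent.Lib.Classical.OSemi.Split

/-!
# Orthogonal groups and quadratic field extensions: subspaces stable under the field
-/

set_option autoImplicit false
set_option linter.unusedSectionVars false
set_option linter.unusedVariables false
set_option linter.unusedSimpArgs false
set_option linter.style.haveILetI false
set_option maxHeartbeats 1000000

namespace Cfsg.Agent.Lib.Classical.Elusive.OFieldF2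

open Module QuadraticMap Matrix Polynomial
open Cfsg.Agent.Lib.Classical.Witt.Hyp Cfsg.Agent.Lib.Classical.OSemi.Lag
open Cfsg.Agent.Lib.Classical.Orth.Basic Cfsg.Agent.Lib.Classical.Elusive.OFieldPure
open Cfsg.Agent.Lib.Classical.Elusive.OFieldA Cfsg.Agent.Lib.Classical.Elusive.OFieldC
open Cfsg.Agent.Lib.Classical.Elusive.OFieldF1
open Cfsg.Agent.Lib.Classical.Elusive.SpFieldAbs

universe u

variable {ι : Type} [Fintype ι] [DecidableEq ι] {F : Type u} [Field F] [Fintype F]
  {L : Type u} [Field L] [Algebra F L] [Fintype L]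
  {Q : QuadraticForm F (ι → F)} {d : ℕ}

theorem comm_aeval {V : Type*} [AddCommGroup V] [Module F V] (T R : Module.End F V) (h : Commute T R) (f : F[X]) :
    Commute (aeval T f) R := by
  rw [aeval_eq_sum_range]
  exact Commute.sum_left _ _ _ fun i _ => (h.pow_left i).smul_left _

section Stable

variable {ρ : L →ₐ[F] Matrix ι ι F} {X : (ι → F) ≃ₗ[F] (Fin d → L)}

theorem symm_smul (hX : ∀ (a : L) v, X (ρ a *ᵥ v) = a • X v) (a : L) (t : Fin d → L) : X.symm (a • t) = ρ a *ᵥ X.symm t := by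
  apply X.injective
  rw [hX, LinearEquiv.apply_symm_apply, LinearEquiv.apply_symm_apply]

/-- The `L`-subspace of a stable subspace. -/
def toL (hX : ∀ (a : L) v, X (ρ a *ᵥ v) = a • X v) (W : Submodule F (ι → F)) (hW : ∀ (a : L), ∀ w ∈ W, ρ a *ᵥ w ∈ W) :
    Submodule L (Fin d → L) where
  carrier := {t | X.symm t ∈ W}
  add_mem' := by
    intro a b ha hb
    show X.symm (a + b) ∈ W
    rw [map_add]
    exact W.add_mem ha hb
  zero_mem' := by
    show X.symm 0 ∈ W
    rw [map_zero]
    exact W.zero_mem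
  smul_mem' := by
    intro a t ht
    show X.symm (a • t) ∈ W
    rw [symm_smul hX]
    exact hW a _ ht

theorem mem_toL (hX : ∀ (a : L) v, X (ρ a *ᵥ v) = a • X v) (W : Submodule F (ι → F)) (hW : ∀ (a : L), ∀ w ∈ W, ρ a *ᵥ w ∈ W)
    (t : Fin d → L) : t ∈ toL hX W hW ↔ X.symm t ∈ W := Iff.rfl

theorem finrank_toL (hL : finrank F L = 2) (hX : ∀ (a : L) v, X (ρ a *ᵥ v) = a • X v) (W : Submodule F (ι → F))
    (hW : ∀ (a : L), ∀ w ∈ W, ρ a *ᵥ w ∈ W) : finrank F W = 2 * finrank L (toL hX W hW) := by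
  haveI : FiniteDimensional F L := Module.Finite.of_finite
  let E : W ≃ₗ[F] (toL hX W hW) :=
    { toFun := fun w => ⟨X w, by
        rw [mem_toL, LinearEquiv.symm_apply_apply]
        exact w.2⟩
      invFun := fun t => ⟨X.symm t, t.2⟩
      map_add' := fun a b => Subtype.ext (map_add X _ _)
      map_smul' := fun a b => Subtype.ext (map_smul X _ _)
      left_inv := fun w => Subtype.ext (LinearEquiv.symm_apply_apply X _)
      right_inv := fun t => Subtype.ext (LinearEquiv.apply_symm_apply X _) }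
  rw [E.finrank_eq, ← Module.finrank_mul_finrank F L (toL hX W hW), hL]

/-- The linear map in coordinates. -/
noncomputable def YL (hX : ∀ (a : L) v, X (ρ a *ᵥ v) = a • X v) (y : ↥(Cfsg.isometryGroup F ⇑Q))
    (hy : ∀ (a : L) (v : ι → F), act y (ρ a *ᵥ v) = ρ a *ᵥ act y v) : (Fin d → L) →ₗ[L] (Fin d → L) where
  toFun t := X (act y (X.symm t))
  map_add' a b := by
    rw [map_add, act_add, map_add]
  map_smul' a t := by
    rw [symm_smul hX, hy, hX]
    rfl

theorem YL_apply (hX : ∀ (a : L) v, X (ρ a *ᵥ v) = a • X v) (y : ↥(Cfsg.isometryGroup F ⇑Q))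
    (hy : ∀ (a : L) (v : ι → F), act y (ρ a *ᵥ v) = ρ a *ᵥ act y v) (t : Fin d → L) : YL hX y hy t = X (act y (X.symm t)) := rfl

end Stable

/-- The polar form of the diagonal form. -/
theorem polar_wss {n : ℕ} (c : Fin n → L) (s t : Fin n → L) :
    polar (weightedSumSquares L c) s t = ∑ j, 2 * c j * (s j * t j) := by
  rw [polar, weightedSumSquares_apply, weightedSumSquares_apply, weightedSumSquares_apply, ← Finset.sum_sub_distrib,
    ← Finset.sum_sub_distrib]
  apply Finset.sum_congr rfl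
  intro j _
  simp only [Pi.add_apply, smul_eq_mul]
  ring

theorem polar_T_eq {n : ℕ} (c : Fin n → L) (s t : Fin n → L) :
    polar (T (F := F) c) s t = Algebra.trace F L (polar (weightedSumSquares L c) s t) := by
  rw [polar_T, polar_wss]

/-- The key case: an `L`-subspace of odd dimension. -/
theorem false_of_odd_ker (hq2 : (2 : F) ≠ 0) (hQ : PolarNondeg Q) (hL : finrank F L = 2) [Nonempty ι]
    {ρ : L →ₐ[F] Matrix ι ι F} {X : (ι → F) ≃ₗ[F] (Fin d → L)} {c : Fin d → L}
    (hX : ∀ (a : L) v, X (ρ a *ᵥ v) = a • X v) (hQX : ∀ v, Q v = T (F := F) c (X v))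
    (y : ↥(Cfsg.isometryGroup F ⇑Q)) (hy : ∀ (a : L) (v : ι → F), act y (ρ a *ᵥ v) = ρ a *ᵥ act y v)
    {r : ℕ} (hrodd : Odd r) (hyr : y ^ r = 1) {f : F[X]} (hcop : IsCoprime f (Polynomial.X - 1)) {j : ℕ} (hj : Odd j)
    (hW : finrank F (LinearMap.ker (aeval (Matrix.toLin' ((y : GL ι F) : Matrix ι ι F)) f)) = 2 * j)
    (hFix : finrank F (LinearMap.ker (aeval (Matrix.toLin' ((y : GL ι F) : Matrix ι ι F)) (Polynomial.X - 1 : F[X]))) + 2 * j = finrank F (ι → F)) :
    False := by
  classical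
  haveI : FiniteDimensional F L := Module.Finite.of_finite
  have h2L : (2 : L) ≠ 0 := two_ne_zero_L hq2
  obtain ⟨T', hT'⟩ : ∃ T' : Module.End F (ι → F), T' = Matrix.toLin' ((y : GL ι F) : Matrix ι ι F) := ⟨_, rfl⟩
  rw [← hT'] at hW hFix
  have hT : ∀ v, T' v = act y v := fun v => by rw [hT']; rfl
  obtain ⟨W, hWdef⟩ : ∃ W, W = LinearMap.ker (aeval T' f) := ⟨_, rfl⟩
  obtain ⟨Fx, hFxdef⟩ : ∃ Fx, Fx = LinearMap.ker (aeval T' (Polynomial.X - 1 : F[X])) := ⟨_, rfl⟩
  rw [← hWdef] at hW
  rw [← hFxdef] at hFix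
  have hWm : ∀ v, v ∈ W ↔ aeval T' f v = 0 := fun v => by rw [hWdef, LinearMap.mem_ker]
  have hX1 : ∀ v, aeval T' (Polynomial.X - 1 : F[X]) v = T' v - v := fun v => by simp
  have hFxm : ∀ v, v ∈ Fx ↔ T' v = v := fun v => by
    rw [hFxdef, LinearMap.mem_ker, hX1, sub_eq_zero]
  obtain ⟨a₀, b₀, hab⟩ := hcop
  have hu : ∀ u ∈ W, u = T' (aeval T' b₀ u) - aeval T' b₀ u := by
    intro u hu
    have h3 := congrArg (fun h : F[X] => aeval T' h u) hab
    simp only [map_add, map_mul, LinearMap.add_apply, Module.End.mul_apply, map_one, Module.End.one_apply] at h3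
    rw [(hWm u).1 hu, map_zero, zero_add, hX1] at h3
    have h4 : T' (aeval T' b₀ u) - aeval T' b₀ u = aeval T' b₀ (T' u - u) := by
      have h5 := comm_aeval T' T' (Commute.refl T') b₀
      have h6 : aeval T' b₀ (T' u) = T' (aeval T' b₀ u) := congrArg (fun z : Module.End F (ι → F) => z u) h5
      rw [map_sub, h6]
    rw [h4, h3]
  have hinf : W ⊓ Fx = ⊥ := by
    rw [eq_bot_iff]
    intro v hv
    have h3 := hu v hv.1
    have h4 : T' v = v := (hFxm v).1 hv.2
    have h5 := comm_aeval T' T' (Commute.refl T') b₀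
    have h6 : aeval T' b₀ (T' v) = T' (aeval T' b₀ v) := congrArg (fun z : Module.End F (ι → F) => z v) h5
    rw [← h6, h4, sub_self] at h3
    exact (Submodule.mem_bot F).2 h3
  have hsup : W ⊔ Fx = ⊤ := by
    apply Submodule.eq_top_of_finrank_eq
    have h3 := Submodule.finrank_sup_add_finrank_inf_eq W Fx
    rw [hinf, finrank_bot, add_zero] at h3
    rw [h3, hW]
    omega
  have hpolT : ∀ u v, polar (⇑Q) (T' u) (T' v) = polar (⇑Q) u v := fun u v => by
    rw [hT, hT]
    exact polar_act y u v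
  have horth : ∀ u ∈ W, ∀ v ∈ Fx, polar (⇑Q) u v = 0 := by
    intro u huW v hv
    rw [hu u huW, polar_sub_left]
    have h3 := hpolT (aeval T' b₀ u) v
    rw [(hFxm v).1 hv] at h3
    rw [h3, sub_self]
  -- stability
  have hcomm : ∀ a : L, Commute T' (Matrix.toLin' (ρ a)) := by
    intro a
    apply LinearMap.ext
    intro v
    show T' (Matrix.toLin' (ρ a) v) = Matrix.toLin' (ρ a) (T' v)
    rw [Matrix.toLin'_apply, Matrix.toLin'_apply, hT, hT]
    exact hy a v
  have hstab : ∀ a : L, ∀ w ∈ W, ρ a *ᵥ w ∈ W := by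
    intro a w hw
    rw [hWm] at hw ⊢
    have h3 := comm_aeval T' _ (hcomm a) f
    have h4 : aeval T' f (Matrix.toLin' (ρ a) w) = Matrix.toLin' (ρ a) (aeval T' f w) := congrArg (fun z : Module.End F (ι → F) => z w) h3
    rw [Matrix.toLin'_apply] at h4
    rw [h4, hw, map_zero]
  have hWT : ∀ w ∈ W, T' w ∈ W := by
    intro w hw
    rw [hWm] at hw ⊢
    have h5 := comm_aeval T' T' (Commute.refl T') f
    have h6 : aeval T' f (T' w) = T' (aeval T' f w) := congrArg (fun z : Module.End F (ι → F) => z w) h5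
    rw [h6, hw, map_zero]
  obtain ⟨WL, hWL⟩ : ∃ WL, WL = toL hX W hstab := ⟨_, rfl⟩
  have hWLm : ∀ t, t ∈ WL ↔ X.symm t ∈ W := fun t => by rw [hWL]; exact Iff.rfl
  have hdimL : finrank L WL = j := by
    have h3 := finrank_toL hL hX W hstab
    rw [← hWL, hW] at h3
    omega
  let QL : QuadraticForm L (Fin d → L) := weightedSumSquares L c
  let QW : QuadraticForm L WL := QL.comp WL.subtype
  have hpolW : ∀ u v : WL, polar QW u v = polar QL (u : Fin d → L) (v : Fin d → L) := fun u v => rfl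
  have hpolX : ∀ u v, polar (⇑Q) u v = Algebra.trace F L (polar QL (X u) (X v)) := by
    intro u v
    rw [← polar_T_eq]
    simp only [polar, hQX, map_add]
  have hQWn : PolarNondeg QW := by
    intro u hu
    apply Subtype.ext
    apply X.symm.injective
    show X.symm (u : Fin d → L) = X.symm 0
    rw [map_zero]
    apply hQ
    intro v
    have hv : v ∈ W ⊔ Fx := by
      rw [hsup]
      exact Submodule.mem_top
    obtain ⟨w, hw, z, hz, rfl⟩ := Submodule.mem_sup.1 hv
    rw [polar_add_right, horth _ ((hWLm _).1 u.2) z hz, add_zero, hpolX, LinearEquiv.apply_symm_apply]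
    have hw' : X w ∈ WL := by
      rw [hWLm, LinearEquiv.symm_apply_apply]
      exact hw
    have h3 := hu ⟨X w, hw'⟩
    rw [hpolW] at h3
    rw [h3, map_zero]
  let YY := YL hX y hy
  have hYY : ∀ t, YY t = X (act y (X.symm t)) := fun t => rfl
  have hYinv : ∀ t ∈ WL, YY t ∈ WL := by
    intro t ht
    rw [hWLm, hYY, LinearEquiv.symm_apply_apply, ← hT]
    exact hWT _ ((hWLm t).1 ht)
  let y' : WL →ₗ[L] WL := YY.restrict hYinv
  have hy'a : ∀ t : WL, ((y' t : WL) : Fin d → L) = X (act y (X.symm (t : Fin d → L))) := fun t => rfl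
  have hpolY : ∀ s t, polar QL (YY s) (YY t) = polar QL s t := by
    intro s t
    apply eq_of_trace (F := F)
    intro a
    have h3 : ∀ s' t' : Fin d → L, Algebra.trace F L (a * polar QL s' t') = polar (⇑Q) (X.symm (a • s')) (X.symm t') := by
      intro s' t'
      rw [hpolX, LinearEquiv.apply_symm_apply, LinearEquiv.apply_symm_apply, polar_smul_left, smul_eq_mul]
    rw [h3, h3, ← map_smul YY, hYY, LinearEquiv.symm_apply_apply, hYY, LinearEquiv.symm_apply_apply, polar_act]
  have hy'pol : ∀ u v, (polarBilin QW) (y' u) (y' v) = (polarBilin QW) u v := by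
    intro u v
    show polar QW (y' u) (y' v) = polar QW u v
    rw [hpolW, hpolW]
    exact hpolY _ _
  have hy'pow : ∀ (n : ℕ) (t : WL), (((y' ^ n) t : WL) : Fin d → L) = X (act (y ^ n) (X.symm (t : Fin d → L))) := by
    intro n
    induction n with
    | zero =>
      intro t
      simp only [pow_zero, Module.End.one_apply, act_one, LinearEquiv.apply_symm_apply]
    | succ n ih =>
      intro t
      rw [pow_succ, Module.End.mul_apply, ih, hy'a, LinearEquiv.symm_apply_apply, pow_succ, act_mul]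
  have hy'r : y' ^ r = 1 := by
    apply LinearMap.ext
    intro t
    apply Subtype.ext
    rw [hy'pow, hyr, act_one, LinearEquiv.apply_symm_apply]
    rfl
  have hsymm : LinearMap.BilinForm.IsSymm (polarBilin QW) := by
    refine ⟨fun x y => ?_⟩
    simp only [polarBilin_apply_apply, RingHom.id_apply]
    exact polar_comm _ _ _
  obtain ⟨w, hw0, hw⟩ := exists_fixed_of_odd h2L (polarBilin QW) hsymm (nondeg_of_polarNondeg _ hQWn) y' hy'pol hrodd hy'r
    (by rw [hdimL]; exact hj)
  have h5 : X (act y (X.symm (w : Fin d → L))) = (w : Fin d → L) := by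
    rw [← hy'a, hw]
  have h6 : T' (X.symm (w : Fin d → L)) = X.symm (w : Fin d → L) := by
    rw [hT]
    apply X.injective
    rw [h5, LinearEquiv.apply_symm_apply]
  have h7 : X.symm (w : Fin d → L) ∈ W ⊓ Fx := ⟨(hWLm _).1 w.2, (hFxm _).2 h6⟩
  rw [hinf] at h7
  apply hw0
  apply Subtype.ext
  apply X.symm.injective
  show X.symm (w : Fin d → L) = X.symm 0
  rw [(Submodule.mem_bot F).1 h7, map_zero]

end Cfsg.Agent.Lib.Classical.Elusive.OFieldF2
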