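import Mathlib
import Cfsg.Agent.Lib.Classical.Elusive.OFieldF2

/-!
# Orthogonal groups and quadratic field extensions: elements of order prime to the characteristic
-/

set_option autoImplicit false
set_option linter.unusedSectionVars false
set_option linter.unusedVariables false
set_option linter.unusedSimpArgs false
set_option linter.style.haveILetI false
set_option maxHeartbeats 1000000

namespace Cfsg.Agent.Lib.Classical.Elusive.OFieldF3

open Module QuadraticMap Matrix Polynomial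
open Cfsg.Agent.Lib.Classical.Witt.Hyp Cfsg.Agent.Lib.Classical.OSemi.Lag
open Cfsg.Agent.Lib.Classical.Orth.Basic Cfsg.Agent.Lib.Classical.Elusive.OFieldPure
open Cfsg.Agent.Lib.Classical.Elusive.OFieldA Cfsg.Agent.Lib.Classical.Elusive.OFieldC
open Cfsg.Agent.Lib.Classical.Elusive.OFieldF1 Cfsg.Agent.Lib.Classical.Elusive.OFieldF2
open Cfsg.Agent.Lib.Classical.Herm.OrthFinal Cfsg.Agent.Lib.Classical.Herm.CycTuples
open Cfsg.Agent.Lib.Classical.OSemi.EvenX Cfsg.Agent.Lib.Classical.OSemi.Split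

universe u

variable {ι : Type} [Fintype ι] [DecidableEq ι] {F : Type u} [Field F] [Fintype F] {p : ℕ} [Fact p.Prime] [CharP F p]
  {L : Type u} [Field L] [Algebra F L] [Fintype L]
  {Q : QuadraticForm F (ι → F)} {d : ℕ} {q r i t : ℕ} {D : Finset F[X]}

/-- The facts about a conjugate. -/
theorem conj_facts (y x h : ↥(Cfsg.isometryGroup F ⇑Q)) (hy : y = h⁻¹ * x * h) (hxr : x ^ r = 1) {P : F[X]}
    (hc : ((x : GL ι F) : Matrix ι ι F).charpoly = P) :
    y ^ r = 1 ∧ Matrix.toLin' ((y : GL ι F) : Matrix ι ι F) ^ r = 1 ∧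
      LinearMap.charpoly (Matrix.toLin' ((y : GL ι F) : Matrix ι ι F)) = P := by
  subst hy
  have h3 : (h⁻¹ * x * h) ^ r = 1 := by
    have h4 : h⁻¹ * x * h = MulAut.conj h⁻¹ x := by
      simp [MulAut.conj_apply]
    rw [h4, ← map_pow, hxr, map_one]
  refine ⟨h3, toLin_pow_eq_one Q _ h3, ?_⟩
  rw [Matrix.charpoly_toLin', ← hc]
  have hgen : ∀ (M : (Matrix ι ι F)ˣ) (N : Matrix ι ι F), (M.val * N * (M⁻¹).val).charpoly = N.charpoly :=
    fun M N => by
      rw [Matrix.coe_units_inv]
      exact Matrix.charpoly_units_conj M N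
  have h5 := hgen (h : GL ι F)⁻¹ ((x : GL ι F) : Matrix ι ι F)
  rw [inv_inv] at h5
  rw [← h5]
  rfl

/-- Subspaces stable under `y`. -/
theorem stable_ker {ρ : L →ₐ[F] Matrix ι ι F} (y : ↥(Cfsg.isometryGroup F ⇑Q))
    (hy : ∀ (a : L) (v : ι → F), act y (ρ a *ᵥ v) = ρ a *ᵥ act y v) (f : F[X]) (a : L) (w : ι → F)
    (hw : w ∈ LinearMap.ker (aeval (Matrix.toLin' ((y : GL ι F) : Matrix ι ι F)) f)) :
    ρ a *ᵥ w ∈ LinearMap.ker (aeval (Matrix.toLin' ((y : GL ι F) : Matrix ι ι F)) f) := by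
  rw [LinearMap.mem_ker] at hw ⊢
  have hcomm : Commute (Matrix.toLin' ((y : GL ι F) : Matrix ι ι F)) (Matrix.toLin' (ρ a)) := by
    apply LinearMap.ext
    intro v
    exact hy a v
  have h3 := comm_aeval _ _ hcomm f
  have h4 : aeval (Matrix.toLin' ((y : GL ι F) : Matrix ι ι F)) f (Matrix.toLin' (ρ a) w) =
      Matrix.toLin' (ρ a) (aeval (Matrix.toLin' ((y : GL ι F) : Matrix ι ι F)) f w) :=
    congrArg (fun z : Module.End F (ι → F) => z w) h3
  rw [Matrix.toLin'_apply] at h4
  rw [h4, hw, map_zero]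

/-- The case of odd `i`. -/
theorem false_of_odd_i (H : Data q r i t D) (hF : Fintype.card F = q) (hr : r.Prime) (hr2 : r ≠ 2) (hrp : r ≠ p)
    (hQ : PolarNondeg Q) (hcard : Fintype.card ι = 2 * d) (hc4 : Fintype.card ι ≠ 4) (hne : Nonempty ι)
    (hL : finrank F L = 2) {ρ : L →ₐ[F] Matrix ι ι F} {X' : (ι → F) ≃ₗ[F] (Fin d → L)}
    (hX : ∀ (a : L) v, X' (ρ a *ᵥ v) = a • X' v) (K : Key Q ρ r) (d₀ : D) (hi : ¬ Even i)
    (hle : i * 2 ≤ 2 * d) (hfull : i * 2 = 2 * d → Lag Q) : False := by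
  classical
  have hstar : starD H d₀ ≠ d₀ := by
    intro h
    exact hi ((H.hstar d₀.1 d₀.2).1 (congrArg Subtype.val h))
  let k : D → ℕ := fun e => if e = d₀ ∨ e = starD H d₀ then 1 else 0
  have hk : ∀ e, k (starD H e) = k e := by
    intro e
    have h3 : (starD H e = d₀ ∨ starD H e = starD H d₀) ↔ (e = d₀ ∨ e = starD H d₀) := by
      constructor
      · rintro (h | h)
        · right
          rw [← h, starD_starD]
        · left
          have := congrArg (starD H) h
          rwa [starD_starD, starD_starD] at this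
      · rintro (h | h)
        · right
          rw [h]
        · left
          rw [h, starD_starD]
    simp only [k, h3]
  have hsum : ∑ e, k e = 2 := by
    have h3 : ∑ e, k e = ∑ e ∈ ({d₀, starD H d₀} : Finset D), 1 := by
      rw [← Finset.sum_filter_add_sum_filter_not Finset.univ (fun e => e = d₀ ∨ e = starD H d₀)]
      have h4 : ∑ x ∈ Finset.univ.filter (fun e => ¬ (e = d₀ ∨ e = starD H d₀)), k x = 0 := by
        apply Finset.sum_eq_zero
        intro e he
        simp only [k]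
        rw [if_neg (Finset.mem_filter.1 he).2]
      rw [h4, add_zero]
      have h5 : Finset.univ.filter (fun e => e = d₀ ∨ e = starD H d₀) = ({d₀, starD H d₀} : Finset D) := by
        ext e
        simp
      rw [h5]
      apply Finset.sum_congr rfl
      intro e he
      simp only [k]
      rw [if_pos]
      simpa using he
    rw [h3, Finset.sum_pair hstar.symm]
  have hk0 : k ≠ 0 := by
    intro h
    have h3 := congrFun h d₀
    simp [k] at h3
  obtain ⟨x, hxΩ, hxo, hxc⟩ := exists_x_even H hF hr hr2 hrp Q hQ hcard hc4 hne k hk hk0 (by rw [hsum]; exact hle)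
    (fun h => by
      rw [hsum] at h
      exact ⟨fun _ => Or.inl hi, fun _ => hfull h⟩)
  obtain ⟨y, ⟨h, hy⟩, hycomm⟩ := K x hxo
  have hxr : x ^ r = 1 := by
    rw [← hxo]
    exact pow_orderOf_eq_one x
  obtain ⟨hyr, hTr, hTc⟩ := conj_facts y x h hy hxr hxc
  have hW := finrank_ker_of_polyOf H hr hrp _ hTr hTc d₀
  have hkd : k d₀ = 1 := by simp [k]
  rw [hkd, one_mul] at hW
  have h5 := finrank_toL hL hX _ (stable_ker y hycomm (d₀ : F[X]))
  rw [hW] at h5
  exact hi ⟨_, by rw [h5]; ring⟩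

/-- The case of `i` twice an odd number. -/
theorem false_of_even_i (H : Data q r i t D) (hF : Fintype.card F = q) (hr : r.Prime) (hr2 : r ≠ 2) (hrp : r ≠ p)
    (hq2 : (2 : F) ≠ 0)
    (hQ : PolarNondeg Q) (hcard : Fintype.card ι = 2 * d) (hc4 : Fintype.card ι ≠ 4) (hne : Nonempty ι)
    (hL : finrank F L = 2) {ρ : L →ₐ[F] Matrix ι ι F} {X' : (ι → F) ≃ₗ[F] (Fin d → L)} {c : Fin d → L}
    (hX : ∀ (a : L) v, X' (ρ a *ᵥ v) = a • X' v) (hQX : ∀ v, Q v = T (F := F) c (X' v)) (K : Key Q ρ r) (d₀ : D) {j : ℕ}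
    (hj : Odd j) (hi : i = 2 * j) (hle : i ≤ 2 * d) (hfull : i = 2 * d → ¬ Lag Q) : False := by
  classical
  have hev : Even i := ⟨j, by omega⟩
  have hstar : starD H d₀ = d₀ := Subtype.ext ((H.hstar d₀.1 d₀.2).2 hev)
  let k : D → ℕ := fun e => if e = d₀ then 1 else 0
  have hk : ∀ e, k (starD H e) = k e := by
    intro e
    have h3 : starD H e = d₀ ↔ e = d₀ := by
      constructor
      · intro h
        have := congrArg (starD H) h
        rwa [starD_starD, hstar] at this
      · rintro rfl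
        exact hstar
    simp only [k, h3]
  have hsum : ∑ e, k e = 1 := by
    rw [Finset.sum_eq_single d₀]
    · simp [k]
    · intro e _ he
      simp [k, he]
    · intro h0
      exact absurd (Finset.mem_univ _) h0
  have hk0 : k ≠ 0 := by
    intro h
    have h3 := congrFun h d₀
    simp [k] at h3
  obtain ⟨x, hxΩ, hxo, hxc⟩ := exists_x_even H hF hr hr2 hrp Q hQ hcard hc4 hne k hk hk0 (by rw [hsum, mul_one]; exact hle)
    (fun h => by
      rw [hsum, mul_one] at h
      rw [hsum]
      have h3 := hfull h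
      constructor
      · intro h4
        exact absurd h4 h3
      · rintro (h4 | h4)
        · exact absurd hev h4
        · exact absurd h4 (by decide))
  obtain ⟨y, ⟨h, hy⟩, hycomm⟩ := K x hxo
  have hxr : x ^ r = 1 := by
    rw [← hxo]
    exact pow_orderOf_eq_one x
  obtain ⟨hyr, hTr, hTc⟩ := conj_facts y x h hy hxr hxc
  have hW := finrank_ker_of_polyOf H hr hrp _ hTr hTc d₀
  have hkd : k d₀ = 1 := by simp [k]
  rw [hkd, one_mul, hi] at hW
  have hFx := finrank_Fix_of_polyOf H hr hrp _ hTr hTc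
  rw [hsum, mul_one, Cfsg.Agent.Lib.Classical.Elusive.Inv.Fix] at hFx
  have hFx' : finrank F (LinearMap.ker (aeval (Matrix.toLin' ((y : GL ι F) : Matrix ι ι F)) (Polynomial.X - 1 : F[X]))) =
      Fintype.card ι - i := by
    rw [← hFx]
    have h5 : aeval (Matrix.toLin' ((y : GL ι F) : Matrix ι ι F)) (Polynomial.X - 1 : F[X]) = Matrix.toLin' ((y : GL ι F) : Matrix ι ι F) - 1 := by
      simp
    rw [h5]
  obtain ⟨h1, h2', h3, h4⟩ := H.hD d₀.1 d₀.2
  have hcop : IsCoprime (d₀ : F[X]) (Polynomial.X - 1) := by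
    rw [h2'.coprime_iff_not_dvd]
    intro hdvd
    have h7 : Irreducible (Polynomial.X - 1 : F[X]) := by simpa using irreducible_X_sub_C (1 : F)
    have hm' : (Polynomial.X - 1 : F[X]).Monic := by simpa using monic_X_sub_C (1 : F)
    exact h4 (eq_of_monic_of_associated h1 hm' (h2'.associated_of_dvd h7 hdvd))
  exact false_of_odd_ker hq2 hQ hL hX hQX y hycomm (hr.odd_of_ne_two hr2) hyr hcop hj hW (by
    rw [hFx', Module.finrank_fintype_fun_eq_card, hcard]
    omega)

end Cfsg.Agent.Lib.Classical.Elusive.OFieldF3
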