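import Mathlib
import Cfsg.Agent.Lib.Classical.Elusive.OFieldF3
import Cfsg.Agent.S0286
import Cfsg.Agent.S0287
import Cfsg.Agent.S0288
import Cfsg.Agent.Lib.Classical.OJordan.Model

/-!
# Orthogonal groups and quadratic field extensions: the order of the orthogonal group over the field
-/

set_option autoImplicit false
set_option linter.unusedSectionVars false
set_option linter.unusedVariables false
set_option linter.unusedSimpArgs false
set_option linter.style.haveILetI false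
set_option maxHeartbeats 1000000

namespace Cfsg.Agent.Lib.Classical.Elusive.OFieldF4

open Module QuadraticMap Matrix
open Cfsg.Agent.Lib.Classical.Witt.Hyp Cfsg.Agent.Lib.Classical.OSemi.Lag
open Cfsg.Agent.Lib.Classical.Orth.Basic Cfsg.Agent.Lib.Classical.Elusive.OFieldPure
open Cfsg.Agent.Lib.Classical.Elusive.OFieldA Cfsg.Agent.Lib.Classical.Elusive.OFieldC
open Cfsg.Agent.Lib.Classical.Elusive.OFieldF1 Cfsg.Agent.Lib.Classical.Elusive.OFieldF2
open Cfsg.Agent.Lib.Linalg.Bridge Cfsg.Agent.Lib.Linalg.OrthModels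
open Cfsg.Agent.Lib.Classical.OSemi.SylowFix Cfsg.Agent.Lib.Classical.OSemi.LagFree
open Cfsg.Agent.Lib.Classical.Orth.Spinor

universe u

section Arith

theorem index_calc {G : Type*} [Group G] [Finite G] (Ω C A : Subgroup G) [Ω.Normal] (hAC : A ≤ C) {r m : ℕ}
    (hm : Ω.index = m) (hr : r ∣ C.relIndex Ω) : r * Nat.card A ∣ Nat.card G := by
  classical
  have h1 : Nat.card (C.subgroupOf Ω) * C.relIndex Ω = Nat.card Ω := Subgroup.card_mul_index (C.subgroupOf Ω)
  have h2 : Nat.card (A.subgroupOf Ω) ∣ Nat.card (C.subgroupOf Ω) :=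
    Subgroup.card_dvd_of_le (Subgroup.comap_mono hAC)
  have h3 : Nat.card (Ω.subgroupOf A) * Ω.relIndex A = Nat.card A := Subgroup.card_mul_index (Ω.subgroupOf A)
  have h4 : Ω.relIndex A ∣ Ω.index := Subgroup.relIndex_dvd_index_of_normal Ω A
  have h5 : Nat.card (Ω.subgroupOf A) = Nat.card (A.subgroupOf Ω) := by
    refine Nat.card_congr
      { toFun := fun x => ⟨⟨x.1.1, x.2⟩, x.1.2⟩
        invFun := fun x => ⟨⟨x.1.1, x.2⟩, x.1.2⟩
        left_inv := fun x => rfl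
        right_inv := fun x => rfl }
  have h6 : Nat.card Ω * Ω.index = Nat.card G := Subgroup.card_mul_index Ω
  rw [← h6, ← h3, h5, ← mul_assoc]
  apply Nat.mul_dvd_mul _ h4
  rw [← h1, mul_comm]
  exact Nat.mul_dvd_mul h2 hr

theorem prod_split_odd (q n : ℕ) : ∏ i ∈ Finset.range (2 * n), (q ^ (2 * (i + 1)) - 1) =
    (∏ j ∈ Finset.range n, ((q ^ 2) ^ (2 * (j + 1)) - 1)) * ∏ k ∈ Finset.range n, (q ^ (2 * (2 * k + 1)) - 1) := by
  induction n with
  | zero => simp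
  | succ n ih =>
    rw [show 2 * (n + 1) = 2 * n + 1 + 1 by ring, Finset.prod_range_succ, Finset.prod_range_succ, ih,
      Finset.prod_range_succ, Finset.prod_range_succ]
    rw [← pow_mul q 2 (2 * (n + 1)), show 2 * (2 * (n + 1)) = 2 * (2 * n + 1 + 1) by ring,
      show 2 * (2 * n + 1) = 2 * (2 * n + 1) from rfl]
    ring

theorem prod_split_even (q n : ℕ) : ∏ i ∈ Finset.range (2 * n + 1), (q ^ (2 * (i + 1)) - 1) =
    (∏ j ∈ Finset.range n, ((q ^ 2) ^ (2 * (j + 1)) - 1)) * ∏ k ∈ Finset.range (n + 1), (q ^ (2 * (2 * k + 1)) - 1) := by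
  rw [Finset.prod_range_succ, prod_split_odd, Finset.prod_range_succ (fun k => q ^ (2 * (2 * k + 1)) - 1)]
  ring

theorem order_dvd_of_dvd {q r N : ℕ} [Fact r.Prime] (hq : 1 ≤ q) (h : r ∣ q ^ N - 1) : orderOf (q : ZMod r) ∣ N := by
  apply orderOf_dvd_of_pow_eq_one
  have h1 : ((q ^ N - 1 : ℕ) : ZMod r) = 0 := (ZMod.natCast_eq_zero_iff _ _).2 h
  rw [Nat.cast_sub (Nat.one_le_pow _ _ hq)] at h1
  push_cast at h1
  exact sub_eq_zero.1 h1

theorem not_dvd_Od {q r : ℕ} [hr : Fact r.Prime] (hq : 1 ≤ q) (h4 : 4 ∣ orderOf (q : ZMod r)) (m : ℕ) :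
    ¬ r ∣ ∏ k ∈ Finset.range m, (q ^ (2 * (2 * k + 1)) - 1) := by
  intro h
  obtain ⟨k, -, hk⟩ := (Prime.dvd_finsetProd_iff hr.out.prime _).1 h
  have h1 := h4.trans (order_dvd_of_dvd hq hk)
  omega

theorem not_dvd_e {q r d e : ℕ} [hr : Fact r.Prime] (hq : 1 ≤ q) (h4 : 4 ∣ orderOf (q : ZMod r)) (hd : Odd d)
    (he : e = q ^ d - 1 ∨ e = q ^ d + 1) : ¬ r ∣ e := by
  intro h
  have h1 : q ^ (2 * d) - 1 = (q ^ d - 1) * (q ^ d + 1) := by
    have h5 : 1 ≤ q ^ d := Nat.one_le_pow _ _ hq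
    obtain ⟨a, ha⟩ : ∃ a, q ^ d = a + 1 := ⟨q ^ d - 1, by omega⟩
    rw [mul_comm 2 d, pow_mul, ha]
    simp only [Nat.add_sub_cancel]
    have : (a + 1) ^ 2 - 1 = (a + 1) ^ 2 - 1 := rfl
    have h6 : (a + 1) ^ 2 = a * (a + 1 + 1) + 1 := by ring
    rw [h6, Nat.add_sub_cancel]
  have h2 : r ∣ q ^ (2 * d) - 1 := by
    rw [h1]
    rcases he with rfl | rfl
    · exact h.mul_right _
    · exact h.mul_left _
  have h3 := h4.trans (order_dvd_of_dvd hq h2)
  obtain ⟨c, hc⟩ := hd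
  omega

/-- The even case. -/
theorem arith_even {q r n e B A : ℕ} [hr : Fact r.Prime] (hq : 1 ≤ q) (hr2 : r ≠ 2) (hrq : ¬ r ∣ q)
    (h4 : 4 ∣ orderOf (q : ZMod r)) (he0 : 0 < e) (hE : 0 < ∏ j ∈ Finset.range n, ((q ^ 2) ^ (2 * (j + 1)) - 1))
    (h : r * (2 * A * e * ∏ j ∈ Finset.range n, ((q ^ 2) ^ (2 * (j + 1)) - 1)) ∣
      2 * q ^ B * e * ∏ i ∈ Finset.range (2 * n + 1), (q ^ (2 * (i + 1)) - 1)) : False := by
  rw [prod_split_even] at h
  set E := ∏ j ∈ Finset.range n, ((q ^ 2) ^ (2 * (j + 1)) - 1) with hEdef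
  set O := ∏ k ∈ Finset.range (n + 1), (q ^ (2 * (2 * k + 1)) - 1) with hO
  have h1 : (r * (2 * A)) * (e * E) ∣ (2 * q ^ B * O) * (e * E) := by
    convert h using 1 <;> ring
  have h2 := Nat.dvd_of_mul_dvd_mul_right (Nat.mul_pos he0 hE) h1
  have h3 : r ∣ 2 * q ^ B * O := dvd_of_mul_right_dvd h2
  rcases (hr.out.dvd_mul).1 h3 with h5 | h5
  · rcases (hr.out.dvd_mul).1 h5 with h6 | h6
    · exact hr2 ((Nat.prime_dvd_prime_iff_eq hr.out Nat.prime_two).1 h6)
    · exact hrq (hr.out.dvd_of_dvd_pow h6)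
  · exact not_dvd_Od hq h4 _ h5

/-- The odd case. -/
theorem arith_odd {q r n d e B A : ℕ} [hr : Fact r.Prime] (hq : 1 ≤ q) (hr2 : r ≠ 2) (hrq : ¬ r ∣ q)
    (h4 : 4 ∣ orderOf (q : ZMod r)) (hd : Odd d) (he : e = q ^ d - 1 ∨ e = q ^ d + 1)
    (hE : 0 < ∏ j ∈ Finset.range n, ((q ^ 2) ^ (2 * (j + 1)) - 1))
    (h : r * (2 * A * ∏ j ∈ Finset.range n, ((q ^ 2) ^ (2 * (j + 1)) - 1)) ∣
      2 * q ^ B * e * ∏ i ∈ Finset.range (2 * n), (q ^ (2 * (i + 1)) - 1)) : False := by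
  rw [prod_split_odd] at h
  set E := ∏ j ∈ Finset.range n, ((q ^ 2) ^ (2 * (j + 1)) - 1) with hEdef
  set O := ∏ k ∈ Finset.range n, (q ^ (2 * (2 * k + 1)) - 1) with hO
  have h1 : (r * (2 * A)) * E ∣ (2 * q ^ B * e * O) * E := by
    convert h using 1 <;> ring
  have h2 := Nat.dvd_of_mul_dvd_mul_right hE h1
  have h3 : r ∣ 2 * q ^ B * e * O := dvd_of_mul_right_dvd h2
  rcases (hr.out.dvd_mul).1 h3 with h5 | h5
  · rcases (hr.out.dvd_mul).1 h5 with h5 | h5
    · rcases (hr.out.dvd_mul).1 h5 with h6 | h6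
      · exact hr2 ((Nat.prime_dvd_prime_iff_eq hr.out Nat.prime_two).1 h6)
      · exact hrq (hr.out.dvd_of_dvd_pow h6)
    · exact not_dvd_e hq h4 hd he h5
  · exact not_dvd_Od hq h4 _ h5

/-- Positivity. -/
theorem prod_pos_aux {q n : ℕ} (hq : 2 ≤ q) : 0 < ∏ j ∈ Finset.range n, ((q ^ 2) ^ (2 * (j + 1)) - 1) := by
  apply Finset.prod_pos
  intro j _
  have h1 : 1 < (q ^ 2) ^ (2 * (j + 1)) := by
    apply Nat.one_lt_pow (by omega)
    have : 4 ≤ q ^ 2 := by nlinarith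
    omega
  omega

end Arith

section Phi

variable {ι : Type} [Fintype ι] [DecidableEq ι] {F : Type u} [Field F] [Fintype F]
  {L : Type u} [Field L] [Algebra F L] [Fintype L]
  {Q : QuadraticForm F (ι → F)} {d : ℕ}
  {κ : Type} [Fintype κ] [DecidableEq κ] {QM : QuadraticForm L (κ → L)}

/-- The conjugate of an isometry of the model. -/
noncomputable def Yg (ψ : (Fin d → L) ≃ₗ[L] (κ → L)) (g : ↥(Cfsg.isometryGroup L ⇑QM)) : (Fin d → L) ≃ₗ[L] (Fin d → L) :=
  ψ.trans ((equivOfGL (g : GL κ L)).trans ψ.symm)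

theorem Yg_apply (ψ : (Fin d → L) ≃ₗ[L] (κ → L)) (g : ↥(Cfsg.isometryGroup L ⇑QM)) (t : Fin d → L) :
    Yg ψ g t = ψ.symm (act g (ψ t)) := rfl

theorem T_Yg {c : Fin d → L} {ψ : (Fin d → L) ≃ₗ[L] (κ → L)} {s : L} (hψ : ∀ t, ∑ j, c j * (t j * t j) = s * QM (ψ t))
    (g : ↥(Cfsg.isometryGroup L ⇑QM)) (t : Fin d → L) :
    T (F := F) c (((Yg ψ g).restrictScalars F) t) = T (F := F) c t := by
  rw [T_apply, T_apply, hψ, hψ]
  show Algebra.trace F L (s * QM (ψ (Yg ψ g t))) = _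
  rw [Yg_apply, LinearEquiv.apply_symm_apply, Q_act]

/-- The homomorphism. -/
noncomputable def Phi {X : (ι → F) ≃ₗ[F] (Fin d → L)} {c : Fin d → L} (hQX : ∀ v, Q v = T (F := F) c (X v))
    {ψ : (Fin d → L) ≃ₗ[L] (κ → L)} {s : L} (hψ : ∀ t, ∑ j, c j * (t j * t j) = s * QM (ψ t)) :
    ↥(Cfsg.isometryGroup L ⇑QM) →* ↥(Cfsg.isometryGroup F ⇑Q) :=
  MonoidHom.mk' (fun g => isoOf X c hQX ((Yg ψ g).restrictScalars F) (T_Yg hψ g)) (by
    intro g h
    apply ext_act
    intro v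
    rw [act_mul, act_isoOf, act_isoOf, act_isoOf, LinearEquiv.apply_symm_apply]
    show X.symm (Yg ψ (g * h) (X v)) = X.symm (Yg ψ g (Yg ψ h (X v)))
    rw [Yg_apply, Yg_apply, Yg_apply, LinearEquiv.apply_symm_apply, act_mul])

theorem Phi_act {X : (ι → F) ≃ₗ[F] (Fin d → L)} {c : Fin d → L} (hQX : ∀ v, Q v = T (F := F) c (X v))
    {ψ : (Fin d → L) ≃ₗ[L] (κ → L)} {s : L} (hψ : ∀ t, ∑ j, c j * (t j * t j) = s * QM (ψ t))
    (g : ↥(Cfsg.isometryGroup L ⇑QM)) (v : ι → F) :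
    act (Phi hQX hψ g) v = X.symm (ψ.symm (act g (ψ (X v)))) :=
  act_isoOf hQX ((Yg ψ g).restrictScalars F) (T_Yg hψ g) v

theorem Phi_inj {X : (ι → F) ≃ₗ[F] (Fin d → L)} {c : Fin d → L} (hQX : ∀ v, Q v = T (F := F) c (X v))
    {ψ : (Fin d → L) ≃ₗ[L] (κ → L)} {s : L} (hψ : ∀ t, ∑ j, c j * (t j * t j) = s * QM (ψ t)) :
    Function.Injective (Phi hQX hψ) := by
  intro g h hgh
  apply ext_act
  intro v
  have h1 := congrArg (fun z => act z (X.symm (ψ.symm v))) hgh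
  simp only [Phi_act, LinearEquiv.apply_symm_apply] at h1
  exact ψ.symm.injective (X.symm.injective h1)

/-- The divisibility. -/
theorem card_dvd [Nonempty ι] (h2 : (2 : F) ≠ 0) (hQ : PolarNondeg Q) (hcard2 : 2 ≤ Fintype.card ι)
    {K : Subalgebra F (Matrix ι ι F)} {ρ : L →ₐ[F] Matrix ι ι F} (hmem : ∀ m, m ∈ K ↔ ∃ a, ρ a = m)
    {X : (ι → F) ≃ₗ[F] (Fin d → L)} {c : Fin d → L} (hX : ∀ (a : L) v, X (ρ a *ᵥ v) = a • X v)
    (hQX : ∀ v, Q v = T (F := F) c (X v))
    {ψ : (Fin d → L) ≃ₗ[L] (κ → L)} {s : L} (hψ : ∀ t, ∑ j, c j * (t j * t j) = s * QM (ψ t)) {r : ℕ}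
    (hr : r ∣ (Cfsg.Geo.subalgebraNormalizer K).relIndex (Cfsg.Geo.omegaGL (⇑Q))) :
    r * Nat.card ↥(Cfsg.isometryGroup L ⇑QM) ∣ Nat.card ↥(Cfsg.isometryGroup F ⇑Q) := by
  classical
  let f := (Cfsg.isometryGroup F ⇑Q).subtype
  let C : Subgroup ↥(Cfsg.isometryGroup F ⇑Q) := (Cfsg.Geo.subalgebraNormalizer K).comap f
  let A : Subgroup ↥(Cfsg.isometryGroup F ⇑Q) := (Phi hQX hψ).range
  have hAC : A ≤ C := by
    rintro _ ⟨g, rfl⟩
    exact isoOf_mem hmem hX hQX _ (T_Yg hψ g) AlgEquiv.refl (fun a t => map_smul (Yg ψ g) a t)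
  have hrel : r ∣ C.relIndex (Cfsg.Omega F ⇑Q) := by
    rw [Subgroup.relIndex_comap]
    exact hr
  have hcardA : Nat.card A = Nat.card ↥(Cfsg.isometryGroup L ⇑QM) :=
    (Nat.card_congr (MonoidHom.ofInjective (Phi_inj hQX hψ)).toEquiv).symm
  haveI hnorm : (Cfsg.Omega F ⇑Q).Normal := by
    unfold Cfsg.Omega
    infer_instance
  have h3 := index_calc (Cfsg.Omega F ⇑Q) C A hAC (m := 4) (omega_index Q (nondeg_of_polarNondeg Q hQ) h2 hcard2) hrel
  rwa [hcardA] at h3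

end Phi

section Type'

variable {F : Type u} [Field F] [Fintype F] {L : Type u} [Field L] [Algebra F L] [Fintype L] {d : ℕ}

theorem polarNondeg_wss (h2L : (2 : L) ≠ 0) {c : Fin d → L} (hc : ∀ j, c j ≠ 0) : PolarNondeg (weightedSumSquares L c) := by
  classical
  intro s hs
  funext j
  have h3 := hs (Pi.single j 1)
  rw [polar_wss, Finset.sum_eq_single j] at h3
  · simp only [Pi.single_eq_same, mul_one] at h3
    exact (mul_eq_zero.1 h3).resolve_left (mul_ne_zero h2L (hc j))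
  · intro k _ hk
    simp [Pi.single_apply, hk]
  · intro h0
    exact absurd (Finset.mem_univ j) h0

/-- The types of the forms over the two fields. -/
theorem lag_wss (h2 : (2 : F) ≠ 0) (hL : finrank F L = 2) {c : Fin d → L} (hc : ∀ j, c j ≠ 0) {n : ℕ} (hd : d = 2 * n) :
    Lag (weightedSumSquares L c) ↔ Lag (T (F := F) c) := by
  classical
  have h2L : (2 : L) ≠ 0 := two_ne_zero_L h2
  obtain ⟨ω, hω0, hωt⟩ := exists_omega (F := F) (L := L) hL
  rw [lag_T h2 hL hω0 hωt c hc]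
  have hn : finrank L (Fin d → L) = 2 * n := by
    rw [Module.finrank_fintype_fun_eq_card, Fintype.card_fin, hd]
  rw [lag_iff_disc h2L (polarNondeg_wss h2L hc) hn (Pi.basisFun L (Fin d))]
  have hG : (Matrix.of fun i j => polar (weightedSumSquares L c) (Pi.basisFun L (Fin d) i) (Pi.basisFun L (Fin d) j)) =
      Matrix.diagonal (fun j => 2 * c j) := by
    ext i j
    rw [Matrix.of_apply, polar_wss, Matrix.diagonal_apply, Finset.sum_eq_single i]
    · by_cases h : i = j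
      · subst h
        simp
      · simp [h, Pi.single_apply]
    · intro k _ hk
      simp [Pi.single_apply, hk]
    · intro h0
      exact absurd (Finset.mem_univ i) h0
  rw [hG, Matrix.det_diagonal, Finset.prod_mul_distrib, Finset.prod_const, Finset.card_univ, Fintype.card_fin]
  set D := ∏ j, c j with hD
  have hD0 : D ≠ 0 := Finset.prod_ne_zero_iff.2 fun j _ => hc j
  have hs1 : IsSquare ((-1 : L) ^ n * (2 : L) ^ d) := by
    apply IsSquare.mul
    · apply IsSquare.pow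
      have := isSquare_algebraMap (F := F) (L := L) h2 hL (-1)
      simpa using this
    · subst hd
      exact ⟨2 ^ n, by ring⟩
  have hs2 : IsSquare (ω ^ d) := by
    subst hd
    exact ⟨ω ^ n, by ring⟩
  have h10 : ((-1 : L) ^ n * (2 : L) ^ d) ≠ 0 := by
    apply mul_ne_zero
    · exact pow_ne_zero _ (by simp)
    · exact pow_ne_zero _ h2L
  have h3 := isSquare_mul_iff h2L h10 hD0
  have h4 := isSquare_mul_iff h2L (pow_ne_zero d hω0) hD0
  rw [← mul_assoc]
  constructor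
  · intro h
    exact h4.2 (iff_of_true hs2 ((h3.1 h).1 hs1))
  · intro h
    exact h3.2 (iff_of_true hs1 ((h4.1 h).1 hs2))

end Type'

section Main

variable {ι : Type} [Fintype ι] [DecidableEq ι] {F : Type u} [Field F] [Fintype F]
  {L : Type u} [Field L] [Algebra F L] [Fintype L]
  {Q : QuadraticForm F (ι → F)} {d : ℕ}

/-- The contradiction when `4` divides the order of `q` modulo `r`. -/
theorem false_of_four_dvd [Nonempty ι] (h2 : (2 : F) ≠ 0) (hQ : PolarNondeg Q) (hcard : Fintype.card ι = 2 * d) (hd4 : 4 ≤ d)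
    (hL : finrank F L = 2) {K : Subalgebra F (Matrix ι ι F)} {ρ : L →ₐ[F] Matrix ι ι F}
    (hmem : ∀ m, m ∈ K ↔ ∃ a, ρ a = m)
    {X : (ι → F) ≃ₗ[F] (Fin d → L)} {c : Fin d → L} (hc : ∀ j, c j ≠ 0) (hX : ∀ (a : L) v, X (ρ a *ᵥ v) = a • X v)
    (hQX : ∀ v, Q v = T (F := F) c (X v))
    {q r e : ℕ} [hr : Fact r.Prime] (hF : Fintype.card F = q) (hodd : Odd q) (hr2 : r ≠ 2) (hrq : ¬ r ∣ q)
    (h4 : 4 ∣ orderOf (q : ZMod r))
    (he : (Lag Q ∧ e = q ^ d - 1) ∨ (¬ Lag Q ∧ e = q ^ d + 1))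
    (hO : Nat.card ↥(Cfsg.isometryGroup F ⇑Q) = 2 * q ^ (d * (d - 1)) * e * ∏ i ∈ Finset.range (d - 1), (q ^ (2 * (i + 1)) - 1))
    (hri : r ∣ (Cfsg.Geo.subalgebraNormalizer K).relIndex (Cfsg.Geo.omegaGL (⇑Q))) : False := by
  classical
  haveI : FiniteDimensional F L := Module.Finite.of_finite
  have h2L : (2 : L) ≠ 0 := two_ne_zero_L h2
  have hcardL : Fintype.card L = q ^ 2 := by
    rw [← hF, ← hL]
    exact Module.card_eq_pow_finrank
  have hq3 : 3 ≤ q := by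
    obtain ⟨k, hk⟩ := hodd
    have : 1 < Fintype.card F := Fintype.one_lt_card
    omega
  have hq1 : 1 ≤ q := by omega
  have hcard2 : 2 ≤ Fintype.card ι := by omega
  have hQLn := polarNondeg_wss h2L hc
  have hLagT : Lag Q ↔ Lag (T (F := F) c) := lag_congr_iff X (fun v => (hQX v).symm)
  have hdimL : finrank L (Fin d → L) = d := by
    rw [Module.finrank_fintype_fun_eq_card, Fintype.card_fin]
  have hwss : ∀ t : Fin d → L, ∑ j, c j * (t j * t j) = weightedSumSquares L c t := by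
    intro t
    rw [weightedSumSquares_apply]
    simp only [smul_eq_mul]
  rcases Nat.even_or_odd' d with ⟨n, hn | hn⟩
  · -- even dimension
    have hn1 : 1 ≤ n := by omega
    obtain ⟨n', rfl⟩ : ∃ n', n = n' + 1 := ⟨n - 1, by omega⟩
    have hLL := (lag_wss h2 hL hc hn).trans hLagT.symm
    have hdd : d - 1 = 2 * n' + 1 := by omega
    rw [hdd] at hO
    have hE := prod_pos_aux (q := q) (n := n') (by omega)
    by_cases hLag : Lag Q
    · have he' : e = q ^ d - 1 := by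
        rcases he with h | h
        · exact h.2
        · exact absurd hLag h.1
      obtain ⟨g, hg⟩ := (lag_iff_exists_plus hQLn (w := n' + 1) (by omega) (by rw [hdimL, hn])).1 (hLL.2 hLag)
      have hψ : ∀ t : Fin d → L, ∑ j, c j * (t j * t j) = 1 * plusQ (n' + 1) L (g t) := by
        intro t
        rw [hwss, one_mul, hg]
      have h5 := card_dvd h2 hQ hcard2 hmem hX hQX hψ hri
      rw [hO] at h5
      have h6 := Cfsg.Agent.S0287.result hcardL (n' + 1) (by omega)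
      have h7 : Nat.card ↥(Cfsg.isometryGroup L ⇑(plusQ (n' + 1) L)) = _ := h6
      rw [h7] at h5
      have he0 : 0 < e := by
        rw [he']
        have : 1 < q ^ d := Nat.one_lt_pow (by omega) (by omega)
        omega
      have he'' : (q ^ 2) ^ (n' + 1) - 1 = e := by
        rw [he', hn, pow_mul]
      rw [Nat.add_sub_cancel, he''] at h5
      exact arith_even hq1 hr2 hrq h4 he0 hE h5
    · have he' : e = q ^ d + 1 := by
        rcases he with h | h
        · exact absurd h.1 hLag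
        · exact h.2
      obtain ⟨ζ, hζ⟩ := Cfsg.Agent.Lib.Classical.GraphAut.Models.exists_no_root (F := L)
      have hac := anisotropic_no_root hζ
      have hdimM : finrank L ((Fin n' ⊕ Fin n') ⊕ Fin 2 → L) = 2 * (n' + 1) := by
        rw [Module.finrank_fintype_fun_eq_card]
        simp [Fintype.card_sum]
        ring
      obtain ⟨g, hg⟩ := exists_equiv_of_type hQLn (polarNondeg_minusQ n' hac) (w := n' + 1) (by omega) (by rw [hdimL, hn]) hdimM
        ⟨fun h => absurd (hLL.1 h) hLag, fun h => absurd h (not_lag_minusQ n' hac)⟩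
      have hψ : ∀ t : Fin d → L, ∑ j, c j * (t j * t j) = 1 * minusQ n' L 1 ζ (g t) := by
        intro t
        rw [hwss, one_mul, hg]
      have h5 := card_dvd h2 hQ hcard2 hmem hX hQX hψ hri
      rw [hO] at h5
      have h6 := Cfsg.Agent.S0288.result hcardL (n' + 1) (by omega) 1 ζ hac
      have h7 : Nat.card ↥(Cfsg.isometryGroup L ⇑(minusQ n' L 1 ζ)) = _ := h6
      rw [h7] at h5
      have he0 : 0 < e := by
        rw [he']
        omega
      have he'' : (q ^ 2) ^ (n' + 1) + 1 = e := by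
        rw [he', hn, pow_mul]
      rw [Nat.add_sub_cancel, he''] at h5
      exact arith_even hq1 hr2 hrq h4 he0 hE h5
  · -- odd dimension
    have hdim' : finrank L (Fin d → L) = 2 * n + 1 := by rw [hdimL, hn]
    have hdimM : finrank L (Unit ⊕ (Fin n ⊕ Fin n) → L) = 2 * n + 1 := by
      rw [Module.finrank_fintype_fun_eq_card]
      simp [Fintype.card_sum]
      ring
    obtain ⟨ψ, s, hψs⟩ := Cfsg.Agent.Lib.Classical.OJordan.Model.exists_similitude hdim' hdimM (weightedSumSquares L c) (oddQ n L)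
      (nondeg_of_polarNondeg _ hQLn) (nondeg_of_polarNondeg _ (polarNondeg_oddQ n h2L))
    have hψ : ∀ t : Fin d → L, ∑ j, c j * (t j * t j) = s * oddQ n L (ψ t) := by
      intro t
      rw [hwss, hψs]
    have h5 := card_dvd h2 hQ hcard2 hmem hX hQX hψ hri
    rw [hO] at h5
    have h6 := Cfsg.Agent.S0286.result hcardL hodd.pow n
    have h7 : Nat.card ↥(Cfsg.isometryGroup L ⇑(oddQ n L)) = _ := h6
    rw [h7] at h5
    have hdd : d - 1 = 2 * n := by omega
    rw [hdd] at h5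
    have hE := prod_pos_aux (q := q) (n := n) (by omega)
    have he2 : e = q ^ d - 1 ∨ e = q ^ d + 1 := by
      rcases he with h | h
      · exact Or.inl h.2
      · exact Or.inr h.2
    exact arith_odd hq1 hr2 hrq h4 (⟨n, hn⟩ : Odd d) he2 hE h5

end Main

end Cfsg.Agent.Lib.Classical.Elusive.OFieldF4
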