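import Mathlib
import Cfsg.Agent.Lib.Classical.Elusive.OFieldF4
import Cfsg.Agent.Lib.Classical.OSemi.OddForm

/-!
# Orthogonal groups and quadratic field extensions: the main theorem
-/

set_option autoImplicit false
set_option linter.unusedSectionVars false
set_option linter.unusedVariables false
set_option linter.unusedSimpArgs false
set_option linter.style.haveILetI false
set_option maxHeartbeats 1000000

namespace Cfsg.Agent.Lib.Classical.Elusive.OFieldMain

open Module QuadraticMap Matrix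
open Cfsg.Agent.Lib.Classical.Witt.Hyp Cfsg.Agent.Lib.Classical.OSemi.Lag
open Cfsg.Agent.Lib.Classical.Orth.Basic Cfsg.Agent.Lib.Classical.Elusive.OFieldPure
open Cfsg.Agent.Lib.Classical.Elusive.OFieldA Cfsg.Agent.Lib.Classical.Elusive.OFieldC
open Cfsg.Agent.Lib.Classical.Elusive.OFieldF1 Cfsg.Agent.Lib.Classical.Elusive.OFieldF2
open Cfsg.Agent.Lib.Classical.Elusive.OFieldF3 Cfsg.Agent.Lib.Classical.Elusive.OFieldF4

universe u

/-- The numerical consequences of divisibility of the group order. -/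
theorem arith_facts {q r d e B : ℕ} [hr : Fact r.Prime] (hq1 : 1 ≤ q) (hr2 : r ≠ 2) (hrq : ¬ r ∣ q) {P : Prop}
    (hdvd : r ∣ 2 * q ^ B * e * ∏ i ∈ Finset.range (d - 1), (q ^ (2 * (i + 1)) - 1))
    (he : (P ∧ e = q ^ d - 1) ∨ (¬ P ∧ e = q ^ d + 1)) :
    (∃ l, 1 ≤ l ∧ l < d ∧ orderOf (q : ZMod r) ∣ 2 * l) ∨ (P ∧ orderOf (q : ZMod r) ∣ d) ∨
      (¬ P ∧ orderOf (q : ZMod r) ∣ 2 * d ∧ ¬ orderOf (q : ZMod r) ∣ d) := by
  have hrp := hr.out
  rcases (hrp.dvd_mul).1 hdvd with h5 | h5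
  · rcases (hrp.dvd_mul).1 h5 with h5 | h5
    · rcases (hrp.dvd_mul).1 h5 with h6 | h6
      · exact absurd ((Nat.prime_dvd_prime_iff_eq hrp Nat.prime_two).1 h6) hr2
      · exact absurd (hrp.dvd_of_dvd_pow h6) hrq
    · rcases he with ⟨hP, rfl⟩ | ⟨hP, rfl⟩
      · exact Or.inr (Or.inl ⟨hP, order_dvd_of_dvd hq1 h5⟩)
      · refine Or.inr (Or.inr ⟨hP, ?_, fun hd => ?_⟩)
        · apply orderOf_dvd_of_pow_eq_one
          have h1 : ((q ^ d + 1 : ℕ) : ZMod r) = 0 := (ZMod.natCast_eq_zero_iff _ _).2 h5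
          push_cast at h1
          have h2 : (q : ZMod r) ^ d = -1 := eq_neg_of_add_eq_zero_left h1
          rw [mul_comm, pow_mul, h2]
          ring
        · have h1 : ((q ^ d + 1 : ℕ) : ZMod r) = 0 := (ZMod.natCast_eq_zero_iff _ _).2 h5
          push_cast at h1
          have h2 : (q : ZMod r) ^ d = 1 := orderOf_dvd_iff_pow_eq_one.1 hd
          rw [h2] at h1
          have h3 : ((2 : ℕ) : ZMod r) = 0 := by
            push_cast
            linear_combination h1
          have h4 := (ZMod.natCast_eq_zero_iff _ _).1 h3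
          exact hr2 ((Nat.prime_dvd_prime_iff_eq hrp Nat.prime_two).1 h4)
  · obtain ⟨j, hj, hk⟩ := (Prime.dvd_finsetProd_iff hrp.prime _).1 h5
    have hj' := Finset.mem_range.1 hj
    exact Or.inl ⟨j + 1, by omega, by omega, order_dvd_of_dvd hq1 hk⟩

/-- The main theorem. -/
theorem main_iff {ι : Type} [Fintype ι] [DecidableEq ι] {F : Type u} [Field F] [Fintype F] {p : ℕ} [Fact p.Prime] [CharP F p]
    {q : ℕ} (hq : Fintype.card F = q) (hodd : Odd q) {Q : QuadraticForm F (ι → F)} (hQ : PolarNondeg Q) {d : ℕ} (hd : 4 ≤ d)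
    (hcard : Fintype.card ι = 2 * d) {e : ℕ} (he : (Lag Q ∧ e = q ^ d - 1) ∨ (¬ Lag Q ∧ e = q ^ d + 1))
    (hO : Nat.card ↥(Cfsg.isometryGroup F ⇑Q) = 2 * q ^ (d * (d - 1)) * e * ∏ i ∈ Finset.range (d - 1), (q ^ (2 * (i + 1)) - 1))
    {K : Subalgebra F (Matrix ι ι F)} (hK : Cfsg.Geo.IsFieldSubalgebra 2 K) (hKf : Cfsg.Geo.IsSelfAdjointFor (polar (⇑Q)) K)
    (r : ℕ) [hr : Fact r.Prime] (hΩ : r ∣ (Cfsg.Geo.subalgebraNormalizer K).relIndex (Cfsg.Geo.omegaGL (⇑Q))) :
    (∀ x ∈ Cfsg.Geo.omegaGL (⇑Q), (∃ z : F, ((x ^ r : GL ι F) : Matrix ι ι F) = z • (1 : Matrix ι ι F)) →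
      (∀ z : F, (x : Matrix ι ι F) ≠ z • (1 : Matrix ι ι F)) →
      ∃ g ∈ Cfsg.Geo.omegaGL (⇑Q), g⁻¹ * x * g ∈ Cfsg.Geo.subalgebraNormalizer K) ↔ r = 2 := by
  classical
  haveI hne : Nonempty ι := by
    rw [← Fintype.card_pos_iff]
    omega
  have h2 : (2 : F) ≠ 0 := by
    intro h
    have h3 : ringChar F ∣ 2 := ringChar.dvd (by exact_mod_cast h)
    have h4 : ringChar F = 2 := by
      rcases (Nat.dvd_prime Nat.prime_two).1 h3 with h5 | h5
      · exact absurd h5 (CharP.ringChar_ne_one)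
      · exact h5
    have h5 := FiniteField.even_card_iff_char_two.1 h4
    rw [hq] at h5
    obtain ⟨k, hk⟩ := hodd
    omega
  constructor
  · intro H
    by_contra hr2
    obtain ⟨L, _, _, _, ρ, hmem, hL⟩ := exists_fieldModel hK
    have hS : ∀ (a : L) u v, polar (⇑Q) (ρ a *ᵥ u) v = polar (⇑Q) u (ρ a *ᵥ v) :=
      fun a u v => hKf (ρ a) ((hmem _).2 ⟨a, rfl⟩) u v
    obtain ⟨X, c, hc, hX, hQX⟩ := exists_package h2 hQ hcard hL ρ hS
    have hc4 : Fintype.card ι ≠ 4 := by omega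
    have key : Key Q ρ r := key_of p hQ hc4 hL hmem hr2 H
    by_cases hrp : r = p
    · subst hrp
      exact false_of_key_p h2 hQ hcard (by omega) hL ρ key
    obtain ⟨i, hi⟩ : ∃ i, i = orderOf (q : ZMod r) := ⟨_, rfl⟩
    obtain ⟨t, D, ⟨Hd⟩, ht, ht0, hi0⟩ :=
      Cfsg.Agent.Lib.Classical.OSemi.OddForm.exists_setup (F := F) (p := p) (r := r) hq hr2 hrp hi
    have hrq : ¬ r ∣ q := by
      intro h
      exact Cfsg.Agent.Lib.Classical.OSemi.OddForm.q_ne_zero (F := F) (p := p) (r := r) hq hrp ((ZMod.natCast_eq_zero_iff _ _).2 h)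
    have hq3 : 3 ≤ q := by
      obtain ⟨k, hk⟩ := hodd
      have : 1 < Fintype.card F := Fintype.one_lt_card
      omega
    have hq1 : 1 ≤ q := by omega
    have hD : 0 < D.card := by
      rw [Hd.hcard]
      exact ht0
    obtain ⟨d₁, hd₁⟩ := Finset.card_pos.1 hD
    let d₀ : D := ⟨d₁, hd₁⟩
    have hdvdO : r ∣ Nat.card ↥(Cfsg.isometryGroup F ⇑Q) := by
      have h3 : Nat.card ↥(Cfsg.Geo.omegaGL (⇑Q)) ∣ Nat.card ↥(Cfsg.isometryGroup F ⇑Q) :=
        Subgroup.card_dvd_of_le (Subgroup.map_subtype_le _)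
      exact (hΩ.trans (Subgroup.relIndex_dvd_card _ _)).trans h3
    rw [hO] at hdvdO
    have hfacts := arith_facts hq1 hr2 hrq hdvdO he
    rw [← hi] at hfacts
    have hrP : r.Prime := hr.out
    rcases Nat.even_or_odd i with hev | hodd'
    · -- `i` is even
      obtain ⟨j, hj⟩ := hev
      rcases Nat.even_or_odd j with hj2 | hj2
      · apply false_of_four_dvd h2 hQ hcard hd hL hmem hc hX hQX hq hodd hr2 hrq _ he hO hΩ
        rw [← hi]
        obtain ⟨j', hj'⟩ := hj2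
        exact ⟨j', by omega⟩
      · refine false_of_even_i (p := p) Hd hq hrP hr2 hrp h2 hQ hcard hc4 hne hL hX hQX key d₀ hj2 (by omega) ?_ ?_
        · rcases hfacts with ⟨l, hl1, hl, h5⟩ | ⟨-, h5⟩ | ⟨-, h5, -⟩
          · have := Nat.le_of_dvd (by omega) h5
            omega
          · have := Nat.le_of_dvd (by omega) h5
            omega
          · exact Nat.le_of_dvd (by omega) h5
        · intro hi2
          rcases hfacts with ⟨l, hl1, hl, h5⟩ | ⟨-, h5⟩ | ⟨h6, h5, -⟩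
          · have := Nat.le_of_dvd (by omega) h5
            omega
          · have := Nat.le_of_dvd (by omega) h5
            omega
          · exact h6
    · -- `i` is odd
      have hcop : Nat.Coprime i 2 := Nat.coprime_two_right.2 hodd'
      refine false_of_odd_i (p := p) Hd hq hrP hr2 hrp hQ hcard hc4 hne hL hX key d₀ (Nat.not_even_iff_odd.2 hodd') ?_ ?_
      · rcases hfacts with ⟨l, hl1, hl, h5⟩ | ⟨-, h5⟩ | ⟨-, h5, h6⟩
        · have h7 := hcop.dvd_of_dvd_mul_left h5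
          have := Nat.le_of_dvd (by omega) h7
          omega
        · have := Nat.le_of_dvd (by omega) h5
          omega
        · exact absurd (hcop.dvd_of_dvd_mul_left h5) h6
      · intro hi2
        rcases hfacts with ⟨l, hl1, hl, h5⟩ | ⟨h6, h5⟩ | ⟨-, h5, h6⟩
        · have h7 := hcop.dvd_of_dvd_mul_left h5
          have := Nat.le_of_dvd (by omega) h7
          omega
        · exact h6
        · exact absurd (hcop.dvd_of_dvd_mul_left h5) h6
  · rintro rfl x hx hz hns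
    exact backward h2 hQ hcard (by omega) hK hKf x hx hz hns

end Cfsg.Agent.Lib.Classical.Elusive.OFieldMain
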