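import Mathlib
import Cfsg.Agent.Lib.Classical.Elusive.PslNum
import Cfsg.Agent.Lib.Classical.Herm.PGLCount

/-!
# Models: an endomorphism acting as a root of an irreducible polynomial plus a trivial part
-/

set_option autoImplicit false
set_option linter.unusedSectionVars false
set_option linter.unusedSimpArgs false
set_option linter.unusedVariables false
set_option linter.style.haveILetI false

namespace Cfsg.Agent.Lib.Classical.Elusive.PslModel

open Polynomial Module
open Cfsg.Agent.Lib.Classical.Elusive.Inv Cfsg.Agent.Lib.Classical.Elusive.PslNum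

section Model

variable {F : Type*} [Field F]

theorem exists_model {d : F[X]} (hm : d.Monic) (hirr : Irreducible d) (hne : d ≠ X - 1)
    {a t n : ℕ} (hn : n = a + t * d.natDegree) {r : ℕ} {c : F} (hd : d ∣ X ^ r - C c) (hac : a ≠ 0 → c = 1) :
    ∃ T : Module.End F (Fin n → F), T ^ r = c • 1 ∧ finrank F (Fix T) ≤ a := by
  classical
  haveI : Fact (Irreducible d) := ⟨hirr⟩
  let K := AdjoinRoot d
  let θ : K := AdjoinRoot.root d
  have hθd : aeval θ d = 0 := by
    rw [AdjoinRoot.aeval_eq, AdjoinRoot.mk_self]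
  have hθr : θ ^ r = algebraMap F K c := by
    obtain ⟨e, he⟩ := hd
    have h1 := congrArg (aeval θ) he
    rw [map_mul, hθd, zero_mul, map_sub, map_pow, aeval_X, aeval_C, sub_eq_zero] at h1
    exact h1
  have hθ1 : θ ≠ 1 := by
    intro h
    have h1 : aeval (algebraMap F K 1) d = 0 := by
      rw [map_one, ← h]
      exact hθd
    rw [aeval_algebraMap_apply] at h1
    have h2 : aeval (1 : F) d = 0 := by
      apply (algebraMap F K).injective
      rw [h1, map_zero]
    rw [coe_aeval_eq_eval] at h2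
    have h3 : (X - C (1 : F)) ∣ d := dvd_iff_isRoot.2 h2
    have h4 : Irreducible (X - C (1 : F)) := irreducible_X_sub_C 1
    have h5 := h4.associated_of_dvd hirr h3
    apply hne
    have h6 := eq_of_monic_of_associated (monic_X_sub_C 1) hm h5
    rw [← h6, C_1]
  haveI : Module.Finite F K := (AdjoinRoot.powerBasis hirr.ne_zero).finite
  have hKdim : finrank F K = d.natDegree := by
    rw [(AdjoinRoot.powerBasis hirr.ne_zero).finrank, AdjoinRoot.powerBasis_dim]
  let L : Module.End F (Fin t → K) := Algebra.lsmul F F (Fin t → K) θ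
  have hL : ∀ w, L w = θ • w := fun w => rfl
  let y : Module.End F ((Fin a → F) × (Fin t → K)) := LinearMap.prodMap LinearMap.id L
  have hy1 : ∀ u w, y (u, w) = (u, θ • w) := fun u w => rfl
  have hy : ∀ (k : ℕ) u w, (y ^ k) (u, w) = (u, θ ^ k • w) := by
    intro k
    induction k with
    | zero => intro u w; simp
    | succ k ih =>
      intro u w
      rw [pow_succ, Module.End.mul_apply, hy1, ih, pow_succ, mul_smul]
  have hfin : finrank F ((Fin a → F) × (Fin t → K)) = finrank F (Fin n → F) := by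
    rw [Module.finrank_prod, finrank_fin_fun, finrank_fin_fun, hn]
    rw [Module.finrank_pi_fintype]
    simp [hKdim]
  let e := LinearEquiv.ofFinrankEq ((Fin a → F) × (Fin t → K)) (Fin n → F) hfin
  let T : Module.End F (Fin n → F) := e.conj y
  have hT : ∀ v, T v = e (y (e.symm v)) := fun v => rfl
  have hTk : ∀ (k : ℕ) v, (T ^ k) v = e ((y ^ k) (e.symm v)) := by
    intro k
    induction k with
    | zero => intro v; simp
    | succ k ih =>
      intro v
      rw [pow_succ, Module.End.mul_apply, hT, ih, LinearEquiv.symm_apply_apply, pow_succ, Module.End.mul_apply]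
  refine ⟨T, ?_, ?_⟩
  · apply LinearMap.ext
    intro v
    rw [hTk]
    have h1 : (y ^ r) (e.symm v) = c • e.symm v := by
      obtain ⟨u, w, huw⟩ : ∃ u w, e.symm v = (u, w) := ⟨_, _, rfl⟩
      rw [huw, hy, hθr, algebraMap_smul]
      by_cases ha : a = 0
      · subst ha
        apply Prod.ext
        · exact Subsingleton.elim _ _
        · simp
      · rw [hac ha]
        simp
    rw [h1, map_smul, LinearEquiv.apply_symm_apply]
    rfl
  · have h1 : (Fix T).map (e.symm : (Fin n → F) →ₗ[F] _) ≤ LinearMap.range (LinearMap.inl F (Fin a → F) (Fin t → K)) := by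
      rintro _ ⟨v, hv, rfl⟩
      have hv' : T v = v := mem_Fix.1 hv
      rw [hT] at hv'
      have h2 : y (e.symm v) = e.symm v := by
        apply e.injective
        rw [hv', LinearEquiv.apply_symm_apply]
      obtain ⟨u, w, huw⟩ : ∃ u w, e.symm v = (u, w) := ⟨_, _, rfl⟩
      change e.symm v ∈ _
      rw [huw] at h2 ⊢
      rw [hy1] at h2
      have h3 : θ • w = w := congrArg Prod.snd h2
      have h4 : (θ - 1) • w = 0 := by
        rw [sub_smul, h3, one_smul, sub_self]
      have h5 : w = 0 := (smul_eq_zero.1 h4).resolve_left (sub_ne_zero.2 hθ1)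
      rw [h5]
      exact ⟨u, rfl⟩
    have h2 := Submodule.finrank_mono h1
    rw [LinearEquiv.finrank_map_eq, LinearMap.finrank_range_of_inj LinearMap.inl_injective, finrank_fin_fun] at h2
    exact h2

end Model

section SL

variable {F : Type*} [Field F]
variable {n : ℕ}

/-- Passing from an endomorphism to an element of the special linear group. -/
theorem lhs_apply {r : ℕ} {P : Module.End F (Fin n → F) → Prop}
    (h : ∀ x : Matrix.SpecialLinearGroup (Fin n) F,
      (∃ c : F, ((x ^ r : Matrix.SpecialLinearGroup (Fin n) F) : Matrix (Fin n) (Fin n) F) = c • (1 : Matrix (Fin n) (Fin n) F)) →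
      (∀ c : F, (x : Matrix (Fin n) (Fin n) F) ≠ c • (1 : Matrix (Fin n) (Fin n) F)) →
      P (Matrix.toLin' (x : Matrix (Fin n) (Fin n) F)))
    (T : Module.End F (Fin n → F)) {c : F} (hT : T ^ r = c • 1) (hdet : LinearMap.det T = 1)
    (hns : ∀ z : F, T ≠ z • 1) : P T := by
  let x : Matrix.SpecialLinearGroup (Fin n) F := ⟨LinearMap.toMatrix' T, by rw [LinearMap.det_toMatrix', hdet]⟩
  have hx : Matrix.toLin' (x : Matrix (Fin n) (Fin n) F) = T := Matrix.toLin'_toMatrix' T
  have h1 := h x ⟨c, by
    rw [Matrix.SpecialLinearGroup.coe_pow]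
    apply Matrix.toLin'.injective
    rw [Matrix.toLin'_pow, hx, hT, map_smul, Matrix.toLin'_one]
    rfl⟩ (fun z hz => hns z (by
    rw [← hx, hz, map_smul, Matrix.toLin'_one]
    rfl))
  rwa [hx] at h1

/-- From an element of the special linear group to an endomorphism. -/
theorem toLin_pow {r : ℕ} (x : Matrix.SpecialLinearGroup (Fin n) F) {c : F}
    (hc : ((x ^ r : Matrix.SpecialLinearGroup (Fin n) F) : Matrix (Fin n) (Fin n) F) = c • (1 : Matrix (Fin n) (Fin n) F)) :
    (Matrix.toLin' (x : Matrix (Fin n) (Fin n) F)) ^ r = c • 1 := by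
  rw [Matrix.SpecialLinearGroup.coe_pow] at hc
  rw [← Matrix.toLin'_pow, hc, map_smul, Matrix.toLin'_one]
  rfl

theorem scalar_ne_zero {r : ℕ} (hn : n ≠ 0) (x : Matrix.SpecialLinearGroup (Fin n) F) {c : F}
    (hc : ((x ^ r : Matrix.SpecialLinearGroup (Fin n) F) : Matrix (Fin n) (Fin n) F) = c • (1 : Matrix (Fin n) (Fin n) F)) : c ≠ 0 := by
  rintro rfl
  have h1 := (x ^ r).2
  have h2 : ((x ^ r : Matrix.SpecialLinearGroup (Fin n) F) : Matrix (Fin n) (Fin n) F).det = 1 := h1
  haveI : Nonempty (Fin n) := Fin.pos_iff_nonempty.1 (Nat.pos_of_ne_zero hn)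
  rw [hc, zero_smul, Matrix.det_zero] at h2
  exact zero_ne_one h2

/-- The determinant when `X ^ r - c` is irreducible. -/
theorem det_of_irr [Fintype F] {r : ℕ} (hr : 0 < r) {c : F} (hirr : Irreducible (X ^ r - C c : F[X]))
    (T : Module.End F (Fin n → F)) (hT : T ^ r = c • 1) (hc : c ≠ 0) :
    r ∣ n ∧ LinearMap.det T = ((-1) ^ (r + 1) * c) ^ (n / r) := by
  classical
  set A := LinearMap.toMatrix' T with hA
  have hA1 : Matrix.toLin' A = T := Matrix.toLin'_toMatrix' T
  have hA2 : A ^ r = c • 1 := by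
    apply Matrix.toLin'.injective
    rw [Matrix.toLin'_pow, hA1, hT, map_smul, Matrix.toLin'_one]
    rfl
  have hdet : A.det ≠ 0 := by
    intro h0
    by_cases hn : n = 0
    · subst hn
      rw [Matrix.det_fin_zero] at h0
      exact one_ne_zero h0
    · have h1 := congrArg Matrix.det hA2
      rw [Matrix.det_pow, h0, zero_pow hr.ne', Matrix.det_smul, Matrix.det_one, mul_one, Fintype.card_fin] at h1
      exact pow_ne_zero _ hc h1.symm
  let g : GL (Fin n) F := Matrix.GeneralLinearGroup.mkOfDetNeZero A hdet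
  have hg : (g : Matrix (Fin n) (Fin n) F) = A := rfl
  obtain ⟨h1, h2⟩ := Cfsg.Agent.Lib.Classical.Herm.PGLCount.charpoly_of_pow_eq_smul g hr hirr (by rw [hg]; exact hA2)
  rw [Fintype.card_fin] at h1 h2
  refine ⟨h1, ?_⟩
  rw [← LinearMap.det_toMatrix', ← hA, Matrix.det_eq_sign_charpoly_coeff, ← hg, h2, coeff_zero_eq_eval_zero, eval_pow,
    Fintype.card_fin]
  obtain ⟨t, rfl⟩ := h1
  rw [Nat.mul_div_cancel_left _ hr]
  simp only [eval_sub, eval_pow, eval_X, eval_C, zero_pow hr.ne', zero_sub]
  rw [pow_mul, ← mul_pow]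
  congr 1
  rw [pow_succ]
  ring

end SL

end Cfsg.Agent.Lib.Classical.Elusive.PslModel
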