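import Mathlib
import Cfsg.Agent.Lib.Classical.Elusive.PslModel
import Cfsg.Agent.Lib.Classical.Elusive.Gauss

/-!
# Elements of prime order of `PSL_n(q)` and invariant subspaces or flags
-/

set_option autoImplicit false
set_option linter.unusedSectionVars false
set_option linter.unusedSimpArgs false
set_option linter.unusedVariables false
set_option linter.style.haveILetI false

namespace Cfsg.Agent.Lib.Classical.Elusive.PslMain

open Polynomial Module
open Cfsg.Agent.Lib.Classical.Elusive.Inv Cfsg.Agent.Lib.Classical.Elusive.PslNum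
open Cfsg.Agent.Lib.Classical.Elusive.PslModel Cfsg.Agent.Lib.Classical.Elusive.Gauss

section Generic

variable {F V : Type*} [Field F] [AddCommGroup V] [Module F V] [FiniteDimensional F V]

theorem isInv_smul_iff {T : Module.End F V} {a : F} (ha : a ≠ 0) {U : Submodule F V} : IsInv (a • T) U ↔ IsInv T U := by
  constructor
  · intro h u hu
    have h1 := U.smul_mem a⁻¹ (h u hu)
    rwa [LinearMap.smul_apply, smul_smul, inv_mul_cancel₀ ha, one_smul] at h1
  · intro h u hu
    rw [LinearMap.smul_apply]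
    exact U.smul_mem a (h u hu)

theorem pow_smul_inv {T : Module.End F V} {c a : F} {r : ℕ} (ha : a ≠ 0) (har : a ^ r = c) (hT : T ^ r = c • 1) :
    (a⁻¹ • T) ^ r = 1 := by
  rw [_root_.smul_pow, hT, smul_smul, inv_pow, har]
  have hc : c ≠ 0 := by
    rw [← har]
    exact pow_ne_zero _ ha
  rw [inv_mul_cancel₀ hc, one_smul]

theorem aeval_X_pow_sub_C {T : Module.End F V} {c : F} {r : ℕ} (hT : T ^ r = c • 1) :
    Polynomial.aeval T (X ^ r - C c : F[X]) = 0 := by
  rw [map_sub, map_pow, aeval_X, aeval_C, hT, Module.algebraMap_end_eq_smul_id, sub_eq_zero]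
  rfl

theorem chain_of_irr {T : Module.End F V} {c : F} {r : ℕ} (hT : T ^ r = c • 1) (hg0 : (X ^ r - C c : F[X]) ≠ 0)
    (hfac : ∀ d : F[X], Irreducible d → d ∣ (X ^ r - C c : F[X]) → d.natDegree = r)
    {U : Submodule F V} (hU : IsInv T U) (k : ℕ) (hk : finrank F U + r * k ≤ finrank F V) :
    ∃ U', IsInv T U' ∧ U ≤ U' ∧ finrank F U' = finrank F U + r * k := by
  obtain ⟨U', h1, h2, -, h3⟩ := chain_exists (isInv_top T) hg0 hfac
    (fun v _ => by rw [aeval_X_pow_sub_C hT]; rfl) hU le_top k (by rw [finrank_top]; exact hk)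
  exact ⟨U', h1, h2, h3⟩

theorem dvd_of_irr {T : Module.End F V} {c : F} {r : ℕ} (hr : 0 < r) (hT : T ^ r = c • 1) (hg0 : (X ^ r - C c : F[X]) ≠ 0)
    (hfac : ∀ d : F[X], Irreducible d → d ∣ (X ^ r - C c : F[X]) → d.natDegree = r)
    {U : Submodule F V} (hU : IsInv T U) : r ∣ finrank F U :=
  dvd_finrank hU hg0 hr hfac (fun v _ => by rw [aeval_X_pow_sub_C hT]; rfl)

/-- Subspaces of all dimensions when all the factors are linear. -/
theorem chain_linear {T : Module.End F V} {c a : F} {r : ℕ} (ha : a ≠ 0) (har : a ^ r = c) (hT : T ^ r = c • 1)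
    (hr0 : r ≠ 0) (hfac : ∀ d : F[X], Irreducible d → d ∣ (X ^ r - 1 : F[X]) → d.natDegree = 1)
    {U : Submodule F V} (hU : IsInv T U) (k : ℕ) (hk : finrank F U + k ≤ finrank F V) :
    ∃ U', IsInv T U' ∧ U ≤ U' ∧ finrank F U' = finrank F U + k := by
  have hy := pow_smul_inv ha har hT
  have hg0 : (X ^ r - 1 : F[X]) ≠ 0 := by
    have := (monic_X_pow_sub_C (1 : F) hr0).ne_zero
    simpa using this
  have haev : ∀ v, Polynomial.aeval (a⁻¹ • T) (X ^ r - 1 : F[X]) v = 0 := by
    intro v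
    rw [map_sub, map_pow, aeval_X, map_one, hy, sub_self]
    rfl
  obtain ⟨U', h1, h2, -, h3⟩ := chain_exists (isInv_top (a⁻¹ • T)) hg0 hfac (fun v _ => haev v)
    ((isInv_smul_iff (inv_ne_zero ha)).2 hU) le_top k (by rw [finrank_top, one_mul]; exact hk)
  exact ⟨U', (isInv_smul_iff (inv_ne_zero ha)).1 h1, h2, by rw [h3, one_mul]⟩

theorem finrank_Fix_add_Ker {y : Module.End F V} {r : ℕ} (hr : (r : F) ≠ 0) (hy : y ^ r = 1) :
    finrank F ↥(Fix y) + finrank F ↥(Ker y r) = finrank F V := by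
  have h1 := finrank_split hr hy (isInv_top y)
  rw [top_inf_eq, top_inf_eq, finrank_top] at h1
  exact h1.symm

/-- Flags of invariant subspaces with prescribed dimensions. -/
theorem flag_exists {y : Module.End F V} {r : ℕ} (hr : (r : F) ≠ 0) (hy : y ^ r = 1) {i : ℕ}
    (hfac : ∀ d, Irreducible d → d ∣ Phi F r → d.natDegree = i) {j j' k k' : ℕ} (hj : j ≤ j')
    (hj' : j' ≤ finrank F ↥(Fix y)) (hk : k ≤ k') (hk' : i * k' ≤ finrank F ↥(Ker y r)) :
    ∃ U W, U ≤ W ∧ IsInv y U ∧ IsInv y W ∧ finrank F U = j + i * k ∧ finrank F W = j' + i * k' := by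
  obtain ⟨S, R, -, -, h1, h2, h3, h4, h5, h6⟩ := exists_of_dim hr hy hfac (S := ⊥) (R := ⊥) bot_le (isInv_bot y) bot_le (j := j) (k := k)
    (by rw [finrank_bot]; omega)
    (by rw [finrank_bot, zero_add]; exact (Nat.mul_le_mul_left i hk).trans hk')
  rw [finrank_bot, zero_add] at h5 h6
  obtain ⟨k', rfl⟩ := Nat.exists_eq_add_of_le hk
  obtain ⟨S', R', h7, h8, h9, h10, h11, h12, h13, h14⟩ := exists_of_dim hr hy hfac (S := S) (R := R) h1 h4 h2 (j := j' - j) (k := k')
    (by omega)
    (by rw [h6, ← mul_add]; exact hk')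
  refine ⟨S ⊔ R, S' ⊔ R', sup_le_sup h7 h8, h3.sup h4, h11.sup h12, ?_, ?_⟩
  · rw [finrank_sup_of_le hr h1 h2, h5, h6]
  · rw [finrank_sup_of_le hr h9 h10, h13, h14, h5, h6, mul_add]
    omega

end Generic

section Counting

variable {F : Type*} [Field F] [Fintype F] {p : ℕ} [Fact p.Prime] [CharP F p]

theorem prime_dvd_gf {q a k r : ℕ} (hr : r.Prime) (h : r ∣ gf q a k) : ∃ j, j < k ∧ r ∣ q ^ (a - j) - 1 := by
  obtain ⟨j, hj, hj'⟩ := (hr.prime.dvd_finsetProd_iff _).1 h
  exact ⟨j, Finset.mem_range.1 hj, hj'⟩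

/-- What the divisibility of the number of subspaces gives. -/
theorem of_dvd_sub {n m r : ℕ} (hm : m ≤ n) (hr : r.Prime)
    (h : r ∣ Nat.card {W : Submodule F (Fin n → F) // finrank F W = m}) :
    r ≠ p ∧ ∃ j, j < m ∧ orderOf ((Fintype.card F : ℕ) : ZMod r) ∣ n - j := by
  have h1 := card_sub_gf (F := F) (V := Fin n → F) (k := m) (by rwa [finrank_fin_fun])
  have h2 := card_sub_cast (F := F) (V := Fin n → F) (p := p) (k := m) (by rwa [finrank_fin_fun])
  rw [finrank_fin_fun] at h1
  refine ⟨?_, ?_⟩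
  · rintro rfl
    rw [(ZMod.natCast_eq_zero_iff _ _).2 h] at h2
    exact zero_ne_one h2
  · obtain ⟨j, hj, hj'⟩ := prime_dvd_gf hr (h1 ▸ Dvd.dvd.mul_right h _)
    exact ⟨j, hj, (pow_eq_one_iff' Fintype.card_pos).2 hj'⟩

/-- What the divisibility of the number of flags gives. -/
theorem of_dvd_flags {n m r : ℕ} (hm : 2 * m ≤ n) (hr : r.Prime)
    (h : r ∣ Nat.card {P : Submodule F (Fin n → F) × Submodule F (Fin n → F) // P.1 ≤ P.2 ∧ finrank F P.1 = m ∧ finrank F P.2 = n - m}) :
    r ≠ p ∧ ∃ j, j < 2 * m ∧ orderOf ((Fintype.card F : ℕ) : ZMod r) ∣ n - j := by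
  have h1 := card_flags_gf (F := F) (V := Fin n → F) (m := m) (by rwa [finrank_fin_fun])
  have h2 := card_flags_cast (F := F) (V := Fin n → F) (p := p) (m := m) (by rwa [finrank_fin_fun])
  simp only [finrank_fin_fun] at h1 h2
  refine ⟨?_, ?_⟩
  · rintro rfl
    rw [(ZMod.natCast_eq_zero_iff _ _).2 h] at h2
    exact zero_ne_one h2
  · have h3 : r ∣ Nat.card {W : Submodule F (Fin n → F) // finrank F W = m} * gf (Fintype.card F) (n - m) m :=
      h1 ▸ Dvd.dvd.mul_right h _
    rcases (hr.dvd_mul).1 h3 with h4 | h4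
    · obtain ⟨j, hj, hj'⟩ := (of_dvd_sub (p := p) (by omega) hr h4).2
      exact ⟨j, by omega, hj'⟩
    · obtain ⟨j, hj, hj'⟩ := prime_dvd_gf hr h4
      refine ⟨m + j, by omega, ?_⟩
      have h5 : n - (m + j) = n - m - j := by omega
      rw [h5]
      exact (pow_eq_one_iff' Fintype.card_pos).2 hj'

end Counting

section Models

variable {F : Type*} [Field F] [Fintype F] {p : ℕ} [Fact p.Prime] [CharP F p]

theorem scalar_inj {n : ℕ} (hn : n ≠ 0) {a b : F} (h : a • (1 : Module.End F (Fin n → F)) = b • 1) : a = b := by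
  haveI : Nonempty (Fin n) := Fin.pos_iff_nonempty.1 (Nat.pos_of_ne_zero hn)
  have hv : (fun _ => 1 : Fin n → F) ≠ 0 := by
    intro h0
    have := congrFun h0 ⟨0, Nat.pos_of_ne_zero hn⟩
    exact one_ne_zero this
  have h1 := congrArg (fun z : Module.End F (Fin n → F) => z (fun _ => 1)) h
  simp only [LinearMap.smul_apply, Module.End.one_apply] at h1
  exact smul_left_injective F hv h1

/-- The element with `x ^ r` a scalar which is not an `r`-th power. -/
theorem exists_T_irr {n r : ℕ} (hn : n ≠ 0) (hr : r.Prime) (hrn : r ∣ n) {c : F} (hc0 : c ≠ 0) (hcb : ∀ b : F, b ^ r ≠ c)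
    (hdet : ((-1) ^ (r + 1) * c) ^ (n / r) = 1) :
    ∃ T : Module.End F (Fin n → F), T ^ r = c • 1 ∧ LinearMap.det T = 1 ∧ (∀ z : F, T ≠ z • 1) ∧
      Irreducible (X ^ r - C c : F[X]) := by
  have hirr : Irreducible (X ^ r - C c : F[X]) := X_pow_sub_C_irreducible_of_prime hr hcb
  have hm : (X ^ r - C c : F[X]).Monic := monic_X_pow_sub_C c hr.ne_zero
  have hdeg : (X ^ r - C c : F[X]).natDegree = r := natDegree_X_pow_sub_C
  have hne : (X ^ r - C c : F[X]) ≠ X - 1 := by
    intro h
    rw [h] at hdeg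
    have h1 : (X - 1 : F[X]).natDegree = 1 := by simpa using natDegree_X_sub_C (1 : F)
    rw [h1] at hdeg
    exact hr.one_lt.ne hdeg
  obtain ⟨T, hT, -⟩ := exists_model (d := (X ^ r - C c : F[X])) hm hirr hne (a := 0) (t := n / r) (n := n)
    (by rw [hdeg, zero_add, Nat.div_mul_cancel hrn]) (r := r) (c := c) dvd_rfl (fun h => absurd rfl h)
  refine ⟨T, hT, ?_, ?_, hirr⟩
  · rw [(det_of_irr hr.pos hirr T hT hc0).2, hdet]
  · intro z hz
    apply hcb z
    rw [hz, _root_.smul_pow, one_pow] at hT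
    exact scalar_inj hn hT

/-- The worst element when `r` does not divide `q - 1`. -/
theorem exists_T_worst {n r : ℕ} (hr : r.Prime) (hrp : r ≠ p) (hi : 2 ≤ orderOf ((Fintype.card F : ℕ) : ZMod r))
    (hin : orderOf ((Fintype.card F : ℕ) : ZMod r) ≤ n) :
    ∃ T : Module.End F (Fin n → F), T ^ r = 1 ∧ LinearMap.det T = 1 ∧ (∀ z : F, T ≠ z • 1) ∧
      finrank F (Fix T) ≤ n % orderOf ((Fintype.card F : ℕ) : ZMod r) := by
  set i := orderOf ((Fintype.card F : ℕ) : ZMod r) with hidef
  have hrq : ¬ r ∣ Fintype.card F - 1 := by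
    intro h
    have := (order_one_iff Fintype.card_pos).2 h
    omega
  obtain ⟨D, hD, hDr, hcard, hipos, -⟩ := Cfsg.Agent.Lib.Classical.Herm.CycTuples.exists_cyc_data (F := F) (p := p) rfl hr hrp
  have hDne : D.Nonempty := by
    rw [← Finset.card_pos]
    by_contra h0
    have h1 : D.card = 0 := by omega
    rw [h1, zero_mul] at hcard
    have := hr.one_lt
    omega
  obtain ⟨d, hd⟩ := hDne
  obtain ⟨h1, h2, h3, h4⟩ := hD d hd
  have h5 : d ∣ (X ^ r - C 1 : F[X]) := by
    have := (hDr d h1 h2 1 one_pos).2 ⟨rfl, Or.inr hd⟩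
    simpa using this
  have hn0 : n ≠ 0 := by omega
  obtain ⟨T, hT, hfix⟩ := exists_model h1 h2 h4 (a := n % i) (t := n / i) (n := n)
    (by rw [h3, mul_comm]; exact (Nat.mod_add_div n i).symm) (r := r) (c := 1) h5 (fun _ => rfl)
  rw [one_smul] at hT
  refine ⟨T, hT, ?_, ?_, hfix⟩
  · apply eq_one_of_not_dvd hr hrq
    rw [← map_pow, hT, map_one]
  · intro z hz
    rw [hz, _root_.smul_pow, one_pow] at hT
    have hz1 : z ^ r = 1 := by
      apply scalar_inj hn0
      rw [hT, one_smul]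
    have hz2 : z = 1 := eq_one_of_not_dvd hr hrq hz1
    rw [hz2, one_smul] at hz
    have h6 : Fix T = ⊤ := by
      rw [eq_top_iff]
      intro v _
      rw [mem_Fix, hz]
      rfl
    rw [h6, finrank_top, finrank_fin_fun] at hfix
    have := Nat.mod_lt n (show 0 < i by omega)
    omega

end Models

section Main

variable {F : Type*} [Field F] [Fintype F] {p : ℕ} [Fact p.Prime] [CharP F p]

theorem isInv_of_map {V : Type*} [AddCommGroup V] [Module F V] {T : Module.End F V} {W : Submodule F V} (h : W.map T ≤ W) : IsInv T W :=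
  fun u hu => h ⟨u, hu, rfl⟩

theorem map_of_isInv {V : Type*} [AddCommGroup V] [Module F V] {T : Module.End F V} {W : Submodule F V} (h : IsInv T W) : W.map T ≤ W := by
  rintro _ ⟨u, hu, rfl⟩
  exact h u hu

/-- `r` divides `n` when the second alternative fails. -/
theorem dvd_of_not_clause {n r : ℕ} (hr : r.Prime) {q : ℕ}
    (h : ¬ (padicValNat r n ≤ padicValNat r (q - 1) ∧ (r = 2 → Even n → q % 4 = 1))) : r ∣ n := by
  by_contra hrn
  apply h
  refine ⟨by rw [padicValNat.eq_zero_of_not_dvd hrn]; omega, fun h2 h3 => ?_⟩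
  exact absurd (by rw [h2]; exact even_iff_two_dvd.1 h3) hrn

/-- The number-theoretic fact from `r ∣ ...`: the residue of `n`. -/
theorem mod_of_dvd_sub {n i j : ℕ} (hji : j < i) (hjn : j ≤ n) (hdvd : i ∣ n - j) : n % i = j := by
  obtain ⟨l, hl⟩ := hdvd
  have h1 : n = j + i * l := by omega
  rw [h1, Nat.add_mul_mod_self_left, Nat.mod_eq_of_lt hji]

/-- **Invariant subspaces.** -/
theorem main_sub {n m : ℕ} (hn : 2 ≤ n) (hm : 1 ≤ m) (hmn : 2 * m ≤ n) (r : ℕ) [Fact r.Prime]
    (hrΩ : r ∣ Nat.card {W : Submodule F (Fin n → F) // finrank F W = m}) :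
    (∀ x : Matrix.SpecialLinearGroup (Fin n) F,
      (∃ c : F, ((x ^ r : Matrix.SpecialLinearGroup (Fin n) F) : Matrix (Fin n) (Fin n) F) = c • (1 : Matrix (Fin n) (Fin n) F)) →
      (∀ c : F, (x : Matrix (Fin n) (Fin n) F) ≠ c • (1 : Matrix (Fin n) (Fin n) F)) →
      ∃ W : Submodule F (Fin n → F), finrank F W = m ∧ W.map (Matrix.toLin' (x : Matrix (Fin n) (Fin n) F)) ≤ W) ↔
    (r ≠ p ∧
      ((orderOf ((Fintype.card F : ℕ) : ZMod r) = 1 ∧ (r ∣ m ∨ (padicValNat r n ≤ padicValNat r (Fintype.card F - 1) ∧ (r = 2 → Even n → Fintype.card F % 4 = 1)))) ∨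
       (2 ≤ orderOf ((Fintype.card F : ℕ) : ZMod r) ∧ orderOf ((Fintype.card F : ℕ) : ZMod r) ≤ m ∧ m % orderOf ((Fintype.card F : ℕ) : ZMod r) ≤ n % orderOf ((Fintype.card F : ℕ) : ZMod r)))) := by
  have hr : r.Prime := Fact.out
  have hn0 : n ≠ 0 := by omega
  obtain ⟨hrp, j₀, hj₀, hj₀'⟩ := of_dvd_sub (F := F) (p := p) (by omega) hr hrΩ
  set i := orderOf ((Fintype.card F : ℕ) : ZMod r) with hidef
  have hq0 : 1 ≤ Fintype.card F := Fintype.card_pos
  have hipos : 0 < i := by
    obtain ⟨D, -, -, -, h, -⟩ := Cfsg.Agent.Lib.Classical.Herm.CycTuples.exists_cyc_data (F := F) (p := p) rfl hr hrp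
    exact h
  have hrF : (r : F) ≠ 0 := cast_ne_zero_of_ne (p := p) hr hrp
  constructor
  · intro hL
    refine ⟨hrp, ?_⟩
    by_cases hi1 : i = 1
    · left
      refine ⟨hi1, ?_⟩
      by_contra hcon
      push Not at hcon
      obtain ⟨hrm, hcl⟩ := hcon
      have hrq : r ∣ Fintype.card F - 1 := (order_one_iff hq0).1 hi1
      have hcl' : ¬ (padicValNat r n ≤ padicValNat r (Fintype.card F - 1) ∧ (r = 2 → Even n → Fintype.card F % 4 = 1)) := by
        rintro ⟨h1, h2⟩
        obtain ⟨h3, h4, h5⟩ := hcl h1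
        exact h5 (h2 h3 h4)
      have hrn : r ∣ n := dvd_of_not_clause hr hcl'
      obtain ⟨c, hc0, hcb, hdet⟩ := exists_bad (p := p) hr hrp hrq hn0 hrn hcl'
      obtain ⟨T, hT, hdetT, hns, hirr⟩ := exists_T_irr hn0 hr hrn hc0 hcb hdet
      obtain ⟨W, hW, hWinv⟩ := lhs_apply (P := fun T => ∃ W : Submodule F (Fin n → F), finrank F W = m ∧ W.map T ≤ W) hL T hT hdetT hns
      apply hrm
      rw [← hW]
      exact dvd_of_irr hr.pos hT hirr.ne_zero (fac_irr hirr) (isInv_of_map hWinv)
    · right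
      have hi2 : 2 ≤ i := by omega
      have hin : i ≤ n := by
        by_cases h1 : i ≤ m
        · omega
        · exact (Nat.le_of_dvd (by omega) hj₀').trans (by omega)
      obtain ⟨T, hT, hdetT, hns, hfix⟩ := exists_T_worst (p := p) (n := n) hr hrp hi2 hin
      replace hfix : finrank F (Fix T) ≤ n % i := hfix
      obtain ⟨W, hW, hWinv⟩ := lhs_apply (P := fun T => ∃ W : Submodule F (Fin n → F), finrank F W = m ∧ W.map T ≤ W) hL T (c := 1) (by rw [hT, one_smul]) hdetT hns
      obtain ⟨k, hk⟩ := dim_split hrF hT hipos (fac_Phi rfl hr hrp) (isInv_of_map hWinv)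
      rw [hW] at hk
      have hj : finrank F ↥(W ⊓ Fix T) ≤ finrank F (Fix T) := Submodule.finrank_mono inf_le_right
      have hmodlt := Nat.mod_lt n hipos
      have hjlt : finrank F ↥(W ⊓ Fix T) < i := by omega
      have hmod : m % i = finrank F ↥(W ⊓ Fix T) := by
        rw [hk, Nat.add_mul_mod_self_left, Nat.mod_eq_of_lt hjlt]
      refine ⟨hi2, ?_, by omega⟩
      by_contra hmi
      have hmi' : m < i := by omega
      have h1 : n % i = j₀ := mod_of_dvd_sub (by omega) (by omega) hj₀'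
      have h2 : m % i = m := Nat.mod_eq_of_lt hmi'
      omega
  · rintro ⟨-, h⟩ x ⟨c, hc⟩ hns
    set T : Module.End F (Fin n → F) := Matrix.toLin' (x : Matrix (Fin n) (Fin n) F) with hTdef
    have hT : T ^ r = c • 1 := toLin_pow x hc
    have hc0 : c ≠ 0 := scalar_ne_zero hn0 x hc
    have hdetT : LinearMap.det T = 1 := by
      rw [hTdef, LinearMap.det_toLin']
      exact x.2
    suffices hU : ∃ U, IsInv T U ∧ finrank F U = m by
      obtain ⟨U, h1, h2⟩ := hU
      exact ⟨U, h2, map_of_isInv h1⟩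
    rcases h with ⟨hi1, hcase⟩ | ⟨hi2, him, hmod⟩
    · by_cases hroot : ∃ a : F, a ^ r = c
      · obtain ⟨a, ha⟩ := hroot
        have ha0 : a ≠ 0 := by
          rintro rfl
          rw [zero_pow hr.ne_zero] at ha
          exact hc0 ha.symm
        obtain ⟨U, h1, -, h3⟩ := chain_linear ha0 ha hT hr.ne_zero (fac_X rfl hr hrp hi1) (isInv_bot T) m
          (by rw [finrank_bot, finrank_fin_fun]; omega)
        exact ⟨U, h1, by rw [h3, finrank_bot, zero_add]⟩
      · push Not at hroot
        have hirr : Irreducible (X ^ r - C c : F[X]) := X_pow_sub_C_irreducible_of_prime hr hroot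
        rcases hcase with hrm | ⟨h1, h2⟩
        · obtain ⟨U, h3, -, h4⟩ := chain_of_irr hT hirr.ne_zero (fac_irr hirr) (isInv_bot T) (m / r)
            (by rw [finrank_bot, finrank_fin_fun, Nat.mul_div_cancel' hrm]; omega)
          exact ⟨U, h3, by rw [h4, finrank_bot, Nat.mul_div_cancel' hrm, zero_add]⟩
        · exfalso
          obtain ⟨hrn, hdet⟩ := det_of_irr hr.pos hirr T hT hc0
          rw [hdetT] at hdet
          obtain ⟨a, ha⟩ := root_of_det (F := F) hr ((order_one_iff hq0).1 hi1) hn0 hrn h1 h2 hc0 hdet.symm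
          exact hroot a ha
    · have hrq : ¬ r ∣ Fintype.card F - 1 := by
        intro h
        have := (order_one_iff hq0).2 h
        omega
      obtain ⟨a, ha0, ha⟩ := exists_root_of_not_dvd hr hrq hc0
      have hy := pow_smul_inv ha0 ha hT
      set y := a⁻¹ • T with hydef
      have hfac : ∀ d : F[X], Irreducible d → d ∣ Phi F r → d.natDegree = i := fac_Phi (F := F) (p := p) rfl hr hrp
      have hsum := finrank_Fix_add_Ker hrF hy
      rw [finrank_fin_fun] at hsum
      obtain ⟨s, hs⟩ := dvd_finrank (isInv_Ker y r) (Phi_ne_zero hrF) hipos hfac (fun v hv => hv)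
      set A := finrank F ↥(Fix y) with hA
      have hAmod : A % i = n % i := by
        rw [← hsum, hs, Nat.add_mul_mod_self_left]
      have hAge : n % i ≤ A := by
        rw [← hAmod]
        exact Nat.mod_le _ _
      suffices hU : ∃ U, IsInv y U ∧ finrank F U = m by
        obtain ⟨U, h1, h2⟩ := hU
        exact ⟨U, (isInv_smul_iff (inv_ne_zero ha0)).1 h1, h2⟩
      have hmdiv := Nat.div_add_mod m i
      by_cases hcase : m / i ≤ s
      · obtain ⟨U, W, -, h1, -, h2, -⟩ := flag_exists hrF hy hfac (j := m % i) (j' := m % i) (k := m / i) (k' := m / i) le_rfl (by omega) le_rfl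
          (by rw [hs]; exact Nat.mul_le_mul_left i hcase)
        exact ⟨U, h1, by rw [h2]; omega⟩
      · have hle : i * s ≤ m := by
          have h1 : i * s ≤ i * (m / i) := Nat.mul_le_mul_left i (by omega)
          omega
        obtain ⟨U, W, -, h1, -, h2, -⟩ := flag_exists hrF hy hfac (j := m - i * s) (j' := m - i * s) (k := s) (k' := s) le_rfl
          (by omega) le_rfl (by rw [hs])
        exact ⟨U, h1, by rw [h2]; omega⟩

/-- **Invariant flags.** -/
theorem main_flag {n m : ℕ} (hn : 2 ≤ n) (hm : 1 ≤ m) (hmn : 2 * m < n) (r : ℕ) [Fact r.Prime]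
    (hrΩ : r ∣ Nat.card {P : Submodule F (Fin n → F) × Submodule F (Fin n → F) // P.1 ≤ P.2 ∧ finrank F P.1 = m ∧ finrank F P.2 = n - m}) :
    (∀ x : Matrix.SpecialLinearGroup (Fin n) F,
      (∃ c : F, ((x ^ r : Matrix.SpecialLinearGroup (Fin n) F) : Matrix (Fin n) (Fin n) F) = c • (1 : Matrix (Fin n) (Fin n) F)) →
      (∀ c : F, (x : Matrix (Fin n) (Fin n) F) ≠ c • (1 : Matrix (Fin n) (Fin n) F)) →
      ∃ U W : Submodule F (Fin n → F), U ≤ W ∧ finrank F U = m ∧ finrank F W = n - m ∧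
        U.map (Matrix.toLin' (x : Matrix (Fin n) (Fin n) F)) ≤ U ∧ W.map (Matrix.toLin' (x : Matrix (Fin n) (Fin n) F)) ≤ W) ↔
    (r ≠ p ∧
      ((orderOf ((Fintype.card F : ℕ) : ZMod r) = 1 ∧ (r ∣ m ∨ (padicValNat r n ≤ padicValNat r (Fintype.card F - 1) ∧ (r = 2 → Even n → Fintype.card F % 4 = 1)))) ∨
       (2 ≤ orderOf ((Fintype.card F : ℕ) : ZMod r) ∧ orderOf ((Fintype.card F : ℕ) : ZMod r) ≤ m ∧ 2 * (m % orderOf ((Fintype.card F : ℕ) : ZMod r)) ≤ n % orderOf ((Fintype.card F : ℕ) : ZMod r)))) := by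
  have hr : r.Prime := Fact.out
  have hn0 : n ≠ 0 := by omega
  obtain ⟨hrp, j₀, hj₀, hj₀'⟩ := of_dvd_flags (F := F) (p := p) (by omega) hr hrΩ
  set i := orderOf ((Fintype.card F : ℕ) : ZMod r) with hidef
  have hq0 : 1 ≤ Fintype.card F := Fintype.card_pos
  have hipos : 0 < i := by
    obtain ⟨D, -, -, -, h, -⟩ := Cfsg.Agent.Lib.Classical.Herm.CycTuples.exists_cyc_data (F := F) (p := p) rfl hr hrp
    exact h
  have hrF : (r : F) ≠ 0 := cast_ne_zero_of_ne (p := p) hr hrp
  constructor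
  · intro hL
    refine ⟨hrp, ?_⟩
    by_cases hi1 : i = 1
    · left
      refine ⟨hi1, ?_⟩
      by_contra hcon
      push Not at hcon
      obtain ⟨hrm, hcl⟩ := hcon
      have hrq : r ∣ Fintype.card F - 1 := (order_one_iff hq0).1 hi1
      have hcl' : ¬ (padicValNat r n ≤ padicValNat r (Fintype.card F - 1) ∧ (r = 2 → Even n → Fintype.card F % 4 = 1)) := by
        rintro ⟨h1, h2⟩
        obtain ⟨h3, h4, h5⟩ := hcl h1
        exact h5 (h2 h3 h4)
      have hrn : r ∣ n := dvd_of_not_clause hr hcl'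
      obtain ⟨c, hc0, hcb, hdet⟩ := exists_bad (p := p) hr hrp hrq hn0 hrn hcl'
      obtain ⟨T, hT, hdetT, hns, hirr⟩ := exists_T_irr hn0 hr hrn hc0 hcb hdet
      obtain ⟨U, W, -, hU, -, hUinv, -⟩ := lhs_apply (P := fun T => ∃ U W : Submodule F (Fin n → F), U ≤ W ∧ finrank F U = m ∧ finrank F W = n - m ∧ U.map T ≤ U ∧ W.map T ≤ W) hL T hT hdetT hns
      apply hrm
      rw [← hU]
      exact dvd_of_irr hr.pos hT hirr.ne_zero (fac_irr hirr) (isInv_of_map hUinv)
    · right
      have hi2 : 2 ≤ i := by omega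
      have hin : i ≤ n := by
        by_cases h1 : i ≤ m
        · omega
        · exact (Nat.le_of_dvd (by omega) hj₀').trans (by omega)
      obtain ⟨T, hT, hdetT, hns, hfix⟩ := exists_T_worst (p := p) (n := n) hr hrp hi2 hin
      replace hfix : finrank F (Fix T) ≤ n % i := hfix
      obtain ⟨U, W, hUW, hU, hW, hUinv, hWinv⟩ := lhs_apply (P := fun T => ∃ U W : Submodule F (Fin n → F), U ≤ W ∧ finrank F U = m ∧ finrank F W = n - m ∧ U.map T ≤ U ∧ W.map T ≤ W) hL T (c := 1) (by rw [hT, one_smul]) hdetT hns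
      obtain ⟨k, hk⟩ := dim_split hrF hT hipos (fac_Phi rfl hr hrp) (isInv_of_map hUinv)
      obtain ⟨k', hk'⟩ := dim_split hrF hT hipos (fac_Phi rfl hr hrp) (isInv_of_map hWinv)
      rw [hU] at hk
      rw [hW] at hk'
      set j := finrank F ↥(U ⊓ Fix T) with hjdef
      set j' := finrank F ↥(W ⊓ Fix T) with hj'def
      have hjj' : j ≤ j' := Submodule.finrank_mono (inf_le_inf_right _ hUW)
      have hj' : j' ≤ finrank F (Fix T) := Submodule.finrank_mono inf_le_right
      have hmodlt := Nat.mod_lt n hipos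
      have hjlt : j < i := by omega
      have hmod : m % i = j := by
        rw [hk, Nat.add_mul_mod_self_left, Nat.mod_eq_of_lt hjlt]
      have hnm : n = (j + j') + i * (k + k') := by
        have h1 : n = m + (n - m) := by omega
        rw [mul_add]
        omega
      have hnmod : n % i = (j + j') % i := by
        rw [hnm, Nat.add_mul_mod_self_left]
      have hsum : j + j' = n % i := by
        rw [hnmod]
        by_cases h1 : j + j' < i
        · exact (Nat.mod_eq_of_lt h1).symm
        · exfalso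
          have h2 : (j + j') % i = j + j' - i := by
            rw [Nat.mod_eq_sub_mod (by omega), Nat.mod_eq_of_lt (by omega)]
          omega
      refine ⟨hi2, ?_, by omega⟩
      by_contra hmi
      have hmi' : m < i := by omega
      have h2 : m % i = m := Nat.mod_eq_of_lt hmi'
      have h3 : n % i ≤ j₀ := by
        have h4 : n % i = j₀ % i := by
          obtain ⟨l, hl⟩ := hj₀'
          have h5 : n = j₀ + i * l := by omega
          rw [h5, Nat.add_mul_mod_self_left]
        rw [h4]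
        exact Nat.mod_le _ _
      omega
  · rintro ⟨-, h⟩ x ⟨c, hc⟩ hns
    set T : Module.End F (Fin n → F) := Matrix.toLin' (x : Matrix (Fin n) (Fin n) F) with hTdef
    have hT : T ^ r = c • 1 := toLin_pow x hc
    have hc0 : c ≠ 0 := scalar_ne_zero hn0 x hc
    have hdetT : LinearMap.det T = 1 := by
      rw [hTdef, LinearMap.det_toLin']
      exact x.2
    suffices hU : ∃ U W, U ≤ W ∧ IsInv T U ∧ IsInv T W ∧ finrank F U = m ∧ finrank F W = n - m by
      obtain ⟨U, W, h1, h2, h3, h4, h5⟩ := hU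
      exact ⟨U, W, h1, h4, h5, map_of_isInv h2, map_of_isInv h3⟩
    rcases h with ⟨hi1, hcase⟩ | ⟨hi2, him, hmod⟩
    · by_cases hroot : ∃ a : F, a ^ r = c
      · obtain ⟨a, ha⟩ := hroot
        have ha0 : a ≠ 0 := by
          rintro rfl
          rw [zero_pow hr.ne_zero] at ha
          exact hc0 ha.symm
        obtain ⟨U, h1, -, h3⟩ := chain_linear ha0 ha hT hr.ne_zero (fac_X rfl hr hrp hi1) (isInv_bot T) m
          (by rw [finrank_bot, finrank_fin_fun]; omega)
        rw [finrank_bot, zero_add] at h3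
        obtain ⟨W, h4, h5, h6⟩ := chain_linear ha0 ha hT hr.ne_zero (fac_X rfl hr hrp hi1) h1 (n - 2 * m)
          (by rw [h3, finrank_fin_fun]; omega)
        exact ⟨U, W, h5, h1, h4, h3, by rw [h6, h3]; omega⟩
      · push Not at hroot
        have hirr : Irreducible (X ^ r - C c : F[X]) := X_pow_sub_C_irreducible_of_prime hr hroot
        obtain ⟨hrn, hdet⟩ := det_of_irr hr.pos hirr T hT hc0
        rcases hcase with hrm | ⟨h1, h2⟩
        · obtain ⟨U, h3, -, h4⟩ := chain_of_irr hT hirr.ne_zero (fac_irr hirr) (isInv_bot T) (m / r)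
            (by rw [finrank_bot, finrank_fin_fun, Nat.mul_div_cancel' hrm]; omega)
          rw [finrank_bot, Nat.mul_div_cancel' hrm, zero_add] at h4
          have hrd : r ∣ n - 2 * m := Nat.dvd_sub hrn (Dvd.dvd.mul_left hrm _)
          obtain ⟨W, h5, h6, h7⟩ := chain_of_irr hT hirr.ne_zero (fac_irr hirr) h3 ((n - 2 * m) / r)
            (by rw [finrank_fin_fun, Nat.mul_div_cancel' hrd]; omega)
          refine ⟨U, W, h6, h3, h5, h4, ?_⟩
          rw [h7, h4, Nat.mul_div_cancel' hrd]
          omega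
        · exfalso
          rw [hdetT] at hdet
          obtain ⟨a, ha⟩ := root_of_det (F := F) hr ((order_one_iff hq0).1 hi1) hn0 hrn h1 h2 hc0 hdet.symm
          exact hroot a ha
    · have hrq : ¬ r ∣ Fintype.card F - 1 := by
        intro h
        have := (order_one_iff hq0).2 h
        omega
      obtain ⟨a, ha0, ha⟩ := exists_root_of_not_dvd hr hrq hc0
      have hy := pow_smul_inv ha0 ha hT
      set y := a⁻¹ • T with hydef
      have hfac : ∀ d : F[X], Irreducible d → d ∣ Phi F r → d.natDegree = i := fac_Phi (F := F) (p := p) rfl hr hrp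
      have hsum := finrank_Fix_add_Ker hrF hy
      rw [finrank_fin_fun] at hsum
      obtain ⟨s, hs⟩ := dvd_finrank (isInv_Ker y r) (Phi_ne_zero hrF) hipos hfac (fun v hv => hv)
      set A := finrank F ↥(Fix y) with hA
      have hAmod : A % i = n % i := by
        rw [← hsum, hs, Nat.add_mul_mod_self_left]
      have hAge : n % i ≤ A := by
        rw [← hAmod]
        exact Nat.mod_le _ _
      suffices hU : ∃ U W, U ≤ W ∧ IsInv y U ∧ IsInv y W ∧ finrank F U = m ∧ finrank F W = n - m by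
        obtain ⟨U, W, h0, h1, h2, h3, h4⟩ := hU
        exact ⟨U, W, h0, (isInv_smul_iff (inv_ne_zero ha0)).1 h1, (isInv_smul_iff (inv_ne_zero ha0)).1 h2, h3, h4⟩
      have hmdiv := Nat.div_add_mod m i
      set b := m / i with hb
      set l := m % i with hl
      by_cases hcase : 2 * b ≤ s
      · -- the symmetric choice
        have hexp : i * (s - b) + i * b = i * s := by
          rw [← mul_add]
          congr 1
          omega
        obtain ⟨U, W, h0, h1, h2, h3, h4⟩ := flag_exists hrF hy hfac (j := l) (j' := A - l) (k := b) (k' := s - b) (by omega) (by omega)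
          (by omega) (by rw [hs]; exact Nat.mul_le_mul_left i (by omega))
        refine ⟨U, W, h0, h1, h2, by rw [h3]; omega, ?_⟩
        rw [h4]
        omega
      · -- distribute the blocks evenly
        set k := s / 2 with hk
        have hk1 : k ≤ b := by omega
        have hk2 : s - k ≤ b := by omega
        have hk3 : i * k ≤ i * b := Nat.mul_le_mul_left i hk1
        have hk4 : i * (s - k) ≤ i * b := Nat.mul_le_mul_left i hk2
        have hk5 : i * (s - k) + i * k = i * s := by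
          rw [← mul_add]
          congr 1
          omega
        have hk6 : i * k ≤ i * s := Nat.mul_le_mul_left i (by omega)
        obtain ⟨U, W, h0, h1, h2, h3, h4⟩ := flag_exists hrF hy hfac (j := m - i * k) (j' := n - m - i * k) (k := k) (k' := k) (by omega) (by omega)
          le_rfl (by rw [hs]; exact hk6)
        refine ⟨U, W, h0, h1, h2, by rw [h3]; omega, ?_⟩
        rw [h4]
        omega

end Main

end Cfsg.Agent.Lib.Classical.Elusive.PslMain
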