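import Mathlib
import Cfsg.Agent.Lib.Classical.Elusive.SpImprim
import Cfsg.Agent.Lib.Classical.Elusive.PslMain

/-!
# Elements of odd prime order of `PSL_n(q)` and imprimitive subgroups: linear algebra
-/

set_option autoImplicit false
set_option linter.unusedSectionVars false
set_option linter.unusedSimpArgs false
set_option linter.unusedVariables false
set_option linter.style.haveILetI false

namespace Cfsg.Agent.Lib.Classical.Elusive.PslImprim

open Polynomial Module
open Cfsg.Agent.Lib.Classical.Elusive.Inv Cfsg.Agent.Lib.Classical.Elusive.SpCore Cfsg.Agent.Lib.Classical.Elusive.SpAtoms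
  Cfsg.Agent.Lib.Classical.Elusive.SpImprim

variable {F V : Type*} [Field F] [AddCommGroup V] [Module F V] [FiniteDimensional F V]

section Sum

theorem isInv_of_map' {T : Module.End F V} {W : Submodule F V} (h : W.map T ≤ W) : IsInv T W :=
  fun u hu => h ⟨u, hu, rfl⟩

theorem finrank_biSup_le {ι : Type*} (E : ι → Submodule F V) (s : Finset ι) :
    finrank F ↥(⨆ j ∈ s, E j) ≤ ∑ j ∈ s, finrank F (E j) := by
  classical
  induction s using Finset.induction_on with
  | empty =>
    have h0 : (⨆ j ∈ (∅ : Finset ι), E j) = ⊥ := by simp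
    rw [h0, finrank_bot]
    simp
  | insert j s hj ih =>
    rw [Finset.sum_insert hj, Finset.iSup_insert]
    have h1 := Submodule.finrank_sup_add_finrank_inf_eq (E j) (⨆ i ∈ s, E i)
    omega

/-- Independence from dimensions. -/
theorem indep_of_sum_finrank {ι : Type*} [Fintype ι] {E : ι → Submodule F V}
    (h : finrank F ↥(⨆ j, E j) = ∑ j, finrank F (E j)) : iSupIndep E := by
  classical
  intro j
  rw [disjoint_iff]
  let K : Submodule F V := ⨆ l, ⨆ (_ : l ≠ j), E l
  have hK : K = ⨆ l ∈ Finset.univ.erase j, E l := by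
    show (⨆ l, ⨆ (_ : l ≠ j), E l) = _
    congr 1
    funext l
    simp
  have h1 := finrank_biSup_le E (Finset.univ.erase j)
  rw [← hK] at h1
  have h2 : E j ⊔ K = ⨆ l, E l := by
    apply le_antisymm
    · exact sup_le (le_iSup E j) (iSup₂_le fun l _ => le_iSup E l)
    · apply iSup_le
      intro l
      by_cases hl : l = j
      · rw [hl]
        exact le_sup_left
      · exact le_sup_of_le_right (le_iSup₂_of_le l hl le_rfl)
  have h3 := Submodule.finrank_sup_add_finrank_inf_eq (E j) K
  rw [h2, h] at h3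
  have h4 := Finset.add_sum_erase Finset.univ (fun l => finrank F (E l)) (Finset.mem_univ j)
  have h5 : finrank F ↥(E j ⊓ K) = 0 := by
    omega
  exact Submodule.finrank_eq_zero.1 h5

theorem eq_zero_of_sum_eq_zero_fin {ι : Type*} [Fintype ι] {D : ι → Submodule F V} (hD : iSupIndep D) {w : ι → V}
    (hw : ∀ j, w j ∈ D j) (hs : ∑ j, w j = 0) : ∀ j, w j = 0 := by
  classical
  intro j
  have h1 : w j = - ∑ k ∈ Finset.univ.erase j, w k := by
    rw [← Finset.add_sum_erase _ _ (Finset.mem_univ j)] at hs
    exact eq_neg_of_add_eq_zero_left hs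
  have h2 : w j ∈ ⨆ l, ⨆ (_ : l ≠ j), D l := by
    rw [h1]
    apply Submodule.neg_mem
    apply Submodule.sum_mem
    intro k hk
    rw [Finset.mem_erase] at hk
    have h4 : D k ≤ ⨆ l, ⨆ (_ : l ≠ j), D l := le_iSup₂_of_le k hk.1 le_rfl
    exact h4 (hw k)
  exact (hD j).le_bot ⟨hw j, h2⟩

end Sum

section Basis

/-- Blocks of a basis give a decomposition. -/
theorem decomp_of_basis {J E : Type*} [Fintype J] [DecidableEq J] [Fintype E] [DecidableEq E]
    (b : J × E → V) (hb : LinearIndependent F b) (hspan : Submodule.span F (Set.range b) = ⊤)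
    (T : Module.End F V) (hT : Function.Injective T) (π : Equiv.Perm J)
    (hTb : ∀ j i, T (b (j, i)) ∈ Submodule.span F (Set.range fun i' => b (π j, i'))) :
    (∀ j, finrank F (Submodule.span F (Set.range fun i => b (j, i))) = Fintype.card E) ∧
      iSupIndep (fun j => Submodule.span F (Set.range fun i => b (j, i))) ∧
      (⨆ j, Submodule.span F (Set.range fun i => b (j, i))) = ⊤ ∧
      ∀ j, (Submodule.span F (Set.range fun i => b (j, i))).map T = Submodule.span F (Set.range fun i => b (π j, i)) := by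
  have hdim : ∀ j, finrank F (Submodule.span F (Set.range fun i => b (j, i))) = Fintype.card E := by
    intro j
    have h1 : Function.Injective (fun i : E => (j, i)) := fun x y h => (Prod.ext_iff.1 h).2
    have h2 := finrank_span_eq_card (hb.comp (fun i : E => (j, i)) h1)
    exact h2
  refine ⟨hdim, ?_, ?_, ?_⟩
  · intro j
    have h1 : Submodule.span F (Set.range fun i => b (j, i)) ≤ Submodule.span F (b '' {p | p.1 = j}) := by
      apply Submodule.span_mono
      rintro _ ⟨i, rfl⟩
      exact ⟨(j, i), rfl, rfl⟩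
    have h2 : (⨆ k, ⨆ (_ : k ≠ j), Submodule.span F (Set.range fun i => b (k, i))) ≤ Submodule.span F (b '' {p | p.1 ≠ j}) := by
      refine iSup₂_le fun k hk => ?_
      apply Submodule.span_mono
      rintro _ ⟨i, rfl⟩
      exact ⟨(k, i), hk, rfl⟩
    refine Disjoint.mono h1 h2 ?_
    apply hb.disjoint_span_image
    rw [Set.disjoint_left]
    intro p hp hp'
    exact hp' hp
  · rw [eq_top_iff, ← hspan]
    apply Submodule.span_le.2
    rintro _ ⟨⟨j, i⟩, rfl⟩
    exact Submodule.mem_iSup_of_mem j (Submodule.subset_span ⟨i, rfl⟩)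
  · intro j
    apply Submodule.eq_of_le_of_finrank_eq
    · rw [Submodule.map_span, Submodule.span_le]
      rintro _ ⟨_, ⟨i, rfl⟩, rfl⟩
      exact hTb j i
    · rw [(LinearEquiv.finrank_eq (Submodule.equivMapOfInjective T hT _)).symm, hdim, hdim]

/-- Reindexing to `Fin t`. -/
theorem reindex_decomp {J : Type*} [Fintype J] {t a : ℕ} (hJ : Fintype.card J = t) (ht : 2 ≤ t) (ha : 0 < a) {D : J → Submodule F V} {T : Module.End F V}
    {π : Equiv.Perm J} (hdim : ∀ j, finrank F (D j) = a) (hind : iSupIndep D) (htop : ⨆ j, D j = ⊤)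
    (hmap : ∀ j, (D j).map T = D (π j)) : ∃ (D' : Fin t → Submodule F V) (σ : Equiv.Perm (Fin t)), (∀ j, finrank F (D' j) = a) ∧ iSupIndep D' ∧ iSup D' = ⊤ ∧ ∀ j, (D' j).map T = D' (σ j) := by
  classical
  let e : Fin t ≃ J := (Fintype.equivFinOfCardEq hJ).symm
  refine ⟨fun k => D (e k), e.trans (π.trans e.symm), fun k => hdim _, hind.comp e.injective, ?_, fun k => ?_⟩
  · rw [← htop]
    exact Equiv.iSup_comp e
  · rw [hmap]
    simp

end Basis

section Plain

variable {y : Module.End F V} {r c : ℕ}

theorem exists_sub_fix {W : Submodule F V} (hW : W ≤ Fix y) {j : ℕ} (hj : j ≤ finrank F W) :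
    ∃ S, S ≤ W ∧ finrank F S = j := by
  have hWinv : IsInv y W := fun u hu => by
    rw [mem_Fix.1 (hW hu)]
    exact hu
  obtain ⟨S', h5, -, h7, h8⟩ := chain_exists (g := (X - 1 : F[X])) (i := 1) hWinv (X_sub_C_ne_zero (1 : F) |> fun h => by
      simpa using h)
    (fun d hd hdvd => by
      have h9 : Irreducible (X - 1 : F[X]) := by
        simpa using irreducible_X_sub_C (1 : F)
      have h10 := hd.associated_of_dvd h9 hdvd
      rw [natDegree_eq_of_degree_eq (degree_eq_degree_of_associated h10)]
      simpa using natDegree_X_sub_C (1 : F))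
    (fun v hv => by
      rw [map_sub, aeval_X, map_one, LinearMap.sub_apply, Module.End.one_apply, mem_Fix.1 (hW hv), sub_self])
    (isInv_bot y) bot_le j (by simpa using hj)
  exact ⟨S', h7, by simpa using h8⟩

/-- Construction of an invariant decomposition, without forms. -/
theorem exists_D_plain (hr : (r : F) ≠ 0) (hy : y ^ r = 1) (hfac : ∀ d, Irreducible d → d ∣ Phi F r → d.natDegree = c) (hc : 0 < c)
    {a a₀ l : ℕ} (ha : a = a₀ * c + l) :
    ∀ (t : ℕ) (Y : Submodule F V), IsInv y Y → finrank F Y = a * t → t * l ≤ finrank F ↥(Y ⊓ Fix y) →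
      ∃ D : Fin t → Submodule F V, (∀ j, D j ≤ Y ∧ IsInv y (D j) ∧ finrank F (D j) = a) ∧ ⨆ j, D j = Y := by
  intro t
  induction t with
  | zero =>
    intro Y _ hfr _
    refine ⟨fun j => j.elim0, fun j => j.elim0, ?_⟩
    rw [mul_zero, Submodule.finrank_eq_zero] at hfr
    rw [hfr, iSup_eq_bot]
    exact fun j => j.elim0
  | succ t ih =>
    intro Y hY hfr hfix
    have hsplit := finrank_split hr hy hY
    have hkinv : IsInv y (Y ⊓ Ker y r) := hY.inf (isInv_Ker y r)
    obtain ⟨k, hk⟩ : c ∣ finrank F ↥(Y ⊓ Ker y r) := dvd_finrank hkinv (Phi_ne_zero hr) hc hfac (fun v hv => hv.2)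
    obtain ⟨X', hX, hXc⟩ : ∃ X', X' = c * min k a₀ ∧ X' ≤ c * a₀ := ⟨_, rfl, Nat.mul_le_mul_left _ (min_le_right _ _)⟩
    have hXk : X' ≤ c * k := by
      rw [hX]
      exact Nat.mul_le_mul_left _ (min_le_left _ _)
    have hac : a₀ * c = c * a₀ := mul_comm _ _
    obtain ⟨A, hAinv, -, hAle, hAd⟩ := chain_exists hkinv (Phi_ne_zero hr) hfac (fun v hv => hv.2) (isInv_bot y) bot_le (min k a₀)
      (by rw [finrank_bot, zero_add, hk, ← hX]; exact hXk)
    rw [finrank_bot, zero_add, ← hX] at hAd
    obtain ⟨s, hs⟩ : ∃ s, a = X' + s := ⟨a - X', by omega⟩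
    have hmul1 : a * (t + 1) = a * t + a := by ring
    have hmul2 : (t + 1) * l = t * l + l := by ring
    have hl_le : t * l ≤ a * t := by
      rw [mul_comm t l]
      apply Nat.mul_le_mul_right
      omega
    have hcases : s ≤ finrank F ↥(Y ⊓ Fix y) ∧ t * l + s ≤ finrank F ↥(Y ⊓ Fix y) := by
      rcases le_total a₀ k with h1 | h1
      · have h2 : X' = c * a₀ := by rw [hX, min_eq_right h1]
        rw [hmul2] at hfix
        omega
      · have h2 : X' = c * k := by rw [hX, min_eq_left h1]
        rw [hfr, hmul1, hk] at hsplit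
        omega
    obtain ⟨S, hSle, hSd⟩ := exists_sub_fix (y := y) (W := Y ⊓ Fix y) inf_le_right hcases.1
    have hSfix : S ≤ Fix y := hSle.trans inf_le_right
    have hSinv : IsInv y S := by
      intro u hu
      rw [mem_Fix.1 (hSfix hu)]
      exact hu
    have hAker : A ≤ Ker y r := hAle.trans inf_le_right
    have hD₀inv : IsInv y (S ⊔ A) := hSinv.sup hAinv
    have hD₀le : S ⊔ A ≤ Y := sup_le (hSle.trans inf_le_left) (hAle.trans inf_le_left)
    have hD₀d : finrank F ↥(S ⊔ A) = a := by
      rw [finrank_sup_of_le hr hSfix hAker, hSd, hAd]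
      omega
    obtain ⟨Y', hY'inv, hY'le, hsup, hinf⟩ := exists_compl_inv hr hy hD₀inv hY hD₀le
    have hY'd : finrank F Y' = a * t := by
      have h1 := Submodule.finrank_sup_add_finrank_inf_eq (S ⊔ A) Y'
      rw [hsup, hinf, finrank_bot, hD₀d, hfr] at h1
      omega
    have hfix' : t * l ≤ finrank F ↥(Y' ⊓ Fix y) := by
      have h1 := finrank_split hr hy hY'inv
      have h2 : finrank F ↥(Y' ⊓ Ker y r) + X' ≤ finrank F ↥(Y ⊓ Ker y r) := by
        have h3 := Submodule.finrank_sup_add_finrank_inf_eq (Y' ⊓ Ker y r) A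
        have h4 : (Y' ⊓ Ker y r) ⊓ A = ⊥ := by
          rw [eq_bot_iff, ← hinf]
          rintro x ⟨⟨hx1, _⟩, hx2⟩
          exact ⟨Submodule.mem_sup_right hx2, hx1⟩
        rw [h4, finrank_bot, add_zero, hAd] at h3
        rw [← h3]
        apply Submodule.finrank_mono
        exact sup_le (inf_le_inf_right _ hY'le) hAle
      have h5 := hcases.2
      omega
    obtain ⟨D', h1, h3⟩ := ih Y' hY'inv hY'd hfix'
    refine ⟨(Fin.cons (S ⊔ A) D' : Fin (t + 1) → Submodule F V), ?_, ?_⟩
    · intro j
      refine Fin.cases ?_ (fun j => ?_) j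
      · rw [Fin.cons_zero]
        exact ⟨hD₀le, hD₀inv, hD₀d⟩
      · rw [Fin.cons_succ]
        obtain ⟨h4, h5, h7⟩ := h1 j
        exact ⟨h4.trans hY'le, h5, h7⟩
    · apply le_antisymm
      · apply iSup_le
        intro j
        refine Fin.cases ?_ (fun j => ?_) j
        · rw [Fin.cons_zero]
          exact hD₀le
        · rw [Fin.cons_succ]
          exact (h1 j).1.trans hY'le
      · rw [← hsup]
        apply sup_le
        · have := le_iSup (Fin.cons (S ⊔ A) D' : Fin (t + 1) → Submodule F V) 0
          rwa [Fin.cons_zero] at this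
        · rw [← h3]
          apply iSup_le
          intro j
          have := le_iSup (Fin.cons (S ⊔ A) D' : Fin (t + 1) → Submodule F V) j.succ
          rwa [Fin.cons_succ] at this

/-- The whole space has an invariant decomposition as soon as the numerics are right. -/
theorem exists_inv_decomp_plain (hr : (r : F) ≠ 0) (hy : y ^ r = 1) (hfac : ∀ d, Irreducible d → d ∣ Phi F r → d.natDegree = c) (hc : 0 < c)
    {a t : ℕ} (hdim : finrank F V = a * t) (hk : finrank F V % c = t * (a % c)) :
    ∃ D : Fin t → Submodule F V, (∀ j, IsInv y (D j) ∧ finrank F (D j) = a) ∧ iSupIndep D ∧ ⨆ j, D j = ⊤ := by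
  have hcK : c ∣ finrank F (Ker y r) := dvd_finrank (isInv_Ker y r) (Phi_ne_zero hr) hc hfac (fun v hv => hv)
  have hsum := finrank_Fix_add hr hy
  have hfix : t * (a % c) ≤ finrank F ↥((⊤ : Submodule F V) ⊓ Fix y) := by
    rw [top_inf_eq, ← hk, ← hsum]
    obtain ⟨m, hm⟩ := hcK
    rw [hm, Nat.add_mul_mod_self_left]
    exact Nat.mod_le _ _
  obtain ⟨D, h1, h3⟩ := exists_D_plain hr hy hfac hc (a₀ := a / c) (l := a % c) (by rw [Nat.div_add_mod']) t ⊤
    (isInv_top y) (by rw [finrank_top, hdim]) hfix
  refine ⟨D, fun j => (h1 j).2, ?_, h3⟩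
  apply indep_of_sum_finrank
  rw [h3, finrank_top, hdim]
  simp [(h1 _).2.2, mul_comm]

end Plain

section PermBasis

variable {y : Module.End F V} {r : ℕ}

/-- An element of prime order with the largest possible irreducible constituents permutes a basis as soon as
there are enough fixed vectors. -/
theorem exists_perm_basis [NeZero r] (hr : (r : F) ≠ 0) (hrp : r.Prime) (hy : y ^ r = 1)
    (hfac : ∀ d, Irreducible d → d ∣ Phi F r → d.natDegree = r - 1) :
    ∀ (m : ℕ) (Y : Submodule F V), IsInv y Y → finrank F ↥(Y ⊓ Ker y r) = (r - 1) * m → m ≤ finrank F ↥(Y ⊓ Fix y) →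
      ∃ (J : Type) (_ : Fintype J) (_ : DecidableEq J) (b : J → V) (π : Equiv.Perm J),
        LinearIndependent F b ∧ Submodule.span F (Set.range b) = Y ∧ ∀ j, y (b j) = b (π j) := by
  classical
  have hr1 : 0 < r - 1 := by have := hrp.two_le; omega
  intro m
  induction m with
  | zero =>
    intro Y hY hK _
    rw [mul_zero, Submodule.finrank_eq_zero] at hK
    have hYF : Y ≤ Fix y := by
      have h1 := sup_Fix_Ker_of hr hy hY
      rw [hK, sup_bot_eq] at h1
      rw [← h1]
      exact inf_le_right
    obtain ⟨f, hf1, hf2, hf3⟩ := Submodule.exists_fun_fin_finrank_span_eq F (Y : Set V)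
    refine ⟨_, inferInstance, inferInstance, f, 1, hf3, hf2.trans (Submodule.span_eq Y), fun j => ?_⟩
    rw [Equiv.Perm.one_apply]
    exact mem_Fix.1 (hYF (hf1 j))
  | succ m ih =>
    intro Y hY hK hFm
    have hkinv : IsInv y (Y ⊓ Ker y r) := hY.inf (isInv_Ker y r)
    have hfinv : IsInv y (Y ⊓ Fix y) := hY.inf (isInv_Fix y)
    have hKne : Y ⊓ Ker y r ≠ ⊥ := by
      intro h
      rw [h, finrank_bot] at hK
      have : 0 < (r - 1) * (m + 1) := by positivity
      omega
    obtain ⟨W, hWinv, hWle, hWd⟩ := exists_atom hr hr1 hfac hkinv inf_le_right hKne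
    have hWne : W ≠ ⊥ := by
      intro h
      rw [h, finrank_bot] at hWd
      omega
    obtain ⟨u, huW, hu0⟩ := Submodule.exists_mem_ne_zero_of_ne_bot hWne
    have hFne : Y ⊓ Fix y ≠ ⊥ := by
      intro h
      rw [h, finrank_bot] at hFm
      omega
    obtain ⟨f, hfY, hf0⟩ := Submodule.exists_mem_ne_zero_of_ne_bot hFne
    have hfF : f ∈ Fix y := hfY.2
    have huK : u ∈ Ker y r := (hWle huW).2
    let v := f + u
    have hvY : v ∈ Y := Y.add_mem hfY.1 (hWle huW).1
    let c' : ZMod r → V := fun x => (y ^ x.val) v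
    let C : Submodule F V := Submodule.span F (Set.range c')
    have hpow : ∀ j : ℕ, y ^ j = y ^ (j % r) := fun j => pow_eq_pow_mod j hy
    have hmem : ∀ j : ℕ, (y ^ j) v ∈ C := by
      intro j
      apply Submodule.subset_span
      refine ⟨(j : ZMod r), ?_⟩
      show (y ^ (j : ZMod r).val) v = _
      rw [ZMod.val_natCast, ← hpow]
    have hCinv : IsInv y C := by
      apply isInv_of_map'
      rw [Submodule.map_span, Submodule.span_le]
      rintro _ ⟨_, ⟨x, rfl⟩, rfl⟩
      show y ((y ^ x.val) v) ∈ C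
      rw [← Module.End.mul_apply, ← pow_succ']
      exact hmem _
    have hCY : C ≤ Y := by
      rw [Submodule.span_le]
      rintro _ ⟨x, rfl⟩
      exact hY.pow _ hvY
    have hPhi : Polynomial.aeval y (Phi F r) v = (r : F) • f := by
      show Polynomial.aeval y (Phi F r) (f + u) = _
      rw [map_add, aeval_Phi_of_fixed (mem_Fix.1 hfF), mem_Ker.1 huK, add_zero]
    have hPhiC : Polynomial.aeval y (Phi F r) v ∈ C := by
      have h1 : ∀ w : V, Polynomial.aeval y (Phi F r) w = ∑ k ∈ Finset.range r, (y ^ k) w := by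
        intro w
        simp [Phi, map_sum, LinearMap.sum_apply]
      rw [h1]
      exact Submodule.sum_mem _ fun k _ => hmem k
    have hfC : f ∈ C := by
      have h1 := C.smul_mem (r : F)⁻¹ hPhiC
      rw [hPhi, smul_smul, inv_mul_cancel₀ hr, one_smul] at h1
      exact h1
    have hvC : v ∈ C := by
      have := hmem 0
      simpa using this
    have huC : u ∈ C := by
      have h1 := C.sub_mem hvC hfC
      have h2 : v - f = u := by
        show f + u - f = u
        abel
      rwa [h2] at h1
    have hWC : W ≤ C := by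
      have h1 := atom_eq hr hr1 hfac (hWle.trans inf_le_right) hWd (hWinv.inf hCinv) (inf_le_left : W ⊓ C ≤ W)
      rcases h1 with h1 | h1
      · exfalso
        have h2 : u ∈ W ⊓ C := ⟨huW, huC⟩
        rw [h1] at h2
        exact hu0 h2
      · rw [← h1]
        exact inf_le_right
    have hline : finrank F (Submodule.span F {f}) = 1 := finrank_span_singleton hf0
    have hlineF : Submodule.span F {f} ≤ Fix y := (Submodule.span_singleton_le_iff_mem _ _).2 hfF
    have hlineC : Submodule.span F {f} ≤ C := (Submodule.span_singleton_le_iff_mem _ _).2 hfC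
    have hCF : 1 ≤ finrank F ↥(C ⊓ Fix y) := by
      rw [← hline]
      exact Submodule.finrank_mono (le_inf hlineC hlineF)
    have hCK : r - 1 ≤ finrank F ↥(C ⊓ Ker y r) := by
      rw [← hWd]
      exact Submodule.finrank_mono (le_inf hWC (hWle.trans inf_le_right))
    have hCle : finrank F C ≤ r := by
      have h1 := finrank_range_le_card (R := F) c'
      rw [ZMod.card] at h1
      exact h1
    have hCs := finrank_split hr hy hCinv
    have hrpos := hrp.pos
    have hCd : finrank F C = r := by omega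
    have hCF1 : finrank F ↥(C ⊓ Fix y) = 1 := by omega
    have hCK1 : finrank F ↥(C ⊓ Ker y r) = r - 1 := by omega
    have hcLI : LinearIndependent F c' := by
      rw [linearIndependent_iff_card_eq_finrank_span, ZMod.card]
      exact hCd.symm
    obtain ⟨Y', hY'inv, hY'le, hsup, hinf⟩ := exists_compl_inv hr hy hCinv hY hCY
    have hYd := Submodule.finrank_sup_add_finrank_inf_eq C Y'
    rw [hsup, hinf, finrank_bot, add_zero, hCd] at hYd
    have hYs := finrank_split hr hy hY
    have hY's := finrank_split hr hy hY'inv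
    have hgap : ∀ Q : Submodule F V, finrank F ↥(Y' ⊓ Q) + finrank F ↥(C ⊓ Q) ≤ finrank F ↥(Y ⊓ Q) := by
      intro Q
      have h3 := Submodule.finrank_sup_add_finrank_inf_eq (Y' ⊓ Q) (C ⊓ Q)
      have h4 : (Y' ⊓ Q) ⊓ (C ⊓ Q) = ⊥ := by
        rw [eq_bot_iff, ← hinf]
        rintro x ⟨⟨hx1, _⟩, ⟨hx2, _⟩⟩
        exact ⟨hx2, hx1⟩
      rw [h4, finrank_bot, add_zero] at h3
      rw [← h3]
      exact Submodule.finrank_mono (sup_le (inf_le_inf_right _ hY'le) (inf_le_inf_right _ hCY))
    have hg1 := hgap (Fix y)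
    have hg2 := hgap (Ker y r)
    rw [hCF1] at hg1
    rw [hCK1, hK] at hg2
    have hmul : (r - 1) * (m + 1) = (r - 1) * m + (r - 1) := by ring
    have hK' : finrank F ↥(Y' ⊓ Ker y r) = (r - 1) * m := by omega
    have hF' : m ≤ finrank F ↥(Y' ⊓ Fix y) := by omega
    obtain ⟨J, i1, i2, b, π, hb, hbs, hbπ⟩ := ih Y' hY'inv hK' hF'
    refine ⟨J ⊕ ZMod r, inferInstance, inferInstance, Sum.elim b c', Equiv.sumCongr π (Equiv.addRight 1), ?_, ?_, ?_⟩
    · apply LinearIndependent.sum_type hb hcLI
      rw [hbs]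
      rw [disjoint_iff, inf_comm]
      exact hinf
    · rw [Set.Sum.elim_range, Submodule.span_union, hbs, sup_comm]
      exact hsup
    · rintro (j | x)
      · exact hbπ j
      · show y ((y ^ x.val) v) = (y ^ (x + 1).val) v
        rw [← Module.End.mul_apply, ← pow_succ', hpow (x.val + 1), ZMod.val_add]
        congr 3
        have h1 : Fact (1 < r) := ⟨hrp.one_lt⟩
        rw [ZMod.val_one]

end PermBasis

section CycBasis

variable {T : Module.End F V} {z : F} {r : ℕ}

/-- Cyclic bases for an element with an irreducible polynomial `X ^ r - z`. -/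
theorem exists_cyc_basis (hr : 0 < r) (hT : T ^ r = z • 1) (hirr : Irreducible (X ^ r - C z : F[X])) :
    ∀ s : ℕ, s * r ≤ finrank F V → ∃ (J : Type) (_ : Fintype J) (_ : DecidableEq J) (v : J → V) (U : Submodule F V),
      IsInv T U ∧ Fintype.card J = s ∧ LinearIndependent F (fun p : J × Fin r => (T ^ (p.2 : ℕ)) (v p.1)) ∧
        Submodule.span F (Set.range fun p : J × Fin r => (T ^ (p.2 : ℕ)) (v p.1)) = U := by
  classical
  have hfacT : ∀ d : F[X], Irreducible d → d ∣ (X ^ r - C z : F[X]) → d.natDegree = r := by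
    intro d hd hdvd
    have h10 := hd.associated_of_dvd hirr hdvd
    rw [natDegree_eq_of_degree_eq (degree_eq_degree_of_associated h10)]
    exact natDegree_X_pow_sub_C
  have hr0 : (X ^ r - C z : F[X]) ≠ 0 := hirr.ne_zero
  have hdvd : ∀ {U : Submodule F V}, IsInv T U → r ∣ finrank F U := fun hU => PslMain.dvd_of_irr hr hT hr0 hfacT hU
  intro s
  induction s with
  | zero =>
    intro _
    refine ⟨Empty, inferInstance, inferInstance, Empty.elim, ⊥, isInv_bot T, rfl, ?_, ?_⟩
    · exact linearIndependent_empty_type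
    · simp
  | succ s ih =>
    intro hs
    have hmul : (s + 1) * r = s * r + r := by ring
    obtain ⟨J, i1, i2, v, U, hU, hJ, hLI, hspan⟩ := ih (by omega)
    have hUd : finrank F U = s * r := by
      have h1 := finrank_span_eq_card hLI
      rw [hspan, Fintype.card_prod, Fintype.card_fin, hJ] at h1
      exact h1
    have hUne : U ≠ ⊤ := by
      intro h
      rw [h, finrank_top] at hUd
      omega
    obtain ⟨v₀, hv₀⟩ : ∃ v₀, v₀ ∉ U := by
      by_contra hcon
      push Not at hcon
      exact hUne (eq_top_iff.2 fun x _ => hcon x)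
    let c' : Fin r → V := fun j => (T ^ (j : ℕ)) v₀
    let C' : Submodule F V := Submodule.span F (Set.range c')
    have hv₀C : v₀ ∈ C' := by
      apply Submodule.subset_span
      refine ⟨⟨0, hr⟩, ?_⟩
      show (T ^ 0) v₀ = v₀
      simp
    have hCinv : IsInv T C' := by
      apply isInv_of_map'
      rw [Submodule.map_span, Submodule.span_le]
      rintro _ ⟨_, ⟨x, rfl⟩, rfl⟩
      show T ((T ^ (x : ℕ)) v₀) ∈ C'
      rw [← Module.End.mul_apply, ← pow_succ']
      by_cases hx : (x : ℕ) + 1 < r
      · exact Submodule.subset_span ⟨⟨_, hx⟩, rfl⟩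
      · have hx' : (x : ℕ) + 1 = r := by have := x.2; omega
        rw [hx', hT]
        exact C'.smul_mem _ hv₀C
    have hCle : finrank F C' ≤ r := by
      have h1 := finrank_range_le_card (R := F) c'
      rw [Fintype.card_fin] at h1
      exact h1
    have hCpos : 0 < finrank F C' := by
      rw [Nat.pos_iff_ne_zero, Ne, Submodule.finrank_eq_zero]
      intro h
      rw [h] at hv₀C
      apply hv₀
      rw [(Submodule.mem_bot F).1 hv₀C]
      exact U.zero_mem
    have hCd : finrank F C' = r := by
      have h2 := Nat.le_of_dvd hCpos (hdvd hCinv)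
      omega
    have hinf : C' ⊓ U = ⊥ := by
      have hm := hdvd (hCinv.inf hU)
      have hle : finrank F ↥(C' ⊓ U) ≤ r := by
        rw [← hCd]
        exact Submodule.finrank_mono inf_le_left
      have hlt : finrank F ↥(C' ⊓ U) ≠ r := by
        intro h
        have h2 : C' ⊓ U = C' := by
          apply Submodule.eq_of_le_of_finrank_eq inf_le_left
          rw [h, hCd]
        have h3 : C' ≤ U := by
          rw [← h2]
          exact inf_le_right
        exact hv₀ (h3 hv₀C)
      have h0 : finrank F ↥(C' ⊓ U) = 0 := Nat.eq_zero_of_dvd_of_lt hm (lt_of_le_of_ne hle hlt)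
      exact Submodule.finrank_eq_zero.1 h0
    have hsupd : finrank F ↥(C' ⊔ U) = (s + 1) * r := by
      have h1 := Submodule.finrank_sup_add_finrank_inf_eq C' U
      rw [hinf, finrank_bot, hCd, hUd] at h1
      omega
    let v' : Option J → V := fun o => o.elim v₀ v
    have hspan' : Submodule.span F (Set.range fun p : Option J × Fin r => (T ^ (p.2 : ℕ)) (v' p.1)) = C' ⊔ U := by
      apply le_antisymm
      · rw [Submodule.span_le]
        rintro _ ⟨⟨o, j⟩, rfl⟩
        cases o with
        | none => exact Submodule.mem_sup_left (Submodule.subset_span ⟨j, rfl⟩)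
        | some i =>
          apply Submodule.mem_sup_right
          rw [← hspan]
          exact Submodule.subset_span ⟨(i, j), rfl⟩
      · apply sup_le
        · rw [Submodule.span_le]
          rintro _ ⟨j, rfl⟩
          exact Submodule.subset_span ⟨(none, j), rfl⟩
        · rw [← hspan, Submodule.span_le]
          rintro _ ⟨⟨i, j⟩, rfl⟩
          exact Submodule.subset_span ⟨(some i, j), rfl⟩
    refine ⟨Option J, inferInstance, inferInstance, v', C' ⊔ U, hCinv.sup hU, ?_, ?_, hspan'⟩
    · rw [Fintype.card_option, hJ]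
    · rw [linearIndependent_iff_card_eq_finrank_span, Set.finrank, hspan', hsupd, Fintype.card_prod, Fintype.card_option, Fintype.card_fin, hJ]

end CycBasis

end Cfsg.Agent.Lib.Classical.Elusive.PslImprim
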