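import Mathlib
import Cfsg.Agent.Lib.Classical.Elusive.PslImprim
import Cfsg.Agent.Lib.Classical.Elusive.SpPairsMain

/-!
# Direct sum decompositions: steps, lines, actions and counting
-/

set_option autoImplicit false
set_option linter.unusedSectionVars false
set_option linter.unusedSimpArgs false
set_option linter.unusedVariables false
set_option linter.style.haveILetI false

namespace Cfsg.Agent.Lib.Classical.Elusive.PslImprimDec

open Polynomial Module
open Cfsg.Agent.Lib.Classical.Elusive.Inv Cfsg.Agent.Lib.Classical.Elusive.SpCore Cfsg.Agent.Lib.Classical.Elusive.SpAtoms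
  Cfsg.Agent.Lib.Classical.Elusive.SpImprim Cfsg.Agent.Lib.Classical.Elusive.PslImprim

section Steps

variable {F V : Type*} [Field F] [AddCommGroup V] [Module F V] [FiniteDimensional F V] {y : Module.End F V} {r c : ℕ}

theorem step1_plain (hr : (r : F) ≠ 0) (hrp : r.Prime) (hy : y ^ r = 1)
    (hfac : ∀ d, Irreducible d → d ∣ Phi F r → d.natDegree = c) (hc : 0 < c) (hrc : c ≤ r - 1) {a t : ℕ} {D : Fin t → Submodule F V}
    (hdim : ∀ j, finrank F (D j) = a) (ha : 0 < a) (hD : iSupIndep D) (hTop : ⨆ j, D j = ⊤)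
    {σ : Equiv.Perm (Fin t)} (hσ : ∀ j, (D j).map y = D (σ j)) (hKc : finrank F (Ker y r) = c) : c ≤ a ∨ (a = 1 ∧ c = r - 1) := by
  by_cases hac : c ≤ a
  · exact Or.inl hac
  push Not at hac
  right
  by_cases hmv : ∃ j, σ j ≠ j
  · obtain ⟨j₀, hj₀⟩ := hmv
    have h1 := (orbit_dims hrp hy hdim ha hD hσ hj₀).2
    rw [hKc] at h1
    have ha1 : a = 1 := by
      by_contra hne
      have h2 : (r - 1) * 2 ≤ (r - 1) * a := Nat.mul_le_mul_left _ (by omega)
      omega
    subst ha1
    omega
  · exfalso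
    push Not at hmv
    have hle : ∀ j, D j ≤ Fix y := by
      intro j
      have hinv := inv_of_fixed hσ (hmv j)
      have h1 : c ∣ finrank F ↥(D j ⊓ Ker y r) :=
        dvd_finrank (hinv.inf (isInv_Ker y r)) (Phi_ne_zero hr) hc hfac (fun v hv => hv.2)
      have h2 := finrank_split hr hy hinv
      rw [hdim] at h2
      have h3 : finrank F ↥(D j ⊓ Ker y r) = 0 := by
        apply Nat.eq_zero_of_dvd_of_lt h1
        omega
      have h4 : D j ⊓ Fix y = D j := by
        apply Submodule.eq_of_le_of_finrank_eq inf_le_left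
        rw [hdim]
        omega
      rw [← h4]
      exact inf_le_right
    have h1 : Fix y = ⊤ := by
      rw [eq_top_iff, ← hTop]
      exact iSup_le hle
    have h2 := finrank_Fix_add hr hy
    rw [h1, finrank_top, hKc] at h2
    omega

theorem step2_plain (hr : (r : F) ≠ 0) (hrp : r.Prime) (hy : y ^ r = 1)
    (hfac : ∀ d, Irreducible d → d ∣ Phi F r → d.natDegree = c) (hc : 0 < c) {a t : ℕ} {D : Fin t → Submodule F V}
    (hdim : ∀ j, finrank F (D j) = a) (ha : 0 < a) (hD : iSupIndep D)
    {σ : Equiv.Perm (Fin t)} (hσ : ∀ j, (D j).map y = D (σ j)) (hlt : finrank F (Fix y) < a) :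
    t * (a % c) ≤ finrank F (Fix y) := by
  by_cases hmv : ∃ j, σ j ≠ j
  · obtain ⟨j₀, hj₀⟩ := hmv
    have h1 := (orbit_dims hrp hy hdim ha hD hσ hj₀).1
    omega
  · push Not at hmv
    have hle : ∀ j, a % c ≤ finrank F ↥(D j ⊓ Fix y) := by
      intro j
      have hinv := inv_of_fixed hσ (hmv j)
      obtain ⟨m, hm⟩ : c ∣ finrank F ↥(D j ⊓ Ker y r) :=
        dvd_finrank (hinv.inf (isInv_Ker y r)) (Phi_ne_zero hr) hc hfac (fun v hv => hv.2)
      have h2 := finrank_split hr hy hinv
      rw [hdim, hm] at h2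
      rw [h2, Nat.add_mul_mod_self_left]
      exact Nat.mod_le _ _
    have h1 : iSupIndep fun j => D j ⊓ Fix y := hD.mono fun j => inf_le_left
    have h2 := finrank_iSup_of_indep h1
    have h3 : ∑ j : Fin t, (a % c) ≤ ∑ j, finrank F ↥(D j ⊓ Fix y) := Finset.sum_le_sum fun j _ => hle j
    rw [Finset.sum_const, Finset.card_univ, Fintype.card_fin, smul_eq_mul] at h3
    have h4 : finrank F ↥(⨆ j, D j ⊓ Fix y) ≤ finrank F (Fix y) :=
      Submodule.finrank_mono (iSup_le fun j => inf_le_right)
    omega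

/-- Lines permuted by an element of order `r` without eigenvalues other than `1`: the fixed space is large. -/
theorem lines_bound (hr : (r : F) ≠ 0) (hrp : r.Prime) (hy : y ^ r = 1)
    (hfac : ∀ d, Irreducible d → d ∣ Phi F r → d.natDegree = c) (hc : 2 ≤ c) {t : ℕ} {D : Fin t → Submodule F V}
    (hdim : ∀ j, finrank F (D j) = 1) (hD : iSupIndep D) (hTop : ⨆ j, D j = ⊤)
    {σ : Equiv.Perm (Fin t)} (hσ : ∀ j, (D j).map y = D (σ j)) : t ≤ r * finrank F (Fix y) := by
  classical
  have hne : ∀ j, D j ≠ ⊥ := by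
    intro j h0
    have h1 := hdim j
    rw [h0, finrank_bot] at h1
    omega
  have hinjD : Function.Injective D := hD.injective hne
  have hmap : ∀ (k : ℕ) j, (D j).map (y ^ k) = D ((σ ^ k) j) := by
    intro k j
    induction k with
    | zero =>
      simp only [pow_zero]
      exact Submodule.map_id _
    | succ k ih =>
      have h2 : (σ ^ (k + 1)) j = σ ((σ ^ k) j) := by rw [pow_succ', Equiv.Perm.mul_apply]
      rw [h2, ← hσ, ← ih, ← Submodule.map_comp, pow_succ']
      rfl
  have hmem : ∀ (k : ℕ) j v, v ∈ D j → (y ^ k) v ∈ D ((σ ^ k) j) := by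
    intro k j v hv
    rw [← hmap]
    exact ⟨v, hv, rfl⟩
  have hper : ∀ j, (σ ^ r) j = j := by
    intro j
    apply hinjD
    rw [← hmap, hy]
    exact Submodule.map_id _
  let O : Fin t → Finset (Fin t) := fun j => (Finset.range r).image (fun k => (σ ^ k) j)
  have hO0 : ∀ j, j ∈ O j := fun j =>
    Finset.mem_image.2 ⟨0, Finset.mem_range.2 hrp.pos, by simp⟩
  have hOc : ∀ j, (O j).card ≤ r := fun j => by
    have := Finset.card_image_le (s := Finset.range r) (f := fun k => (σ ^ k) j)
    rwa [Finset.card_range] at this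
  have hOback : ∀ j l, σ l ∈ O j → l ∈ O j := by
    intro j l hl
    obtain ⟨k, hk, hkl⟩ := Finset.mem_image.1 hl
    rw [Finset.mem_range] at hk
    rcases k with _ | k
    · have h1 : σ l = σ ((σ ^ (r - 1)) j) := by
        rw [← hkl, ← Equiv.Perm.mul_apply, ← pow_succ', show r - 1 + 1 = r by have := hrp.pos; omega, hper]
        simp
      have h2 := σ.injective h1
      rw [h2]
      exact Finset.mem_image.2 ⟨r - 1, Finset.mem_range.2 (by have := hrp.pos; omega), rfl⟩
    · have h1 : σ l = σ ((σ ^ k) j) := by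
        rw [← hkl, pow_succ', Equiv.Perm.mul_apply]
      have h2 := σ.injective h1
      rw [h2]
      exact Finset.mem_image.2 ⟨k, Finset.mem_range.2 (by omega), rfl⟩
  have hPhi : ∀ v, Polynomial.aeval y (Phi F r) v = ∑ k ∈ Finset.range r, (y ^ k) v := by
    intro v
    simp [Phi, map_sum, LinearMap.sum_apply]
  have hw : ∀ j, ∃ w, w ≠ 0 ∧ w ∈ Fix y ∧ w ∈ (O j).sup D := by
    intro j
    obtain ⟨v, hv, hv0⟩ := Submodule.exists_mem_ne_zero_of_ne_bot (hne j)
    refine ⟨Polynomial.aeval y (Phi F r) v, ?_, mem_Fix.2 (aeval_Phi_sub hy v), ?_⟩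
    · by_cases hj : σ j = j
      · have hinv := inv_of_fixed hσ hj
        have h1 : c ∣ finrank F ↥(D j ⊓ Ker y r) :=
          dvd_finrank (hinv.inf (isInv_Ker y r)) (Phi_ne_zero hr) (by omega) hfac (fun v hv => hv.2)
        have h2 := finrank_split hr hy hinv
        rw [hdim] at h2
        have h3 : finrank F ↥(D j ⊓ Ker y r) = 0 := by
          apply Nat.eq_zero_of_dvd_of_lt h1
          omega
        have h4 : D j ⊓ Fix y = D j := by
          apply Submodule.eq_of_le_of_finrank_eq inf_le_left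
          rw [hdim]
          omega
        have h5 : v ∈ Fix y := by
          have : v ∈ D j ⊓ Fix y := by
            rw [h4]
            exact hv
          exact this.2
        rw [aeval_Phi_of_fixed (mem_Fix.1 h5)]
        exact smul_ne_zero hr hv0
      · have hperiod : Function.IsPeriodicPt σ r j := by
          show σ^[r] j = j
          rw [Equiv.Perm.iterate_eq_pow]
          exact hper j
        have hmin : Function.minimalPeriod σ j = r := by
          have h1 := hperiod.minimalPeriod_dvd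
          rcases (Nat.dvd_prime hrp).1 h1 with h2 | h2
          · exfalso
            apply hj
            exact Function.minimalPeriod_eq_one_iff_isFixedPt.1 h2
          · exact h2
        have hg : Set.InjOn (fun k : ℕ => (σ ^ k) j) (Set.Iio r) := by
          have h1 := Function.iterate_injOn_Iio_minimalPeriod (f := σ) (x := j)
          rw [hmin] at h1
          intro k hk l hl hkl
          apply h1 hk hl
          simp only [Equiv.Perm.iterate_eq_pow]
          exact hkl
        intro h0
        rw [hPhi] at h0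
        have h2 := eq_zero_of_sum_eq_zero' hD hg (w := fun k => (y ^ k) v) (fun k _ => hmem k j v hv) h0 0 hrp.pos
        apply hv0
        simpa using h2
    · rw [hPhi]
      apply Submodule.sum_mem
      intro k hk
      have h1 : D ((σ ^ k) j) ≤ (O j).sup D :=
        Finset.le_sup (f := D) (Finset.mem_image.2 ⟨k, hk, rfl⟩)
      exact h1 (hmem k j v hv)
  have hdisj : ∀ (u v : Finset (Fin t)), Disjoint u v → Disjoint (u.sup D) (v.sup D) := by
    intro u v huv
    exact (hD.supIndep' Finset.univ).disjoint_sup_sup (Finset.subset_univ _) (Finset.subset_univ _) huv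
  have key : ∀ (N : ℕ) (s : Finset (Fin t)), s.card ≤ N → (∀ j ∈ s, σ j ∈ s) →
      s.card ≤ r * finrank F ↥(s.sup D ⊓ Fix y) := by
    intro N
    induction N with
    | zero =>
      intro s hs _
      have : s.card = 0 := by omega
      rw [this]
      exact Nat.zero_le _
    | succ N ih =>
      intro s hs hcl
      rcases s.eq_empty_or_nonempty with h0 | ⟨j, hj⟩
      · rw [h0]
        simp
      have hOs : O j ⊆ s := by
        intro l hl
        obtain ⟨k, -, rfl⟩ := Finset.mem_image.1 hl
        have h1 : ∀ k : ℕ, (σ ^ k) j ∈ s := by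
          intro k
          induction k with
          | zero => simpa using hj
          | succ k ih' =>
            rw [pow_succ', Equiv.Perm.mul_apply]
            exact hcl _ ih'
        exact h1 k
      have hcard := Finset.card_sdiff_add_card_eq_card hOs
      have hOpos : 0 < (O j).card := Finset.card_pos.2 ⟨j, hO0 j⟩
      have hcl' : ∀ l ∈ s \ O j, σ l ∈ s \ O j := by
        intro l hl
        rw [Finset.mem_sdiff] at hl ⊢
        exact ⟨hcl l hl.1, fun h => hl.2 (hOback j l h)⟩
      have hih := ih (s \ O j) (by omega) hcl'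
      obtain ⟨w, hw0, hwF, hwO⟩ := hw j
      have hlt : (s \ O j).sup D ⊓ Fix y < s.sup D ⊓ Fix y := by
        apply lt_of_le_of_ne
        · exact inf_le_inf_right _ (Finset.sup_mono Finset.sdiff_subset)
        · intro h
          have h1 : w ∈ s.sup D ⊓ Fix y := ⟨(Finset.sup_mono (f := D) hOs : (O j).sup D ≤ s.sup D) hwO, hwF⟩
          rw [← h] at h1
          have h2 := hdisj (s \ O j) (O j) Finset.sdiff_disjoint
          exact hw0 (h2.le_bot ⟨h1.1, hwO⟩)
      have h1 := Submodule.finrank_lt_finrank_of_lt hlt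
      have h2 : r * (finrank F ↥((s \ O j).sup D ⊓ Fix y) + 1) ≤ r * finrank F ↥(s.sup D ⊓ Fix y) :=
        Nat.mul_le_mul_left _ h1
      have h3 := hOc j
      rw [Nat.mul_succ] at h2
      omega
  have h1 := key t Finset.univ (by simp) (fun j _ => Finset.mem_univ _)
  rw [Finset.sup_univ_eq_iSup, hTop, top_inf_eq, Finset.card_univ, Fintype.card_fin] at h1
  exact h1

end Steps

section DecL

variable {F : Type*} [Field F] {n t a : ℕ}

/-- The decompositions of the statement. -/
abbrev DecL (n t a : ℕ) (F : Type*) [Field F] :=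
  {D : Fin t → Submodule F (Fin n → F) // Cfsg.Geo.IsMDecomposition a D}

noncomputable instance instActDecL : MulAction ((Fin n → F) ≃ₗ[F] (Fin n → F)) (DecL n t a F) where
  smul g D := ⟨fun j => (D.1 j).map (g : (Fin n → F) →ₗ[F] (Fin n → F)), by
    obtain ⟨D, h1⟩ := D
    refine ⟨h1.two_le, h1.pos, fun j => ?_, ?_, ?_⟩
    · show finrank F ((D j).map (g : (Fin n → F) →ₗ[F] (Fin n → F))) = a
      rw [LinearEquiv.finrank_map_eq]
      exact h1.finrank_eq j
    · exact h1.indep.map_orderIso (Submodule.orderIsoMapComap g)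
    · have h4 := map_iSup (Submodule.orderIsoMapComap g) D
      have h5 : ⨆ j, (D j).map (g : (Fin n → F) →ₗ[F] (Fin n → F)) =
          (⨆ j, D j).map (g : (Fin n → F) →ₗ[F] (Fin n → F)) := h4.symm
      show ⨆ j, (D j).map (g : (Fin n → F) →ₗ[F] (Fin n → F)) = ⊤
      rw [h5, h1.iSup_eq_top, Submodule.map_top]
      exact LinearEquiv.range _⟩
  one_smul D := Subtype.ext (funext fun j => by
    show (D.1 j).map _ = D.1 j
    exact Submodule.map_id _)
  mul_smul g h D := Subtype.ext (funext fun j => by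
    show (D.1 j).map _ = ((D.1 j).map _).map _
    rw [← Submodule.map_comp]
    rfl)

theorem smul_valL (g : (Fin n → F) ≃ₗ[F] (Fin n → F)) (D : DecL n t a F) (j : Fin t) :
    (g • D).1 j = (D.1 j).map (g : (Fin n → F) →ₗ[F] (Fin n → F)) := rfl

/-- Coordinates built from coordinate systems of the summands. -/
noncomputable def mkLL (D : Fin t → Submodule F (Fin n → F)) (e : ∀ j, D j ≃ₗ[F] (Fin a → F)) :
    (Fin t → (Fin a → F)) →ₗ[F] (Fin n → F) :=
  ∑ j, (D j).subtype ∘ₗ (e j).symm.toLinearMap ∘ₗ LinearMap.proj j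

theorem mkLL_apply (D : Fin t → Submodule F (Fin n → F)) (e : ∀ j, D j ≃ₗ[F] (Fin a → F))
    (w : Fin t → (Fin a → F)) : mkLL D e w = ∑ j, (((e j).symm (w j) : D j) : Fin n → F) := by
  simp [mkLL, LinearMap.sum_apply]

theorem mkLL_injective {D : Fin t → Submodule F (Fin n → F)} (e : ∀ j, D j ≃ₗ[F] (Fin a → F)) (hD : iSupIndep D) :
    Function.Injective (mkLL D e) := by
  rw [injective_iff_map_eq_zero]
  intro w hw
  rw [mkLL_apply] at hw
  funext j
  have h1 := eq_zero_of_sum_eq_zero_fin hD (w := fun j => (((e j).symm (w j) : D j) : Fin n → F)) (fun j => ((e j).symm (w j)).2) hw j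
  have h2 : (e j).symm (w j) = 0 := Subtype.ext h1
  rw [LinearEquiv.map_eq_zero_iff] at h2
  exact h2

theorem mkLL_single (D : Fin t → Submodule F (Fin n → F)) (e : ∀ j, D j ≃ₗ[F] (Fin a → F)) (j : Fin t) (u : D j) :
    mkLL D e (Function.update 0 j (e j u)) = u := by
  classical
  rw [mkLL_apply, Finset.sum_eq_single j]
  · rw [Function.update_self, LinearEquiv.symm_apply_apply]
  · intro l _ hl
    rw [Function.update_of_ne hl]
    simp
  · intro h
    exact absurd (Finset.mem_univ j) h

theorem mkLL_mem (D : Fin t → Submodule F (Fin n → F)) (e : ∀ j, D j ≃ₗ[F] (Fin a → F)) (j : Fin t) (x : Fin a → F) :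
    mkLL D e (Function.update 0 j x) ∈ D j := by
  classical
  rw [mkLL_apply, Finset.sum_eq_single j]
  · exact ((e j).symm _).2
  · intro l _ hl
    rw [Function.update_of_ne hl]
    simp
  · intro h
    exact absurd (Finset.mem_univ j) h

theorem exists_smul_eqL (hat : n = a * t) (D D' : DecL n t a F) : ∃ g : (Fin n → F) ≃ₗ[F] (Fin n → F), g • D = D' := by
  classical
  have hcoord : ∀ (E : DecL n t a F) (j : Fin t), Nonempty (E.1 j ≃ₗ[F] (Fin a → F)) := by
    intro E j
    exact ⟨LinearEquiv.ofFinrankEq _ _ (by rw [E.2.finrank_eq j]; simp)⟩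
  let e : ∀ (E : DecL n t a F) (j : Fin t), E.1 j ≃ₗ[F] (Fin a → F) := fun E j => (hcoord E j).some
  have hdim : finrank F (Fin t → (Fin a → F)) = finrank F (Fin n → F) := by
    simp [Module.finrank_pi_fintype, hat, mul_comm]
  let L := LinearMap.linearEquivOfInjective (mkLL D.1 (e D)) (mkLL_injective _ D.2.indep) hdim
  let L' := LinearMap.linearEquivOfInjective (mkLL D'.1 (e D')) (mkLL_injective _ D'.2.indep) hdim
  have hL : ∀ w, L w = mkLL D.1 (e D) w := fun w => rfl
  have hL' : ∀ w, L' w = mkLL D'.1 (e D') w := fun w => rfl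
  refine ⟨L.symm.trans L', Subtype.ext (funext fun j => ?_)⟩
  apply Submodule.eq_of_le_of_finrank_eq
  · rw [smul_valL]
    rintro _ ⟨u, hu, rfl⟩
    have h1 := mkLL_single D.1 (e D) j ⟨u, hu⟩
    have h2 : L.symm u = Function.update (0 : Fin t → Fin a → F) j (e D j ⟨u, hu⟩) := by
      rw [LinearEquiv.symm_apply_eq, hL]
      exact h1.symm
    show L' (L.symm u) ∈ D'.1 j
    rw [h2, hL']
    exact mkLL_mem _ _ _ _
  · rw [smul_valL, LinearEquiv.finrank_map_eq, D.2.finrank_eq j, D'.2.finrank_eq j]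

theorem card_dvdL [Finite F] (hat : n = a * t) (D₀ : DecL n t a F) :
    Nat.card (DecL n t a F) ∣ Nat.card (Matrix.GeneralLinearGroup (Fin n) F) := by
  classical
  have hG : Nat.card (Matrix.GeneralLinearGroup (Fin n) F) = Nat.card ((Fin n → F) ≃ₗ[F] (Fin n → F)) :=
    Nat.card_congr ((Matrix.GeneralLinearGroup.toLin).trans (LinearMap.GeneralLinearGroup.generalLinearEquiv F (Fin n → F))).toEquiv
  rw [hG]
  haveI : Finite ((Fin n → F) ≃ₗ[F] (Fin n → F)) :=
    Finite.of_equiv (Matrix.GeneralLinearGroup (Fin n) F) ((Matrix.GeneralLinearGroup.toLin).trans (LinearMap.GeneralLinearGroup.generalLinearEquiv F (Fin n → F))).toEquiv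
  haveI : Fintype ((Fin n → F) ≃ₗ[F] (Fin n → F)) := Fintype.ofFinite _
  haveI : Finite (DecL n t a F) := inferInstance
  haveI : Fintype (MulAction.orbit ((Fin n → F) ≃ₗ[F] (Fin n → F)) D₀) := Fintype.ofFinite _
  haveI : Fintype (MulAction.stabilizer ((Fin n → F) ≃ₗ[F] (Fin n → F)) D₀) := Fintype.ofFinite _
  have horb := MulAction.card_orbit_mul_card_stabilizer_eq_card_group ((Fin n → F) ≃ₗ[F] (Fin n → F)) D₀
  simp only [← Nat.card_eq_fintype_card] at horb
  have huniv : MulAction.orbit ((Fin n → F) ≃ₗ[F] (Fin n → F)) D₀ = Set.univ := by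
    ext P
    simp only [Set.mem_univ, iff_true]
    obtain ⟨g, hg⟩ := exists_smul_eqL hat D₀ P
    exact ⟨g, hg⟩
  rw [huniv, Nat.card_coe_set_eq, Set.ncard_univ] at horb
  exact ⟨_, horb.symm⟩

noncomputable instance instPermDecL : MulAction (Equiv.Perm (Fin t)) (DecL n t a F) where
  smul π D := ⟨fun j => D.1 (π⁻¹ j), by
    obtain ⟨D, h1⟩ := D
    refine ⟨h1.two_le, h1.pos, fun j => h1.finrank_eq _, ?_, ?_⟩
    · exact h1.indep.comp (π⁻¹).injective
    · rw [← h1.iSup_eq_top]
      exact Equiv.iSup_comp (π⁻¹)⟩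
  one_smul D := by
    apply Subtype.ext
    funext j
    rfl
  mul_smul g h D := by
    apply Subtype.ext
    funext j
    show D.1 ((g * h)⁻¹ j) = D.1 (h⁻¹ (g⁻¹ j))
    rw [_root_.mul_inv_rev]
    rfl

theorem factorial_dvdL [Finite F] : t.factorial ∣ Nat.card (DecL n t a F) := by
  classical
  have h1 : Nat.card (Equiv.Perm (Fin t)) = t.factorial := by
    rw [Nat.card_eq_fintype_card, Fintype.card_perm, Fintype.card_fin]
  rw [← h1]
  apply card_dvd_of_free
  intro π D hD
  have hne : ∀ j, D.1 j ≠ ⊥ := by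
    intro j h0
    have h2 := D.2.finrank_eq j
    have h3 := D.2.pos
    rw [h0, finrank_bot] at h2
    omega
  have hinj := D.2.indep.injective hne
  have h2 : ∀ j, π⁻¹ j = j := by
    intro j
    apply hinj
    have h3 := congrArg (fun E : DecL n t a F => E.1 j) hD
    exact h3
  have h3 : π⁻¹ = 1 := by
    ext j
    rw [h2]
    rfl
  rw [← inv_eq_one]
  exact h3

/-- There is at least one decomposition. -/
theorem exists_decL (hat : n = a * t) (ha : 1 ≤ a) (ht : 2 ≤ t) : Nonempty (DecL n t a F) := by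
  have hdimV : finrank F (Fin n → F) = a * t := by
    rw [Module.finrank_fintype_fun_eq_card, Fintype.card_fin, hat]
  have h1 : (1 : ℕ) ≠ 0 := one_ne_zero
  have hfac : ∀ d : F[X], Irreducible d → d ∣ Phi F 1 → d.natDegree = 1 := by
    intro d hd hdvd
    exfalso
    have h2 : Phi F 1 = 1 := by simp [Phi]
    rw [h2] at hdvd
    exact hd.not_isUnit (isUnit_of_dvd_one hdvd)
  obtain ⟨D, h3, h4, h5⟩ := exists_inv_decomp_plain (F := F) (V := Fin n → F) (y := 1) (r := 1) (c := 1) (by simp) (by simp) hfac (by norm_num)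
    (a := a) (t := t) hdimV (by rw [hdimV, Nat.mod_one, Nat.mod_one, mul_zero])
  exact ⟨⟨D, ht, by omega, fun j => (h3 j).2, h4, h5⟩⟩

variable [Fintype F] {p : ℕ} [Fact p.Prime] [CharP F p]

/-- The order of `q` is at most the dimension. -/
theorem c_le_n {q : ℕ} (hq : Fintype.card F = q) (hat : n = a * t) (ha : 1 ≤ a) (ht : 2 ≤ t)
    {r : ℕ} [Fact r.Prime] (hrp : r ≠ p) (hΩ : r ∣ Nat.card (DecL n t a F) / t.factorial) :
    orderOf (q : ZMod r) ≤ n := by
  classical
  have hr : r.Prime := Fact.out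
  have hrN : r ∣ Nat.card (DecL n t a F) := hΩ.trans (Nat.div_dvd_of_dvd factorial_dvdL)
  obtain ⟨D₀⟩ := exists_decL (F := F) hat ha ht
  have h1 := hrN.trans (card_dvdL hat D₀)
  have hqpos : 2 ≤ q := by
    rw [← hq]
    exact Fintype.one_lt_card
  rw [Matrix.card_GL_field, hq, SpPairsMain.prod_gl hqpos] at h1
  have hrq : ¬ r ∣ q := by
    obtain ⟨m, hp, hm⟩ := FiniteField.card F p
    rw [← hq, hm]
    intro h3
    have h4 := hr.dvd_of_dvd_pow h3
    exact hrp ((Nat.prime_dvd_prime_iff_eq hr hp).1 h4)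
  have h2 : ¬ r ∣ ∏ i ∈ Finset.range n, q ^ i := by
    intro h3
    obtain ⟨j, -, hj'⟩ := (Prime.dvd_finsetProd_iff hr.prime _).1 h3
    exact hrq (hr.dvd_of_dvd_pow hj')
  have h3 := (hr.dvd_mul.1 h1).resolve_left h2
  obtain ⟨j, hj, hj'⟩ := (Prime.dvd_finsetProd_iff hr.prime _).1 h3
  rw [Finset.mem_range] at hj
  have h4 : orderOf (q : ZMod r) ∣ j + 1 := (PslNum.pow_eq_one_iff' (by omega)).2 hj'
  have h6 := Nat.le_of_dvd (by omega) h4
  omega

end DecL

end Cfsg.Agent.Lib.Classical.Elusive.PslImprimDec
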