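import Mathlib
import Cfsg.Agent.Lib.Classical.Elusive.JordanType
import Cfsg.Agent.Lib.Classical.Elusive.PslModel
import Cfsg.Prelude.Def_GeometricClasses

/-!
# Elements of order `p` in `PSL_n(q)` and their invariant decompositions
-/

set_option autoImplicit false
set_option linter.unusedSectionVars false
set_option linter.unusedSimpArgs false
set_option linter.unusedVariables false
set_option linter.style.haveILetI false

namespace Cfsg.Agent.Lib.Classical.Elusive.PslJordan

open Module Polynomial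
open Cfsg.Agent.Lib.Classical.Elusive.Inv Cfsg.Agent.Lib.Classical.Elusive.Jordan
  Cfsg.Agent.Lib.Classical.Elusive.JordanType Cfsg.Agent.Lib.Classical.Elusive.PslModel

variable {F : Type*} [Field F] {p : ℕ} [Fact p.Prime] [CharP F p] {n : ℕ}

theorem eq_one_of_pow_char {x : F} (h : x ^ p = 1) : x = 1 := by
  have h1 : (x - 1) ^ p = 0 := by
    rw [sub_pow_char, h, one_pow, sub_self]
  exact sub_eq_zero.1 (pow_eq_zero_iff (Fact.out : p.Prime).ne_zero |>.1 h1)

/-- The model of a given Jordan type. -/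
theorem model_T (μ : Multiset ℕ) (hμ : ∀ a ∈ μ, 0 < a ∧ a ≤ p) (hn : μ.sum = n) (hne : ∃ a ∈ μ, 2 ≤ a) :
    ∃ T : Module.End F (Fin n → F), T ^ p = 1 ∧ LinearMap.det T = 1 ∧ (∀ z : F, T ≠ z • 1) ∧
      ∀ k, finrank F ((⊤ : Submodule F (Fin n → F)).map ((T - 1) ^ k)) = gg μ k := by
  obtain ⟨N, hN⟩ := exists_model (F := F) μ (fun a ha => (hμ a ha).1) hn
  have hNp : N ^ p = 0 := by
    have h1 := hN p
    rw [gg_eq_zero (fun e he => (hμ e he).2)] at h1
    have h2 := Submodule.finrank_eq_zero.1 h1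
    apply LinearMap.ext
    intro x
    have h3 : (N ^ p) x ∈ (⊤ : Submodule F (Fin n → F)).map (N ^ p) := ⟨x, trivial, rfl⟩
    rw [h2] at h3
    exact h3
  have hT : (1 + N) ^ p = 1 := by
    rw [one_add_pow_char (p := p), hNp, add_zero]
  have hTN : (1 + N) - 1 = N := by
    simp
  obtain ⟨a, ha, ha2⟩ := hne
  refine ⟨1 + N, hT, ?_, ?_, ?_⟩
  · apply eq_one_of_pow_char (p := p)
    rw [← map_pow, hT, map_one]
  · intro z hz
    have h1 : N = (z - 1) • 1 := by
      apply LinearMap.ext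
      intro x
      have h2 : x + N x = z • x := LinearMap.congr_fun hz x
      show N x = (z - 1) • x
      rw [sub_smul, one_smul, ← h2]
      abel
    have hn0 : n ≠ 0 := by
      intro h0
      have h2 : a ≤ μ.sum := Multiset.single_le_sum (fun x _ => Nat.zero_le x) a ha
      omega
    haveI : Nonempty (Fin n) := ⟨⟨0, by omega⟩⟩
    have h2 : z - 1 = 0 := by
      have h3 : ((z - 1) • (1 : Module.End F (Fin n → F))) ^ p = 0 := by
        rw [← h1, hNp]
      rw [_root_.smul_pow, one_pow] at h3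
      have h4 : (z - 1) ^ p = 0 := by
        by_contra h5
        have h6 : (1 : Module.End F (Fin n → F)) = 0 := (smul_eq_zero.1 h3).resolve_left h5
        have h7 := congrArg (fun S : Module.End F (Fin n → F) => S (fun _ => 1)) h6
        have h8 := congrFun h7 ⟨0, by omega⟩
        simp at h8
      exact pow_eq_zero_iff (Fact.out : p.Prime).ne_zero |>.1 h4
    rw [h2, zero_smul] at h1
    have h3 := hN 1
    rw [h1] at h3
    have h4 : gg μ 1 = 0 := by
      rw [← h3, pow_one]
      have h5 : (⊤ : Submodule F (Fin n → F)).map (0 : Module.End F (Fin n → F)) = ⊥ := by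
        ext x
        simp
      rw [h5, finrank_bot]
    have := le_of_gg_eq_zero h4 a ha
    omega
  · intro k
    rw [hTN]
    exact hN k

/-- `(X - 1)^(p-1) = Φ_p` in characteristic `p`. -/
theorem pow_eq_Phi : (X - 1 : F[X]) ^ (p - 1) = Phi F p := by
  have hp : p.Prime := Fact.out
  have h1 : (X - 1 : F[X]) ≠ 0 := by
    intro h2
    exact X_sub_C_ne_zero (1 : F) (by simpa using h2)
  apply mul_right_cancel₀ h1
  rw [Phi_mul, ← pow_succ, Nat.sub_add_cancel hp.one_lt.le, sub_pow_char, one_pow]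

theorem N_pow_eq (T : Module.End F (Fin n → F)) (v : Fin n → F) :
    ((T - 1) ^ (p - 1)) v = ∑ k ∈ Finset.range p, (T ^ k) v := by
  have h1 := congrArg (aeval T) (pow_eq_Phi (F := F) (p := p))
  have h2 : aeval T ((X - 1 : F[X]) ^ (p - 1)) = (T - 1) ^ (p - 1) := by
    simp
  rw [h2] at h1
  rw [h1]
  unfold Phi
  simp [LinearMap.sum_apply]

/-- An independent family: a vanishing sum along an injective index map. -/
theorem eq_zero_of_sum_eq_zero {t : ℕ} {D : Fin t → Submodule F (Fin n → F)} (hD : iSupIndep D) {m : ℕ} {g : ℕ → Fin t}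
    (hg : Set.InjOn g (Set.Iio m)) {w : ℕ → Fin n → F} (hw : ∀ k < m, w k ∈ D (g k)) (hs : ∑ k ∈ Finset.range m, w k = 0) :
    ∀ k < m, w k = 0 := by
  classical
  intro k₀ hk₀
  have h1 : w k₀ = - ∑ k ∈ (Finset.range m).erase k₀, w k := by
    rw [← Finset.add_sum_erase _ _ (Finset.mem_range.2 hk₀)] at hs
    exact eq_neg_of_add_eq_zero_left hs
  have h2 : w k₀ ∈ ⨆ l ≠ g k₀, D l := by
    rw [h1]
    apply Submodule.neg_mem
    apply Submodule.sum_mem
    intro k hk
    rw [Finset.mem_erase, Finset.mem_range] at hk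
    have hne : g k ≠ g k₀ := fun h => hk.1 (hg hk.2 hk₀ h)
    have h4 : D (g k) ≤ ⨆ l ≠ g k₀, D l := le_iSup₂_of_le (g k) hne le_rfl
    exact h4 (hw k hk.2)
  have h3 := (hD (g k₀)).le_bot ⟨hw k₀ hk₀, h2⟩
  exact h3

/-- The main argument for a decomposition permuted by an element of order `p`. -/
theorem main_perm {t a : ℕ} {T : Module.End F (Fin n → F)} (hT : T ^ p = 1) {D : Fin t → Submodule F (Fin n → F)}
    (hdim : ∀ j, finrank F (D j) = a) (ha : 0 < a) (hD : iSupIndep D) (hD' : iSup D = ⊤) {σ : Equiv.Perm (Fin t)}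
    (hσ : ∀ j, (D j).map T = D (σ j)) (hfix : ∀ j, σ j ≠ j) (j₀ : Fin t) :
    a ≤ finrank F ((⊤ : Submodule F (Fin n → F)).map ((T - 1) ^ (p - 1))) := by
  classical
  have hp : p.Prime := Fact.out
  have hmem : ∀ (k : ℕ) (v : Fin n → F), v ∈ D j₀ → (T ^ k) v ∈ D ((σ ^ k) j₀) := by
    intro k v hv
    induction k with
    | zero => simpa using hv
    | succ k ih =>
      have h1 : (T ^ (k + 1)) v = T ((T ^ k) v) := by rw [pow_succ', Module.End.mul_apply]
      have h2 : (σ ^ (k + 1)) j₀ = σ ((σ ^ k) j₀) := by rw [pow_succ', Equiv.Perm.mul_apply]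
      rw [h1, h2, ← hσ]
      exact ⟨_, ih, rfl⟩
  have hmap : ∀ k : ℕ, (D j₀).map (T ^ k) = D ((σ ^ k) j₀) := by
    intro k
    induction k with
    | zero =>
      simp only [pow_zero]
      exact Submodule.map_id _
    | succ k ih =>
      have h2 : (σ ^ (k + 1)) j₀ = σ ((σ ^ k) j₀) := by rw [pow_succ', Equiv.Perm.mul_apply]
      rw [h2, ← hσ, ← ih, ← Submodule.map_comp, pow_succ']
      rfl
  have hper : (σ ^ p) j₀ = j₀ := by
    by_contra hne
    have h1 : D ((σ ^ p) j₀) = D j₀ := by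
      rw [← hmap, hT]
      exact Submodule.map_id _
    have h2 : Disjoint (D ((σ ^ p) j₀)) (D j₀) := hD.pairwiseDisjoint hne
    rw [h1] at h2
    have h3 : D j₀ = ⊥ := disjoint_self.1 h2
    have h4 := hdim j₀
    rw [h3, finrank_bot] at h4
    omega
  have hperiod : Function.IsPeriodicPt σ p j₀ := by
    show σ^[p] j₀ = j₀
    rw [Equiv.Perm.iterate_eq_pow]
    exact hper
  have hmin : Function.minimalPeriod σ j₀ = p := by
    have h1 := hperiod.minimalPeriod_dvd
    rcases (Nat.dvd_prime hp).1 h1 with h2 | h2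
    · exfalso
      apply hfix j₀
      exact Function.minimalPeriod_eq_one_iff_isFixedPt.1 h2
    · exact h2
  have hg : Set.InjOn (fun k : ℕ => (σ ^ k) j₀) (Set.Iio p) := by
    have h1 := Function.iterate_injOn_Iio_minimalPeriod (f := σ) (x := j₀)
    rw [hmin] at h1
    intro k hk l hl hkl
    apply h1 hk hl
    simp only [Equiv.Perm.iterate_eq_pow]
    exact hkl
  have hinj : Function.Injective (((T - 1) ^ (p - 1)).domRestrict (D j₀)) := by
    rw [injective_iff_map_eq_zero]
    rintro ⟨v, hv⟩ h0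
    have h1 : ((T - 1) ^ (p - 1)) v = 0 := h0
    rw [N_pow_eq] at h1
    have h2 := eq_zero_of_sum_eq_zero hD hg (w := fun k => (T ^ k) v) (fun k _ => hmem k v hv) h1 0 hp.pos
    apply Subtype.ext
    simpa using h2
  have h1 := LinearMap.finrank_range_of_inj hinj
  rw [LinearMap.range_domRestrict, hdim] at h1
  rw [← h1]
  exact Submodule.finrank_mono (Submodule.map_mono le_top)

/-- An element permuting a decomposition with a fixed summand has a fixed summand with invariant complement. -/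
theorem main_fix {t a : ℕ} {T : Module.End F (Fin n → F)} {D : Fin t → Submodule F (Fin n → F)}
    (hdim : ∀ j, finrank F (D j) = a) (hD : iSupIndep D) (hD' : iSup D = ⊤) {σ : Equiv.Perm (Fin t)}
    (hσ : ∀ j, (D j).map T = D (σ j)) {j₀ : Fin t} (hj₀ : σ j₀ = j₀) :
    IsInv T (D j₀) ∧ IsInv T (⨆ k ≠ j₀, D k) ∧ D j₀ ⊓ (⨆ k ≠ j₀, D k) = ⊥ ∧ D j₀ ⊔ (⨆ k ≠ j₀, D k) = ⊤ := by
  refine ⟨?_, ?_, ?_, ?_⟩
  · intro u hu
    rw [← hj₀, ← hσ]
    exact ⟨u, hu, rfl⟩
  · intro u hu
    have h1 : (⨆ k ≠ j₀, D k).map T ≤ ⨆ k ≠ j₀, D k := by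
      rw [Submodule.map_iSup]
      refine iSup_le fun k => ?_
      rw [Submodule.map_iSup]
      refine iSup_le fun hk => ?_
      rw [hσ]
      have hne : σ k ≠ j₀ := by
        intro h
        apply hk
        apply σ.injective
        rw [h, hj₀]
      exact le_iSup₂_of_le (σ k) hne le_rfl
    exact h1 ⟨u, hu, rfl⟩
  · exact disjoint_iff.1 (hD j₀)
  · rw [eq_top_iff, ← hD']
    refine iSup_le fun k => ?_
    by_cases hk : k = j₀
    · rw [hk]
      exact le_sup_left
    · exact le_trans (le_iSup₂_of_le k hk le_rfl) le_sup_right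

theorem isInv_N {T : Module.End F (Fin n → F)} {U : Submodule F (Fin n → F)} (h : IsInv T U) : IsInv (T - 1) U := by
  intro u hu
  show T u - u ∈ U
  exact U.sub_mem (h u hu) hu

theorem N_pow {T : Module.End F (Fin n → F)} (h : T ^ p = 1) : (T - 1) ^ p = 0 := by
  rw [sub_one_pow_char, h, sub_self]

section Fintype

variable [Fintype F]

/-- The statement S5959. -/
theorem main59 (hn : 2 ≤ n) {a t : ℕ} (hat : n = a * t) (ha : 1 ≤ a) (ht : 2 ≤ t)
    (h : ∀ x : Matrix.SpecialLinearGroup (Fin n) F,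
      (∃ z : F, ((x ^ p : Matrix.SpecialLinearGroup (Fin n) F) : Matrix (Fin n) (Fin n) F) = z • (1 : Matrix (Fin n) (Fin n) F)) →
      (∀ z : F, (x : Matrix (Fin n) (Fin n) F) ≠ z • (1 : Matrix (Fin n) (Fin n) F)) →
      ∃ D : Fin t → Submodule F (Fin n → F), Cfsg.Geo.IsMDecomposition a D ∧
        ∃ σ : Equiv.Perm (Fin t), ∀ j, (D j).map (Matrix.toLin' (x : Matrix (Fin n) (Fin n) F)) = D (σ j))
    (μ : Multiset ℕ) (hμ : ∀ b ∈ μ, 0 < b ∧ b ≤ p) (hs : μ.sum = n) (hc : μ.count p < a) :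
    ∃ ν : Multiset ℕ, ν ≤ μ ∧ ν.sum = a := by
  classical
  have hp : p.Prime := Fact.out
  by_cases hne : ∃ b ∈ μ, 2 ≤ b
  · obtain ⟨T, hT, hdet, hns, hrk⟩ := model_T (F := F) μ hμ hs hne
    have hT1 : T ^ p = (1 : F) • 1 := by rw [hT, one_smul]
    obtain ⟨D, hD, σ, hσ⟩ := lhs_apply (r := p) (P := fun S => ∃ D : Fin t → Submodule F (Fin n → F), Cfsg.Geo.IsMDecomposition a D ∧
      ∃ σ : Equiv.Perm (Fin t), ∀ j, (D j).map S = D (σ j)) h T hT1 hdet hns
    by_cases hfix : ∃ j, σ j = j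
    · obtain ⟨j₀, hj₀⟩ := hfix
      obtain ⟨h1, h2, h3, h4⟩ := main_fix hD.finrank_eq hD.indep hD.iSup_eq_top hσ hj₀
      obtain ⟨ν, ν', h5, -, -, h6, -⟩ := type_add (N_pow hT) (isInv_N h1) (isInv_N h2) h3 h4 (fun b hb => (hμ b hb).1) hrk
      refine ⟨ν, ?_, ?_⟩
      · rw [h5]
        exact Multiset.le_add_right _ _
      · rw [← finrank_eq_sum_of_type h6, hD.finrank_eq]
    · push Not at hfix
      exfalso
      have h1 := main_perm hT hD.finrank_eq (by omega) hD.indep hD.iSup_eq_top hσ hfix ⟨0, by omega⟩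
      rw [hrk, gg_top hp.one_lt.le (fun e he => (hμ e he).2)] at h1
      omega
  · push Not at hne
    have h1 : μ = Multiset.replicate n 1 := by
      rw [Multiset.eq_replicate]
      have h2 : ∀ b ∈ μ, b = 1 := by
        intro b hb
        have h3 := hne b hb
        have h4 := (hμ b hb).1
        omega
      refine ⟨?_, h2⟩
      have h3 : μ = Multiset.replicate (Multiset.card μ) 1 := Multiset.eq_replicate.2 ⟨rfl, h2⟩
      rw [← hs]
      conv_rhs => rw [h3]
      simp
    refine ⟨Multiset.replicate a 1, ?_, by simp⟩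
    rw [h1]
    apply Multiset.replicate_le_replicate _ |>.2
    rw [hat]
    exact Nat.le_mul_of_pos_right a (by omega)

end Fintype

end Cfsg.Agent.Lib.Classical.Elusive.PslJordan
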