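import Mathlib
import Cfsg.Agent.Lib.Classical.Elusive.SpCore
import Cfsg.Agent.Lib.Classical.Elusive.SpPairsMain
import Cfsg.Agent.Lib.Classical.Symp.Count
import Cfsg.Agent.Lib.Classical.Symp.DecompMax
import Cfsg.Agent.Lib.Linalg.Bridge
import Cfsg.Agent.Lib.Classical.Asch.NotSL
import Cfsg.Agent.Lib.Classical.Elusive.PslJordan
import Cfsg.Agent.Lib.Classical.Witt.Parity

/-!
# Elements of `SL_n(q)` of odd prime order that are not similitudes of any symplectic form
-/

set_option autoImplicit false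
set_option linter.unusedSectionVars false
set_option linter.unusedSimpArgs false
set_option linter.unusedVariables false
set_option linter.style.haveILetI false

namespace Cfsg.Agent.Lib.Classical.Elusive.SlSp

open Polynomial Module
open Cfsg.Agent.Lib.Classical.Elusive.Inv Cfsg.Agent.Lib.Classical.Elusive.SpCore

section Abstract

variable {F V : Type*} [Field F] [AddCommGroup V] [Module F V] [FiniteDimensional F V]

/-- The dimension of an eigenspace. -/
noncomputable def Eig (y : Module.End F V) (a : F) : ℕ := finrank F (LinearMap.ker (y - a • (1 : Module.End F V)))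

theorem eig_le {B : LinearMap.BilinForm F V} (hN : B.Nondegenerate) {y : Module.End F V} {c a : F} (ha : a ≠ 0)
    (hy : ∀ u v, B (y u) (y v) = c * B u v) : Eig y a ≤ Eig y (c / a) := by
  set R := LinearMap.range (y - (c / a) • (1 : Module.End F V)) with hR
  have h1 : LinearMap.ker (y - a • (1 : Module.End F V)) ≤ B.orthogonal R := by
    intro u hu
    rw [LinearMap.BilinForm.mem_orthogonal_iff]
    rintro _ ⟨v, rfl⟩
    have hu' : y u = a • u := by
      have := LinearMap.mem_ker.1 hu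
      simpa [sub_eq_zero] using this
    have h2 := hy v u
    rw [hu', map_smul] at h2
    change B ((y - (c / a) • (1 : Module.End F V)) v) u = 0
    simp only [LinearMap.sub_apply, LinearMap.smul_apply, Module.End.one_apply, map_sub, map_smul, LinearMap.BilinForm.smul_left]
    simp only [smul_eq_mul] at h2 ⊢
    field_simp
    linear_combination h2
  have h2 := Submodule.finrank_mono h1
  rw [LinearMap.BilinForm.finrank_orthogonal hN] at h2
  have h3 := LinearMap.finrank_range_add_finrank_ker (y - (c / a) • (1 : Module.End F V))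
  unfold Eig
  have h4 : finrank F (LinearMap.range (y - (c / a) • (1 : Module.End F V))) = finrank F R := rfl
  omega

theorem eig_eq {B : LinearMap.BilinForm F V} (hN : B.Nondegenerate) {y : Module.End F V} {c a : F} (hc : c ≠ 0) (ha : a ≠ 0)
    (hy : ∀ u v, B (y u) (y v) = c * B u v) : Eig y a = Eig y (c / a) := by
  apply le_antisymm (eig_le hN ha hy)
  have h1 := eig_le hN (div_ne_zero hc ha) hy
  have h2 : c / (c / a) = a := by field_simp
  rwa [h2] at h1

theorem sim_pow {B : LinearMap.BilinForm F V} {y : Module.End F V} {c : F}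
    (hy : ∀ u v, B (y u) (y v) = c * B u v) (k : ℕ) (u v : V) : B ((y ^ k) u) ((y ^ k) v) = c ^ k * B u v := by
  induction k generalizing u v with
  | zero => simp
  | succ k ih =>
    rw [pow_succ, Module.End.mul_apply, Module.End.mul_apply, ih, hy, pow_succ, mul_assoc]

theorem c_pow_eq_one [Nontrivial V] {B : LinearMap.BilinForm F V} (hN : B.Nondegenerate) {y : Module.End F V} {c : F}
    (hy : ∀ u v, B (y u) (y v) = c * B u v) {k : ℕ} (hk : y ^ k = 1) : c ^ k = 1 := by
  have h0 : B ≠ 0 := hN.ne_zero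
  obtain ⟨u, hu⟩ : ∃ u, B u ≠ 0 := by
    by_contra h
    push Not at h
    exact h0 (LinearMap.ext h)
  obtain ⟨v, hv⟩ : ∃ v, B u v ≠ 0 := by
    by_contra h
    push Not at h
    exact hu (LinearMap.ext h)
  have h1 := sim_pow hy k u v
  rw [hk] at h1
  simp only [Module.End.one_apply] at h1
  have h2 : (c ^ k - 1) * B u v = 0 := by
    rw [sub_mul, ← h1]
    ring
  have h3 := (mul_eq_zero.1 h2).resolve_right hv
  exact sub_eq_zero.1 h3

theorem no_J3 {B : LinearMap.BilinForm F V} (hA : B.IsAlt) (hN : B.Nondegenerate) (h2 : (2 : F) ≠ 0) {y : Module.End F V}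
    (hI : ∀ u v, B (y u) (y v) = B u v) (hN3 : (y - 1) ^ 3 = 0) {φ : V →ₗ[F] F} {w : V} (hw : w ≠ 0) (hφ : φ ≠ 0)
    (hN2 : ∀ v, ((y - 1) ^ 2 : Module.End F V) v = φ v • w) : False := by
  set N := y - 1 with hNdef
  have hy : y = 1 + N := by rw [hNdef]; abel
  set z : Module.End F V := 1 - N + N ^ 2 with hzdef
  have hz : y * z = 1 := by
    rw [hy, hzdef]
    have : (1 + N) * (1 - N + N ^ 2) = 1 + N ^ 3 := by noncomm_ring
    rw [this, hN3, add_zero]
  have hadj : ∀ u v, B (y u) v = B u (z v) := by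
    intro u v
    have h3 := hI u (z v)
    rw [← h3, ← Module.End.mul_apply, hz, Module.End.one_apply]
  set M : Module.End F V := -N + N ^ 2 with hMdef
  have hzM : z = 1 + M := by rw [hzdef, hMdef]; abel
  have hN1 : ∀ u v, B (N u) v = B u (M v) := by
    intro u v
    have h3 := hadj u v
    have h4 : y u = u + N u := by rw [hy]; simp
    rw [h4, map_add, LinearMap.add_apply, hzM] at h3
    simp only [LinearMap.add_apply, Module.End.one_apply, map_add] at h3
    exact add_left_cancel h3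
  have hMM : M * M = N ^ 2 := by
    have : M * M = N ^ 2 - (N ^ 3 + N ^ 3) + N ^ 3 * N := by
      rw [hMdef]
      noncomm_ring
    rw [this, hN3]
    simp
  have hsym : ∀ u v, B ((N ^ 2) u) v = B u ((N ^ 2) v) := by
    intro u v
    rw [_root_.sq, Module.End.mul_apply, hN1, hN1, ← _root_.sq, ← Module.End.mul_apply, hMM]
  have hzero : ∀ u, φ u * B u w = 0 := by
    intro u
    have h3 := hsym u u
    have h4 : B ((N ^ 2) u) u = - B u ((N ^ 2) u) := (LinearMap.BilinForm.IsAlt.neg_eq hA u _).symm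
    have h5 : B u ((N ^ 2) u) = 0 := by
      have h6 : (2 : F) * B u ((N ^ 2) u) = 0 := by
        rw [h4] at h3
        linear_combination -h3
      exact (mul_eq_zero.1 h6).resolve_left h2
    rw [hN2, map_smul] at h5
    simpa using h5
  obtain ⟨u₁, hu₁⟩ : ∃ u, φ u ≠ 0 := by
    by_contra h
    push Not at h
    exact hφ (LinearMap.ext h)
  obtain ⟨u₂, hu₂⟩ : ∃ u, B u w ≠ 0 := by
    by_contra h
    push Not at h
    exact hw (hN.2 w h)
  have h6 : B u₁ w = 0 := (mul_eq_zero.1 (hzero u₁)).resolve_left hu₁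
  by_cases h7 : φ u₂ = 0
  · have h8 := hzero (u₁ + u₂)
    rw [map_add, h7, add_zero, map_add, LinearMap.add_apply, h6, zero_add] at h8
    exact hu₂ ((mul_eq_zero.1 h8).resolve_left hu₁)
  · exact hu₂ ((mul_eq_zero.1 (hzero u₂)).resolve_left h7)

end Abstract

section Models

variable {F : Type*} [Field F] {n : ℕ}

/-- `x` is not a similitude of any nondegenerate alternating form. -/
def NotSim (x : Matrix (Fin n) (Fin n) F) : Prop :=
  ∀ B : LinearMap.BilinForm F (Fin n → F), B.IsAlt → B.Nondegenerate → ∀ c : F, c ≠ 0 →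
    ¬ ∀ u v, B (Matrix.toLin' x u) (Matrix.toLin' x v) = c * B u v

theorem exists_J3 {p : ℕ} [Fact p.Prime] [CharP F p] (hp2 : p ≠ 2) (hn : 3 ≤ n) :
    ∃ x : Matrix.SpecialLinearGroup (Fin n) F,
      ((x ^ p : Matrix.SpecialLinearGroup (Fin n) F) : Matrix (Fin n) (Fin n) F) = 1 ∧
      (∀ z : F, (x : Matrix (Fin n) (Fin n) F) ≠ z • (1 : Matrix (Fin n) (Fin n) F)) ∧
      NotSim (x : Matrix (Fin n) (Fin n) F) := by
  classical
  have hpp : p.Prime := Fact.out
  have hp3 : 3 ≤ p := by
    have := hpp.two_le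
    omega
  let i0 : Fin n := ⟨0, by omega⟩
  let i1 : Fin n := ⟨1, by omega⟩
  let i2 : Fin n := ⟨2, by omega⟩
  have h01 : i0 ≠ i1 := by simp [i0, i1, Fin.ext_iff]
  have h12 : i1 ≠ i2 := by simp [i1, i2, Fin.ext_iff]
  have h02 : i0 ≠ i2 := by simp [i0, i2, Fin.ext_iff]
  let N : Matrix (Fin n) (Fin n) F := Matrix.single i0 i1 1 + Matrix.single i1 i2 1
  have hN2 : N ^ 2 = Matrix.single i0 i2 1 := by
    rw [_root_.sq]
    simp [N, add_mul, mul_add, h01.symm, h02.symm, h12.symm]
  have hN3 : N ^ 3 = 0 := by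
    rw [pow_succ, hN2]
    simp [N, mul_add, h01.symm, h02.symm, h12.symm]
  have hNp : N ^ p = 0 := by
    obtain ⟨k, rfl⟩ : ∃ k, p = 3 + k := ⟨p - 3, by omega⟩
    rw [pow_add, hN3, zero_mul]
  haveI : Nonempty (Fin n) := ⟨i0⟩
  have hXp : (1 + N) ^ p = 1 := by
    rw [add_pow_char_of_commute p (Commute.one_left N), one_pow, hNp, add_zero]
  have hdet : (1 + N).det = 1 := by
    apply Cfsg.Agent.Lib.Classical.Elusive.PslJordan.eq_one_of_pow_char (p := p)
    rw [← Matrix.det_pow, hXp, Matrix.det_one]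
  let x : Matrix.SpecialLinearGroup (Fin n) F := ⟨1 + N, hdet⟩
  have hx : (x : Matrix (Fin n) (Fin n) F) = 1 + N := rfl
  have h2 : (2 : F) ≠ 0 := by
    intro h
    have h3 : ((2 : ℕ) : F) = 0 := by exact_mod_cast h
    rw [CharP.cast_eq_zero_iff F p] at h3
    exact hp2 ((Nat.prime_dvd_prime_iff_eq hpp Nat.prime_two).1 h3)
  refine ⟨x, ?_, ?_, ?_⟩
  · rw [Matrix.SpecialLinearGroup.coe_pow, hx, hXp]
  · intro z hz
    rw [hx] at hz
    have h3 := congrFun (congrFun hz i0) i1
    simp [N, Matrix.add_apply, Matrix.one_apply, h01, h12.symm, h01.symm, Matrix.single_apply] at h3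
  · intro B hA hN c hc hy
    rw [hx] at hy
    set y : Module.End F (Fin n → F) := Matrix.toLin' (1 + N) with hydef
    have hy1 : y - 1 = Matrix.toLin' N := by
      rw [hydef, map_add, Matrix.toLin'_one]
      exact add_sub_cancel_left _ _
    have hpow : ∀ k, (Matrix.toLin' N : Module.End F (Fin n → F)) ^ k = Matrix.toLin' (N ^ k) := by
      intro k
      induction k with
      | zero => simp [Module.End.one_eq_id]
      | succ k ih =>
        rw [pow_succ, pow_succ, ih, Matrix.toLin'_mul]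
        rfl
    have hyp : y ^ p = 1 := by
      have h3 : ∀ k, (Matrix.toLin' (1 + N) : Module.End F (Fin n → F)) ^ k = Matrix.toLin' ((1 + N) ^ k) := by
        intro k
        induction k with
        | zero => simp [Module.End.one_eq_id]
        | succ k ih =>
          rw [pow_succ, pow_succ, ih, Matrix.toLin'_mul]
          rfl
      rw [hydef, h3, hXp, Matrix.toLin'_one]
      rfl
    have hc1 : c = 1 := Cfsg.Agent.Lib.Classical.Elusive.PslJordan.eq_one_of_pow_char (p := p) (c_pow_eq_one hN hy hyp)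
    have hI : ∀ u v, B (y u) (y v) = B u v := by
      intro u v
      rw [hy, hc1, one_mul]
    refine no_J3 hA hN h2 hI (φ := LinearMap.proj i2) (w := Pi.single i0 1) ?_ ?_ ?_ ?_
    · rw [hy1, hpow, hN3]
      simp
    · intro h
      exact (Pi.single_ne_zero_iff).2 one_ne_zero h
    · intro h
      have h3 := congrArg (fun φ : (Fin n → F) →ₗ[F] F => φ (Pi.single i2 1)) h
      simp at h3
    · intro v
      rw [hy1, hpow, hN2, Matrix.toLin'_apply]
      ext j
      simp [Matrix.single_mulVec, Pi.single_apply, Function.update_apply]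

open _root_.Classical in
theorem cnt_eig (w : Fin n → F) (a : F) :
    Eig (Matrix.toLin' (Matrix.diagonal w)) a = ∑ j, if w j = a then 1 else 0 := by
  classical
  have h1 : Matrix.toLin' (Matrix.diagonal w) - a • (1 : Module.End F (Fin n → F)) =
      Matrix.toLin' (Matrix.diagonal fun j => w j - a) := by
    ext j k
    simp [Matrix.diagonal_apply, Pi.single_apply, Matrix.mulVec_diagonal]
    split_ifs <;> simp_all
  have h2 := LinearMap.finrank_range_add_finrank_ker (Matrix.toLin' (Matrix.diagonal fun j => w j - a))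
  have h3 : finrank F (LinearMap.range (Matrix.toLin' (Matrix.diagonal fun j => w j - a))) =
      Fintype.card {j // w j - a ≠ 0} := by
    rw [← Matrix.rank_diagonal]
    rfl
  unfold Eig
  rw [h1]
  rw [h3, finrank_fin_fun] at h2
  have h4 : Fintype.card {j // w j - a ≠ 0} + Fintype.card {j // w j = a} = n := by
    have h5 : Fintype.card {j // w j - a ≠ 0} = Fintype.card {j // ¬ (w j = a)} := by
      apply Fintype.card_congr
      exact Equiv.subtypeEquivRight fun j => by rw [Ne, sub_eq_zero]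
    rw [h5, Fintype.card_subtype_compl]
    have h6 : Fintype.card {j // w j = a} ≤ Fintype.card (Fin n) := Fintype.card_subtype_le _
    rw [Fintype.card_fin] at h6 ⊢
    omega
  have h5 : ∑ j, (if w j = a then 1 else 0) = Fintype.card {j // w j = a} := by
    rw [Fintype.card_subtype, Finset.card_filter]
  rw [h5]
  omega

open _root_.Classical in
theorem exists_diag {r : ℕ} (hr : r.Prime) (hr2 : r ≠ 2) {ζ : F} (hζ : orderOf ζ = r) {k : ℕ} (hk : Odd k)
    (hgap : ¬ (k = 3 ∧ r = 3)) :
    ∃ x : Matrix.SpecialLinearGroup (Fin (k + 3)) F,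
      ((x ^ r : Matrix.SpecialLinearGroup (Fin (k + 3)) F) : Matrix (Fin (k + 3)) (Fin (k + 3)) F) = 1 ∧
      (∀ z : F, (x : Matrix (Fin (k + 3)) (Fin (k + 3)) F) ≠ z • (1 : Matrix (Fin (k + 3)) (Fin (k + 3)) F)) ∧
      NotSim (x : Matrix (Fin (k + 3)) (Fin (k + 3)) F) := by
  have hrpos : 0 < r := hr.pos
  have hζr : ζ ^ r = 1 := by rw [← hζ]; exact pow_orderOf_eq_one ζ
  have hζ0 : ζ ≠ 0 := by
    intro h
    rw [h, zero_pow hrpos.ne'] at hζr
    exact zero_ne_one hζr
  set t := ζ⁻¹ with ht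
  have hζt : ζ * t = 1 := mul_inv_cancel₀ hζ0
  have ht0 : t ≠ 0 := inv_ne_zero hζ0
  have htr : t ^ r = 1 := by rw [ht, inv_pow, hζr, inv_one]
  have hdvd : ∀ s, ζ ^ s = 1 → r ∣ s := fun s hs => by rw [← hζ]; exact orderOf_dvd_of_pow_eq_one hs
  have hζ1 : ζ ≠ 1 := by
    intro h
    have := hdvd 1 (by rw [h, one_pow])
    have h1 := Nat.le_of_dvd one_pos this
    have := hr.two_le
    omega
  have hζ2 : ζ ^ 2 ≠ 1 := fun h => hr2 ((Nat.prime_dvd_prime_iff_eq hr Nat.prime_two).1 (hdvd 2 h))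
  have hζ4 : ζ ^ 4 ≠ 1 := by
    intro h
    have h1 : r ∣ 2 ^ 2 := hdvd 4 h
    exact hr2 ((Nat.prime_dvd_prime_iff_eq hr Nat.prime_two).1 (hr.dvd_of_dvd_pow h1))
  have ht1 : t ≠ 1 := by
    intro h
    apply hζ1
    rw [h, mul_one] at hζt
    exact hζt
  have h_ζ_t : ζ ≠ t := by
    intro h
    apply hζ2
    calc ζ ^ 2 = ζ * ζ := by ring
      _ = ζ * t := by rw [← h]
      _ = 1 := hζt
  have ht2 : t ^ 2 ≠ 1 := by
    intro h
    apply hζ2
    calc ζ ^ 2 = ζ ^ 2 * t ^ 2 := by rw [h, mul_one]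
      _ = (ζ * t) ^ 2 := by ring
      _ = 1 := by rw [hζt, one_pow]
  have h_t2_t : t ^ 2 ≠ t := by
    intro h
    apply ht1
    have h1 : t * (t - 1) = 0 := by linear_combination h
    exact sub_eq_zero.1 ((mul_eq_zero.1 h1).resolve_left ht0)
  have h_ζ_t3 : ζ ≠ t ^ 3 := by
    intro h
    apply hζ4
    calc ζ ^ 4 = ζ * ζ ^ 3 := by ring
      _ = t ^ 3 * ζ ^ 3 := by rw [← h]
      _ = (ζ * t) ^ 3 := by ring
      _ = 1 := by rw [hζt, one_pow]
  have h_t2_t3 : t ^ 2 ≠ t ^ 3 := by
    intro h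
    apply ht1
    have h1 : t ^ 2 * (t - 1) = 0 := by linear_combination -h
    exact sub_eq_zero.1 ((mul_eq_zero.1 h1).resolve_left (pow_ne_zero _ ht0))
  let w : Fin (k + 3) → F := Fin.cons ζ (Fin.cons ζ (Fin.cons (t ^ 2) (fun _ => 1)))
  have hw0 : w 0 = ζ := rfl
  have hw3 : ∀ j : Fin k, w j.succ.succ.succ = 1 := fun j => rfl
  have hcnt : ∀ a, (∑ j, if w j = a then 1 else 0) =
      (if ζ = a then 2 else 0) + (if t ^ 2 = a then 1 else 0) + (if 1 = a then k else 0) := by
    intro a
    rw [Fin.sum_univ_succ, Fin.sum_univ_succ, Fin.sum_univ_succ]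
    have h1 : w 0 = ζ := rfl
    have h2 : w (Fin.succ 0) = ζ := rfl
    have h3 : w (Fin.succ (Fin.succ 0)) = t ^ 2 := rfl
    rw [h1, h2, h3]
    simp only [hw3]
    have h4 : (∑ j : Fin k, if (1 : F) = a then 1 else 0) = if (1 : F) = a then k else 0 := by
      split_ifs <;> simp
    rw [h4]
    split_ifs <;> omega
  have hdet : (Matrix.diagonal w).det = 1 := by
    rw [Matrix.det_diagonal, Fin.prod_univ_succ, Fin.prod_univ_succ, Fin.prod_univ_succ]
    have h1 : w 0 = ζ := rfl
    have h2 : w (Fin.succ 0) = ζ := rfl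
    have h3 : w (Fin.succ (Fin.succ 0)) = t ^ 2 := rfl
    rw [h1, h2, h3]
    simp only [hw3, Finset.prod_const_one, mul_one]
    calc ζ * (ζ * t ^ 2) = (ζ * t) ^ 2 := by ring
      _ = 1 := by rw [hζt, one_pow]
  let x : Matrix.SpecialLinearGroup (Fin (k + 3)) F := ⟨Matrix.diagonal w, hdet⟩
  have hx : (x : Matrix (Fin (k + 3)) (Fin (k + 3)) F) = Matrix.diagonal w := rfl
  have hkpos : 0 < k := hk.pos
  refine ⟨x, ?_, ?_, ?_⟩
  · rw [Matrix.SpecialLinearGroup.coe_pow, hx, Matrix.diagonal_pow, ← Matrix.diagonal_one]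
    congr 1
    funext j
    refine Fin.cases ?_ (fun j => ?_) j
    · change ζ ^ r = 1
      exact hζr
    · refine Fin.cases ?_ (fun j => ?_) j
      · change ζ ^ r = 1
        exact hζr
      · refine Fin.cases ?_ (fun j => ?_) j
        · change (t ^ 2) ^ r = 1
          rw [← pow_mul, mul_comm, pow_mul, htr, one_pow]
        · change (1 : F) ^ r = 1
          exact one_pow r
  · intro z hz
    rw [hx] at hz
    have h1 := congrFun (congrFun hz 0) 0
    have h2 := congrFun (congrFun hz (Fin.succ (Fin.succ (Fin.succ ⟨0, hkpos⟩)))) (Fin.succ (Fin.succ (Fin.succ ⟨0, hkpos⟩)))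
    rw [Matrix.diagonal_apply_eq, hw0] at h1
    rw [Matrix.diagonal_apply_eq, hw3] at h2
    simp only [Matrix.smul_apply, Matrix.one_apply_eq, smul_eq_mul, mul_one] at h1 h2
    exact hζ1 (h1.trans h2.symm)
  · intro B hA hN c hc hy
    rw [hx] at hy
    have hE : ∀ a : F, a ≠ 0 → ((if ζ = a then 2 else 0) + (if t ^ 2 = a then 1 else 0) + (if 1 = a then k else 0)) =
        ((if ζ = c / a then 2 else 0) + (if t ^ 2 = c / a then 1 else 0) + (if 1 = c / a then k else 0)) := by
      intro a ha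
      rw [← hcnt, ← hcnt, ← cnt_eig, ← cnt_eig]
      exact eig_eq hN hc ha hy
    have hE1 := hE 1 one_ne_zero
    rw [div_one, if_neg hζ1, if_neg ht2, if_pos rfl, zero_add, zero_add] at hE1
    by_cases hc1 : c = 1
    · have h1 := hE ζ hζ0
      rw [hc1, one_div, ← ht, if_neg h_ζ_t, if_neg h_t2_t, if_neg ht1.symm, if_pos rfl] at h1
      omega
    · rw [if_neg (Ne.symm hc1), add_zero] at hE1
      by_cases hz3 : ζ ^ 3 = 1
      · have h_t2 : t ^ 2 = ζ := by
          calc t ^ 2 = t ^ 2 * ζ ^ 3 := by rw [hz3, mul_one]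
            _ = (ζ * t) ^ 2 * ζ := by ring
            _ = ζ := by rw [hζt, one_pow, one_mul]
        rw [h_t2] at hE1
        have hr3 : r = 3 := (Nat.prime_dvd_prime_iff_eq hr Nat.prime_three).1 (hdvd 3 hz3)
        by_cases h5 : ζ = c
        · rw [if_pos h5, if_pos h5] at hE1
          exact hgap ⟨by omega, hr3⟩
        · rw [if_neg h5, if_neg h5] at hE1
          omega
      · have h_ζ_t2 : ζ ≠ t ^ 2 := by
          intro h
          apply hz3
          calc ζ ^ 3 = ζ * ζ ^ 2 := by ring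
            _ = t ^ 2 * ζ ^ 2 := by rw [← h]
            _ = (ζ * t) ^ 2 := by ring
            _ = 1 := by rw [hζt, one_pow]
        have ht3 : (1 : F) ≠ t ^ 3 := by
          intro h
          apply hz3
          calc ζ ^ 3 = ζ ^ 3 * t ^ 3 := by rw [← h, mul_one]
            _ = (ζ * t) ^ 3 := by ring
            _ = 1 := by rw [hζt, one_pow]
        by_cases h5 : ζ = c
        · rw [if_pos h5] at hE1
          rw [if_neg (by rw [← h5]; exact h_ζ_t2.symm)] at hE1
          obtain ⟨m, hm⟩ := hk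
          omega
        · rw [if_neg h5, zero_add] at hE1
          by_cases h6 : t ^ 2 = c
          · rw [if_pos h6] at hE1
            have h7 := hE ζ hζ0
            have h8 : c / ζ = t ^ 3 := by
              rw [← h6, div_eq_mul_inv, ← ht]
              ring
            rw [h8, if_pos rfl, if_neg h_ζ_t2.symm, if_neg hζ1.symm, if_neg h_ζ_t3, if_neg h_t2_t3, if_neg ht3] at h7
            omega
          · rw [if_neg h6] at hE1
            omega

theorem exists_model_eq {d : F[X]} (hirr : Irreducible d) (hdeg : 2 ≤ d.natDegree)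
    {a n : ℕ} (hn : n = a + d.natDegree) {r : ℕ} (hd : d ∣ X ^ r - 1) :
    ∃ T : Module.End F (Fin n → F), T ^ r = 1 ∧ finrank F (Fix T) = a := by
  classical
  haveI : Fact (Irreducible d) := ⟨hirr⟩
  let K := AdjoinRoot d
  let θ : K := AdjoinRoot.root d
  have hθd : aeval θ d = 0 := by
    rw [AdjoinRoot.aeval_eq, AdjoinRoot.mk_self]
  have hθr : θ ^ r = 1 := by
    obtain ⟨e, he⟩ := hd
    have h1 := congrArg (aeval θ) he
    rw [map_mul, hθd, zero_mul, map_sub, map_pow, aeval_X, map_one, sub_eq_zero] at h1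
    exact h1
  have hθ1 : θ ≠ 1 := by
    intro h
    have h1 : aeval (algebraMap F K 1) d = 0 := by
      rw [map_one, ← h]
      exact hθd
    rw [aeval_algebraMap_apply] at h1
    have h2 : aeval (1 : F) d = 0 := by
      apply (algebraMap F K).injective
      rw [h1, map_zero]
    rw [coe_aeval_eq_eval] at h2
    have h3 : (X - C (1 : F)) ∣ d := dvd_iff_isRoot.2 h2
    have h4 : Irreducible (X - C (1 : F)) := irreducible_X_sub_C 1
    have h5 := h4.associated_of_dvd hirr h3
    have h6 := natDegree_eq_of_degree_eq (degree_eq_degree_of_associated h5)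
    rw [natDegree_X_sub_C] at h6
    omega
  haveI : Module.Finite F K := (AdjoinRoot.powerBasis hirr.ne_zero).finite
  have hKdim : finrank F K = d.natDegree := by
    rw [(AdjoinRoot.powerBasis hirr.ne_zero).finrank, AdjoinRoot.powerBasis_dim]
  let L : Module.End F K := LinearMap.mulLeft F θ
  have hL : ∀ w, L w = θ * w := fun w => rfl
  let y : Module.End F ((Fin a → F) × K) := LinearMap.prodMap (1 : Module.End F (Fin a → F)) L
  have hy1 : ∀ u w, y (u, w) = (u, θ * w) := fun u w => rfl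
  have hyr : y ^ r = 1 := by
    rw [Cfsg.Agent.Lib.Classical.Elusive.SpModel.prodMap_pow_apply, one_pow, LinearMap.pow_mulLeft, hθr]
    ext <;> simp
  have hfix : finrank F (Fix y) = a := by
    rw [Cfsg.Agent.Lib.Classical.Elusive.SpModel.finrank_Fix_prod]
    have h1 : Fix (1 : Module.End F (Fin a → F)) = ⊤ := by
      ext v
      simp [mem_Fix]
    have h2 : Fix L = ⊥ := by
      rw [eq_bot_iff]
      intro w hw
      have h3 : θ * w = w := mem_Fix.1 hw
      have h4 : (θ - 1) * w = 0 := by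
        rw [sub_mul, h3, one_mul, sub_self]
      exact (Submodule.mem_bot F).2 ((mul_eq_zero.1 h4).resolve_left (sub_ne_zero.2 hθ1))
    rw [h1, h2, finrank_top, finrank_bot, finrank_fin_fun, add_zero]
  have hfin : finrank F ((Fin a → F) × K) = finrank F (Fin n → F) := by
    rw [Module.finrank_prod, finrank_fin_fun, finrank_fin_fun, hn, hKdim]
  let e := LinearEquiv.ofFinrankEq ((Fin a → F) × K) (Fin n → F) hfin
  let T : Module.End F (Fin n → F) := e.conj y
  have hT : ∀ v, T v = e (y (e.symm v)) := fun v => rfl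
  have hTk : ∀ (k : ℕ) v, (T ^ k) v = e ((y ^ k) (e.symm v)) := by
    intro k
    induction k with
    | zero => intro v; simp
    | succ k ih =>
      intro v
      rw [pow_succ, Module.End.mul_apply, hT, ih, LinearEquiv.symm_apply_apply, pow_succ, Module.End.mul_apply]
  refine ⟨T, ?_, ?_⟩
  · apply LinearMap.ext
    intro v
    rw [hTk, hyr]
    simp
  · have h1 : Fix T = (Fix y).map (e : ((Fin a → F) × K) →ₗ[F] (Fin n → F)) := by
      ext v
      rw [mem_Fix, Submodule.mem_map]
      constructor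
      · intro h
        refine ⟨e.symm v, mem_Fix.2 ?_, by simp⟩
        apply e.injective
        rw [← hT, h, LinearEquiv.apply_symm_apply]
      · rintro ⟨u, hu, rfl⟩
        rw [hT]
        simp only [LinearEquiv.coe_coe, LinearEquiv.symm_apply_apply]
        rw [mem_Fix.1 hu]
    rw [h1, LinearEquiv.finrank_map_eq, hfix]

theorem eq_one_of_coprime [Fintype F] {r : ℕ} (hr : r.Prime) (h : ¬ r ∣ Fintype.card F - 1) {z : F} (hz : z ^ r = 1) : z = 1 := by
  have hz0 : z ≠ 0 := by
    intro h0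
    rw [h0, zero_pow hr.pos.ne'] at hz
    exact zero_ne_one hz
  have h1 : z ^ (Fintype.card F - 1) = 1 := FiniteField.pow_card_sub_one_eq_one z hz0
  have h2 : Nat.Coprime r (Fintype.card F - 1) := (Nat.Prime.coprime_iff_not_dvd hr).2 h
  have h3 : z ^ Nat.gcd r (Fintype.card F - 1) = 1 := pow_gcd_eq_one.2 ⟨hz, h1⟩
  rw [h2.gcd_eq_one, pow_one] at h3
  exact h3

theorem exists_odd [Fintype F] {p : ℕ} [Fact p.Prime] [CharP F p] {q r : ℕ} (hF : Fintype.card F = q) (hr : r.Prime) (hrp : r ≠ p)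
    (hne : ¬ r ∣ q - 1) (hodd : Odd (orderOf (q : ZMod r))) (hlt : orderOf (q : ZMod r) < n) :
    ∃ x : Matrix.SpecialLinearGroup (Fin n) F,
      ((x ^ r : Matrix.SpecialLinearGroup (Fin n) F) : Matrix (Fin n) (Fin n) F) = 1 ∧
      (∀ z : F, (x : Matrix (Fin n) (Fin n) F) ≠ z • (1 : Matrix (Fin n) (Fin n) F)) ∧
      NotSim (x : Matrix (Fin n) (Fin n) F) := by
  classical
  have hq : 1 ≤ q := by
    rw [← hF]
    exact Fintype.card_pos
  obtain ⟨g, hgm, hgi, hgP, hgd⟩ := Cfsg.Agent.Lib.Classical.Elusive.SpModel.exists_factor (F := F) hF hr hrp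
  have hi1 : orderOf (q : ZMod r) ≠ 1 := fun h => hne ((Cfsg.Agent.Lib.Classical.Elusive.PslNum.order_one_iff hq).1 h)
  have hdeg : 2 ≤ g.natDegree := by
    rw [hgd]
    obtain ⟨m, hm⟩ := hodd
    omega
  have hd : g ∣ X ^ r - 1 := by
    rw [← Phi_mul]
    exact hgP.mul_right _
  obtain ⟨T, hTr, hTfix⟩ := exists_model_eq (a := n - g.natDegree) (n := n) hgi hdeg (by omega) hd
  have hrF : (r : F) ≠ 0 := Cfsg.Agent.Lib.Classical.Elusive.PslNum.cast_ne_zero_of_ne hr hrp
  have hne' : ¬ r ∣ Fintype.card F - 1 := by rwa [hF]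
  have hdet : LinearMap.det T = 1 := by
    apply eq_one_of_coprime hr hne'
    rw [← map_pow, hTr, map_one]
  let x : Matrix.SpecialLinearGroup (Fin n) F := ⟨LinearMap.toMatrix' T, by rw [LinearMap.det_toMatrix']; exact hdet⟩
  have hx : (x : Matrix (Fin n) (Fin n) F) = LinearMap.toMatrix' T := rfl
  have hxT : Matrix.toLin' (x : Matrix (Fin n) (Fin n) F) = T := by
    rw [hx, Matrix.toLin'_toMatrix']
  refine ⟨x, ?_, ?_, ?_⟩
  · rw [Matrix.SpecialLinearGroup.coe_pow, hx]
    have h1 : ∀ k, (LinearMap.toMatrix' T) ^ k = LinearMap.toMatrix' (T ^ k) := by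
      intro k
      induction k with
      | zero => simp [Module.End.one_eq_id]
      | succ k ih =>
        rw [pow_succ, pow_succ, ih, Module.End.mul_eq_comp, LinearMap.toMatrix'_comp]
    rw [h1, hTr, Module.End.one_eq_id, LinearMap.toMatrix'_id]
  · intro z hz
    have h1 : T = z • 1 := by
      rw [← hxT, hz]
      ext j k
      simp [Matrix.smul_mulVec, Pi.single_apply]
    -- a nonzero fixed vector
    have h2 : 0 < finrank F (Fix T) := by
      rw [hTfix]
      omega
    have h2' : Fix T ≠ ⊥ := by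
      intro h
      rw [h, finrank_bot] at h2
      omega
    obtain ⟨v, hv, hv0⟩ := Submodule.exists_mem_ne_zero_of_ne_bot h2'
    have h3 : T v = v := mem_Fix.1 hv
    rw [h1] at h3
    have h4 : (z - 1) • v = 0 := by
      rw [sub_smul, one_smul, sub_eq_zero]
      simpa using h3
    have h5 : z = 1 := sub_eq_zero.1 ((smul_eq_zero.1 h4).resolve_right hv0)
    have h6 : Fix T = ⊤ := by
      ext u
      rw [mem_Fix, h1, h5]
      simp
    rw [h6, finrank_top, finrank_fin_fun] at hTfix
    have := g.natDegree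
    omega
  · intro B hA hN c hc hy
    rw [hxT] at hy
    haveI : Nontrivial (Fin n → F) := by
      haveI : Nonempty (Fin n) := ⟨⟨0, by omega⟩⟩
      infer_instance
    have hc1 : c = 1 := eq_one_of_coprime hr hne' (c_pow_eq_one hN hy hTr)
    have hI : ∀ u v, B (T u) (T v) = B u v := by
      intro u v
      rw [hy, hc1, one_mul]
    have h1 := finrank_Fix_add hrF hTr
    rw [hTfix, finrank_fin_fun] at h1
    have h2 : Even (finrank F (Ker T r)) := by
      apply Cfsg.Agent.Lib.Classical.Witt.Parity.even_finrank_of_alt (B.restrict (Ker T r)) (fun v => hA v)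
      intro u hu
      by_contra hu0
      have hu0' : (u : Fin n → F) ≠ 0 := fun h => hu0 (Subtype.ext h)
      obtain ⟨v, hv, hv'⟩ := ker_nondeg hA hN hI hrF hTr u.2 hu0'
      exact hv' (hu ⟨v, hv⟩)
    have h3 : finrank F (Ker T r) = orderOf (q : ZMod r) := by
      rw [← hgd]
      omega
    rw [h3] at h2
    exact (Nat.not_even_iff_odd.2 hodd) h2

end Models

section Index

theorem relIndex_dvd_index_right {G : Type*} [Group G] [Finite G] (H L : Subgroup G) [L.Normal] : H.relIndex L ∣ H.index := by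
  have h1 : (H ⊓ L).relIndex L * L.index = (H ⊓ L).index := Subgroup.relIndex_mul_index inf_le_right
  have h2 : (H ⊓ L).relIndex H * H.index = (H ⊓ L).index := Subgroup.relIndex_mul_index inf_le_left
  rw [Subgroup.inf_relIndex_right] at h1
  rw [Subgroup.inf_relIndex_left] at h2
  obtain ⟨C, hC⟩ := Subgroup.relIndex_dvd_index_of_normal L H
  have hne : L.relIndex H ≠ 0 := ne_zero_of_dvd_ne_zero Nat.card_pos.ne' (Subgroup.relIndex_dvd_card L H)
  refine ⟨C, ?_⟩
  apply Nat.eq_of_mul_eq_mul_left (Nat.pos_of_ne_zero hne)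
  rw [h2, ← h1, hC]
  ring

variable {F : Type*} [Field F]

/-- A bilinear function as a bilinear form. -/
def mkB {ι : Type} {f : (ι → F) → (ι → F) → F} (hf : Cfsg.Geo.IsBilinearForm f) : LinearMap.BilinForm F (ι → F) :=
  LinearMap.mk₂ F f hf.add_left (fun c x v => by rw [hf.smul_left, smul_eq_mul]) hf.add_right
    (fun c x v => by rw [hf.smul_right, smul_eq_mul])

@[simp] theorem mkB_apply {ι : Type} {f : (ι → F) → (ι → F) → F} (hf : Cfsg.Geo.IsBilinearForm f) (u v : ι → F) :
    mkB hf u v = f u v := rfl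

theorem mkB_isAlt {ι : Type} {f : (ι → F) → (ι → F) → F} (hf : Cfsg.Geo.IsSymplecticForm f) : (mkB hf.bilinear).IsAlt :=
  fun v => hf.alternating v

theorem mkB_nondeg {ι : Type} {f : (ι → F) → (ι → F) → F} (hf : Cfsg.Geo.IsSymplecticForm f) : (mkB hf.bilinear).Nondegenerate := by
  constructor
  · intro v hv
    by_contra h0
    obtain ⟨-, x, hx⟩ := hf.nondegenerate v h0
    exact hx (hv x)
  · intro v hv
    by_contra h0
    obtain ⟨⟨x, hx⟩, -⟩ := hf.nondegenerate v h0
    exact hx (hv x)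

/-- The isometries of `f`. -/
def isoG {n : ℕ} {f : (Fin n → F) → (Fin n → F) → F} (hf : Cfsg.Geo.IsSymplecticForm f) : Subgroup (GL (Fin n) F) where
  carrier := {g | ∀ u v, f ((g : Matrix (Fin n) (Fin n) F).mulVec u) ((g : Matrix (Fin n) (Fin n) F).mulVec v) = f u v}
  mul_mem' {a b} ha hb := by
    intro u v
    rw [Units.val_mul, ← Matrix.mulVec_mulVec, ← Matrix.mulVec_mulVec, ha, hb]
  one_mem' := fun u v => by simp
  inv_mem' {a} ha := by
    intro u v
    have h := ha (((a⁻¹ : GL (Fin n) F) : Matrix (Fin n) (Fin n) F).mulVec u) (((a⁻¹ : GL (Fin n) F) : Matrix (Fin n) (Fin n) F).mulVec v)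
    rw [Matrix.mulVec_mulVec, Matrix.mulVec_mulVec, ← Units.val_mul, mul_inv_cancel, Units.val_one,
      Matrix.one_mulVec, Matrix.one_mulVec] at h
    exact h.symm

theorem card_isoG [Finite F] {q d n : ℕ} (hq : Nat.card F = q) (hn : n = 2 * d) {f : (Fin n → F) → (Fin n → F) → F}
    (hf : Cfsg.Geo.IsSymplecticForm f) :
    Nat.card (isoG hf) = q ^ (d ^ 2) * ∏ i ∈ Finset.range d, (q ^ (2 * (i + 1)) - 1) := by
  open Cfsg.Agent.Lib.Linalg.Bridge Cfsg.Agent.Lib.Classical.Symp.AltForm in
  have h1 : isoG hf ≃ IsomGroup (mkB hf.bilinear) :=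
    { toFun := fun g => ⟨equivOfGL g.1, fun u v => g.2 u v⟩
      invFun := fun e => ⟨glOfEquiv e.1, fun u v => by
        rw [glOfEquiv_mulVec, glOfEquiv_mulVec]
        exact e.2 u v⟩
      left_inv := fun g => Subtype.ext (glOfEquiv_equivOfGL _)
      right_inv := fun e => Subtype.ext (equivOfGL_glOfEquiv _) }
  rw [Nat.card_congr h1]
  apply Cfsg.Agent.Lib.Classical.Symp.Count.card_isomGroup q hq d _ _ (mkB_isAlt hf) (mkB_nondeg hf)
  rw [finrank_fin_fun, hn]

theorem prod_split (q d : ℕ) : ∏ j ∈ Finset.range (2 * d), (q ^ (j + 1) - 1) =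
    (∏ j ∈ Finset.range d, (q ^ (2 * j + 1) - 1)) * ∏ j ∈ Finset.range d, (q ^ (2 * (j + 1)) - 1) := by
  induction d with
  | zero => simp
  | succ d ih =>
    rw [show 2 * (d + 1) = 2 * d + 1 + 1 by ring, Finset.prod_range_succ, Finset.prod_range_succ, ih,
      Finset.prod_range_succ, Finset.prod_range_succ]
    rw [show 2 * d + 1 + 1 = 2 * (d + 1) by ring]
    ring

theorem dvd_of_index [Fintype F] {q d n r : ℕ} (hF : Fintype.card F = q) (hn : n = 2 * d) {f : (Fin n → F) → (Fin n → F) → F}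
    (hf : Cfsg.Geo.IsSymplecticForm f) (hr : r.Prime)
    (hΩ : r ∣ ((Cfsg.Geo.similarityGroup f).comap (Matrix.SpecialLinearGroup.toGL : Matrix.SpecialLinearGroup (Fin n) F →* GL (Fin n) F)).index) :
    r ∣ q ∨ ∃ j, j < d ∧ r ∣ q ^ (2 * j + 1) - 1 := by
  subst hn
  have hq : 2 ≤ q := by
    rw [← hF]
    exact Fintype.one_lt_card
  -- the index in `SL` divides the index in `GL`
  have h1 : ((Cfsg.Geo.similarityGroup f).comap (Matrix.SpecialLinearGroup.toGL : Matrix.SpecialLinearGroup (Fin (2 * d)) F →* GL (Fin (2 * d)) F)).index ∣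
      (Cfsg.Geo.similarityGroup f).index := by
    rw [Subgroup.index_comap, Cfsg.Agent.Lib.Classical.Asch.NotSL.range_toGL]
    haveI : (Cfsg.Geo.specialLinear (Fin (2 * d)) F).Normal := by
      unfold Cfsg.Geo.specialLinear
      infer_instance
    exact relIndex_dvd_index_right _ _
  have hle : isoG hf ≤ Cfsg.Geo.similarityGroup f := by
    intro g hg
    exact ⟨1, fun u v => by rw [hg u v]; simp⟩
  have h2 := Subgroup.index_dvd_of_le hle
  have h3 : r ∣ (isoG hf).index := (hΩ.trans h1).trans h2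
  have h4 := Subgroup.index_mul_card (isoG hf)
  rw [card_isoG (q := q) (d := d) (by rw [Nat.card_eq_fintype_card, hF]) rfl hf, Matrix.card_GL_field, hF,
    Cfsg.Agent.Lib.Classical.Elusive.SpPairsMain.prod_gl hq, prod_split] at h4
  have hpos : 0 < ∏ j ∈ Finset.range d, (q ^ (2 * (j + 1)) - 1) := by
    apply Finset.prod_pos
    intro j _
    have h5 : 2 ≤ q ^ (2 * (j + 1)) := by
      calc 2 ≤ q := hq
        _ = q ^ 1 := (pow_one q).symm
        _ ≤ q ^ (2 * (j + 1)) := Nat.pow_le_pow_right (by omega) (by omega)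
    omega
  have h5 : (isoG hf).index * q ^ (d ^ 2) =
      (∏ i ∈ Finset.range (2 * d), q ^ i) * ∏ j ∈ Finset.range d, (q ^ (2 * j + 1) - 1) := by
    apply Nat.eq_of_mul_eq_mul_right hpos
    rw [mul_assoc, h4]
    ring
  have h6 : r ∣ (∏ i ∈ Finset.range (2 * d), q ^ i) * ∏ j ∈ Finset.range d, (q ^ (2 * j + 1) - 1) := by
    rw [← h5]
    exact h3.mul_right _
  rcases hr.dvd_mul.1 h6 with h7 | h7
  · left
    obtain ⟨i, -, hi⟩ := (Prime.dvd_finsetProd_iff hr.prime _).1 h7
    exact hr.dvd_of_dvd_pow hi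
  · right
    obtain ⟨j, hj, hj'⟩ := (Prime.dvd_finsetProd_iff hr.prime _).1 h7
    exact ⟨j, Finset.mem_range.1 hj, hj'⟩

end Index

section Main

universe u

theorem main {F : Type u} [Field F] [Fintype F] {p : ℕ} [Fact p.Prime] [CharP F p] {q : ℕ} (hq : Fintype.card F = q)
    (n : ℕ) (hn : 4 ≤ n) (he : Even n) (f : (Fin n → F) → (Fin n → F) → F) (hf : Cfsg.Geo.IsSymplecticForm f)
    (r : ℕ) [Fact r.Prime] (hr2 : r ≠ 2) (hgap : ¬ (n = 6 ∧ r = 3))
    (hΩ : r ∣ ((Cfsg.Geo.similarityGroup f).comap (Matrix.SpecialLinearGroup.toGL : Matrix.SpecialLinearGroup (Fin n) F →* GL (Fin n) F)).index) :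
    ∃ x : Matrix.SpecialLinearGroup (Fin n) F,
      (∃ z : F, ((x ^ r : Matrix.SpecialLinearGroup (Fin n) F) : Matrix (Fin n) (Fin n) F) = z • (1 : Matrix (Fin n) (Fin n) F)) ∧
      (∀ z : F, (x : Matrix (Fin n) (Fin n) F) ≠ z • (1 : Matrix (Fin n) (Fin n) F)) ∧
      ∀ P : Matrix.SpecialLinearGroup (Fin n) F, P⁻¹ * x * P ∉ ((Cfsg.Geo.similarityGroup f).comap (Matrix.SpecialLinearGroup.toGL : Matrix.SpecialLinearGroup (Fin n) F →* GL (Fin n) F)) := by
  classical
  have hr : r.Prime := Fact.out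
  -- reduction: enough to find a `NotSim` element
  suffices hs : ∃ x : Matrix.SpecialLinearGroup (Fin n) F,
      ((x ^ r : Matrix.SpecialLinearGroup (Fin n) F) : Matrix (Fin n) (Fin n) F) = 1 ∧
      (∀ z : F, (x : Matrix (Fin n) (Fin n) F) ≠ z • (1 : Matrix (Fin n) (Fin n) F)) ∧
      NotSim (x : Matrix (Fin n) (Fin n) F) by
    obtain ⟨x, h1, h2, h3⟩ := hs
    refine ⟨x, ⟨1, by rw [h1, one_smul]⟩, h2, ?_⟩
    intro P hP
    obtain ⟨c, hc⟩ := hP
    let Pi : Matrix (Fin n) (Fin n) F := ((P⁻¹ : Matrix.SpecialLinearGroup (Fin n) F) : Matrix (Fin n) (Fin n) F)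
    let Pm : Matrix (Fin n) (Fin n) F := (P : Matrix (Fin n) (Fin n) F)
    have hPi : Pm * Pi = 1 := by
      simp only [Pm, Pi]
      rw [← Matrix.SpecialLinearGroup.coe_mul, mul_inv_cancel, Matrix.SpecialLinearGroup.coe_one]
    have hPi' : Pi * Pm = 1 := by
      simp only [Pm, Pi]
      rw [← Matrix.SpecialLinearGroup.coe_mul, inv_mul_cancel, Matrix.SpecialLinearGroup.coe_one]
    let B₀ := mkB hf.bilinear
    let B : LinearMap.BilinForm F (Fin n → F) := B₀.comp (Matrix.toLin' Pi) (Matrix.toLin' Pi)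
    have hB : ∀ u v, B u v = f (Pi.mulVec u) (Pi.mulVec v) := fun u v => rfl
    refine h3 B (fun v => hf.alternating _) ?_ (c : F) c.ne_zero ?_
    · constructor
      · intro u hu
        have h4 : Pi.mulVec u = 0 := by
          apply (mkB_nondeg hf).1
          intro w
          have h5 := hu (Pm.mulVec w)
          rw [hB, Matrix.mulVec_mulVec, hPi', Matrix.one_mulVec] at h5
          exact h5
        have h6 : u = Pm.mulVec (Pi.mulVec u) := by
          rw [Matrix.mulVec_mulVec, hPi, Matrix.one_mulVec]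
        rw [h6, h4, Matrix.mulVec_zero]
      · intro u hu
        have h4 : Pi.mulVec u = 0 := by
          apply (mkB_nondeg hf).2
          intro w
          have h5 := hu (Pm.mulVec w)
          rw [hB, Matrix.mulVec_mulVec, hPi', Matrix.one_mulVec] at h5
          exact h5
        have h6 : u = Pm.mulVec (Pi.mulVec u) := by
          rw [Matrix.mulVec_mulVec, hPi, Matrix.one_mulVec]
        rw [h6, h4, Matrix.mulVec_zero]
    · intro u v
      rw [hB, hB, Matrix.toLin'_apply, Matrix.toLin'_apply]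
      have h5 := hc (Pi.mulVec u) (Pi.mulVec v)
      have h6 : ((Matrix.SpecialLinearGroup.toGL (P⁻¹ * x * P) : GL (Fin n) F) : Matrix (Fin n) (Fin n) F) = Pi * x * Pm := rfl
      rw [h6] at h5
      have h7 : ∀ w, (Pi * (x : Matrix (Fin n) (Fin n) F) * Pm).mulVec (Pi.mulVec w) = Pi.mulVec ((x : Matrix (Fin n) (Fin n) F).mulVec w) := by
        intro w
        rw [Matrix.mulVec_mulVec, Matrix.mulVec_mulVec, Matrix.mul_assoc, hPi, Matrix.mul_one]
      rw [h7, h7] at h5
      exact h5
  obtain ⟨d, hd⟩ := he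
  have hn2 : n = 2 * d := by omega
  have hq1 : 1 ≤ q := by
    rw [← hq]
    exact Fintype.card_pos
  by_cases hrp : r = p
  · subst hrp
    exact exists_J3 hr2 (by omega)
  have hrq : ¬ r ∣ q := by
    obtain ⟨m, hpp, hm⟩ := FiniteField.card F p
    rw [← hq, hm]
    intro h3
    have h4 := hr.dvd_of_dvd_pow h3
    exact hrp ((Nat.prime_dvd_prime_iff_eq hr hpp).1 h4)
  obtain ⟨j, hj, hj'⟩ := (dvd_of_index hq hn2 hf hr hΩ).resolve_left hrq
  have hord : orderOf (q : ZMod r) ∣ 2 * j + 1 := (Cfsg.Agent.Lib.Classical.Elusive.PslNum.pow_eq_one_iff' hq1).2 hj'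
  have hodd : Odd (orderOf (q : ZMod r)) := Odd.of_dvd_nat (by simp) hord
  have hle : orderOf (q : ZMod r) ≤ 2 * j + 1 := Nat.le_of_dvd (by omega) hord
  by_cases hne : r ∣ q - 1
  · -- `r ∣ q - 1`: diagonal element
    have h1 : r ∣ Nat.card Fˣ := by
      rw [Nat.card_eq_fintype_card, Fintype.card_units, hq]
      exact hne
    obtain ⟨u, hu⟩ := exists_prime_orderOf_dvd_card' r h1
    have hu' : orderOf (u : F) = r := by
      rw [orderOf_units, hu]
    obtain ⟨k, rfl⟩ : ∃ k, n = k + 3 := ⟨n - 3, by omega⟩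
    refine exists_diag hr hr2 hu' ⟨d - 2, by omega⟩ ?_
    rintro ⟨h1, h2⟩
    exact hgap ⟨by omega, h2⟩
  · exact exists_odd hq hr hrp hne hodd (by omega)

end Main


end Cfsg.Agent.Lib.Classical.Elusive.SlSp
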