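import Mathlib
import Cfsg.Agent.Lib.Classical.Elusive.PslImprimDec
import Cfsg.Agent.Lib.Classical.Elusive.SlSp

/-!
# Elements of odd prime order of `PSL_n(q)` and imprimitive subgroups: the main theorem
-/

set_option autoImplicit false
set_option linter.unusedSectionVars false
set_option linter.unusedSimpArgs false
set_option linter.unusedVariables false
set_option linter.style.haveILetI false

namespace Cfsg.Agent.Lib.Classical.Elusive.PslImprimMain

open Polynomial Module
open Cfsg.Agent.Lib.Classical.Elusive.Inv Cfsg.Agent.Lib.Classical.Elusive.SpCore Cfsg.Agent.Lib.Classical.Elusive.SpAtoms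
  Cfsg.Agent.Lib.Classical.Elusive.SpImprim Cfsg.Agent.Lib.Classical.Elusive.PslImprim Cfsg.Agent.Lib.Classical.Elusive.PslImprimDec
  Cfsg.Agent.Lib.Classical.Elusive.PslNum Cfsg.Agent.Lib.Classical.Elusive.PslModel Cfsg.Agent.Lib.Classical.Elusive.PslMain

section Generic

variable {F V : Type*} [Field F] [AddCommGroup V] [Module F V] [FiniteDimensional F V]

theorem map_of_isInv' {T : Module.End F V} (hinj : Function.Injective T) {W : Submodule F V} (h : IsInv T W) : W.map T = W := by
  apply Submodule.eq_of_le_of_finrank_eq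
  · rintro _ ⟨u, hu, rfl⟩
    exact h u hu
  · exact (LinearEquiv.finrank_eq (Submodule.equivMapOfInjective T hinj W)).symm

/-- The case of an element with `X ^ r - z` irreducible. -/
theorem no_root_case {n a t r : ℕ} (hrp : r.Prime) (hV : finrank F V = n) (hat : n = a * t) (ha : 1 ≤ a) (ht : 2 ≤ t) {T : Module.End F V} {z : F}
    (hT : T ^ r = z • 1) (hirr : Irreducible (X ^ r - C z : F[X])) (hrn : r ∣ n) (hinj : Function.Injective T) :
    ∃ (D : Fin t → Submodule F V) (σ : Equiv.Perm (Fin t)), (∀ j, finrank F (D j) = a) ∧ iSupIndep D ∧ iSup D = ⊤ ∧ ∀ j, (D j).map T = D (σ j) := by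
  classical
  have hrpos := hrp.pos
  obtain ⟨s, hs⟩ := hrn
  obtain ⟨J, i1, i2, v, U, hU, hJ, hLI, hspan⟩ := exists_cyc_basis hrpos hT hirr s (by rw [hV, hs, mul_comm])
  have hUtop : U = ⊤ := by
    apply Submodule.eq_top_of_finrank_eq
    have h1 := finrank_span_eq_card hLI
    rw [hspan, Fintype.card_prod, Fintype.card_fin, hJ] at h1
    rw [h1, hV, hs, mul_comm]
  rw [hUtop] at hspan
  rcases (hrp.dvd_mul).1 (show r ∣ a * t from hat ▸ ⟨s, hs⟩) with hra | hrt
  · obtain ⟨a', ha'⟩ := hra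
    have hJ' : Fintype.card J = t * a' := by
      rw [hJ]
      have h1 : r * s = r * (t * a') := by
        rw [← hs, hat, ha']
        ring
      exact Nat.eq_of_mul_eq_mul_left hrpos h1
    let e : J ≃ Fin t × Fin a' := Fintype.equivOfCardEq (by simp [hJ'])
    let φ : Fin t × (Fin a' × Fin r) ≃ J × Fin r :=
      { toFun := fun p => (e.symm (p.1, p.2.1), p.2.2)
        invFun := fun q => ((e q.1).1, (e q.1).2, q.2)
        left_inv := fun p => by simp
        right_inv := fun q => by simp }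
    let b : Fin t × (Fin a' × Fin r) → V := fun p => (T ^ (p.2.2 : ℕ)) (v (e.symm (p.1, p.2.1)))
    have hb : LinearIndependent F b := hLI.comp φ φ.injective
    have hbs : Submodule.span F (Set.range b) = ⊤ := by
      have h1 : Set.range b = Set.range fun p : J × Fin r => (T ^ (p.2 : ℕ)) (v p.1) :=
        φ.surjective.range_comp (fun p : J × Fin r => (T ^ (p.2 : ℕ)) (v p.1))
      rw [h1, hspan]
    have hTb : ∀ k i, T (b (k, i)) ∈ Submodule.span F (Set.range fun i' => b ((1 : Equiv.Perm (Fin t)) k, i')) := by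
      rintro k ⟨i, j⟩
      show T ((T ^ (j : ℕ)) (v (e.symm (k, i)))) ∈ _
      rw [← Module.End.mul_apply, ← pow_succ']
      by_cases hj : (j : ℕ) + 1 < r
      · exact Submodule.subset_span ⟨(i, ⟨_, hj⟩), rfl⟩
      · have hj' : (j : ℕ) + 1 = r := by have := j.2; omega
        rw [hj', hT]
        have h2 : v (e.symm (k, i)) = b (k, (i, ⟨0, hrpos⟩)) := by
          show _ = (T ^ 0) _
          simp
        rw [LinearMap.smul_apply, Module.End.one_apply, h2]
        exact Submodule.smul_mem _ _ (Submodule.subset_span ⟨(i, ⟨0, hrpos⟩), rfl⟩)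
    obtain ⟨h1, h2, h3, h4⟩ := decomp_of_basis b hb hbs T hinj 1 hTb
    refine ⟨_, 1, fun j => ?_, h2, h3, h4⟩
    rw [h1, Fintype.card_prod, Fintype.card_fin, Fintype.card_fin, ha', mul_comm]
  · obtain ⟨m, hm⟩ := hrt
    have hJ' : Fintype.card J = m * a := by
      rw [hJ]
      have h1 : r * s = r * (m * a) := by
        rw [← hs, hat, hm]
        ring
      exact Nat.eq_of_mul_eq_mul_left hrpos h1
    let e : J ≃ Fin m × Fin a := Fintype.equivOfCardEq (by simp [hJ'])
    let φ : (Fin m × Fin r) × Fin a ≃ J × Fin r :=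
      { toFun := fun p => (e.symm (p.1.1, p.2), p.1.2)
        invFun := fun q => (((e q.1).1, q.2), (e q.1).2)
        left_inv := fun p => by simp
        right_inv := fun q => by simp }
    let b : (Fin m × Fin r) × Fin a → V := fun p => (T ^ (p.1.2 : ℕ)) (v (e.symm (p.1.1, p.2)))
    have hb : LinearIndependent F b := hLI.comp φ φ.injective
    have hbs : Submodule.span F (Set.range b) = ⊤ := by
      have h1 : Set.range b = Set.range fun p : J × Fin r => (T ^ (p.2 : ℕ)) (v p.1) :=
        φ.surjective.range_comp (fun p : J × Fin r => (T ^ (p.2 : ℕ)) (v p.1))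
      rw [h1, hspan]
    obtain ⟨k, rfl⟩ : ∃ k, r = k + 1 := ⟨r - 1, by omega⟩
    let π : Equiv.Perm (Fin m × Fin (k + 1)) := Equiv.prodCongr (Equiv.refl _) (finRotate (k + 1))
    have hTb : ∀ j i, T (b (j, i)) ∈ Submodule.span F (Set.range fun i' => b (π j, i')) := by
      rintro ⟨l, x⟩ i
      show T ((T ^ (x : ℕ)) (v (e.symm (l, i)))) ∈ _
      rw [← Module.End.mul_apply, ← pow_succ']
      by_cases hx : x = Fin.last k
      · have h1 : (x : ℕ) + 1 = k + 1 := by rw [hx]; rfl
        rw [h1, hT, LinearMap.smul_apply, Module.End.one_apply]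
        have h2 : v (e.symm (l, i)) = b (π (l, x), i) := by
          show _ = (T ^ ((finRotate (k + 1) x : Fin (k + 1)) : ℕ)) _
          rw [hx, finRotate_last]
          simp
          rfl
        rw [h2]
        exact Submodule.smul_mem _ _ (Submodule.subset_span ⟨i, rfl⟩)
      · have h2 : (T ^ ((x : ℕ) + 1)) (v (e.symm (l, i))) = b (π (l, x), i) := by
          show _ = (T ^ ((finRotate (k + 1) x : Fin (k + 1)) : ℕ)) _
          rw [coe_finRotate_of_ne_last hx]
          rfl
        rw [h2]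
        exact Submodule.subset_span ⟨i, rfl⟩
    obtain ⟨h1, h2, h3, h4⟩ := decomp_of_basis b hb hbs T hinj π hTb
    refine reindex_decomp (by rw [Fintype.card_prod, Fintype.card_fin, Fintype.card_fin, hm, mul_comm]) ht (by omega) (fun j => ?_) h2 h3 h4
    rw [h1, Fintype.card_fin]

/-- The case of an element permuting a basis. -/
theorem lines_case {n t r : ℕ} (hr : (r : F) ≠ 0) (hrp : r.Prime) (hV : finrank F V = n) (hnt : n = t) (ht : 2 ≤ t) {y T : Module.End F V} {w : F} (hw : w ≠ 0)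
    (hTy : T = w • y) (hy : y ^ r = 1) (hfac : ∀ d, Irreducible d → d ∣ Phi F r → d.natDegree = r - 1) (hb : n ≤ (n % (r - 1)) * r) :
    ∃ (D : Fin t → Submodule F V) (σ : Equiv.Perm (Fin t)), (∀ j, finrank F (D j) = 1) ∧ iSupIndep D ∧ iSup D = ⊤ ∧ ∀ j, (D j).map T = D (σ j) := by
  classical
  have hr1 : 0 < r - 1 := by have := hrp.two_le; omega
  haveI : NeZero r := ⟨hrp.ne_zero⟩
  obtain ⟨m, hm⟩ : r - 1 ∣ finrank F (Ker y r) := dvd_finrank (isInv_Ker y r) (Phi_ne_zero hr) hr1 hfac (fun v hv => hv)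
  have hsum := finrank_Fix_add hr hy
  rw [hV] at hsum
  have hQ := Nat.div_add_mod n (r - 1)
  have hmQ : m ≤ n / (r - 1) := by
    rw [Nat.le_div_iff_mul_le hr1, mul_comm]
    omega
  have hQk : n / (r - 1) ≤ n % (r - 1) := by
    have h1 : (n % (r - 1)) * r = (r - 1) * (n % (r - 1)) + n % (r - 1) := by
      obtain ⟨s, rfl⟩ : ∃ s, r = s + 1 := ⟨r - 1, by omega⟩
      simp only [Nat.add_sub_cancel]
      ring
    have h2 : (r - 1) * (n / (r - 1)) ≤ (r - 1) * (n % (r - 1)) := by omega
    exact Nat.le_of_mul_le_mul_left h2 hr1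
  have hmF : m ≤ finrank F (Fix y) := by
    have h1 : (r - 1) * m ≤ (r - 1) * (n / (r - 1)) := Nat.mul_le_mul_left _ hmQ
    omega
  obtain ⟨J, i1, i2, b, π, hbLI, hbs, hbπ⟩ := exists_perm_basis hr hrp hy hfac m ⊤ (isInv_top y) (by rw [top_inf_eq, hm]) (by rw [top_inf_eq]; exact hmF)
  have hcard : Fintype.card J = t := by
    have h1 := finrank_span_eq_card hbLI
    rw [hbs, finrank_top, hV] at h1
    omega
  refine reindex_decomp (D := fun j => Submodule.span F {b j}) (π := π) hcard ht one_pos (fun j => finrank_span_singleton (hbLI.ne_zero j)) hbLI.iSupIndep_span_singleton ?_ ?_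
  · rw [← Submodule.span_range_eq_iSup, hbs]
  · intro j
    rw [Submodule.map_span, Set.image_singleton, hTy, LinearMap.smul_apply, hbπ]
    exact Submodule.span_singleton_smul_eq (IsUnit.mk0 w hw) _

end Generic

section Main

variable {F : Type*} [Field F] [Fintype F] {p : ℕ} [Fact p.Prime] [CharP F p]

theorem nonscalar_of_fix {n r : ℕ} (hr : r.Prime) (hrq : ¬ r ∣ Fintype.card F - 1) (hn0 : n ≠ 0) {T : Module.End F (Fin n → F)} (hT : T ^ r = 1)
    (hfix : finrank F (Fix T) < n) : ∀ z : F, T ≠ z • 1 := by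
  intro z hz
  rw [hz, _root_.smul_pow, one_pow] at hT
  have hz1 : z ^ r = 1 := by
    apply scalar_inj hn0
    rw [hT, one_smul]
  have hz2 : z = 1 := eq_one_of_not_dvd hr hrq hz1
  rw [hz2, one_smul] at hz
  have h6 : Fix T = ⊤ := by
    rw [eq_top_iff]
    intro v _
    rw [mem_Fix, hz]
    rfl
  rw [h6, finrank_top, Module.finrank_fintype_fun_eq_card, Fintype.card_fin] at hfix
  omega

theorem main {q : ℕ} (hq : Fintype.card F = q)
    (n a t : ℕ) (hn : 2 ≤ n) (hat : n = a * t) (ha : 1 ≤ a) (ht : 2 ≤ t)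
    (r : ℕ) [Fact r.Prime] (hrp : r ≠ p) (hΩ : r ∣ Nat.card {D : Fin t → Submodule F (Fin n → F) // Cfsg.Geo.IsMDecomposition a D} / Nat.factorial t)
    (c : ℕ) (hc : c = orderOf (q : ZMod r)) :
    (∀ x : Matrix.SpecialLinearGroup (Fin n) F,
      (∃ z : F, ((x ^ r : Matrix.SpecialLinearGroup (Fin n) F) : Matrix (Fin n) (Fin n) F) = z • (1 : Matrix (Fin n) (Fin n) F)) →
      (∀ z : F, (x : Matrix (Fin n) (Fin n) F) ≠ z • (1 : Matrix (Fin n) (Fin n) F)) →
      ∃ D : Fin t → Submodule F (Fin n → F), Cfsg.Geo.IsMDecomposition a D ∧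
        ∃ σ : Equiv.Perm (Fin t), ∀ j, (D j).map (Matrix.toLin' (x : Matrix (Fin n) (Fin n) F)) = D (σ j)) ↔
    ((a = 1 ∧ 1 < c ∧ c = r - 1 ∧ n ≤ (n % c) * r) ∨ (c ≤ a ∧ n % c = t * (a % c))) := by
  classical
  subst hq
  have hr : r.Prime := Fact.out
  have hr0 : (r : F) ≠ 0 := cast_ne_zero_of_ne hr hrp
  have hn0 : n ≠ 0 := by omega
  have hq1 : 1 ≤ Fintype.card F := Fintype.card_pos
  have hfac : ∀ d : F[X], Irreducible d → d ∣ Phi F r → d.natDegree = c := by
    rw [hc]
    exact fac_Phi rfl hr hrp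
  obtain ⟨g, hg1, hg2, hg3, hg4⟩ := SpModel.exists_factor (F := F) (p := p) rfl hr hrp
  rw [← hc] at hg4
  have hcpos : 0 < c := by
    rw [← hg4]
    exact hg2.natDegree_pos
  have hrq' : ¬ r ∣ Fintype.card F := by
    obtain ⟨m, hp, hm⟩ := FiniteField.card F p
    rw [hm]
    intro h3
    have h4 := hr.dvd_of_dvd_pow h3
    exact hrp ((Nat.prime_dvd_prime_iff_eq hr hp).1 h4)
  have hcr : c ≤ r - 1 := by
    apply Nat.le_of_dvd
    · have := hr.two_le
      by_contra h
      have h1 : r = 1 := by omega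
      omega
    · rw [hc]
      apply ZMod.orderOf_dvd_card_sub_one
      intro h0
      exact hrq' ((ZMod.natCast_eq_zero_iff _ _).1 h0)
  constructor
  · intro H
    by_cases hc1 : c = 1
    · right
      subst hc1
      rw [Nat.mod_one, Nat.mod_one, mul_zero]
      exact ⟨ha, rfl⟩
    have hc2 : 2 ≤ c := by omega
    have hrq : ¬ r ∣ Fintype.card F - 1 := by
      intro h
      have := (order_one_iff hq1).2 h
      rw [← hc] at this
      omega
    have hcn : c ≤ n := by
      rw [hc]
      exact c_le_n rfl hat ha ht hrp hΩ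
    have hc2' : 2 ≤ orderOf ((Fintype.card F : ℕ) : ZMod r) := by rw [← hc]; exact hc2
    have hcn' : orderOf ((Fintype.card F : ℕ) : ZMod r) ≤ n := by rw [← hc]; exact hcn
    obtain ⟨T₂, hT₂, hdet₂, hns₂, hfix₂⟩ := exists_T_worst (p := p) (n := n) hr hrp hc2' hcn'
    rw [← hc] at hfix₂
    obtain ⟨D₂, hD₂, σ₂, hσ₂⟩ := lhs_apply (P := fun T => ∃ D : Fin t → Submodule F (Fin n → F), Cfsg.Geo.IsMDecomposition a D ∧
        ∃ σ : Equiv.Perm (Fin t), ∀ j, (D j).map T = D (σ j)) H T₂ (c := 1) (by rw [hT₂, one_smul]) hdet₂ hns₂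
    have hmodlt := Nat.mod_lt n hcpos
    by_cases hca : c ≤ a
    · right
      refine ⟨hca, ?_⟩
      have h4 := step2_plain hr0 hr hT₂ hfac hcpos hD₂.finrank_eq (by omega) hD₂.indep hσ₂ (by omega)
      have h5 : t * (a % c) < c := by omega
      have h6 : a * t = c * ((a / c) * t) + t * (a % c) := by
        conv_lhs => rw [← Nat.div_add_mod a c]
        ring
      rw [hat, h6, Nat.mul_add_mod, Nat.mod_eq_of_lt h5]
    · left
      obtain ⟨T₁, hT₁, hfix₁⟩ := SlSp.exists_model_eq (F := F) (d := g) hg2 (by omega) (a := n - c) (n := n) (by omega) (r := r)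
        (by rw [← Phi_mul]; exact Dvd.dvd.mul_right hg3 _)
      have hdet₁ : LinearMap.det T₁ = 1 := by
        apply eq_one_of_not_dvd hr hrq
        rw [← map_pow, hT₁, map_one]
      have hns₁ := nonscalar_of_fix hr hrq hn0 hT₁ (by omega)
      obtain ⟨D₁, hD₁, σ₁, hσ₁⟩ := lhs_apply (P := fun T => ∃ D : Fin t → Submodule F (Fin n → F), Cfsg.Geo.IsMDecomposition a D ∧
        ∃ σ : Equiv.Perm (Fin t), ∀ j, (D j).map T = D (σ j)) H T₁ (c := 1) (by rw [hT₁, one_smul]) hdet₁ hns₁
      have hKc : finrank F (Ker T₁ r) = c := by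
        have h1 := finrank_Fix_add hr0 hT₁
        rw [Module.finrank_fintype_fun_eq_card, Fintype.card_fin] at h1
        omega
      rcases step1_plain hr0 hr hT₁ hfac hcpos hcr hD₁.finrank_eq (by omega) hD₁.indep hD₁.iSup_eq_top hσ₁ hKc with h | ⟨h1, h2⟩
      · exact absurd h hca
      · subst h1
        have hnt : n = t := by omega
        have h3 := lines_bound hr0 hr hT₂ hfac hc2 hD₂.finrank_eq hD₂.indep hD₂.iSup_eq_top hσ₂
        refine ⟨rfl, by omega, h2, ?_⟩
        have h4 : r * finrank F (Fix T₂) ≤ r * (n % c) := Nat.mul_le_mul_left _ hfix₂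
        rw [mul_comm (n % c) r]
        omega
  · rintro h x ⟨z, hz⟩ hns
    let T : Module.End F (Fin n → F) := Matrix.toLin' (x : Matrix (Fin n) (Fin n) F)
    have hT : T ^ r = z • 1 := toLin_pow x hz
    have hz0 : z ≠ 0 := scalar_ne_zero hn0 x hz
    have hinj : Function.Injective T := by
      rw [injective_iff_map_eq_zero]
      intro v hv
      obtain ⟨k, hk⟩ : ∃ k, r = k + 1 := ⟨r - 1, by have := hr.pos; omega⟩
      have h1 : (T ^ r) v = 0 := by
        rw [hk, pow_succ, Module.End.mul_apply, hv, map_zero]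
      rw [hT] at h1
      exact (smul_eq_zero.1 h1).resolve_left hz0
    have hV : finrank F (Fin n → F) = n := by
      rw [Module.finrank_fintype_fun_eq_card, Fintype.card_fin]
    suffices hex : ∃ (D : Fin t → Submodule F (Fin n → F)) (σ : Equiv.Perm (Fin t)), (∀ j, finrank F (D j) = a) ∧ iSupIndep D ∧ iSup D = ⊤ ∧ ∀ j, (D j).map T = D (σ j) by
      obtain ⟨D, σ, h1, h2, h3, h4⟩ := hex
      exact ⟨D, ⟨ht, ha, h1, h2, h3⟩, σ, h4⟩
    by_cases hroot : ∃ w : F, w ^ r = z
    · obtain ⟨w, hw⟩ := hroot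
      have hw0 : w ≠ 0 := by
        rintro rfl
        rw [zero_pow hr.ne_zero] at hw
        exact hz0 hw.symm
      have hy := pow_smul_inv hw0 hw hT
      rcases h with ⟨ha1, h1c, hcr', hb⟩ | ⟨hca, hk⟩
      · subst ha1
        have hfac' : ∀ d : F[X], Irreducible d → d ∣ Phi F r → d.natDegree = r - 1 := by
          rw [← hcr']
          exact hfac
        rw [hcr'] at hb
        exact lines_case hr0 hr hV (by omega) ht (y := w⁻¹ • T) (w := w) hw0 (by rw [smul_smul, mul_inv_cancel₀ hw0, one_smul]) hy hfac' hb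
      · obtain ⟨D, h1, h2, h3⟩ := exists_inv_decomp_plain hr0 hy hfac hcpos (a := a) (t := t) (by rw [hV, hat]) (by rw [hV, hk])
        refine ⟨D, 1, fun j => (h1 j).2, h2, h3, fun j => ?_⟩
        exact map_of_isInv' hinj ((isInv_smul_iff (inv_ne_zero hw0)).1 (h1 j).1)
    · have hirr : Irreducible (X ^ r - C z : F[X]) := X_pow_sub_C_irreducible_of_prime hr (fun b hb => hroot ⟨b, hb⟩)
      have hrn := (det_of_irr hr.pos hirr T hT hz0).1
      exact no_root_case hr hV hat ha ht hT hirr hrn hinj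

end Main

end Cfsg.Agent.Lib.Classical.Elusive.PslImprimMain
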