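import Mathlib
import Cfsg.Agent.Lib.Classical.Elusive.PslJordan
import Cfsg.Agent.Lib.Classical.Elusive.PslMain

/-!
# Elements of prime order of `PSL_n(q)` and decompositions `U ⊕ W`
-/

set_option autoImplicit false
set_option linter.unusedSectionVars false
set_option linter.unusedSimpArgs false
set_option linter.unusedVariables false
set_option linter.style.haveILetI false

namespace Cfsg.Agent.Lib.Classical.Elusive.PslSplit

open Module Polynomial
open Cfsg.Agent.Lib.Classical.Elusive.Inv Cfsg.Agent.Lib.Classical.Elusive.Jordan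
  Cfsg.Agent.Lib.Classical.Elusive.JordanType Cfsg.Agent.Lib.Classical.Elusive.PslModel
  Cfsg.Agent.Lib.Classical.Elusive.PslJordan Cfsg.Agent.Lib.Classical.Elusive.PslNum

section Count

variable {F : Type*} [Field F] [Finite F] {V : Type*} [AddCommGroup V] [Module F V] [FiniteDimensional F V]

/-- The complements of a subspace. -/
theorem card_compl (U : Submodule F V) :
    Nat.card {W : Submodule F V // IsCompl U W} = Nat.card F ^ (finrank F U * (finrank F V - finrank F U)) := by
  classical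
  obtain ⟨W₀, hW₀⟩ := Submodule.exists_isCompl U
  have h1 : Nat.card {W : Submodule F V // IsCompl U W} = Nat.card {f : V →ₗ[F] U // ∀ x : U, f x = x} :=
    Nat.card_congr (Submodule.isComplEquivProj U)
  rw [h1]
  have h2 : Nat.card {f : V →ₗ[F] U // ∀ x : U, f x = x} = Nat.card (W₀ →ₗ[F] U) := by
    apply Nat.card_congr
    refine ⟨fun f => f.1 ∘ₗ W₀.subtype,
      fun g => ⟨LinearMap.ofIsCompl hW₀ LinearMap.id g, ?_⟩, ?_, ?_⟩
    · intro x
      exact LinearMap.ofIsCompl_apply_left hW₀ x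
    · rintro ⟨f, hf⟩
      apply Subtype.ext
      show LinearMap.ofIsCompl hW₀ LinearMap.id (f ∘ₗ W₀.subtype) = f
      apply LinearMap.ofIsCompl_eq hW₀
      · intro u
        exact (hf u).symm
      · intro v
        rfl
    · intro g
      apply LinearMap.ext
      intro y
      exact LinearMap.ofIsCompl_apply_right hW₀ y
  rw [h2]
  have h3 : Module.finrank F (W₀ →ₗ[F] U) = finrank F U * (finrank F V - finrank F U) := by
    rw [Module.finrank_linearMap]
    have h4 := Submodule.finrank_add_eq_of_isCompl hW₀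
    have h5 : finrank F W₀ = finrank F V - finrank F U := by omega
    rw [h5, mul_comm]
  rw [← h3]
  haveI : Finite (W₀ →ₗ[F] U) := Module.finite_of_finite F
  exact Module.natCard_eq_pow_finrank

/-- The number of ordered complementary pairs. -/
theorem card_pairs_compl (m : ℕ) :
    Nat.card {P : Submodule F V × Submodule F V // IsCompl P.1 P.2 ∧ finrank F P.1 = m} =
      Nat.card {W : Submodule F V // finrank F W = m} * Nat.card F ^ (m * (finrank F V - m)) := by
  classical
  haveI : Finite V := Module.finite_of_finite F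
  have h1 : {P : Submodule F V × Submodule F V // IsCompl P.1 P.2 ∧ finrank F P.1 = m} ≃
      Σ U : {W : Submodule F V // finrank F W = m}, {W : Submodule F V // IsCompl U.1 W} :=
    { toFun := fun P => ⟨⟨P.1.1, P.2.2⟩, ⟨P.1.2, P.2.1⟩⟩
      invFun := fun Q => ⟨(Q.1.1, Q.2.1), Q.2.2, Q.1.2⟩
      left_inv := fun P => rfl
      right_inv := fun Q => rfl }
  rw [Nat.card_congr h1]
  haveI : Fintype {W : Submodule F V // finrank F W = m} := Fintype.ofFinite _
  rw [Nat.card_sigma]
  have h2 : ∀ U : {W : Submodule F V // finrank F W = m}, Nat.card {W : Submodule F V // IsCompl U.1 W} = Nat.card F ^ (m * (finrank F V - m)) := by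
    intro U
    rw [card_compl, U.2]
  simp only [h2]
  rw [Finset.sum_const, Finset.card_univ, smul_eq_mul, ← Nat.card_eq_fintype_card]

end Count

section Partitions

theorem multiset_two (μ : Multiset ℕ) (h : ∀ a ∈ μ, 0 < a ∧ a ≤ 2) :
    μ = Multiset.replicate (Multiset.count 2 μ) 2 + Multiset.replicate (Multiset.count 1 μ) 1 := by
  ext e
  rw [Multiset.count_add, Multiset.count_replicate, Multiset.count_replicate]
  by_cases h1 : e = 1
  · subst h1
    simp
  · by_cases h2 : e = 2
    · subst h2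
      simp
    · rw [if_neg (Ne.symm h2), if_neg (Ne.symm h1), Multiset.count_eq_zero_of_notMem]
      intro he
      have := h e he
      omega

/-- The case `p = 2` of the partition condition. -/
theorem partition_two {n m : ℕ} (hmn : m ≤ n) :
    (∀ μ : Multiset ℕ, (∀ a ∈ μ, 0 < a ∧ a ≤ 2) → μ.sum = n → ∃ ν : Multiset ℕ, ν ≤ μ ∧ ν.sum = m) ↔ (Odd n ∨ Even m) := by
  constructor
  · intro h
    by_contra hcon
    push Not at hcon
    obtain ⟨h1, h2⟩ := hcon
    rw [Nat.not_odd_iff_even] at h1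
    rw [Nat.not_even_iff_odd] at h2
    obtain ⟨c, hc⟩ := h1
    obtain ⟨ν, hν, hν'⟩ := h (Multiset.replicate c 2) (by
      intro a ha
      rw [Multiset.eq_of_mem_replicate ha]
      omega) (by simp; omega)
    obtain ⟨k, -, rfl⟩ := (Multiset.le_replicate_iff).1 hν
    simp at hν'
    obtain ⟨s, hs⟩ := h2
    omega
  · intro h μ hμ hs
    have h1 := multiset_two μ hμ
    set a := Multiset.count 2 μ with ha
    set b := Multiset.count 1 μ with hb
    have h2 : 2 * a + b = n := by
      rw [← hs, h1]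
      simp
      ring
    refine ⟨Multiset.replicate (min a (m / 2)) 2 + Multiset.replicate (m - 2 * min a (m / 2)) 1, ?_, ?_⟩
    · rw [h1]
      apply add_le_add
      · exact Multiset.replicate_le_replicate _ |>.2 (min_le_left _ _)
      · apply Multiset.replicate_le_replicate _ |>.2
        have h3 : m - 2 * min a (m / 2) ≤ b := by
          by_cases h4 : a ≤ m / 2
          · rw [min_eq_left h4]
            omega
          · push Not at h4
            rw [min_eq_right h4.le]
            rcases h with h5 | h5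
            · obtain ⟨c, hc⟩ := h5
              omega
            · obtain ⟨c, hc⟩ := h5
              omega
        exact h3
    · simp
      have h3 : 2 * min a (m / 2) ≤ m := by
        have : min a (m / 2) ≤ m / 2 := min_le_right _ _
        omega
      omega

end Partitions

section Main

variable {F : Type*} [Field F] [Fintype F] {p : ℕ} [Fact p.Prime] [CharP F p] {n : ℕ}

/-- The case `r = p`. -/
theorem main_p (hn : 2 ≤ n) {m : ℕ} (hmn : m ≤ n) :
    (∀ x : Matrix.SpecialLinearGroup (Fin n) F,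
      (∃ c : F, ((x ^ p : Matrix.SpecialLinearGroup (Fin n) F) : Matrix (Fin n) (Fin n) F) = c • (1 : Matrix (Fin n) (Fin n) F)) →
      (∀ c : F, (x : Matrix (Fin n) (Fin n) F) ≠ c • (1 : Matrix (Fin n) (Fin n) F)) →
      ∃ U W : Submodule F (Fin n → F), IsCompl U W ∧ Module.finrank F ↥U = m ∧
        U.map (Matrix.toLin' (x : Matrix (Fin n) (Fin n) F)) ≤ U ∧ W.map (Matrix.toLin' (x : Matrix (Fin n) (Fin n) F)) ≤ W) ↔
    (∀ μ : Multiset ℕ, (∀ a ∈ μ, 0 < a ∧ a ≤ p) → μ.sum = n → ∃ ν : Multiset ℕ, ν ≤ μ ∧ ν.sum = m) := by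
  classical
  have hp : p.Prime := Fact.out
  constructor
  · intro h μ hμ hs
    by_cases hne : ∃ b ∈ μ, 2 ≤ b
    · obtain ⟨T, hT, hdet, hns, hrk⟩ := model_T (F := F) μ hμ hs hne
      have hT1 : T ^ p = (1 : F) • 1 := by rw [hT, one_smul]
      obtain ⟨U, W, hc, hU, h1, h2⟩ := lhs_apply (r := p) (P := fun S => ∃ U W : Submodule F (Fin n → F), IsCompl U W ∧ Module.finrank F ↥U = m ∧
        U.map S ≤ U ∧ W.map S ≤ W) h T hT1 hdet hns
      have h3 : IsInv T U := fun u hu => h1 ⟨u, hu, rfl⟩
      have h4 : IsInv T W := fun u hu => h2 ⟨u, hu, rfl⟩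
      obtain ⟨ν, ν', h5, -, -, h6, -⟩ := type_add (N_pow hT) (isInv_N h3) (isInv_N h4) (disjoint_iff.1 hc.disjoint)
        (codisjoint_iff.1 hc.codisjoint) (fun b hb => (hμ b hb).1) hrk
      refine ⟨ν, ?_, ?_⟩
      · rw [h5]
        exact Multiset.le_add_right _ _
      · rw [← finrank_eq_sum_of_type h6, hU]
    · push Not at hne
      have h1 : μ = Multiset.replicate n 1 := by
        rw [Multiset.eq_replicate]
        have h2 : ∀ b ∈ μ, b = 1 := by
          intro b hb
          have h3 := hne b hb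
          have h4 := (hμ b hb).1
          omega
        refine ⟨?_, h2⟩
        have h3 : μ = Multiset.replicate (Multiset.card μ) 1 := Multiset.eq_replicate.2 ⟨rfl, h2⟩
        rw [← hs]
        conv_rhs => rw [h3]
        simp
      refine ⟨Multiset.replicate m 1, ?_, by simp⟩
      rw [h1]
      exact Multiset.replicate_le_replicate _ |>.2 hmn
  · intro h x hx _
    obtain ⟨z, hz⟩ := hx
    have hz0 : z ≠ 0 := scalar_ne_zero (by omega) x hz
    have hTp := toLin_pow x hz
    set T := Matrix.toLin' (x : Matrix (Fin n) (Fin n) F) with hTdef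
    obtain ⟨a, ha⟩ : ∃ a : F, a ^ p = z := by
      have h1 : Function.Surjective (fun a : F => a ^ p) := by
        apply Finite.injective_iff_surjective.1
        exact frobenius_inj F p
      exact h1 z
    have ha0 : a ≠ 0 := by
      rintro rfl
      rw [zero_pow hp.ne_zero] at ha
      exact hz0 ha.symm
    let T₀ : Module.End F (Fin n → F) := a⁻¹ • T
    have hT₀ : T₀ ^ p = 1 := by
      show (a⁻¹ • T) ^ p = 1
      rw [_root_.smul_pow, hTp, smul_smul, inv_pow, ha, inv_mul_cancel₀ hz0, one_smul]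
    have hN := N_pow hT₀
    obtain ⟨J, i1, i2, v, e, hC⟩ := exists_chain hN (finrank F (⊤ : Submodule F (Fin n → F))) ⊤ le_rfl (isInv_top _)
    have hsum : (mu e).sum = n := by
      have h1 := finrank_eq_sum_of_type hC.finrank_map_gg
      rw [finrank_top, finrank_fin_fun] at h1
      exact h1.symm
    have hle : ∀ b ∈ mu e, 0 < b ∧ b ≤ p := by
      intro b hb
      refine ⟨mu_pos hC b hb, ?_⟩
      apply le_of_gg_eq_zero (M := p) _ b hb
      rw [← hC.finrank_map_gg, hN]
      have h5 : (⊤ : Submodule F (Fin n → F)).map (0 : Module.End F (Fin n → F)) = ⊥ := by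
        ext x
        simp
      rw [h5, finrank_bot]
    obtain ⟨ν, hν, hν'⟩ := h (mu e) hle hsum
    obtain ⟨U₁, U₂, h1, h2, h3, h4, h5⟩ := hC.exists_split hν
    have hinv : ∀ U : Submodule F (Fin n → F), IsInv (T₀ - 1) U → U.map T ≤ U := by
      rintro U hU _ ⟨u, hu, rfl⟩
      have h6 : T u = a • ((T₀ - 1) u + u) := by
        show T u = a • (a⁻¹ • T u - u + u)
        rw [sub_add_cancel, smul_smul, mul_inv_cancel₀ ha0, one_smul]
      show T u ∈ U
      rw [h6]
      exact U.smul_mem _ (U.add_mem (hU u hu) hu)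
    refine ⟨U₁, U₂, ⟨disjoint_iff.2 h3, codisjoint_iff.2 h4⟩, by rw [h5, hν'], hinv _ h1, hinv _ h2⟩

/-- The case `r ≠ p`. -/
theorem main_r {r : ℕ} (hr : r.Prime) (hrp : r ≠ p) (hn : n ≠ 0) {m : ℕ}
    (h : ∀ x : Matrix.SpecialLinearGroup (Fin n) F,
      (∃ c : F, ((x ^ r : Matrix.SpecialLinearGroup (Fin n) F) : Matrix (Fin n) (Fin n) F) = c • (1 : Matrix (Fin n) (Fin n) F)) →
      (∀ c : F, (x : Matrix (Fin n) (Fin n) F) ≠ c • (1 : Matrix (Fin n) (Fin n) F)) →
      ∃ W : Submodule F (Fin n → F), finrank F W = m ∧ W.map (Matrix.toLin' (x : Matrix (Fin n) (Fin n) F)) ≤ W)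
    (x : Matrix.SpecialLinearGroup (Fin n) F)
    (hx : ∃ c : F, ((x ^ r : Matrix.SpecialLinearGroup (Fin n) F) : Matrix (Fin n) (Fin n) F) = c • (1 : Matrix (Fin n) (Fin n) F))
    (hx' : ∀ c : F, (x : Matrix (Fin n) (Fin n) F) ≠ c • (1 : Matrix (Fin n) (Fin n) F)) :
    ∃ U W : Submodule F (Fin n → F), IsCompl U W ∧ Module.finrank F ↥U = m ∧
      U.map (Matrix.toLin' (x : Matrix (Fin n) (Fin n) F)) ≤ U ∧ W.map (Matrix.toLin' (x : Matrix (Fin n) (Fin n) F)) ≤ W := by
  obtain ⟨U, hU, hU'⟩ := h x hx hx'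
  obtain ⟨c, hc⟩ := hx
  have hc0 : c ≠ 0 := scalar_ne_zero hn x hc
  have hT := toLin_pow x hc
  set T := Matrix.toLin' (x : Matrix (Fin n) (Fin n) F) with hTdef
  have hr0 : (r : F) ≠ 0 := cast_ne_zero_of_ne hr hrp
  have hsq : Squarefree (X ^ r - C c : F[X]) := (separable_X_pow_sub_C c hr0 hc0).squarefree
  have hae : aeval T (X ^ r - C c : F[X]) = 0 := by
    rw [map_sub, map_pow, aeval_X, aeval_C, hT]
    rw [Module.algebraMap_end_eq_smul_id, sub_eq_zero]
    rfl
  have hss : Module.End.IsSemisimple T := Module.End.isSemisimple_of_squarefree_aeval_eq_zero hsq hae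
  have hU2 : U ∈ Module.End.invtSubmodule T := by
    rw [Module.End.mem_invtSubmodule]
    exact Submodule.map_le_iff_le_comap.1 hU'
  obtain ⟨W, hW, hcompl⟩ := Module.End.isSemisimple_iff.1 hss U hU2
  rw [Module.End.mem_invtSubmodule] at hW
  exact ⟨U, W, hcompl, hU, hU', Submodule.map_le_iff_le_comap.2 hW⟩

/-- The statement S5950. -/
theorem main50 {q : ℕ} (hq : Fintype.card F = q) (hn : 3 ≤ n) {m : ℕ} (hm : 1 ≤ m) (hmn : 2 * m < n)
    (r : ℕ) [Fact r.Prime]
    (hrΩ : r ∣ Nat.card {P : Submodule F (Fin n → F) × Submodule F (Fin n → F) // IsCompl P.1 P.2 ∧ Module.finrank F ↥P.1 = m}) :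
    (∀ x : Matrix.SpecialLinearGroup (Fin n) F,
      (∃ c : F, ((x ^ r : Matrix.SpecialLinearGroup (Fin n) F) : Matrix (Fin n) (Fin n) F) = c • (1 : Matrix (Fin n) (Fin n) F)) →
      (∀ c : F, (x : Matrix (Fin n) (Fin n) F) ≠ c • (1 : Matrix (Fin n) (Fin n) F)) →
      ∃ U W : Submodule F (Fin n → F), IsCompl U W ∧ Module.finrank F ↥U = m ∧
        U.map (Matrix.toLin' (x : Matrix (Fin n) (Fin n) F)) ≤ U ∧ W.map (Matrix.toLin' (x : Matrix (Fin n) (Fin n) F)) ≤ W) ↔
    ((r = p ∧ 2 < p ∧ (∀ μ : Multiset ℕ, (∀ a ∈ μ, 0 < a ∧ a ≤ p) → μ.sum = n → ∃ ν : Multiset ℕ, ν ≤ μ ∧ ν.sum = m)) ∨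
     (r = p ∧ p = 2 ∧ (Odd n ∨ Even m)) ∨
     (r ≠ p ∧
      ((orderOf (q : ZMod r) = 1 ∧ (r ∣ m ∨ (padicValNat r n ≤ padicValNat r (q - 1) ∧ (r = 2 → Even n → q % 4 = 1)))) ∨
       (2 ≤ orderOf (q : ZMod r) ∧ orderOf (q : ZMod r) ≤ m ∧ m % orderOf (q : ZMod r) ≤ n % orderOf (q : ZMod r))))) := by
  subst hq
  have hr : r.Prime := Fact.out
  have hp : p.Prime := Fact.out
  by_cases hrp : r = p
  · subst hrp
    have h1 := main_p (F := F) (p := r) (n := n) (m := m) (by omega) (by omega)
    rw [h1]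
    constructor
    · intro h
      by_cases h2 : 2 < r
      · exact Or.inl ⟨rfl, h2, h⟩
      · have h3 : r = 2 := by
          have := hr.two_le
          omega
        refine Or.inr (Or.inl ⟨rfl, h3, ?_⟩)
        rw [h3] at h
        exact (partition_two (by omega)).1 h
    · rintro (⟨-, -, h⟩ | ⟨-, h3, h⟩ | ⟨h, -⟩)
      · exact h
      · have h4 := (partition_two (n := n) (m := m) (by omega)).2 h
        rw [h3]
        exact h4
      · exact absurd rfl h
  · have hrΩ' : r ∣ Nat.card {W : Submodule F (Fin n → F) // finrank F W = m} := by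
      rw [card_pairs_compl] at hrΩ
      rcases (hr.dvd_mul).1 hrΩ with h1 | h1
      · exact h1
      · exfalso
        have h2 := hr.dvd_of_dvd_pow h1
        rw [Nat.card_eq_fintype_card] at h2
        obtain ⟨k, -, hk⟩ := FiniteField.card F p
        rw [hk] at h2
        have h3 := hr.dvd_of_dvd_pow h2
        exact hrp ((Nat.prime_dvd_prime_iff_eq hr hp).1 h3)
    have h1 := Cfsg.Agent.Lib.Classical.Elusive.PslMain.main_sub (F := F) (p := p) (n := n) (m := m) (by omega) hm hmn.le r hrΩ'
    constructor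
    · intro h
      have h2 := h1.1 (fun x hx hx' => by
        obtain ⟨U, W, -, h3, h4, -⟩ := h x hx hx'
        exact ⟨U, h3, h4⟩)
      exact Or.inr (Or.inr h2)
    · rintro (⟨h, -⟩ | ⟨h, -⟩ | h)
      · exact absurd h hrp
      · exact absurd h hrp
      · exact main_r hr hrp (by omega) (h1.2 h)

end Main

end Cfsg.Agent.Lib.Classical.Elusive.PslSplit
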