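import Mathlib
import Cfsg.Prelude.Def_GeometricClasses
import Cfsg.Agent.Lib.Classical.Elusive.Common

/-!
# Field subalgebras of prime degree `n` in `n × n` matrices

Such a field acts simply transitively on nonzero vectors.  An element of its normalizer with two
independent eigenvectors of one eigenvalue is scalar.
-/

set_option autoImplicit false
set_option linter.style.haveILetI false
set_option linter.unusedSectionVars false

namespace Cfsg.Agent.Lib.Classical.Elusive.Singer

open Module Matrix Cfsg.Geo Cfsg.Agent.Lib.Classical.Elusive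

variable {F : Type*} [Field F] {n : ℕ} {K : Subalgebra F (Matrix (Fin n) (Fin n) F)}

theorem isField_of {r : ℕ} [NeZero n] (hK : IsFieldSubalgebra r K) : IsField ↥K :=
  { exists_pair_ne := ⟨0, 1, fun h => one_ne_zero (α := Matrix (Fin n) (Fin n) F) (congrArg Subtype.val h).symm⟩
    mul_comm := fun x y => Subtype.ext (hK.comm x.1 x.2 y.1 y.2)
    mul_inv_cancel := fun {a} ha => by
      obtain ⟨y, hy, hxy⟩ := hK.inv a.1 a.2 (fun h => ha (Subtype.ext h))
      exact ⟨⟨y, hy⟩, Subtype.ext hxy⟩ }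

/-- Invariant subspaces have dimension divisible by the degree. -/
theorem dvd_finrank_of_inv [NeZero n] {r : ℕ} (hK : IsFieldSubalgebra r K)
    (U : Submodule F (Fin n → F)) (hU : ∀ k ∈ K, ∀ u ∈ U, k *ᵥ u ∈ U) :
    r ∣ finrank F U := by
  classical
  letI instF : Field ↥K := (isField_of hK).toField
  letI inst : Module ↥K ↥U :=
    { smul := fun c u => ⟨c.1 *ᵥ u.1, hU _ c.2 _ u.2⟩
      one_smul := fun u => Subtype.ext (by
        change (1 : Matrix (Fin n) (Fin n) F) *ᵥ u.1 = u.1
        exact Matrix.one_mulVec _)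
      mul_smul := fun a b u => Subtype.ext (by
        change (a.1 * b.1) *ᵥ u.1 = a.1 *ᵥ (b.1 *ᵥ u.1)
        rw [Matrix.mulVec_mulVec])
      smul_zero := fun a => Subtype.ext (by
        change a.1 *ᵥ (0 : Fin n → F) = 0
        exact Matrix.mulVec_zero _)
      smul_add := fun a x y => Subtype.ext (by
        change a.1 *ᵥ (x.1 + y.1) = a.1 *ᵥ x.1 + a.1 *ᵥ y.1
        exact Matrix.mulVec_add _ _ _)
      add_smul := fun a b x => Subtype.ext (by
        change (a.1 + b.1) *ᵥ x.1 = a.1 *ᵥ x.1 + b.1 *ᵥ x.1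
        exact Matrix.add_mulVec _ _ _)
      zero_smul := fun x => Subtype.ext (by
        change (0 : Matrix (Fin n) (Fin n) F) *ᵥ x.1 = 0
        exact Matrix.zero_mulVec _) }
  haveI : Module.Free ↥K ↥U := Module.Free.of_divisionRing _ _
  have h1 : finrank F ↥K * finrank ↥K ↥U = finrank F ↥U := by
    refine @Module.finrank_mul_finrank F ↥K ↥U _ _ _ _ _ _ ⟨fun a c v => Subtype.ext ?_⟩ _ _ _ _
    change ((a • c.1) *ᵥ v.1) = a • (c.1 *ᵥ v.1)
    rw [Matrix.smul_mulVec]
  rw [hK.finrank_eq] at h1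
  exact ⟨_, h1.symm⟩

/-- A nonzero element of the field acts injectively. -/
theorem eq_zero_of_mulVec {r : ℕ} (hK : IsFieldSubalgebra r K) {a : Matrix (Fin n) (Fin n) F}
    (ha : a ∈ K) {v : Fin n → F} (hv : v ≠ 0) (h : a *ᵥ v = 0) : a = 0 := by
  by_contra ha0
  obtain ⟨b, hb, hab⟩ := hK.inv a ha ha0
  apply hv
  have h1 : b * a = 1 := by rw [hK.comm b hb a ha, hab]
  have h2 : (b * a) *ᵥ v = 0 := by rw [← mulVec_mulVec, h, mulVec_zero]
  rwa [h1, one_mulVec] at h2

/-- The orbit map of a nonzero vector. -/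
noncomputable def orb (K : Subalgebra F (Matrix (Fin n) (Fin n) F)) (v : Fin n → F) :
    ↥K →ₗ[F] (Fin n → F) where
  toFun a := a.1 *ᵥ v
  map_add' a b := by simp [add_mulVec]
  map_smul' c a := by simp [smul_mulVec]

theorem orb_apply (v : Fin n → F) (a : ↥K) : orb K v a = a.1 *ᵥ v := rfl

theorem orb_injective (hK : IsFieldSubalgebra n K) {v : Fin n → F} (hv : v ≠ 0) :
    Function.Injective (orb K v) := by
  rw [← LinearMap.ker_eq_bot, LinearMap.ker_eq_bot']
  intro a ha
  exact Subtype.ext (eq_zero_of_mulVec hK a.2 hv ha)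

theorem orb_surjective (hK : IsFieldSubalgebra n K) {v : Fin n → F} (hv : v ≠ 0) :
    Function.Surjective (orb K v) := by
  have hfin : FiniteDimensional F ↥K := by
    apply FiniteDimensional.of_finrank_pos
    rw [hK.finrank_eq]
    by_contra h0
    apply hv
    have : n = 0 := by omega
    subst this
    exact Subsingleton.elim _ _
  exact (LinearMap.injective_iff_surjective_of_finrank_eq_finrank
    (by rw [hK.finrank_eq, finrank_fin_fun])).1 (orb_injective hK hv)

/-- Every vector is a translate of a given nonzero vector. -/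
theorem exists_mem_mulVec_eq (hK : IsFieldSubalgebra n K) {v : Fin n → F} (hv : v ≠ 0)
    (w : Fin n → F) : ∃ a ∈ K, a *ᵥ v = w := by
  obtain ⟨a, ha⟩ := orb_surjective hK hv w
  exact ⟨a.1, a.2, ha⟩

/-- An element of the normalizer with two independent eigenvectors for one eigenvalue is scalar. -/
theorem scalar_of_eigen (hn : n.Prime) (hK : IsFieldSubalgebra n K) {g : GL (Fin n) F}
    (hg : g ∈ subalgebraNormalizer K) {v w : Fin n → F} {l : F} (hv : v ≠ 0)
    (hw : ∀ c : F, w ≠ c • v) (hgv : (g : Matrix (Fin n) (Fin n) F) *ᵥ v = l • v)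
    (hgw : (g : Matrix (Fin n) (Fin n) F) *ᵥ w = l • w) :
    (g : Matrix (Fin n) (Fin n) F) = l • 1 := by
  classical
  haveI : NeZero n := ⟨hn.ne_zero⟩
  have hl : l ≠ 0 := by
    rintro rfl
    have h1 : ((g⁻¹ : GL (Fin n) F) : Matrix (Fin n) (Fin n) F) *ᵥ
        ((g : Matrix (Fin n) (Fin n) F) *ᵥ v) = v := by
      rw [mulVec_mulVec, ← Units.val_mul, inv_mul_cancel, Units.val_one, one_mulVec]
    rw [hgv, zero_smul, mulVec_zero] at h1
    exact hv h1.symm
  obtain ⟨a, ha, haw⟩ := exists_mem_mulVec_eq hK hv w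
  have hconj : ∀ k ∈ K, ∀ u, ((g : Matrix (Fin n) (Fin n) F) * k *
      ((g⁻¹ : GL (Fin n) F) : Matrix (Fin n) (Fin n) F)) *ᵥ
        ((g : Matrix (Fin n) (Fin n) F) *ᵥ u) = (g : Matrix (Fin n) (Fin n) F) *ᵥ (k *ᵥ u) := by
    intro k _ u
    rw [mulVec_mulVec, mul_assoc, mul_assoc, ← Units.val_mul, inv_mul_cancel, Units.val_one,
      mul_one, mulVec_mulVec]
  set a' := (g : Matrix (Fin n) (Fin n) F) * a * ((g⁻¹ : GL (Fin n) F) : Matrix (Fin n) (Fin n) F)
    with ha'
  have ha'K : a' ∈ K := (hg a).1 ha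
  have h1 : a' *ᵥ v = a *ᵥ v := by
    have h2 := hconj a ha v
    rw [← ha', hgv, mulVec_smul, haw, hgw] at h2
    rw [haw]
    exact smul_right_injective _ hl h2
  have h2 : a' = a := by
    have h3 : a' - a = 0 := eq_zero_of_mulVec hK (K.sub_mem ha'K ha) hv (by
      rw [sub_mulVec, h1, sub_self])
    exact sub_eq_zero.1 h3
  have hcomm : (g : Matrix (Fin n) (Fin n) F) * a = a * (g : Matrix (Fin n) (Fin n) F) := by
    calc (g : Matrix (Fin n) (Fin n) F) * a
        = a' * (g : Matrix (Fin n) (Fin n) F) := by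
          rw [ha', mul_assoc, mul_assoc, ← Units.val_mul, inv_mul_cancel, Units.val_one, mul_one]
      _ = a * (g : Matrix (Fin n) (Fin n) F) := by rw [h2]
  -- the centralizer of `g` in `K`
  let C : Subalgebra F (Matrix (Fin n) (Fin n) F) :=
    K ⊓ Subalgebra.centralizer F {(g : Matrix (Fin n) (Fin n) F)}
  have hmemC : ∀ x, x ∈ C ↔ x ∈ K ∧ (g : Matrix (Fin n) (Fin n) F) * x = x * g := by
    intro x
    constructor
    · rintro ⟨h3, h4⟩
      refine ⟨h3, ?_⟩
      rw [SetLike.mem_coe] at h4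
      have := (Subalgebra.mem_centralizer_iff F).1 h4 _ (Set.mem_singleton _)
      exact this
    · rintro ⟨h3, h4⟩
      refine ⟨h3, ?_⟩
      rw [SetLike.mem_coe]
      refine (Subalgebra.mem_centralizer_iff F).2 fun y hy => ?_
      rw [Set.mem_singleton_iff] at hy
      subst hy
      exact h4
  have hCF : IsFieldSubalgebra (finrank F C) C := by
    refine ⟨fun x hx y hy => hK.comm x ((hmemC x).1 hx).1 y ((hmemC y).1 hy).1, fun x hx hx0 => ?_, rfl⟩
    obtain ⟨h3, h4⟩ := (hmemC x).1 hx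
    obtain ⟨y, hy, hxy⟩ := hK.inv x h3 hx0
    refine ⟨y, (hmemC y).2 ⟨hy, ?_⟩, hxy⟩
    have hyx : y * x = 1 := by rw [hK.comm y hy x h3, hxy]
    calc (g : Matrix (Fin n) (Fin n) F) * y
        = (y * x) * (g : Matrix (Fin n) (Fin n) F) * y := by rw [hyx, one_mul]
      _ = y * ((g : Matrix (Fin n) (Fin n) F) * x) * y := by rw [mul_assoc y x, ← h4]
      _ = y * (g : Matrix (Fin n) (Fin n) F) := by simp only [mul_assoc, hxy, mul_one]
  have hd : finrank F C ∣ n := by
    have h3 := dvd_finrank_of_inv hCF ⊤ (fun _ _ _ _ => Submodule.mem_top)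
    rwa [finrank_top, finrank_fin_fun] at h3
  have hKC : ∀ k ∈ K, (g : Matrix (Fin n) (Fin n) F) * k = k * g := by
    rcases (Nat.dvd_prime hn).1 hd with h3 | h3
    · exfalso
      have h1C : (⟨1, C.one_mem⟩ : ↥C) ≠ 0 := fun h =>
        one_ne_zero (α := Matrix (Fin n) (Fin n) F) (congrArg Subtype.val h)
      obtain ⟨c, hc⟩ := (finrank_eq_one_iff_of_nonzero' _ h1C).1 h3
        ⟨a, (hmemC a).2 ⟨ha, hcomm⟩⟩
      apply hw c
      have h4 : c • (1 : Matrix (Fin n) (Fin n) F) = a := congrArg Subtype.val hc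
      rw [← haw, ← h4, smul_mulVec, one_mulVec]
    · have hle : Subalgebra.toSubmodule C ≤ Subalgebra.toSubmodule K := fun x hx => ((hmemC x).1 hx).1
      have : FiniteDimensional F ↥K := by
        apply FiniteDimensional.of_finrank_pos
        rw [hK.finrank_eq]
        exact hn.pos
      have heq := Submodule.eq_of_le_of_finrank_eq hle (by
        change finrank F C = finrank F K
        rw [h3, hK.finrank_eq])
      intro k hk
      have hkC : k ∈ Subalgebra.toSubmodule C := by rw [heq]; exact hk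
      exact ((hmemC k).1 hkC).2
  apply mulVec_injective
  funext u
  obtain ⟨k, hk, rfl⟩ := exists_mem_mulVec_eq hK hv u
  rw [mulVec_mulVec, hKC k hk, ← mulVec_mulVec, hgv, mulVec_smul, smul_mulVec, one_mulVec]

section Frob

variable [Fintype F]

open Cfsg.Agent.Lib.Classical.Elusive in
/-- The Frobenius of the field as an element of its normalizer. -/
theorem exists_frobenius (hn : 2 ≤ n) (hK : IsFieldSubalgebra n K) :
    ∃ g : GL (Fin n) F, g ∈ subalgebraNormalizer K ∧ g ^ n = 1 ∧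
      ∀ c : F, (g : Matrix (Fin n) (Fin n) F) ≠ c • 1 := by
  classical
  haveI : NeZero n := ⟨by omega⟩
  letI instF : Field ↥K := (isField_of hK).toField
  letI instA : Algebra F ↥K := K.algebra
  haveI : Finite ↥K := inferInstance
  letI : Fintype ↥K := Fintype.ofFinite _
  set q := Fintype.card F with hq
  have hq2 : 2 ≤ q := Fintype.one_lt_card
  have hcardK : Fintype.card ↥K = q ^ n := by
    have h1 := Module.card_eq_pow_finrank (K := F) (V := ↥K)
    rw [hK.finrank_eq] at h1
    exact h1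
  let v₀ : Fin n → F := Pi.single 0 1
  have hv₀ : v₀ ≠ 0 := by
    intro h
    have := congrFun h 0
    simp [v₀] at this
  let σ : ↥K →ₐ[F] ↥K := FiniteField.frobeniusAlgHom F ↥K
  have hσ : ∀ a : ↥K, σ a = a ^ q := fun a => rfl
  have hσbij : Function.Bijective σ :=
    Finite.injective_iff_bijective.1 (RingHom.injective (σ : ↥K →+* ↥K))
  let σe : ↥K ≃ₗ[F] ↥K := LinearEquiv.ofBijective σ.toLinearMap hσbij
  let φ : ↥K ≃ₗ[F] (Fin n → F) :=
    LinearEquiv.ofBijective (orb K v₀) ⟨orb_injective hK hv₀, orb_surjective hK hv₀⟩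
  have hφ : ∀ a : ↥K, φ a = a.1 *ᵥ v₀ := fun a => rfl
  let e : (Fin n → F) ≃ₗ[F] (Fin n → F) := φ.symm.trans (σe.trans φ)
  have he : ∀ a : ↥K, e (a.1 *ᵥ v₀) = (a ^ q).1 *ᵥ v₀ := by
    intro a
    rw [← hφ a]
    change φ (σe (φ.symm (φ a))) = _
    rw [LinearEquiv.symm_apply_apply]
    rfl
  let g : GL (Fin n) F := glOfE e
  have hg : ∀ u, (g : Matrix (Fin n) (Fin n) F) *ᵥ u = e u := fun u => glOfE_mulVec e u
  have hginv : ∀ u, ((g⁻¹ : GL (Fin n) F) : Matrix (Fin n) (Fin n) F) *ᵥ
      ((g : Matrix (Fin n) (Fin n) F) *ᵥ u) = u := fun u => by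
    rw [mulVec_mulVec, ← Units.val_mul, inv_mul_cancel, Units.val_one, one_mulVec]
  have hmul : ∀ a b : ↥K, (a * b).1 = a.1 * b.1 := fun a b => rfl
  have hconj : ∀ l : ↥K, (g : Matrix (Fin n) (Fin n) F) * l.1 *
      ((g⁻¹ : GL (Fin n) F) : Matrix (Fin n) (Fin n) F) = (l ^ q).1 := by
    intro l
    apply mulVec_injective
    funext w
    obtain ⟨b, hb⟩ := hσbij.2 (φ.symm w)
    have hw : w = (g : Matrix (Fin n) (Fin n) F) *ᵥ (b.1 *ᵥ v₀) := by
      rw [hg, he, ← hσ b, hb, ← hφ, LinearEquiv.apply_symm_apply]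
    have h1 : ∀ u, ((g : Matrix (Fin n) (Fin n) F) * l.1 *
        ((g⁻¹ : GL (Fin n) F) : Matrix (Fin n) (Fin n) F)) *ᵥ
        ((g : Matrix (Fin n) (Fin n) F) *ᵥ u) = (g : Matrix (Fin n) (Fin n) F) *ᵥ (l.1 *ᵥ u) := by
      intro u
      rw [mulVec_mulVec, mul_assoc, mul_assoc, ← Units.val_mul, inv_mul_cancel, Units.val_one,
        mul_one, ← mulVec_mulVec]
    have h2 : l.1 *ᵥ (b.1 *ᵥ v₀) = (l * b).1 *ᵥ v₀ := by rw [mulVec_mulVec]; rfl
    rw [hw, h1, h2, hg, hg, he, he, mul_pow, hmul, ← mulVec_mulVec]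
  have hinj : ∀ a b : Matrix (Fin n) (Fin n) F, (g : Matrix (Fin n) (Fin n) F) * a *
      ((g⁻¹ : GL (Fin n) F) : Matrix (Fin n) (Fin n) F) = (g : Matrix (Fin n) (Fin n) F) * b *
      ((g⁻¹ : GL (Fin n) F) : Matrix (Fin n) (Fin n) F) → a = b := by
    intro a b h
    have h1 := congrArg (fun M => ((g⁻¹ : GL (Fin n) F) : Matrix (Fin n) (Fin n) F) * M *
      (g : Matrix (Fin n) (Fin n) F)) h
    have h3 : ((g⁻¹ : GL (Fin n) F) : Matrix (Fin n) (Fin n) F) * (g : Matrix (Fin n) (Fin n) F) = 1 := by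
      rw [← Units.val_mul, inv_mul_cancel, Units.val_one]
    have h4 : ∀ M : Matrix (Fin n) (Fin n) F, ((g⁻¹ : GL (Fin n) F) : Matrix (Fin n) (Fin n) F) *
        ((g : Matrix (Fin n) (Fin n) F) * M * ((g⁻¹ : GL (Fin n) F) : Matrix (Fin n) (Fin n) F)) *
        (g : Matrix (Fin n) (Fin n) F) = M := by
      intro M
      calc _ = (((g⁻¹ : GL (Fin n) F) : Matrix (Fin n) (Fin n) F) * (g : Matrix (Fin n) (Fin n) F)) * M *
            (((g⁻¹ : GL (Fin n) F) : Matrix (Fin n) (Fin n) F) * (g : Matrix (Fin n) (Fin n) F)) := by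
              simp only [mul_assoc]
        _ = M := by rw [h3, one_mul, mul_one]
    simpa only [h4] using h1
  refine ⟨g, ?_, ?_, ?_⟩
  · intro k
    constructor
    · intro hk
      have := hconj ⟨k, hk⟩
      rw [this]
      exact (⟨k, hk⟩ ^ q : ↥K).2
    · intro hk
      obtain ⟨l, hl⟩ := hσbij.2 ⟨_, hk⟩
      have h1 : (g : Matrix (Fin n) (Fin n) F) * l.1 *
          ((g⁻¹ : GL (Fin n) F) : Matrix (Fin n) (Fin n) F) = (g : Matrix (Fin n) (Fin n) F) * k *
          ((g⁻¹ : GL (Fin n) F) : Matrix (Fin n) (Fin n) F) := by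
        rw [hconj, ← hσ, hl]
      rw [← hinj _ _ h1]
      exact l.2
  · have hpow : ∀ (j : ℕ) (a : ↥K), (e ^ j) (a.1 *ᵥ v₀) = (a ^ (q ^ j)).1 *ᵥ v₀ := by
      intro j
      induction j with
      | zero => intro a; simp
      | succ j ih =>
        intro a
        rw [pow_succ, LinearEquiv.mul_apply, he, ih, pow_succ q j, mul_comm (q ^ j) q, pow_mul]
    apply Units.ext
    apply mulVec_injective
    funext w
    obtain ⟨a, ha, rfl⟩ := exists_mem_mulVec_eq hK hv₀ w
    have h1 := hpow n ⟨a, ha⟩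
    rw [← hcardK, FiniteField.pow_card] at h1
    rw [Units.val_one, one_mulVec]
    change (glOfE e ^ n : GL (Fin n) F).1 *ᵥ _ = _
    rw [glOfE_pow]
    exact h1
  · intro c hc
    have hc1 : c = 1 := by
      have h1 := he 1
      have h2 : (g : Matrix (Fin n) (Fin n) F) *ᵥ ((1 : ↥K).1 *ᵥ v₀) = ((1 : ↥K) ^ q).1 *ᵥ v₀ := by
        rw [hg, h1]
      rw [hc, one_pow] at h2
      have h3 : ((1 : ↥K) : Matrix (Fin n) (Fin n) F) = 1 := rfl
      rw [h3, one_mulVec, smul_mulVec, one_mulVec] at h2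
      have h4 : (c - 1) • v₀ = 0 := by rw [sub_smul, h2, one_smul, sub_self]
      have := (smul_eq_zero.1 h4).resolve_right hv₀
      exact sub_eq_zero.1 this
    have hall : ∀ a : ↥K, a ^ q = a := by
      intro a
      apply Subtype.ext
      have h1 := he a
      have h2 : (g : Matrix (Fin n) (Fin n) F) *ᵥ (a.1 *ᵥ v₀) = (a ^ q).1 *ᵥ v₀ := by rw [hg, h1]
      rw [hc, hc1, one_smul, one_mulVec] at h2
      have h3 := eq_zero_of_mulVec hK (K.sub_mem (a ^ q).2 a.2) hv₀ (by rw [sub_mulVec, ← h2, sub_self])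
      exact (sub_eq_zero.1 h3)
    obtain ⟨γ, hγ⟩ := IsCyclic.exists_generator (α := (↥K)ˣ)
    have hord : orderOf γ = q ^ n - 1 := by
      rw [orderOf_eq_card_of_forall_mem_zpowers hγ, Nat.card_eq_fintype_card, Fintype.card_units, hcardK]
    have h1 : γ ^ (q - 1) = 1 := by
      apply Units.ext
      have h2 := hall (γ : ↥K)
      have h3 : (γ : ↥K) ^ (q - 1) * γ = 1 * γ := by
        rw [← pow_succ, Nat.sub_add_cancel (by omega), h2, one_mul]
      have h4 := mul_right_cancel₀ γ.ne_zero h3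
      simpa using h4
    have h2 := orderOf_dvd_of_pow_eq_one h1
    rw [hord] at h2
    have h3 := Nat.le_of_dvd (by omega) h2
    have h4 : q ^ 2 ≤ q ^ n := Nat.pow_le_pow_right (by omega) hn
    have h5 : 2 * q ≤ q ^ 2 := by nlinarith
    omega

end Frob

section Conj

variable {V : Type*} [AddCommGroup V] [Module F V] [FiniteDimensional F V]

/-- Two endomorphisms with the same matrix in two bases, one of whose basis vectors spans a direct
summand, are conjugate by an automorphism of determinant one. -/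
theorem exists_conj_of_bases {ι : Type*} [Fintype ι] [DecidableEq ι] (x g : V →ₗ[F] V)
    (M : Matrix ι ι F) (b₁ b₂ : Basis ι F V) (hx : ∀ i, x (b₁ i) = ∑ j, M j i • b₁ j)
    (hg : ∀ i, g (b₂ i) = ∑ j, M j i • b₂ j) (i₀ : ι) (hM : ∀ j, j ≠ i₀ → M i₀ j = 0 ∧ M j i₀ = 0) :
    ∃ Q : V →ₗ[F] V, LinearMap.det Q = 1 ∧ ∀ v, Q (g v) = x (Q v) := by
  let P : V →ₗ[F] V := (b₂.equiv b₁ (Equiv.refl _)).toLinearMap
  have hP : ∀ i, P (b₂ i) = b₁ i := fun i => by simp [P]
  have hPd : LinearMap.det P ≠ 0 := by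
    have h1 : P ∘ₗ (b₁.equiv b₂ (Equiv.refl _)).toLinearMap = LinearMap.id := by
      apply b₁.ext
      intro i
      simp [P]
    intro h0
    have h2 := congrArg LinearMap.det h1
    rw [LinearMap.det_comp, h0, zero_mul, LinearMap.det_id] at h2
    exact zero_ne_one h2
  have hPg : ∀ v, P (g v) = x (P v) := by
    intro v
    have h1 : P ∘ₗ g = x ∘ₗ P := by
      apply b₂.ext
      intro i
      simp only [LinearMap.comp_apply]
      rw [hg, hP, hx, map_sum]
      simp [hP]
    exact LinearMap.congr_fun h1 v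
  let d : ι → F := fun i => if i = i₀ then (LinearMap.det P)⁻¹ else 1
  let D : V →ₗ[F] V := toLin b₂ b₂ (diagonal d)
  have hgM : g = toLin b₂ b₂ M := by
    apply b₂.ext
    intro i
    rw [hg, toLin_self]
  have hcomm : diagonal d * M = M * diagonal d := by
    ext i j
    rw [diagonal_mul, mul_diagonal]
    by_cases hi : i = i₀
    · subst hi
      by_cases hj : j = i
      · subst hj; ring
      · simp [(hM j hj).1]
    · by_cases hj : j = i₀
      · subst hj
        simp [(hM i hi).2]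
      · simp [d, hi, hj]
  have hDg : ∀ v, D (g v) = g (D v) := by
    intro v
    have h1 := congrArg (fun N => toLin b₂ b₂ N v) hcomm
    simp only [toLin_mul b₂ b₂ b₂] at h1
    rw [hgM]
    exact h1
  refine ⟨P ∘ₗ D, ?_, fun v => ?_⟩
  · rw [LinearMap.det_comp, LinearMap.det_toLin, det_diagonal, Finset.prod_eq_single i₀]
    · simp [d, hPd]
    · intro b _ hb
      simp [d, hb]
    · simp
  · simp only [LinearMap.comp_apply]
    rw [hDg, hPg]

end Conj

section Count

variable [Fintype F] {V : Type*} [AddCommGroup V] [Module F V] [FiniteDimensional F V]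

/-- The congruence for the fixed points of an endomorphism of prime order on an invariant
subspace. -/
theorem card_modEq_fixed (r : ℕ) [Fact r.Prime] (y : V →ₗ[F] V) (hy : ∀ v, (y ^ r) v = v)
    (S : Submodule F V) (hS : ∀ s ∈ S, y s ∈ S) :
    Fintype.card F ^ finrank F S ≡
      Fintype.card F ^ finrank F (S ⊓ LinearMap.ker (y - 1) : Submodule F V) [MOD r] := by
  classical
  haveI : Finite V := Module.finite_of_finite F
  letI : Fintype ↥S := Fintype.ofFinite _
  let f : Function.End ↥S := fun s => ⟨y s.1, hS _ s.2⟩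
  have hfpow : ∀ (k : ℕ) (s : ↥S), ((f ^ k) s).1 = (y ^ k) s.1 := by
    intro k
    induction k with
    | zero => intro s; rfl
    | succ k ih =>
      intro s
      have h1 : (f ^ (k + 1)) s = (f ^ k) (f s) := by rw [pow_succ]; rfl
      rw [h1, ih, pow_succ]
      rfl
  have hf : f ^ r ^ 1 = 1 := by
    rw [pow_one]
    funext s
    apply Subtype.ext
    rw [hfpow, hy]
    rfl
  have h1 := Equiv.Perm.card_fixedPoints_modEq hf
  rw [← Nat.card_eq_fintype_card, ← Nat.card_eq_fintype_card] at h1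
  let T : Submodule F V := S ⊓ LinearMap.ker (y - 1)
  letI : Fintype ↥T := Fintype.ofFinite _
  have h2 : Nat.card ↥S = Fintype.card F ^ finrank F S := by
    rw [Nat.card_eq_fintype_card]
    exact Module.card_eq_pow_finrank
  have h3 : Nat.card (Function.fixedPoints f) = Fintype.card F ^ finrank F T := by
    rw [← Module.card_eq_pow_finrank (K := F) (V := ↥T), ← Nat.card_eq_fintype_card]
    refine Nat.card_congr ⟨fun s => ⟨s.1.1, s.1.2, ?_⟩, fun s => ⟨⟨s.1, s.2.1⟩, ?_⟩, ?_, ?_⟩
    · have h4 : f s.1 = s.1 := s.2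
      have h5 : y s.1.1 = s.1.1 := congrArg Subtype.val h4
      simp [LinearMap.mem_ker, h5]
    · apply Subtype.ext
      have h4 : (y - 1) s.1 = 0 := s.2.2
      exact sub_eq_zero.1 h4
    · intro s; rfl
    · intro s; rfl
  rw [← h2]
  change _ ≡ Fintype.card F ^ finrank F T [MOD r]
  rw [← h3]
  exact h1

end Count

section Cyclic

variable [Fintype F] {V : Type*} [AddCommGroup V] [Module F V] [FiniteDimensional F V]

/-- The matrix of an element of order `m + 1` in its normal form. -/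
def cycM (m : ℕ) (F : Type*) [Field F] : Matrix (Unit ⊕ Fin m) (Unit ⊕ Fin m) F
  | .inl _, .inl _ => 1
  | .inl _, .inr _ => 0
  | .inr _, .inl _ => 0
  | .inr j, .inr i => if (i : ℕ) + 1 < m then (if (j : ℕ) = i + 1 then 1 else 0) else -1

theorem pow_succ_apply (y : V →ₗ[F] V) (k : ℕ) (v : V) : (y ^ (k + 1)) v = y ((y ^ k) v) := by
  rw [pow_succ']; rfl

/-- Normal form of an element of prime order `m + 1` when `q` has order `m` modulo `m + 1`. -/
theorem exists_cyclic_basis (m : ℕ) (hm : 2 ≤ m) [Fact (m + 1).Prime] (h0 : ((m + 1 : ℕ) : F) ≠ 0)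
    (hord : orderOf ((Fintype.card F : ℕ) : ZMod (m + 1)) = m) (hdim : finrank F V = m + 1)
    (y : V →ₗ[F] V) (hy : ∀ v, (y ^ (m + 1)) v = v) (hy1 : y ≠ 1) :
    ∃ b : Basis (Unit ⊕ Fin m) F V, ∀ i, y (b i) = ∑ j, cycM m F j i • b j := by
  classical
  haveI : Finite V := Module.finite_of_finite F
  set r := m + 1 with hr
  let A : V →ₗ[F] V := ∑ i ∈ Finset.range r, y ^ i
  have hAapp : ∀ v, A v = ∑ i ∈ Finset.range r, (y ^ i) v := fun v => by
    simp [A, LinearMap.sum_apply]
  have hAy : ∀ v, A (y v) = A v := by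
    intro v
    rw [hAapp, hAapp]
    have h1 := Finset.sum_range_succ' (fun i => (y ^ i) v) r
    have h2 := Finset.sum_range_succ (fun i => (y ^ i) v) r
    rw [h1] at h2
    simp only [pow_zero, hy] at h2
    have h3 : ∀ i, (y ^ i) (y v) = (y ^ (i + 1)) v := fun i => by rw [pow_succ]; rfl
    simp only [h3]
    exact add_right_cancel (h2.trans (by simp))
  have hyA : ∀ v, y (A v) = A v := by
    intro v
    have h1 : A (y v) = y (A v) := by
      rw [hAapp, hAapp, map_sum]
      apply Finset.sum_congr rfl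
      intro i _
      rw [← pow_succ_apply, pow_succ]
      rfl
    rw [← h1, hAy]
  have hyApow : ∀ (i : ℕ) v, (y ^ i) (A v) = A v := by
    intro i v
    induction i with
    | zero => rfl
    | succ i ih => rw [pow_succ_apply, ih, hyA]
  have hApow : ∀ (i : ℕ) v, A ((y ^ i) v) = A v := by
    intro i v
    induction i with
    | zero => rfl
    | succ i ih => rw [pow_succ_apply, hAy, ih]
  have hAA : ∀ v, A (A v) = (r : F) • A v := by
    intro v
    rw [hAapp (A v)]
    simp only [hyApow]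
    simp [Nat.cast_smul_eq_nsmul]
  let Fx : Submodule F V := LinearMap.ker (y - 1)
  have hFx : ∀ v, v ∈ Fx ↔ y v = v := fun v => by
    change (y - 1) v = 0 ↔ _
    simp [sub_eq_zero]
  have hFxpow : ∀ v, y v = v → ∀ i : ℕ, (y ^ i) v = v := by
    intro v hv i
    induction i with
    | zero => rfl
    | succ i ih => rw [pow_succ_apply, ih, hv]
  let W : Submodule F V := LinearMap.ker A
  have hW : ∀ v, v ∈ W ↔ A v = 0 := fun v => LinearMap.mem_ker
  have hcompl : IsCompl Fx W := by
    constructor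
    · rw [Submodule.disjoint_def]
      intro u hu hu'
      have h1 : A u = (r : F) • u := by
        rw [hAapp]
        simp only [hFxpow u ((hFx u).1 hu)]
        simp [Nat.cast_smul_eq_nsmul]
      rw [(hW u).1 hu'] at h1
      exact (smul_eq_zero.1 h1.symm).resolve_left h0
    · rw [codisjoint_iff, eq_top_iff]
      intro v _
      have h1 : v = (r : F)⁻¹ • A v + (v - (r : F)⁻¹ • A v) := by abel
      rw [h1]
      refine Submodule.add_mem _ (Submodule.mem_sup_left ?_) (Submodule.mem_sup_right ?_)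
      · rw [hFx, map_smul, hyA]
      · rw [hW, map_sub, map_smul, hAA, smul_smul, inv_mul_cancel₀ h0, one_smul, sub_self]
  have hdims := Submodule.finrank_add_eq_of_isCompl hcompl
  set q := Fintype.card F with hq
  set Q : ZMod r := (q : ZMod r) with hQ
  have hQm : Q ^ m = 1 := by rw [← hord]; exact pow_orderOf_eq_one Q
  have hQ0 : Q ≠ 0 := by
    intro h
    rw [h, zero_pow (by omega)] at hQm
    exact zero_ne_one hQm
  have hcount : ∀ S : Submodule F V, (∀ s ∈ S, y s ∈ S) →
      Q ^ finrank F S = Q ^ finrank F (S ⊓ Fx : Submodule F V) := by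
    intro S hS
    have h1 := card_modEq_fixed r y hy S hS
    have h2 := (ZMod.natCast_eq_natCast_iff _ _ _).2 h1
    push_cast at h2
    exact h2
  have hd : finrank F Fx = 1 := by
    have h1 := hcount ⊤ (fun _ _ => Submodule.mem_top)
    rw [finrank_top, hdim, top_inf_eq, ZMod.pow_card] at h1
    have hle : finrank F Fx ≤ m + 1 := by
      have := Submodule.finrank_le Fx
      omega
    rcases Nat.eq_zero_or_pos (finrank F Fx) with h2 | h2
    · exfalso
      rw [h2, pow_zero] at h1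
      rw [h1, orderOf_one] at hord
      omega
    · obtain ⟨d, hd⟩ : ∃ d, finrank F Fx = d + 1 := ⟨finrank F Fx - 1, by omega⟩
      rw [hd, pow_succ] at h1
      have h3 : Q ^ d = 1 := by
        have h4 : Q ^ d * Q = 1 * Q := by rw [← h1, one_mul]
        exact mul_right_cancel₀ hQ0 h4
      have h4 : m ∣ d := by
        rw [← hord]
        exact orderOf_dvd_of_pow_eq_one h3
      rcases Nat.eq_zero_or_pos d with h5 | h5
      · omega
      · exfalso
        have h6 := Nat.le_of_dvd h5 h4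
        have h7 : finrank F Fx = finrank F V := by omega
        have h8 : Fx = ⊤ := Submodule.eq_top_of_finrank_eq h7
        apply hy1
        ext v
        have h9 : v ∈ Fx := by rw [h8]; trivial
        exact (hFx v).1 h9
  have hWd : finrank F W = m := by omega
  obtain ⟨u, huW, hu0⟩ : ∃ u ∈ W, u ≠ 0 := by
    apply Submodule.exists_mem_ne_zero_of_ne_bot
    intro h
    rw [h, finrank_bot] at hWd
    omega
  obtain ⟨e, heF, he0⟩ : ∃ e ∈ Fx, e ≠ 0 := by
    apply Submodule.exists_mem_ne_zero_of_ne_bot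
    intro h
    rw [h, finrank_bot] at hd
    omega
  let fam : Fin m → V := fun i => (y ^ (i : ℕ)) u
  have hAu : A u = 0 := (hW u).1 huW
  have hlast : (y ^ m) u = - ∑ j : Fin m, fam j := by
    have h1 := hAapp u
    rw [hAu, Finset.sum_range_succ] at h1
    rw [Fin.sum_univ_eq_sum_range (fun i => (y ^ i) u) m]
    exact eq_neg_of_add_eq_zero_right h1.symm
  let S : Submodule F V := Submodule.span F (Set.range fam)
  have hfamS : ∀ i, fam i ∈ S := fun i => Submodule.subset_span ⟨i, rfl⟩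
  have hSinv : ∀ s ∈ S, y s ∈ S := by
    intro s hs
    induction hs using Submodule.span_induction with
    | mem s hs =>
      obtain ⟨i, rfl⟩ := hs
      change y ((y ^ (i : ℕ)) u) ∈ S
      rw [← pow_succ_apply]
      by_cases hi : (i : ℕ) + 1 < m
      · exact hfamS ⟨(i : ℕ) + 1, hi⟩
      · have h1 : (i : ℕ) + 1 = m := by omega
        rw [h1, hlast]
        exact S.neg_mem (S.sum_mem fun j _ => hfamS j)
    | zero => simp
    | add a b _ _ ha hb => rw [map_add]; exact add_mem ha hb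
    | smul c a _ ha => rw [map_smul]; exact Submodule.smul_mem _ _ ha
  have hSW : S ≤ W := by
    rw [Submodule.span_le]
    rintro _ ⟨i, rfl⟩
    change A ((y ^ (i : ℕ)) u) = 0
    rw [hApow, hAu]
  have hSFx : S ⊓ Fx = ⊥ := by
    rw [eq_bot_iff, ← hcompl.inf_eq_bot, inf_comm S Fx]
    exact inf_le_inf_left _ hSW
  have hSd : finrank F S = m := by
    have h1 := hcount S hSinv
    rw [hSFx, finrank_bot, pow_zero] at h1
    have h2 : m ∣ finrank F S := by
      rw [← hord]
      exact orderOf_dvd_of_pow_eq_one h1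
    have h3 : finrank F S ≤ m := by
      have := finrank_range_le_card (R := F) fam
      rw [Fintype.card_fin] at this
      exact this
    have h4 : 0 < finrank F S := by
      apply Module.finrank_pos_iff_exists_ne_zero.2
      exact ⟨⟨fam ⟨0, by omega⟩, hfamS _⟩, fun h => hu0 (congrArg Subtype.val h)⟩
    exact le_antisymm h3 (Nat.le_of_dvd h4 h2)
  have hSeq : S = W := Submodule.eq_of_le_of_finrank_eq hSW (by rw [hSd, hWd])
  have hFxe : Fx = Submodule.span F {e} := eq_span_of_mem hd heF he0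
  let g : Unit ⊕ Fin m → V := Sum.elim (fun _ => e) fam
  have hg : ⊤ ≤ Submodule.span F (Set.range g) := by
    rw [← hcompl.sup_eq_top, hFxe, ← hSeq, Set.Sum.elim_range, Submodule.span_union]
    apply sup_le_sup_right
    apply Submodule.span_mono
    rintro _ rfl
    exact ⟨(), rfl⟩
  let b := basisOfTopLeSpanOfCardEqFinrank g hg (by simp [hdim]; omega)
  have hb : ∀ i, b i = g i := fun i => by rw [coe_basisOfTopLeSpanOfCardEqFinrank]
  refine ⟨b, ?_⟩
  rintro (i | i)
  · rw [hb, Fintype.sum_sum_type]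
    simp [cycM, hb, g, (hFx e).1 heF]
  · rw [hb, Fintype.sum_sum_type]
    simp only [hb, g, Sum.elim_inr, Sum.elim_inl, cycM]
    simp only [zero_smul, Finset.sum_const_zero, zero_add, fam]
    rw [← pow_succ_apply]
    by_cases hi : (i : ℕ) + 1 < m
    · simp only [hi, if_true]
      rw [Finset.sum_eq_single (⟨(i : ℕ) + 1, hi⟩ : Fin m)]
      · simp
      · intro j _ hj
        have : (j : ℕ) ≠ (i : ℕ) + 1 := fun h => hj (Fin.ext h)
        simp [this]
      · simp
    · have h1 : (i : ℕ) + 1 = m := by omega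
      simp only [hi, if_false, neg_smul, one_smul, Finset.sum_neg_distrib]
      rw [h1, hlast]

end Cyclic

section Top

variable [Fintype F]

open scoped MatrixGroups

/-- From an automorphism of determinant one to a conjugating element of the special linear group. -/
theorem sl_conj_of_linear (x G : Matrix.SpecialLinearGroup (Fin n) F)
    (Q : (Fin n → F) →ₗ[F] (Fin n → F)) (hQ : LinearMap.det Q = 1)
    (hc : ∀ v, Q ((G : Matrix (Fin n) (Fin n) F) *ᵥ v) = (x : Matrix (Fin n) (Fin n) F) *ᵥ Q v) :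
    ∃ P : Matrix.SpecialLinearGroup (Fin n) F, P⁻¹ * x * P = G := by
  let P : Matrix.SpecialLinearGroup (Fin n) F := ⟨LinearMap.toMatrix' Q, by
    rw [LinearMap.det_toMatrix', hQ]⟩
  have hPv : ∀ v, (P : Matrix (Fin n) (Fin n) F) *ᵥ v = Q v := fun v => by
    change LinearMap.toMatrix' Q *ᵥ v = Q v
    rw [← toLin'_apply, toLin'_toMatrix']
  refine ⟨P, ?_⟩
  have h1 : P * G = x * P := by
    apply Subtype.ext
    apply mulVec_injective
    funext v
    change ((P : Matrix (Fin n) (Fin n) F) * (G : Matrix (Fin n) (Fin n) F)) *ᵥ v =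
      ((x : Matrix (Fin n) (Fin n) F) * (P : Matrix (Fin n) (Fin n) F)) *ᵥ v
    rw [← mulVec_mulVec, ← mulVec_mulVec, hPv, hPv, hc]
  rw [mul_assoc, ← h1, inv_mul_cancel_left]

/-- A non scalar element with two independent eigenvectors of one eigenvalue has no conjugate in
the normalizer. -/
theorem not_conj_of_eigen (hn : n.Prime) (hK : IsFieldSubalgebra n K)
    (x : Matrix.SpecialLinearGroup (Fin n) F)
    (hnon : ∀ z : F, (x : Matrix (Fin n) (Fin n) F) ≠ z • 1) {v w : Fin n → F} {l : F}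
    (hv : v ≠ 0) (hw : ∀ c : F, w ≠ c • v) (hxv : (x : Matrix (Fin n) (Fin n) F) *ᵥ v = l • v)
    (hxw : (x : Matrix (Fin n) (Fin n) F) *ᵥ w = l • w)
    (P : Matrix.SpecialLinearGroup (Fin n) F) :
    P⁻¹ * x * P ∉ (subalgebraNormalizer K).comap
      (Matrix.SpecialLinearGroup.toGL : Matrix.SpecialLinearGroup (Fin n) F →* GL (Fin n) F) := by
  intro hmem
  let Pi' : Matrix (Fin n) (Fin n) F := ((P⁻¹ : Matrix.SpecialLinearGroup (Fin n) F) : Matrix (Fin n) (Fin n) F)
  have h1 : ∀ u, (P : Matrix (Fin n) (Fin n) F) *ᵥ (Pi' *ᵥ u) = u := fun u => by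
    rw [mulVec_mulVec]
    change ((P * P⁻¹ : Matrix.SpecialLinearGroup (Fin n) F) : Matrix (Fin n) (Fin n) F) *ᵥ u = u
    rw [mul_inv_cancel, Matrix.SpecialLinearGroup.coe_one, one_mulVec]
  have h2 : ∀ u, ((P⁻¹ * x * P : Matrix.SpecialLinearGroup (Fin n) F) : Matrix (Fin n) (Fin n) F) *ᵥ
      (Pi' *ᵥ u) = Pi' *ᵥ ((x : Matrix (Fin n) (Fin n) F) *ᵥ u) := fun u => by
    rw [Matrix.SpecialLinearGroup.coe_mul, Matrix.SpecialLinearGroup.coe_mul, ← mulVec_mulVec,
      ← mulVec_mulVec, h1]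
  have hmem' : Matrix.SpecialLinearGroup.toGL (P⁻¹ * x * P) ∈ subalgebraNormalizer K := hmem
  have h3 := scalar_of_eigen hn hK hmem' (v := Pi' *ᵥ v) (w := Pi' *ᵥ w) (l := l)
    (fun h => hv (by rw [← h1 v, h, mulVec_zero]))
    (fun c h => hw c (by rw [← h1 w, h, mulVec_smul, h1]))
    (by
      change ((P⁻¹ * x * P : Matrix.SpecialLinearGroup (Fin n) F) : Matrix (Fin n) (Fin n) F) *ᵥ _ = _
      rw [h2, hxv, mulVec_smul])
    (by
      change ((P⁻¹ * x * P : Matrix.SpecialLinearGroup (Fin n) F) : Matrix (Fin n) (Fin n) F) *ᵥ _ = _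
      rw [h2, hxw, mulVec_smul])
  apply hnon l
  change ((P⁻¹ * x * P : Matrix.SpecialLinearGroup (Fin n) F) : Matrix (Fin n) (Fin n) F) = _ at h3
  have h4 : x = P * (P⁻¹ * x * P) * P⁻¹ := by group
  rw [h4, Matrix.SpecialLinearGroup.coe_mul, Matrix.SpecialLinearGroup.coe_mul, h3, Matrix.mul_smul,
    mul_one, Matrix.smul_mul, ← Matrix.SpecialLinearGroup.coe_mul, mul_inv_cancel,
    Matrix.SpecialLinearGroup.coe_one]

/-- The elements whose `n`-th power is scalar, when `q` generates the units modulo the prime `n`. -/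
theorem conj_of_cyclic (m : ℕ) (hm : 2 ≤ m) [Fact (m + 1).Prime]
    {K : Subalgebra F (Matrix (Fin (m + 1)) (Fin (m + 1)) F)}
    (h0 : ((m + 1 : ℕ) : F) ≠ 0)
    (hord : orderOf ((Fintype.card F : ℕ) : ZMod (m + 1)) = m)
    (x : Matrix.SpecialLinearGroup (Fin (m + 1)) F) (z : F)
    (hx : ((x ^ (m + 1) : Matrix.SpecialLinearGroup (Fin (m + 1)) F) : Matrix (Fin (m + 1)) (Fin (m + 1)) F) = z • 1)
    (hnon : ∀ z : F, (x : Matrix (Fin (m + 1)) (Fin (m + 1)) F) ≠ z • 1)
    (g : GL (Fin (m + 1)) F) (hg : g ∈ subalgebraNormalizer K) (hgn : g ^ (m + 1) = 1)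
    (hgnon : ∀ c : F, (g : Matrix (Fin (m + 1)) (Fin (m + 1)) F) ≠ c • 1) :
    ∃ P : Matrix.SpecialLinearGroup (Fin (m + 1)) F, P⁻¹ * x * P ∈ (subalgebraNormalizer K).comap
      (Matrix.SpecialLinearGroup.toGL : Matrix.SpecialLinearGroup (Fin (m + 1)) F →* GL (Fin (m + 1)) F) := by
  classical
  have hprime : (m + 1).Prime := Fact.out
  have hcop : Nat.Coprime (m + 1) (Fintype.card F - 1) := by
    rw [hprime.coprime_iff_not_dvd]
    intro hdvd
    have h1 : ((Fintype.card F : ℕ) : ZMod (m + 1)) = 1 := by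
      have h2 : Fintype.card F = (Fintype.card F - 1) + 1 := by
        have := Fintype.one_lt_card (α := F)
        omega
      rw [h2, Nat.cast_add, (ZMod.natCast_eq_zero_iff _ _).2 hdvd]
      simp
    rw [h1, orderOf_one] at hord
    omega
  have hroot1 : ∀ t : F, t ^ (m + 1) = 1 → t = 1 := by
    intro t ht
    have ht0 : t ≠ 0 := by
      rintro rfl
      rw [zero_pow (by omega)] at ht
      exact zero_ne_one ht
    have h1 := pow_gcd_eq_one.2 ⟨ht, FiniteField.pow_card_sub_one_eq_one t ht0⟩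
    rw [hcop.gcd_eq_one, pow_one] at h1
    exact h1
  -- the determinant of `g`
  have hgdet : (g : Matrix (Fin (m + 1)) (Fin (m + 1)) F).det = 1 := by
    apply hroot1
    rw [← det_pow, ← Units.val_pow_eq_pow_val, hgn, Units.val_one, det_one]
  let G : Matrix.SpecialLinearGroup (Fin (m + 1)) F := ⟨g, hgdet⟩
  have hGmem : Matrix.SpecialLinearGroup.toGL G = g := Units.ext rfl
  have hMpow : ∀ (M : Matrix (Fin (m + 1)) (Fin (m + 1)) F) (k : ℕ) v, ((toLin' M) ^ k) v = (M ^ k) *ᵥ v := by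
    intro M k
    induction k with
    | zero => intro v; simp
    | succ k ih =>
      intro v
      rw [pow_succ, Module.End.mul_apply, ih, pow_succ, ← mulVec_mulVec]
      rfl
  let X : (Fin (m + 1) → F) →ₗ[F] (Fin (m + 1) → F) := toLin' (x : Matrix (Fin (m + 1)) (Fin (m + 1)) F)
  have hxp : (x : Matrix (Fin (m + 1)) (Fin (m + 1)) F) ^ (m + 1) = z • 1 := by rw [← hx]; rfl
  have hXr : ∀ v, (X ^ (m + 1)) v = z • v := by
    intro v
    rw [hMpow, hxp, smul_mulVec, one_mulVec]
  have hz : z ≠ 0 := by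
    rintro rfl
    have h2 := congrArg det hxp
    rw [det_pow, x.2, one_pow, zero_smul, det_zero] at h2
    exact one_ne_zero h2
  -- a root of `z`
  have hinj : Function.Injective (fun t : Fˣ => t ^ (m + 1)) := by
    intro t u h
    have h1 : ((t * u⁻¹ : Fˣ) : F) ^ (m + 1) = 1 := by
      rw [← Units.val_pow_eq_pow_val, mul_pow, inv_pow]
      have h2 : t ^ (m + 1) = u ^ (m + 1) := h
      rw [h2, mul_inv_cancel, Units.val_one]
    have h2 := hroot1 _ h1
    have h3 : t * u⁻¹ = 1 := Units.ext h2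
    exact mul_inv_eq_one.1 h3
  obtain ⟨s, hs⟩ := (Finite.injective_iff_surjective.1 hinj) (Units.mk0 z hz)
  have hs' : (s : F) ^ (m + 1) = z := by
    have := congrArg Units.val hs
    simpa using this
  let y : (Fin (m + 1) → F) →ₗ[F] (Fin (m + 1) → F) := ((s : F)⁻¹) • X
  have hyp : ∀ v, (y ^ (m + 1)) v = v := by
    intro v
    have h1 : y ^ (m + 1) = ((s : F)⁻¹) ^ (m + 1) • X ^ (m + 1) := smul_pow _ _ _
    rw [h1, LinearMap.smul_apply, hXr, smul_smul, inv_pow, hs', inv_mul_cancel₀ hz, one_smul]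
  have hyapp : ∀ v, y v = ((s : F)⁻¹) • X v := fun v => rfl
  have hy1 : y ≠ 1 := by
    intro h
    apply hnon s
    apply mulVec_injective
    funext v
    have h1 : y v = v := by rw [h]; rfl
    rw [hyapp, inv_smul_eq_iff₀ s.ne_zero] at h1
    rw [smul_mulVec, one_mulVec]
    exact h1
  let Gl : (Fin (m + 1) → F) →ₗ[F] (Fin (m + 1) → F) := toLin' (g : Matrix (Fin (m + 1)) (Fin (m + 1)) F)
  have hGp : ∀ v, (Gl ^ (m + 1)) v = v := by
    intro v
    rw [hMpow, ← Units.val_pow_eq_pow_val, hgn, Units.val_one, one_mulVec]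
  have hG1 : Gl ≠ 1 := by
    intro h
    apply hgnon 1
    apply mulVec_injective
    funext v
    have h1 : Gl v = v := by rw [h]; rfl
    rw [one_smul, one_mulVec]
    exact h1
  have hfin : finrank F (Fin (m + 1) → F) = m + 1 := finrank_fin_fun F
  obtain ⟨b₁, hb₁⟩ := exists_cyclic_basis m hm h0 hord hfin y hyp hy1
  obtain ⟨b₂, hb₂⟩ := exists_cyclic_basis m hm h0 hord hfin Gl hGp hG1
  obtain ⟨Q, hQd, hQc⟩ := exists_conj_of_bases y Gl (cycM m F) b₁ b₂ hb₁ hb₂ (.inl ()) (by
    rintro (j | j) hj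
    · exact (hj rfl).elim
    · exact ⟨rfl, rfl⟩)
  have hdet : LinearMap.det y = 1 := by
    have h1 : Q * Gl = y * Q := by
      apply LinearMap.ext
      intro v
      exact hQc v
    have h2 := congrArg LinearMap.det h1
    rw [map_mul, map_mul, hQd, one_mul, mul_one] at h2
    rw [← h2]
    change LinearMap.det (toLin' (g : Matrix (Fin (m + 1)) (Fin (m + 1)) F)) = 1
    rw [LinearMap.det_toLin', hgdet]
  have hs1 : (s : F) = 1 := by
    have h1 : LinearMap.det y = ((s : F)⁻¹) ^ (m + 1) * LinearMap.det X := by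
      change LinearMap.det (((s : F)⁻¹) • X) = _
      rw [LinearMap.det_smul, hfin]
    have h2 : LinearMap.det X = 1 := by
      change LinearMap.det (toLin' (x : Matrix (Fin (m + 1)) (Fin (m + 1)) F)) = 1
      rw [LinearMap.det_toLin']
      exact x.2
    rw [hdet, h2, mul_one] at h1
    have h3 := hroot1 _ h1.symm
    rw [inv_eq_one] at h3
    exact h3
  have hyX : ∀ v, y v = (x : Matrix (Fin (m + 1)) (Fin (m + 1)) F) *ᵥ v := by
    intro v
    rw [hyapp, hs1, inv_one, one_smul]
    rfl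
  obtain ⟨P, hP⟩ := sl_conj_of_linear x G Q hQd (fun v => by
    rw [← hyX]
    exact hQc v)
  refine ⟨P, ?_⟩
  rw [hP]
  rw [Subgroup.mem_comap, hGmem]
  exact hg

end Top

end Cfsg.Agent.Lib.Classical.Elusive.Singer
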