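import Mathlib
import Cfsg.Agent.Lib.Classical.Elusive.SpImprim

/-!
# Hermitian structures on symplectic spaces
-/

set_option autoImplicit false
set_option linter.unusedSectionVars false
set_option linter.unusedSimpArgs false
set_option linter.unusedVariables false
set_option linter.style.haveILetI false

namespace Cfsg.Agent.Lib.Classical.Elusive.SpHerm

open Polynomial Module Matrix
open Cfsg.Agent.Lib.Classical.Elusive.Inv Cfsg.Agent.Lib.Classical.Elusive.SpCore Cfsg.Agent.Lib.Classical.Elusive.SpAtoms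
  Cfsg.Agent.Lib.Classical.Elusive.SpImprim
open Cfsg.Agent.Lib.Classical.Symp.Basic Cfsg.Agent.Lib.Classical.Symp.SpGL

section Abstract

variable {F V : Type*} [Field F] [AddCommGroup V] [Module F V] [FiniteDimensional F V]

/-- A hermitian type structure: an operator squaring to `ν` which is skew for the form. -/
structure IsStr (B : LinearMap.BilinForm F V) (ν : F) (ι : Module.End F V) : Prop where
  sq : ∀ v, ι (ι v) = ν • v
  adj : ∀ u v, B (ι u) v = - B u (ι v)

variable {B : LinearMap.BilinForm F V} {ν : F} {ι : Module.End F V}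

theorem IsStr.adj' (hι : IsStr B ν ι) (hA : B.IsAlt) (u v : V) : B v (ι u) = B u (ι v) := by
  rw [← hA.neg_eq, hι.adj, neg_neg]

theorem odd_card_of_two [Fintype F] (h2 : (2 : F) ≠ 0) : Fintype.card F % 2 = 1 := by
  obtain ⟨p, hp⟩ := CharP.exists F
  obtain ⟨n, hpp, hn⟩ := FiniteField.card F p
  have hp2 : p ≠ 2 := by
    rintro rfl
    apply h2
    exact CharTwo.two_eq_zero
  haveI : Fact p.Prime := ⟨hpp⟩
  rw [hn]
  exact Nat.odd_iff.1 ((hpp.odd_of_ne_two hp2).pow)

theorem exists_norm [Fintype F] (h2 : (2 : F) ≠ 0) {ν : F} (hν : ν ≠ 0) (c : F) : ∃ s t : F, s ^ 2 - ν * t ^ 2 = c := by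
  classical
  obtain ⟨s, t, hst⟩ := FiniteField.exists_root_sum_quadratic (R := F) (f := X ^ 2 - C c) (g := - C ν * X ^ 2) (by
    compute_degree!) (by
      compute_degree!) (odd_card_of_two h2)
  refine ⟨s, t, ?_⟩
  simp at hst
  linear_combination hst

theorem ne_zero_of_not_square {ν : F} (hν : ¬ IsSquare ν) : ν ≠ 0 := by
  rintro rfl
  exact hν ⟨0, by simp⟩

/-- An adapted basis for a hermitian structure. -/
theorem exists_frame [Fintype F] (h2 : (2 : F) ≠ 0) (hA : B.IsAlt) (hν : ¬ IsSquare ν) (hι : IsStr B ν ι) :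
    ∀ (n : ℕ) (Y : Submodule F V), IsInv ι Y → Nd B Y → finrank F Y = 2 * n →
      ∃ u : Fin n → V, (∀ k, u k ∈ Y) ∧ (∀ k l, B (u k) (u l) = 0) ∧ ∀ k l, B (u k) (ι (u l)) = if k = l then 1 else 0 := by
  have hν0 := ne_zero_of_not_square hν
  intro n
  induction n with
  | zero =>
    intro Y _ _ _
    exact ⟨Fin.elim0, fun k => k.elim0, fun k => k.elim0, fun k => k.elim0⟩
  | succ n ih =>
    intro Y hY hNd hfr
    have hne : Y ≠ ⊥ := by
      intro h
      rw [h, finrank_bot] at hfr
      omega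
    obtain ⟨u, huY, hu⟩ : ∃ u ∈ Y, B u (ι u) ≠ 0 := by
      by_contra hcon
      push Not at hcon
      have h1 : ∀ a ∈ Y, ∀ b ∈ Y, B a (ι b) = 0 := by
        intro a ha b hb
        have h3 := hcon (a + b) (Y.add_mem ha hb)
        simp only [map_add, LinearMap.add_apply] at h3
        rw [hcon a ha, hcon b hb, hι.adj' hA a b] at h3
        have h4 : (2 : F) * B a (ι b) = 0 := by
          linear_combination h3
        exact (mul_eq_zero.1 h4).resolve_left h2
      obtain ⟨a, ha, ha0⟩ := Submodule.exists_mem_ne_zero_of_ne_bot hne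
      obtain ⟨b, hb, hb0⟩ := hNd a ha ha0
      apply hb0
      have h3 : b = ι (ν⁻¹ • ι b) := by
        rw [map_smul, hι.sq, smul_smul, inv_mul_cancel₀ hν0, one_smul]
      rw [h3]
      exact h1 a ha _ (Y.smul_mem _ (hY _ hb))
    set c := B u (ι u) with hc
    obtain ⟨s, t, hst⟩ := exists_norm h2 hν0 c⁻¹
    let w := s • u + t • ι u
    have hwY : w ∈ Y := Y.add_mem (Y.smul_mem _ huY) (Y.smul_mem _ (hY _ huY))
    have hιw : ι w = s • ι u + (t * ν) • u := by
      show ι (s • u + t • ι u) = _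
      rw [map_add, map_smul, map_smul, hι.sq, smul_smul]
    have huu : B u u = 0 := hA u
    have hιιu : B (ι u) (ι u) = 0 := hA _
    have hιu : B (ι u) u = - c := by
      rw [hι.adj]
    have hwιw : B w (ι w) = 1 := by
      rw [hιw]
      show B (s • u + t • ι u) _ = 1
      simp only [map_add, map_smul, LinearMap.add_apply, LinearMap.smul_apply, smul_eq_mul, huu, hιιu, hιu, ← hc]
      have h3 : c⁻¹ * c = 1 := inv_mul_cancel₀ hu
      rw [← h3, ← hst]
      ring
    have hww : B w w = 0 := hA w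
    have hιwιw : B (ι w) (ι w) = 0 := hA _
    have hιww : B (ι w) w = -1 := by
      rw [hι.adj, hwιw]
    let P : Submodule F V := Submodule.span F {w, ι w}
    have hPY : P ≤ Y := by
      rw [Submodule.span_le]
      rintro x (rfl | rfl)
      · exact hwY
      · exact hY _ hwY
    have hP : ∀ x ∈ P, ∃ α β : F, x = α • w + β • ι w := by
      intro x hx
      obtain ⟨α, β, h⟩ := Submodule.mem_span_pair.1 hx
      exact ⟨α, β, h.symm⟩
    have hPinv : IsInv ι P := by
      intro x hx
      obtain ⟨α, β, rfl⟩ := hP x hx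
      rw [map_add, map_smul, map_smul, hι.sq, smul_smul]
      exact Submodule.add_mem _ (Submodule.smul_mem _ _ (Submodule.subset_span (by simp)))
        (Submodule.smul_mem _ _ (Submodule.subset_span (by simp)))
    have hPNd : Nd B P := by
      intro x hx hx0
      obtain ⟨α, β, rfl⟩ := hP x hx
      by_cases hα : α = 0
      · have hβ : β ≠ 0 := by
          rintro rfl
          apply hx0
          simp [hα]
        refine ⟨w, Submodule.subset_span (by simp), ?_⟩
        simp only [map_add, map_smul, LinearMap.add_apply, LinearMap.smul_apply, smul_eq_mul, hww, hιww, mul_zero, zero_add]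
        simpa using hβ
      · refine ⟨ι w, Submodule.subset_span (by simp), ?_⟩
        simp only [map_add, map_smul, LinearMap.add_apply, LinearMap.smul_apply, smul_eq_mul, hwιw, hιwιw, mul_zero, add_zero, mul_one]
        exact hα
    have hPd : finrank F P = 2 := by
      have hLI : LinearIndependent F ![w, ι w] := by
        rw [LinearIndependent.pair_iff]
        intro α β h
        have h3 := congrArg (fun x => B x (ι w)) h
        have h4 := congrArg (fun x => B x w) h
        simp only [map_add, map_smul, LinearMap.add_apply, LinearMap.smul_apply, smul_eq_mul, hwιw, hιwιw, hww, hιww, map_zero,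
          LinearMap.zero_apply, mul_zero, add_zero, mul_one, zero_add] at h3 h4
        exact ⟨h3, by simpa using h4⟩
      have h5 := finrank_span_eq_card hLI
      have h6 : Set.range ![w, ι w] = {w, ι w} := by
        ext x
        constructor
        · rintro ⟨i, rfl⟩
          fin_cases i <;> simp
        · rintro (rfl | rfl)
          · exact ⟨0, rfl⟩
          · exact ⟨1, rfl⟩
      rw [h6, Fintype.card_fin] at h5
      exact h5
    have hY'inv : IsInv ι (orthIn B Y P) := by
      intro x hx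
      obtain ⟨h3, h4⟩ := (mem_orthIn hA).1 hx
      refine (mem_orthIn hA).2 ⟨hY _ h3, fun s hs => ?_⟩
      rw [hι.adj, h4 _ (hPinv s hs), neg_zero]
    have hY'Nd := Nd_orthIn hA hPY hPNd hNd
    have hY'd := finrank_orthIn hA hPY hPNd
    rw [hPd, hfr] at hY'd
    obtain ⟨u', h1, h3, h4⟩ := ih _ hY'inv hY'Nd (by omega)
    have horth : ∀ x ∈ orthIn B Y P, B x w = 0 ∧ B x (ι w) = 0 ∧ B w x = 0 ∧ B (ι w) x = 0 := by
      intro x hx
      obtain ⟨_, h6⟩ := (mem_orthIn hA).1 hx
      have h7 := h6 w (Submodule.subset_span (by simp))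
      have h8 := h6 (ι w) (Submodule.subset_span (by simp))
      exact ⟨h7, h8, swap_zero hA h7, swap_zero hA h8⟩
    refine ⟨Fin.cons w u', ?_, ?_, ?_⟩
    · intro k
      refine Fin.cases ?_ (fun k => ?_) k
      · rw [Fin.cons_zero]
        exact hwY
      · rw [Fin.cons_succ]
        exact ((mem_orthIn hA).1 (h1 k)).1
    · intro k l
      refine Fin.cases ?_ (fun k => ?_) k <;> refine Fin.cases ?_ (fun l => ?_) l
      · simp only [Fin.cons_zero]
        exact hww
      · simp only [Fin.cons_zero, Fin.cons_succ]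
        exact (horth _ (h1 l)).2.2.1
      · simp only [Fin.cons_zero, Fin.cons_succ]
        exact (horth _ (h1 k)).1
      · simp only [Fin.cons_succ]
        exact h3 k l
    · intro k l
      refine Fin.cases ?_ (fun k => ?_) k <;> refine Fin.cases ?_ (fun l => ?_) l
      · simp only [Fin.cons_zero, if_true]
        exact hwιw
      · simp only [Fin.cons_zero, Fin.cons_succ]
        rw [if_neg (Fin.succ_ne_zero l).symm]
        exact (horth _ (hY'inv _ (h1 l))).2.2.1
      · simp only [Fin.cons_zero, Fin.cons_succ]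
        rw [if_neg (Fin.succ_ne_zero k)]
        exact (horth _ (h1 k)).2.1
      · simp only [Fin.cons_succ]
        rw [h4 k l]
        simp only [Fin.succ_inj]

end Abstract

section Std

variable {F : Type*} [Field F]

/-- The standard structure on the standard symplectic space. -/
def stdI (d : ℕ) (ν : F) : Module.End F (Fin d ⊕ Fin d → F) where
  toFun e i := Sum.elim (fun k => e (Sum.inr k)) (fun k => ν * e (Sum.inl k)) i
  map_add' e e' := by
    funext i
    rcases i with k | k <;> simp [mul_add]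
  map_smul' c e := by
    funext i
    rcases i with k | k <;> simp
    ring

@[simp] theorem stdI_inl (d : ℕ) (ν : F) (e : Fin d ⊕ Fin d → F) (k : Fin d) : stdI d ν e (Sum.inl k) = e (Sum.inr k) := rfl
@[simp] theorem stdI_inr (d : ℕ) (ν : F) (e : Fin d ⊕ Fin d → F) (k : Fin d) : stdI d ν e (Sum.inr k) = ν * e (Sum.inl k) := rfl

theorem stdI_isStr (d : ℕ) (ν : F) : IsStr (sympBilin d F) ν (stdI d ν) := by
  constructor
  · intro v
    funext i
    rcases i with k | k <;> simp
  · intro u v
    show Cfsg.sympForm d F (stdI d ν u) v = - Cfsg.sympForm d F u (stdI d ν v)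
    rw [sympForm_apply, sympForm_apply, ← Finset.sum_neg_distrib]
    refine Finset.sum_congr rfl fun k _ => ?_
    simp
    ring

variable [Fintype F] {d : ℕ} {ν : F}

/-- Every structure on the standard symplectic space is conjugate to the standard one. -/
theorem exists_conj_std (h2 : (2 : F) ≠ 0) (hν : ¬ IsSquare ν) {ι : Module.End F (Fin d ⊕ Fin d → F)} (hι : IsStr (sympBilin d F) ν ι) :
    ∃ g ∈ Cfsg.spGL d F, ∀ e, (g : Matrix (Fin d ⊕ Fin d) (Fin d ⊕ Fin d) F) *ᵥ (stdI d ν e) = ι ((g : Matrix (Fin d ⊕ Fin d) (Fin d ⊕ Fin d) F) *ᵥ e) := by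
  classical
  have hA : (sympBilin d F).IsAlt := sympBilin_isAlt
  have hdimV : finrank F (Fin d ⊕ Fin d → F) = 2 * d := by
    rw [Module.finrank_fintype_fun_eq_card, Fintype.card_sum, Fintype.card_fin]
    ring
  obtain ⟨u, -, hu1, hu2⟩ := exists_frame h2 hA hν hι d ⊤ (isInv_top ι) (Nd_top sympBilin_nondegenerate) (by rw [finrank_top, hdimV])
  have hν0 := ne_zero_of_not_square hν
  have hu3 : ∀ k l, sympBilin d F (ι (u k)) (u l) = - (if k = l then 1 else 0) := by
    intro k l
    rw [hι.adj, hu2]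
  have hu4 : ∀ k l, sympBilin d F (ι (u k)) (ι (u l)) = 0 := by
    intro k l
    rw [hι.adj, hι.sq, map_smul, hu1, smul_zero, neg_zero]
  let L : (Fin d ⊕ Fin d → F) →ₗ[F] (Fin d ⊕ Fin d → F) :=
    ∑ k, ((LinearMap.proj (Sum.inr k)).smulRight (u k) + (LinearMap.proj (Sum.inl k)).smulRight (ι (u k)))
  have hL : ∀ e, L e = ∑ k, (e (Sum.inr k) • u k + e (Sum.inl k) • ι (u k)) := by
    intro e
    simp [L, LinearMap.sum_apply]
  have hform : ∀ e e', sympBilin d F (L e) (L e') = sympBilin d F e e' := by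
    intro e e'
    show _ = Cfsg.sympForm d F e e'
    rw [sympForm_apply, hL, hL, map_sum]
    simp only [LinearMap.sum_apply, map_sum]
    rw [Finset.sum_comm]
    refine Finset.sum_congr rfl fun k _ => ?_
    rw [Finset.sum_eq_single k]
    · simp only [map_add, map_smul, LinearMap.add_apply, LinearMap.smul_apply, smul_eq_mul, hu1, hu2, hu3, hu4, if_true]
      ring
    · intro l _ hl
      simp only [map_add, map_smul, LinearMap.add_apply, LinearMap.smul_apply, smul_eq_mul, hu1, hu2, hu3, hu4, if_neg hl.symm, if_neg hl]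
      ring
    · intro h
      exact absurd (Finset.mem_univ k) h
  have hLinj : Function.Injective L := by
    rw [injective_iff_map_eq_zero]
    intro e he
    apply sympBilin_nondegenerate.1
    intro e'
    rw [← hform, he, map_zero, LinearMap.zero_apply]
  obtain ⟨g, hg, hgL⟩ := exists_spGL_of_injective (LinearMap.id : (Fin d ⊕ Fin d → F) →ₗ[F] (Fin d ⊕ Fin d → F)) L
    Function.injective_id hLinj (fun a b => hform a b)
  refine ⟨g, hg, fun e => ?_⟩
  have h1 := hgL e
  have h3 := hgL (stdI d ν e)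
  simp only [LinearMap.id_apply] at h1 h3
  rw [h3, h1, hL, hL, map_sum]
  refine Finset.sum_congr rfl fun k _ => ?_
  simp only [map_add, map_smul, hι.sq, smul_smul, stdI_inl, stdI_inr]
  rw [add_comm, mul_comm ν]

/-- Any two structures are conjugate. -/
theorem exists_conj (h2 : (2 : F) ≠ 0) (hν : ¬ IsSquare ν) {ι₁ ι₂ : Module.End F (Fin d ⊕ Fin d → F)}
    (h₁ : IsStr (sympBilin d F) ν ι₁) (h₂ : IsStr (sympBilin d F) ν ι₂) :
    ∃ g ∈ Cfsg.spGL d F, ∀ v, (g : Matrix (Fin d ⊕ Fin d) (Fin d ⊕ Fin d) F) *ᵥ (ι₁ v) = ι₂ ((g : Matrix (Fin d ⊕ Fin d) (Fin d ⊕ Fin d) F) *ᵥ v) := by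
  obtain ⟨g₁, hg₁, h1⟩ := exists_conj_std h2 hν h₁
  obtain ⟨g₂, hg₂, h3⟩ := exists_conj_std h2 hν h₂
  refine ⟨g₂ * g₁⁻¹, (Cfsg.spGL d F).mul_mem hg₂ ((Cfsg.spGL d F).inv_mem hg₁), fun v => ?_⟩
  obtain ⟨e, rfl⟩ : ∃ e, v = (g₁ : Matrix (Fin d ⊕ Fin d) (Fin d ⊕ Fin d) F) *ᵥ e := by
    refine ⟨((g₁⁻¹ : GL (Fin d ⊕ Fin d) F) : Matrix (Fin d ⊕ Fin d) (Fin d ⊕ Fin d) F) *ᵥ v, ?_⟩
    rw [Matrix.mulVec_mulVec, ← Units.val_mul, mul_inv_cancel, Units.val_one, Matrix.one_mulVec]
  have hcancel : ∀ x : Fin d ⊕ Fin d → F, ((g₂ * g₁⁻¹ : GL (Fin d ⊕ Fin d) F) : Matrix (Fin d ⊕ Fin d) (Fin d ⊕ Fin d) F) *ᵥ ((g₁ : Matrix (Fin d ⊕ Fin d) (Fin d ⊕ Fin d) F) *ᵥ x) =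
      (g₂ : Matrix (Fin d ⊕ Fin d) (Fin d ⊕ Fin d) F) *ᵥ x := by
    intro x
    rw [Matrix.mulVec_mulVec, ← Units.val_mul, inv_mul_cancel_right]
  rw [← h1, hcancel, hcancel, h3]

end Std

end Cfsg.Agent.Lib.Classical.Elusive.SpHerm
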