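import Mathlib
import Cfsg.Agent.Lib.Classical.Elusive.PslMain
import Cfsg.Agent.Lib.Classical.Elusive.SpCore
import Cfsg.Agent.Lib.Classical.Asch.Gram

/-!
# Kronecker products with few moved vectors
-/

set_option autoImplicit false
set_option linter.unusedSectionVars false
set_option linter.unusedSimpArgs false
set_option linter.unusedVariables false
set_option linter.style.haveILetI false

namespace Cfsg.Agent.Lib.Classical.Elusive.Tensor

open Polynomial Module Matrix
open scoped Kronecker
open Cfsg.Agent.Lib.Classical.Elusive.Inv Cfsg.Agent.Lib.Classical.Elusive.PslMain Cfsg.Agent.Lib.Classical.Elusive.SpCore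

universe u

section Basic

variable {F : Type u} [Field F] {a b : ℕ}

/-- Pure tensors. -/
def pureT (v : Fin a → F) (w : Fin b → F) : Fin a × Fin b → F := fun s => v s.1 * w s.2

theorem kron_mulVec_pure (A : Matrix (Fin a) (Fin a) F) (B : Matrix (Fin b) (Fin b) F) (v : Fin a → F) (w : Fin b → F) :
    (A ⊗ₖ B) *ᵥ pureT v w = pureT (A *ᵥ v) (B *ᵥ w) := by
  funext s
  simp only [Matrix.mulVec, dotProduct, pureT, Fintype.sum_prod_type, Matrix.kroneckerMap_apply]
  rw [Finset.sum_mul_sum]
  refine Finset.sum_congr rfl fun i _ => Finset.sum_congr rfl fun j _ => ?_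
  ring

/-- The linear map into pure tensors with a fixed left factor. -/
def pureL (v : Fin a → F) : (Fin b → F) →ₗ[F] (Fin a × Fin b → F) where
  toFun w := pureT v w
  map_add' u w := by
    funext s
    simp only [pureT, Pi.add_apply]
    ring
  map_smul' c w := by
    funext s
    simp only [pureT, Pi.smul_apply, smul_eq_mul, RingHom.id_apply]
    ring

/-- The linear map into pure tensors with a fixed right factor. -/
def pureR (w : Fin b → F) : (Fin a → F) →ₗ[F] (Fin a × Fin b → F) where
  toFun v := pureT v w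
  map_add' u v := by
    funext s
    simp only [pureT, Pi.add_apply]
    ring
  map_smul' c v := by
    funext s
    simp only [pureT, Pi.smul_apply, smul_eq_mul, RingHom.id_apply]
    ring

theorem exists_move {n : ℕ} {A : Matrix (Fin n) (Fin n) F} (hA : ∀ c : F, A ≠ c • 1) :
    ∃ v : Fin n → F, LinearIndependent F ![v, A *ᵥ v] := by
  by_contra hcon
  push Not at hcon
  obtain ⟨c, hc⟩ := (Matrix.toLin' A).exists_eq_smul_id_of_forall_notLinearIndependent (fun v => by simpa using hcon v)
  apply hA c
  apply Matrix.toLin'.injective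
  rw [hc]
  ext i j
  simp

/-- A nonscalar left factor moves many vectors. -/
theorem le_rank_left {A : Matrix (Fin a) (Fin a) F} {B : Matrix (Fin b) (Fin b) F} (hA : ∀ c : F, A ≠ c • 1) :
    b ≤ finrank F (LinearMap.range (Matrix.toLin' (A ⊗ₖ B) - 1)) := by
  obtain ⟨v, hv⟩ := exists_move hA
  let L : (Fin b → F) →ₗ[F] (Fin a × Fin b → F) := (Matrix.toLin' (A ⊗ₖ B) - 1) ∘ₗ pureL v
  have hL : Function.Injective L := by
    rw [injective_iff_map_eq_zero]
    intro w hw
    have h1 : (A ⊗ₖ B) *ᵥ pureT v w - pureT v w = 0 := hw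
    rw [kron_mulVec_pure, sub_eq_zero] at h1
    funext t
    have h2 : (B *ᵥ w) t • (A *ᵥ v) + (- w t) • v = 0 := by
      funext s
      have := congrFun h1 (s, t)
      simp only [pureT] at this
      simp only [Pi.add_apply, Pi.smul_apply, smul_eq_mul, Pi.zero_apply, neg_mul]
      linear_combination this
    rw [LinearIndependent.pair_iff] at hv
    have h3 := hv (- w t) ((B *ᵥ w) t) (by rw [add_comm]; exact h2)
    simpa using h3.1
  have h1 : finrank F (Fin b → F) = b := by simp
  have h2 := LinearMap.finrank_range_of_inj hL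
  rw [h1] at h2
  calc b = finrank F (LinearMap.range L) := h2.symm
    _ ≤ _ := by
      apply Submodule.finrank_mono
      rintro _ ⟨w, rfl⟩
      exact ⟨pureL v w, rfl⟩

/-- A nonscalar right factor moves many vectors. -/
theorem le_rank_right {A : Matrix (Fin a) (Fin a) F} {B : Matrix (Fin b) (Fin b) F} (hB : ∀ c : F, B ≠ c • 1) :
    a ≤ finrank F (LinearMap.range (Matrix.toLin' (A ⊗ₖ B) - 1)) := by
  obtain ⟨w, hw⟩ := exists_move hB
  let L : (Fin a → F) →ₗ[F] (Fin a × Fin b → F) := (Matrix.toLin' (A ⊗ₖ B) - 1) ∘ₗ pureR w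
  have hL : Function.Injective L := by
    rw [injective_iff_map_eq_zero]
    intro v hv
    have h1 : (A ⊗ₖ B) *ᵥ pureT v w - pureT v w = 0 := hv
    rw [kron_mulVec_pure, sub_eq_zero] at h1
    funext s
    have h2 : (A *ᵥ v) s • (B *ᵥ w) + (- v s) • w = 0 := by
      funext t
      have := congrFun h1 (s, t)
      simp only [pureT] at this
      simp only [Pi.add_apply, Pi.smul_apply, smul_eq_mul, Pi.zero_apply, neg_mul]
      linear_combination this
    rw [LinearIndependent.pair_iff] at hw
    have h3 := hw (- v s) ((A *ᵥ v) s) (by rw [add_comm]; exact h2)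
    simpa using h3.1
  have h1 : finrank F (Fin a → F) = a := by simp
  have h2 := LinearMap.finrank_range_of_inj hL
  rw [h1] at h2
  calc a = finrank F (LinearMap.range L) := h2.symm
    _ ≤ _ := by
      apply Submodule.finrank_mono
      rintro _ ⟨v, rfl⟩
      exact ⟨pureR w v, rfl⟩

/-- A Kronecker product which is a nonzero scalar has scalar factors. -/
theorem scalar_left_of_kron {A : Matrix (Fin a) (Fin a) F} {B : Matrix (Fin b) (Fin b) F} (hb : 0 < b) {c : F} (hc : c ≠ 0)
    (h : A ⊗ₖ B = c • 1) : ∃ α : F, A = α • 1 := by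
  let t₀ : Fin b := ⟨0, hb⟩
  rcases isEmpty_or_nonempty (Fin a) with he | ⟨⟨s₀⟩⟩
  · exact ⟨0, by ext i; exact he.elim i⟩
  have hent : ∀ s s' : Fin a, A s s' * B t₀ t₀ = if s = s' then c else 0 := by
    intro s s'
    have := congrFun (congrFun h (s, t₀)) (s', t₀)
    simp only [Matrix.kroneckerMap_apply, Matrix.smul_apply, smul_eq_mul, Matrix.one_apply, Prod.mk.injEq, and_true] at this
    rw [this]
    split_ifs <;> simp
  have hB : B t₀ t₀ ≠ 0 := by
    intro h0
    have := hent s₀ s₀
    rw [h0, mul_zero, if_pos rfl] at this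
    exact hc this.symm
  refine ⟨c / B t₀ t₀, ?_⟩
  ext s s'
  rw [Matrix.smul_apply, smul_eq_mul, Matrix.one_apply]
  have h1 : A s s' = (if s = s' then c else 0) / B t₀ t₀ := by
    rw [eq_div_iff hB]
    exact hent s s'
  rw [h1]
  split_ifs <;> simp

theorem kron_pow {n m : ℕ} (A : Matrix (Fin n) (Fin n) F) (B : Matrix (Fin m) (Fin m) F) (k : ℕ) :
    (A ⊗ₖ B) ^ k = (A ^ k) ⊗ₖ (B ^ k) := by
  induction k with
  | zero => simp [Matrix.one_kronecker_one]
  | succ k ih => rw [pow_succ, ih, ← Matrix.mul_kronecker_mul, ← pow_succ, ← pow_succ]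

theorem kron_sub' {n m : ℕ} (A : Matrix (Fin n) (Fin n) F) (M N : Matrix (Fin m) (Fin m) F) :
    A ⊗ₖ (M - N) = A ⊗ₖ M - A ⊗ₖ N := by
  ext i j
  simp [mul_sub]

theorem kron_one_left (M : Matrix (Fin b) (Fin b) F) (f : Fin a × Fin b → F) (s : Fin a) (t : Fin b) :
    (((1 : Matrix (Fin a) (Fin a) F) ⊗ₖ M) *ᵥ f) (s, t) = (M *ᵥ (fun t' => f (s, t'))) t := by
  classical
  simp only [Matrix.mulVec, dotProduct, Fintype.sum_prod_type, Matrix.kroneckerMap_apply, Matrix.one_apply]
  rw [Finset.sum_eq_single s]
  · simp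
  · intro s' _ hs'
    simp [Ne.symm hs']
  · simp

/-- The kernel of `1 ⊗ M`. -/
theorem finrank_ker_one_kron (M : Matrix (Fin b) (Fin b) F) :
    finrank F (LinearMap.ker (Matrix.toLin' ((1 : Matrix (Fin a) (Fin a) F) ⊗ₖ M))) = a * finrank F (LinearMap.ker (Matrix.toLin' M)) := by
  classical
  let e : LinearMap.ker (Matrix.toLin' ((1 : Matrix (Fin a) (Fin a) F) ⊗ₖ M)) ≃ₗ[F] (Fin a → LinearMap.ker (Matrix.toLin' M)) :=
    { toFun := fun f s => ⟨fun t => f.1 (s, t), by
        rw [LinearMap.mem_ker, Matrix.toLin'_apply]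
        funext t
        have := congrFun (LinearMap.mem_ker.mp f.2) (s, t)
        rw [Matrix.toLin'_apply, kron_one_left] at this
        exact this⟩
      map_add' := fun f g => by
        funext s
        apply Subtype.ext
        rfl
      map_smul' := fun c f => by
        funext s
        apply Subtype.ext
        rfl
      invFun := fun g => ⟨fun p => (g p.1).1 p.2, by
        rw [LinearMap.mem_ker, Matrix.toLin'_apply]
        funext ⟨s, t⟩
        rw [kron_one_left]
        have := congrFun (LinearMap.mem_ker.mp (g s).2) t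
        rw [Matrix.toLin'_apply] at this
        exact this⟩
      left_inv := fun f => by
        apply Subtype.ext
        rfl
      right_inv := fun g => by
        funext s
        apply Subtype.ext
        rfl }
  rw [e.finrank_eq, Module.finrank_pi_fintype]
  simp

theorem finrank_range_add_ker {n m : ℕ} (S : Module.End F (Fin n × Fin m → F)) :
    finrank F (LinearMap.range S) + finrank F (LinearMap.ker S) = n * m := by
  have := LinearMap.finrank_range_add_finrank_ker S
  rw [Module.finrank_fintype_fun_eq_card] at this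
  simpa using this

end Basic

section NoKron

variable {F : Type u} [Field F] {a b : ℕ}

/-- Small support forces scalars. -/
theorem scalar_of_small_rank {A : Matrix (Fin a) (Fin a) F} {B : Matrix (Fin b) (Fin b) F}
    (h1 : finrank F (LinearMap.range (Matrix.toLin' (A ⊗ₖ B) - 1)) < a)
    (h2 : finrank F (LinearMap.range (Matrix.toLin' (A ⊗ₖ B) - 1)) < b) : ∃ c : F, A ⊗ₖ B = c • 1 := by
  have hA : ∃ c : F, A = c • 1 := by
    by_contra hcon
    push Not at hcon
    have := le_rank_left (B := B) hcon
    omega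
  have hB : ∃ c : F, B = c • 1 := by
    by_contra hcon
    push Not at hcon
    have := le_rank_right (A := A) hcon
    omega
  obtain ⟨c, rfl⟩ := hA
  obtain ⟨c', rfl⟩ := hB
  refine ⟨c * c', ?_⟩
  rw [Matrix.smul_kronecker, Matrix.kronecker_smul, Matrix.one_kronecker_one, smul_smul]

/-- The case of a single irreducible block of degree one. -/
theorem no_kron_one (ha : 2 ≤ a) (hb : 3 ≤ b) {A : Matrix (Fin a) (Fin a) F} {B : Matrix (Fin b) (Fin b) F} {l : F}
    (h1 : finrank F (LinearMap.range (Matrix.toLin' (A ⊗ₖ B) - 1)) ≤ 2)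
    (h2 : finrank F (LinearMap.ker (Matrix.toLin' (A ⊗ₖ B) - l • 1)) = 1) : False := by
  have hA : ∃ c : F, A = c • 1 := by
    by_contra hcon
    push Not at hcon
    have := le_rank_left (B := B) hcon
    omega
  obtain ⟨c, rfl⟩ := hA
  have h3 : Matrix.toLin' ((c • (1 : Matrix (Fin a) (Fin a) F)) ⊗ₖ B) - l • 1 =
      Matrix.toLin' ((1 : Matrix (Fin a) (Fin a) F) ⊗ₖ (c • B - l • 1)) := by
    rw [kron_sub', Matrix.kronecker_smul, Matrix.kronecker_smul, Matrix.smul_kronecker, Matrix.one_kronecker_one, map_sub,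
      map_smul, map_smul, Matrix.toLin'_one]
    rfl
  rw [h3, finrank_ker_one_kron] at h2
  have := Nat.dvd_one.mp ⟨_, h2.symm⟩
  omega

/-- The case of a single irreducible block of degree at least one, with `a < b`. -/
theorem no_kron_big [Fintype F] {r i : ℕ} (hr : r.Prime) (hr0 : (r : F) ≠ 0) (ha : 2 ≤ a) (hab : a < b)
    {A : Matrix (Fin a) (Fin a) F} {B : Matrix (Fin b) (Fin b) F}
    (hK : (Matrix.toLin' (A ⊗ₖ B)) ^ r = 1)
    (hfac : ∀ d : F[X], Irreducible d → d ∣ Phi F r → d.natDegree = i) (hi : 0 < i) (hir : i < r)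
    (hKer : finrank F (Ker (Matrix.toLin' (A ⊗ₖ B)) r) = i) : False := by
  classical
  have hdim : finrank F (Fin a × Fin b → F) = a * b := by simp
  have hrpos := hr.pos
  have hrank : finrank F (LinearMap.range (Matrix.toLin' (A ⊗ₖ B) - 1)) = i := by
    have h1 := finrank_range_add_ker (Matrix.toLin' (A ⊗ₖ B) - 1)
    have h2 := finrank_Fix_add hr0 hK
    rw [hdim, hKer] at h2
    have h3 : finrank F (LinearMap.ker (Matrix.toLin' (A ⊗ₖ B) - 1)) = finrank F (Fix (Matrix.toLin' (A ⊗ₖ B))) := rfl
    omega
  have hKm : (A ⊗ₖ B) ^ r = 1 := by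
    apply Matrix.toLin'.injective
    rw [Matrix.toLin'_pow, hK, Matrix.toLin'_one]
    rfl
  have hb0 : 0 < b := by omega
  have ha0 : 0 < a := by omega
  by_cases hA : ∃ c : F, A = c • 1
  · obtain ⟨c, rfl⟩ := hA
    set M : Matrix (Fin b) (Fin b) F := c • B with hM
    have hKM : (c • (1 : Matrix (Fin a) (Fin a) F)) ⊗ₖ B = (1 : Matrix (Fin a) (Fin a) F) ⊗ₖ M := by
      rw [hM, Matrix.kronecker_smul, Matrix.smul_kronecker]
    rw [hKM] at hKm hK hKer hrank
    have hMr : M ^ r = 1 := by
      rw [kron_pow, one_pow] at hKm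
      ext t t'
      have := congrFun (congrFun hKm ((⟨0, ha0⟩ : Fin a), t)) ((⟨0, ha0⟩ : Fin a), t')
      simp only [Matrix.kroneckerMap_apply, Matrix.one_apply_eq, one_mul, Matrix.one_apply, Prod.mk.injEq, true_and] at this
      rw [this, Matrix.one_apply]
    have hTr : (Matrix.toLin' M) ^ r = 1 := by
      rw [← Matrix.toLin'_pow, hMr, Matrix.toLin'_one]
      rfl
    have h1 := finrank_Fix_add hr0 hTr
    have hdimb : finrank F (Fin b → F) = b := by simp
    rw [hdimb] at h1
    have h2 := finrank_Fix_add hr0 hK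
    rw [hdim, hKer] at h2
    have h3 : finrank F (Fix (Matrix.toLin' ((1 : Matrix (Fin a) (Fin a) F) ⊗ₖ M))) = a * finrank F (Fix (Matrix.toLin' M)) := by
      have h4 : Fix (Matrix.toLin' ((1 : Matrix (Fin a) (Fin a) F) ⊗ₖ M)) = LinearMap.ker (Matrix.toLin' ((1 : Matrix (Fin a) (Fin a) F) ⊗ₖ (M - 1))) := by
        rw [kron_sub', Matrix.one_kronecker_one, map_sub, Matrix.toLin'_one]
        rfl
      have h5 : Fix (Matrix.toLin' M) = LinearMap.ker (Matrix.toLin' (M - 1)) := by
        rw [map_sub, Matrix.toLin'_one]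
        rfl
      rw [h4, h5, finrank_ker_one_kron]
    set e := finrank F (Ker (Matrix.toLin' M) r) with he
    set f := finrank F (Fix (Matrix.toLin' M)) with hf
    have h4 : a * f + i = a * b := by rw [← h3]; exact h2
    have h5 : a * e = i := by
      have h6 : a * b = a * f + a * e := by rw [← h1, mul_add]
      omega
    have he0 : 0 < e := by
      rcases Nat.eq_zero_or_pos e with h | h
      · rw [h] at h5
        omega
      · exact h
    have h6 : i ∣ e := dvd_finrank (isInv_Ker _ r) (Phi_ne_zero hr0) hi hfac (fun v hv => hv)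
    have h7 := Nat.le_of_dvd he0 h6
    have h8 : 2 * e ≤ a * e := Nat.mul_le_mul_right _ ha
    omega
  · push Not at hA
    have hbi : b ≤ i := by
      rw [← hrank]
      exact le_rank_left hA
    rw [kron_pow] at hKm
    have hKm' : (A ^ r) ⊗ₖ (B ^ r) = (1 : F) • 1 := by
      rw [one_smul]
      exact hKm
    obtain ⟨α, hα⟩ := scalar_left_of_kron hb0 one_ne_zero hKm'
    have hα0 : α ≠ 0 := by
      rintro rfl
      rw [hα, zero_smul, Matrix.zero_kronecker] at hKm
      have := congrFun (congrFun hKm ((⟨0, ha0⟩ : Fin a), (⟨0, hb0⟩ : Fin b))) ((⟨0, ha0⟩ : Fin a), (⟨0, hb0⟩ : Fin b))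
      simp at this
    by_cases hu : ∃ u : F, u ^ r = α
    · obtain ⟨u, hu⟩ := hu
      have hu0 : u ≠ 0 := by
        rintro rfl
        rw [zero_pow hr.ne_zero] at hu
        exact hα0 hu.symm
      set A₁ : Matrix (Fin a) (Fin a) F := u⁻¹ • A with hA₁
      have hA₁r : A₁ ^ r = 1 := by
        rw [hA₁, _root_.smul_pow, hα, smul_smul, inv_pow, hu, inv_mul_cancel₀ hα0, one_smul]
      have hTr : (Matrix.toLin' A₁) ^ r = 1 := by
        rw [← Matrix.toLin'_pow, hA₁r, Matrix.toLin'_one]
        rfl
      have h1 := finrank_Fix_add hr0 hTr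
      have hdima : finrank F (Fin a → F) = a := by simp
      rw [hdima] at h1
      have he0 : 0 < finrank F (Ker (Matrix.toLin' A₁) r) := by
        rcases Nat.eq_zero_or_pos (finrank F (Ker (Matrix.toLin' A₁) r)) with h | h
        · exfalso
          rw [h, add_zero] at h1
          have h2 : Fix (Matrix.toLin' A₁) = ⊤ := by
            apply Submodule.eq_top_of_finrank_eq
            rw [h1, hdima]
          have h3 : A₁ = 1 := by
            apply Matrix.toLin'.injective
            rw [Matrix.toLin'_one]
            apply LinearMap.ext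
            intro v
            have : v ∈ Fix (Matrix.toLin' A₁) := by rw [h2]; trivial
            rw [mem_Fix] at this
            rw [this]
            rfl
          apply hA u
          rw [hA₁] at h3
          have h4 := congrArg (fun X => u • X) h3
          simp only [smul_smul, mul_inv_cancel₀ hu0, one_smul] at h4
          exact h4
        · exact h
      have h6 : i ∣ finrank F (Ker (Matrix.toLin' A₁) r) := dvd_finrank (isInv_Ker _ r) (Phi_ne_zero hr0) hi hfac (fun v hv => hv)
      have h7 := Nat.le_of_dvd he0 h6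
      omega
    · -- the irreducible case
      push Not at hu
      have hirr : Irreducible (X ^ r - C α : F[X]) := X_pow_sub_C_irreducible_of_prime hr hu
      let A' : Module.End F (Fin a × Fin b → F) := Matrix.toLin' (A ⊗ₖ (1 : Matrix (Fin b) (Fin b) F))
      have hA'r : A' ^ r = α • 1 := by
        show (Matrix.toLin' (A ⊗ₖ (1 : Matrix (Fin b) (Fin b) F))) ^ r = α • 1
        rw [← Matrix.toLin'_pow, kron_pow, one_pow, hα, Matrix.smul_kronecker, Matrix.one_kronecker_one, map_smul, Matrix.toLin'_one]
        rfl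
      have hcomm : ∀ v, A' (Matrix.toLin' (A ⊗ₖ B) v) = Matrix.toLin' (A ⊗ₖ B) (A' v) := by
        intro v
        simp only [A', Matrix.toLin'_apply, Matrix.mulVec_mulVec, ← Matrix.mul_kronecker_mul, Matrix.mul_one, Matrix.one_mul]
      have hinv : IsInv A' (Ker (Matrix.toLin' (A ⊗ₖ B)) r) := by
        intro v hv
        rw [mem_Ker] at hv ⊢
        have h1 : ∀ f : F[X], ∀ w, A' (Polynomial.aeval (Matrix.toLin' (A ⊗ₖ B)) f w) = Polynomial.aeval (Matrix.toLin' (A ⊗ₖ B)) f (A' w) := by
          intro f
          induction f using Polynomial.induction_on' with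
          | add p q hp hq =>
            intro w
            simp only [map_add, LinearMap.add_apply, hp, hq]
          | monomial n c =>
            intro w
            simp only [Polynomial.aeval_monomial, Module.End.mul_apply, Module.algebraMap_end_apply, map_smul]
            congr 1
            induction n generalizing w with
            | zero => simp
            | succ n ih =>
              rw [pow_succ, Module.End.mul_apply, Module.End.mul_apply, ih, hcomm]
        rw [← h1, hv, map_zero]
      have h2 : r ∣ finrank F (Ker (Matrix.toLin' (A ⊗ₖ B)) r) :=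
        dvd_of_irr hrpos hA'r hirr.ne_zero (PslNum.fac_irr hirr) hinv
      rw [hKer] at h2
      have := Nat.le_of_dvd hi h2
      omega

end NoKron

end Cfsg.Agent.Lib.Classical.Elusive.Tensor
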