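import Mathlib
import Cfsg.Agent.Lib.Classical.Elusive.Tensor
import Cfsg.Agent.Lib.Classical.Elusive.SpHerm
import Cfsg.Agent.Lib.Classical.Elusive.PslImprim

/-!
# Elements with scalar square lie in a tensor decomposition with a two-dimensional factor
-/

set_option autoImplicit false
set_option linter.unusedSectionVars false
set_option linter.unusedSimpArgs false
set_option linter.unusedVariables false
set_option linter.style.haveILetI false

namespace Cfsg.Agent.Lib.Classical.Elusive.TensorConj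

open Polynomial Module Matrix
open scoped Kronecker
open Cfsg.Agent.Lib.Classical.Elusive.Inv Cfsg.Agent.Lib.Classical.Elusive.SpCore Cfsg.Agent.Lib.Classical.Elusive.Tensor
open Cfsg.Agent.Lib.Classical.Asch.Gram
open Cfsg.Agent.Lib.Linalg.Bridge

universe u

section Finish

variable {F : Type u} [Field F] {n a b : ℕ}

/-- The transport of matrices to the given tensor decomposition. -/
noncomputable def tR (e : Fin n ≃ Fin a × Fin b) (P : GL (Fin n) F) : GL (Fin a × Fin b) F ≃* GL (Fin n) F :=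
  (Cfsg.Geo.glReindex e.symm).trans (MulAut.conj P)

theorem tR_det (e : Fin n ≃ Fin a × Fin b) (P : GL (Fin n) F) (D : GL (Fin a × Fin b) F) :
    (tR e P D : Matrix (Fin n) (Fin n) F).det = (D : Matrix (Fin a × Fin b) (Fin a × Fin b) F).det := by
  have h1 : (tR e P D : Matrix (Fin n) (Fin n) F) =
      (P : Matrix (Fin n) (Fin n) F) * (D : Matrix (Fin a × Fin b) (Fin a × Fin b) F).submatrix e e * ((P⁻¹ : GL (Fin n) F) : Matrix (Fin n) (Fin n) F) := rfl
  rw [h1, Matrix.det_mul, Matrix.det_mul, Matrix.det_submatrix_equiv_self, mul_comm, ← mul_assoc, ← Matrix.det_mul,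
    ← Units.val_mul, inv_mul_cancel, Units.val_one, Matrix.det_one, one_mul]

theorem tR_mem {e : Fin n ≃ Fin a × Fin b} {P : GL (Fin n) F} {K : GL (Fin a × Fin b) F} (hK : K ∈ Cfsg.Geo.kroneckerSubgroup a b F) :
    tR e P K ∈ Cfsg.Geo.tensorProductSubgroup a b e P :=
  ⟨_, ⟨K, hK, rfl⟩, rfl⟩

/-- The final conjugation. -/
theorem finish (e : Fin n ≃ Fin a × Fin b) (P x : GL (Fin n) F) (K : GL (Fin a × Fin b) F) (hK : K ∈ Cfsg.Geo.kroneckerSubgroup a b F)
    (Φ : (Fin a × Fin b → F) ≃ₗ[F] (Fin n → F))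
    (hΦ : ∀ c, (x : Matrix (Fin n) (Fin n) F) *ᵥ Φ c = Φ ((K : Matrix (Fin a × Fin b) (Fin a × Fin b) F) *ᵥ c))
    (hD : ∀ δ : F, δ ≠ 0 → ∃ D : GL (Fin a × Fin b) F, D * K = K * D ∧ (D : Matrix (Fin a × Fin b) (Fin a × Fin b) F).det = δ) :
    ∃ g ∈ Cfsg.Geo.specialLinear (Fin n) F, g⁻¹ * x * g ∈ Cfsg.Geo.tensorProductSubgroup a b e P := by
  let C := coordL e P
  let g₁ : GL (Fin n) F := glOfEquiv (C.trans Φ)
  have hg₁ : ∀ u, (g₁ : Matrix (Fin n) (Fin n) F) *ᵥ u = Φ (C u) := fun u => glOfEquiv_mulVec _ u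
  have hcomm : x * g₁ = g₁ * tR e P K := by
    apply Units.ext
    apply matrix_eq_of_mulVec_eq
    intro u
    rw [Units.val_mul, Units.val_mul, ← Matrix.mulVec_mulVec, ← Matrix.mulVec_mulVec, hg₁, hΦ, hg₁]
    congr 1
    exact (coordL_mulVec e P K u).symm
  have hdet0 : (g₁ : Matrix (Fin n) (Fin n) F).det ≠ 0 := by
    have := (Matrix.GeneralLinearGroup.det g₁).ne_zero
    exact this
  obtain ⟨D, hDK, hDdet⟩ := hD _ (inv_ne_zero hdet0)
  refine ⟨g₁ * tR e P D, ?_, ?_⟩
  · show Matrix.GeneralLinearGroup.det (g₁ * tR e P D) = 1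
    apply Units.ext
    show ((g₁ * tR e P D : GL (Fin n) F) : Matrix (Fin n) (Fin n) F).det = 1
    rw [Units.val_mul, Matrix.det_mul, tR_det, hDdet, mul_inv_cancel₀ hdet0]
  · have h1 : (g₁ * tR e P D)⁻¹ * x * (g₁ * tR e P D) = tR e P K := by
      have h2 : g₁⁻¹ * x * g₁ = tR e P K := by
        rw [mul_assoc, hcomm, ← mul_assoc, inv_mul_cancel, one_mul]
      have h3 : tR e P D * tR e P K = tR e P K * tR e P D := by
        rw [← map_mul, ← map_mul, hDK]
      calc (g₁ * tR e P D)⁻¹ * x * (g₁ * tR e P D) = (tR e P D)⁻¹ * (g₁⁻¹ * x * g₁) * tR e P D := by group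
        _ = (tR e P D)⁻¹ * (tR e P K * tR e P D) := by rw [h2, mul_assoc]
        _ = (tR e P D)⁻¹ * (tR e P D * tR e P K) := by rw [h3]
        _ = tR e P K := by group
    rw [h1]
    exact tR_mem hK

/-- The final conjugation for a product of a matrix with a diagonal matrix. -/
theorem finish₂ (hb : 0 < b) (e : Fin n ≃ Fin a × Fin b) (P x : GL (Fin n) F) (A : GL (Fin a) F) (ε : Fin b → F) (hε : ∀ t, ε t ≠ 0)
    (hD₀ : ∀ δ : F, δ ≠ 0 → ∃ D₀ : Matrix (Fin a) (Fin a) F, D₀ * (A : Matrix (Fin a) (Fin a) F) = (A : Matrix (Fin a) (Fin a) F) * D₀ ∧ D₀.det = δ)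
    (Φ : (Fin a × Fin b → F) ≃ₗ[F] (Fin n → F))
    (hΦ : ∀ c, (x : Matrix (Fin n) (Fin n) F) *ᵥ Φ c = Φ (((A : Matrix (Fin a) (Fin a) F) ⊗ₖ Matrix.diagonal ε) *ᵥ c)) :
    ∃ g ∈ Cfsg.Geo.specialLinear (Fin n) F, g⁻¹ * x * g ∈ Cfsg.Geo.tensorProductSubgroup a b e P := by
  classical
  have hBdet : (Matrix.diagonal ε).det ≠ 0 := by
    rw [Matrix.det_diagonal]
    exact Finset.prod_ne_zero_iff.mpr fun t _ => hε t
  let B : GL (Fin b) F := Matrix.GeneralLinearGroup.mkOfDetNeZero (Matrix.diagonal ε) hBdet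
  have hAdet : (A : Matrix (Fin a) (Fin a) F).det ≠ 0 := (Matrix.GeneralLinearGroup.det A).ne_zero
  have hKdet : ((A : Matrix (Fin a) (Fin a) F) ⊗ₖ Matrix.diagonal ε).det ≠ 0 := by
    rw [Matrix.det_kronecker]
    exact mul_ne_zero (pow_ne_zero _ hAdet) (pow_ne_zero _ hBdet)
  let K : GL (Fin a × Fin b) F := Matrix.GeneralLinearGroup.mkOfDetNeZero _ hKdet
  have hKval : (K : Matrix (Fin a × Fin b) (Fin a × Fin b) F) = (A : Matrix (Fin a) (Fin a) F) ⊗ₖ Matrix.diagonal ε := rfl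
  have hKmem : K ∈ Cfsg.Geo.kroneckerSubgroup a b F := ⟨A, B, hKval⟩
  have hKblock : (K : Matrix (Fin a × Fin b) (Fin a × Fin b) F) = Matrix.blockDiagonal (fun t => ε t • (A : Matrix (Fin a) (Fin a) F)) := by
    rw [hKval]
    ext ⟨k, t⟩ ⟨k', t'⟩
    simp only [Matrix.kroneckerMap_apply, Matrix.diagonal_apply, Matrix.blockDiagonal_apply, Matrix.smul_apply, smul_eq_mul]
    split_ifs with h
    · subst h
      ring
    · simp
  refine finish e P x K hKmem Φ hΦ fun δ hδ => ?_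
  obtain ⟨D₀, hcomm, hdet⟩ := hD₀ δ hδ
  let t₀ : Fin b := ⟨0, hb⟩
  have hDdet : (Matrix.blockDiagonal (fun t : Fin b => if t = t₀ then D₀ else (1 : Matrix (Fin a) (Fin a) F))).det = δ := by
    rw [Matrix.det_blockDiagonal]
    rw [Finset.prod_eq_single t₀]
    · rw [if_pos rfl, hdet]
    · intro t _ ht
      rw [if_neg ht, Matrix.det_one]
    · simp
  let D : GL (Fin a × Fin b) F := Matrix.GeneralLinearGroup.mkOfDetNeZero _ (by rw [hDdet]; exact hδ)
  refine ⟨D, ?_, hDdet⟩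
  apply Units.ext
  rw [Units.val_mul, Units.val_mul, hKblock]
  show Matrix.blockDiagonal (fun t : Fin b => if t = t₀ then D₀ else (1 : Matrix (Fin a) (Fin a) F)) * _ = _ * Matrix.blockDiagonal (fun t : Fin b => if t = t₀ then D₀ else (1 : Matrix (Fin a) (Fin a) F))
  rw [← Matrix.blockDiagonal_mul, ← Matrix.blockDiagonal_mul]
  congr 1
  funext t
  split_ifs
  · rw [Matrix.mul_smul, Matrix.smul_mul, hcomm]
  · rw [Matrix.one_mul, Matrix.mul_one]

/-- From a basis to a conjugating map. -/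
theorem conj_of_basis {κ V : Type*} [Fintype κ] [DecidableEq κ] [AddCommGroup V] [Module F V] (b₀ : Basis κ F V) (T : Module.End F V)
    (K : Matrix κ κ F) (h : ∀ j, T (b₀ j) = ∑ i, K i j • b₀ i) (c : κ → F) :
    T (b₀.equivFun.symm c) = b₀.equivFun.symm (K *ᵥ c) := by
  rw [Basis.equivFun_symm_apply, Basis.equivFun_symm_apply, map_sum]
  simp only [map_smul, h, Matrix.mulVec, dotProduct, Finset.sum_smul, Finset.smul_sum]
  rw [Finset.sum_comm]
  refine Finset.sum_congr rfl fun i _ => Finset.sum_congr rfl fun j _ => ?_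
  rw [smul_smul, mul_comm]

end Finish

section Cases

variable {F : Type u} [Field F] [Fintype F] {n b : ℕ}

/-- The form of an element whose square is a nonsquare scalar. -/
theorem exists_form_nonsq (T : Module.End F (Fin n → F)) {z : F} (hT : T ^ 2 = z • 1) (hirr : Irreducible (X ^ 2 - C z : F[X])) (hn : n = 2 * b) :
    ∃ Φ : (Fin 2 × Fin b → F) ≃ₗ[F] (Fin n → F), ∀ c, T (Φ c) = Φ ((!![0, z; 1, 0] ⊗ₖ Matrix.diagonal (fun _ : Fin b => (1 : F))) *ᵥ c) := by
  classical
  have hdim : finrank F (Fin n → F) = n := by simp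
  obtain ⟨J, i1, i2, v, U, hU, hJ, hLI, hspan⟩ := PslImprim.exists_cyc_basis (r := 2) (by norm_num) hT hirr b (by rw [hdim, hn, mul_comm])
  have hUtop : U = ⊤ := by
    apply Submodule.eq_top_of_finrank_eq
    have h1 := finrank_span_eq_card hLI
    rw [hspan, Fintype.card_prod, Fintype.card_fin, hJ] at h1
    rw [h1, hdim, hn, mul_comm]
  rw [hUtop] at hspan
  let ρ : Fin b ≃ J := (Fintype.equivFinOfCardEq hJ).symm
  let σ : J × Fin 2 ≃ Fin 2 × Fin b := (Equiv.prodComm J (Fin 2)).trans (Equiv.prodCongr (Equiv.refl _) ρ.symm)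
  let b₀ : Basis (Fin 2 × Fin b) F (Fin n → F) := (Basis.mk hLI (by rw [hspan])).reindex σ
  have hb₀ : ∀ k t, b₀ (k, t) = (T ^ (k : ℕ)) (v (ρ t)) := by
    intro k t
    simp only [b₀, Basis.reindex_apply, Basis.mk_apply]
    rfl
  refine ⟨b₀.equivFun.symm, conj_of_basis b₀ T _ ?_⟩
  rintro ⟨k', t'⟩
  rw [Fintype.sum_prod_type]
  simp only [Matrix.kroneckerMap_apply, Fin.sum_univ_two, Matrix.diagonal_apply]
  have hsum : ∀ (k : Fin 2) (c : F), ∑ t : Fin b, (c * (if t = t' then 1 else 0)) • b₀ (k, t) = c • b₀ (k, t') := by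
    intro k c
    rw [Finset.sum_eq_single t']
    · simp
    · intro t _ ht
      simp [ht]
    · simp
  simp only [hsum]
  have hT2 : T (T (v (ρ t'))) = z • v (ρ t') := by
    have := congrArg (fun S : Module.End F (Fin n → F) => S (v (ρ t'))) hT
    simpa [pow_two] using this
  fin_cases k'
  · simp [hb₀]
  · simp [hb₀, hT2]

/-- `w^n = -1` contradicts the 2-adic condition. -/
theorem no_neg_one {w : F} (h2 : (2 : F) ≠ 0) (hw : w ≠ 0) (hn0 : n ≠ 0)
    (hv : padicValNat 2 (Fintype.card F - 1) ≤ padicValNat 2 n) (h : w ^ n = -1) : False := by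
  have hq : Fintype.card F - 1 ≠ 0 := by
    have : 1 < Fintype.card F := Fintype.one_lt_card
    omega
  obtain ⟨s, m, hm, hqm⟩ := Nat.exists_eq_two_pow_mul_odd hq
  have hs : s = padicValNat 2 (Fintype.card F - 1) := by
    rw [hqm, padicValNat.mul (by positivity) hm.pos.ne', padicValNat.prime_pow, padicValNat.eq_zero_of_not_dvd hm.not_two_dvd_nat, add_zero]
  have hdvd : 2 ^ s ∣ n := by
    rw [padicValNat_dvd_iff_le hn0]
    omega
  obtain ⟨c, hc⟩ := hdvd
  have h1 : w ^ (Fintype.card F - 1) = 1 := FiniteField.pow_card_sub_one_eq_one w hw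
  have h3 : w ^ (n * m) = 1 := by
    have : n * m = (Fintype.card F - 1) * c := by
      rw [hc, hqm]
      ring
    rw [this, pow_mul, h1, one_pow]
  rw [pow_mul, h, hm.neg_one_pow] at h3
  apply h2
  linear_combination -h3

/-- The form of an element whose square is a square scalar. -/
theorem exists_form_sq (h2 : (2 : F) ≠ 0) (T : Module.End F (Fin n → F)) {w : F} (hw : w ≠ 0) (hT : T ^ 2 = (w ^ 2) • 1)
    (hdet : LinearMap.det T = 1) (hn : n = 2 * b) (hn0 : n ≠ 0)
    (hv : padicValNat 2 (Fintype.card F - 1) ≤ padicValNat 2 n) :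
    ∃ ε : Fin b → F, (∀ t, ε t ≠ 0) ∧ ∃ Φ : (Fin 2 × Fin b → F) ≃ₗ[F] (Fin n → F),
      ∀ c, T (Φ c) = Φ (((w • (1 : Matrix (Fin 2) (Fin 2) F)) ⊗ₖ Matrix.diagonal ε) *ᵥ c) := by
  classical
  let y : Module.End F (Fin n → F) := w⁻¹ • T
  have hTy : ∀ v, T v = w • y v := by
    intro v
    simp only [y, LinearMap.smul_apply, smul_smul, mul_inv_cancel₀ hw, one_smul]
  have hy : y ^ 2 = 1 := by
    simp only [y]
    rw [_root_.smul_pow, hT, smul_smul, inv_pow, inv_mul_cancel₀ (pow_ne_zero _ hw), one_smul]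
  have hr : ((2 : ℕ) : F) ≠ 0 := by exact_mod_cast h2
  have hcompl : IsCompl (Fix y) (Ker y 2) := by
    constructor
    · rw [disjoint_iff]
      exact Fix_inf_Ker hr
    · rw [codisjoint_iff]
      exact sup_Fix_Ker hr hy
  let b₁ : Basis (Fin (finrank F (Fix y)) ⊕ Fin (finrank F (Ker y 2))) F (Fin n → F) :=
    ((finBasis F (Fix y)).prod (finBasis F (Ker y 2))).map (Submodule.prodEquivOfIsCompl _ _ hcompl)
  have hb₁l : ∀ i, T (b₁ (Sum.inl i)) = w • b₁ (Sum.inl i) := by
    intro i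
    have h1 : b₁ (Sum.inl i) = (finBasis F (Fix y) i : Fin n → F) := by
      simp [b₁]
    have h3 : (finBasis F (Fix y) i : Fin n → F) ∈ Fix y := (finBasis F (Fix y) i).2
    rw [mem_Fix] at h3
    rw [h1, hTy, h3]
  have hb₁r : ∀ i, T (b₁ (Sum.inr i)) = (- w) • b₁ (Sum.inr i) := by
    intro i
    have h1 : b₁ (Sum.inr i) = (finBasis F (Ker y 2) i : Fin n → F) := by
      simp [b₁]
    have h3 : (finBasis F (Ker y 2) i : Fin n → F) ∈ Ker y 2 := (finBasis F (Ker y 2) i).2
    rw [mem_Ker] at h3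
    have h4 : y (finBasis F (Ker y 2) i : Fin n → F) = - (finBasis F (Ker y 2) i : Fin n → F) := by
      have h5 : Polynomial.aeval y (Phi F 2) = 1 + y := by
        simp [Phi, Finset.sum_range_succ]
      rw [h5] at h3
      simp only [LinearMap.add_apply, Module.End.one_apply] at h3
      exact eq_neg_of_add_eq_zero_right h3
    rw [h1, hTy, h4, smul_neg, neg_smul]
  -- the determinant
  have hdim : finrank F (Fix y) + finrank F (Ker y 2) = n := by
    have := finrank_Fix_add hr hy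
    simpa using this
  have hmat : LinearMap.toMatrix b₁ b₁ T = Matrix.diagonal (Sum.elim (fun _ => w) (fun _ => - w)) := by
    ext i j
    rw [LinearMap.toMatrix_apply]
    rcases j with j | j
    · rw [hb₁l, map_smul, Basis.repr_self]
      by_cases hij : i = Sum.inl j
      · subst hij
        simp
      · rw [Matrix.diagonal_apply_ne _ hij]
        simp [Finsupp.single_apply, Ne.symm hij]
    · rw [hb₁r, map_smul, Basis.repr_self]
      by_cases hij : i = Sum.inr j
      · subst hij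
        simp
      · rw [Matrix.diagonal_apply_ne _ hij]
        simp [Finsupp.single_apply, Ne.symm hij]
  have hdetT : w ^ (finrank F (Inv.Fix y)) * (- w) ^ (finrank F (Ker y 2)) = 1 := by
    rw [← hdet, ← LinearMap.det_toMatrix b₁ T, hmat, Matrix.det_diagonal, Fintype.prod_sum_type]
    simp
  have hne : Even (finrank F (Ker y 2)) := by
    by_contra hodd
    rw [Nat.not_even_iff_odd] at hodd
    rw [neg_pow, hodd.neg_one_pow] at hdetT
    apply no_neg_one h2 hw hn0 hv (w := w)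
    rw [← hdim, pow_add]
    linear_combination -hdetT
  have hpe : Even (finrank F (Inv.Fix y)) := by
    have : Even ((finrank F (Inv.Fix y)) + (finrank F (Ker y 2))) := by
      rw [hdim, hn]
      exact even_two_mul b
    exact (Nat.even_add.mp this).mpr hne
  obtain ⟨c, hc⟩ := hpe
  obtain ⟨d, hd⟩ := hne
  have hcd : c + d = b := by omega
  let ρ : Fin b ≃ Fin c ⊕ Fin d := Fintype.equivOfCardEq (by simp [hcd])
  let τ₁ : Fin 2 × Fin c ≃ Fin (finrank F (Inv.Fix y)) := Fintype.equivOfCardEq (by simp [hc]; ring)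
  let τ₂ : Fin 2 × Fin d ≃ Fin (finrank F (Ker y 2)) := Fintype.equivOfCardEq (by simp [hd]; ring)
  let σ : Fin 2 × Fin b ≃ Fin (finrank F (Inv.Fix y)) ⊕ Fin (finrank F (Ker y 2)) :=
    ((Equiv.prodCongr (Equiv.refl _) ρ).trans (Equiv.prodSumDistrib _ _ _)).trans (Equiv.sumCongr τ₁ τ₂)
  let ε : Fin b → F := fun t => Sum.elim (fun _ => 1) (fun _ => -1) (ρ t)
  have hε : ∀ t, ε t ≠ 0 := by
    intro t
    simp only [ε]
    rcases ρ t with u | u <;> simp
  let b₀ : Basis (Fin 2 × Fin b) F (Fin n → F) := b₁.reindex σ.symm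
  have hb₀ : ∀ j, T (b₀ j) = (w * ε j.2) • b₀ j := by
    rintro ⟨k, t⟩
    have h3 : b₀ (k, t) = b₁ (σ (k, t)) := by
      simp [b₀]
    rw [h3]
    rcases hρ : ρ t with u | u
    · have h4 : σ (k, t) = Sum.inl (τ₁ (k, u)) := by
        simp [σ, hρ]
      have h5 : ε t = 1 := by simp [ε, hρ]
      rw [h4, hb₁l, h5, mul_one]
    · have h4 : σ (k, t) = Sum.inr (τ₂ (k, u)) := by
        simp [σ, hρ]
      have h5 : ε t = -1 := by simp [ε, hρ]
      rw [h4, hb₁r, h5]
      congr 1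
      ring
  refine ⟨ε, hε, b₀.equivFun.symm, conj_of_basis b₀ T _ ?_⟩
  rintro ⟨k', t'⟩
  rw [hb₀, Finset.sum_eq_single (k', t')]
  · simp
  · rintro ⟨k, t⟩ _ hne
    simp only [Matrix.kroneckerMap_apply, Matrix.smul_apply, Matrix.one_apply, Matrix.diagonal_apply, smul_eq_mul]
    by_cases hk : k = k'
    · by_cases ht : t = t'
      · exact absurd (by rw [hk, ht]) hne
      · simp [ht]
    · simp [hk]
  · simp

/-- Every element with scalar square is conjugate into a tensor decomposition with a two-dimensional factor. -/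
theorem conj_into (h2 : (2 : F) ≠ 0) (hv' : n ≠ 0) (hn : n = 2 * b) (hb : 0 < b)
    (hv : padicValNat 2 (Fintype.card F - 1) ≤ padicValNat 2 n) (e : Fin n ≃ Fin 2 × Fin b) (P : GL (Fin n) F)
    {x : GL (Fin n) F} (hx : x ∈ Cfsg.Geo.specialLinear (Fin n) F) {z : F}
    (hz : ((x ^ 2 : GL (Fin n) F) : Matrix (Fin n) (Fin n) F) = z • 1) :
    ∃ g ∈ Cfsg.Geo.specialLinear (Fin n) F, g⁻¹ * x * g ∈ Cfsg.Geo.tensorProductSubgroup 2 b e P := by
  classical
  let T : Module.End F (Fin n → F) := Matrix.toLin' (x : Matrix (Fin n) (Fin n) F)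
  have hTv : ∀ v, (x : Matrix (Fin n) (Fin n) F) *ᵥ v = T v := fun v => rfl
  have hT : T ^ 2 = z • 1 := by
    rw [Units.val_pow_eq_pow_val] at hz
    simp only [T]
    rw [← Matrix.toLin'_pow, hz, map_smul, Matrix.toLin'_one]
    rfl
  have hdet : LinearMap.det T = 1 := by
    simp only [T]
    rw [LinearMap.det_toLin']
    have : Matrix.GeneralLinearGroup.det x = 1 := hx
    exact congrArg Units.val this
  have hz0 : z ≠ 0 := by
    rintro rfl
    have hdet2 : (((x ^ 2 : GL (Fin n) F) : Matrix (Fin n) (Fin n) F)).det = 0 := by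
      rw [hz, zero_smul]
      haveI : Nonempty (Fin n) := ⟨⟨0, by omega⟩⟩
      exact Matrix.det_zero
    exact (Matrix.GeneralLinearGroup.det (x ^ 2)).ne_zero hdet2
  by_cases hs : ∃ w : F, w ^ 2 = z
  · obtain ⟨w, rfl⟩ := hs
    have hw : w ≠ 0 := by
      rintro rfl
      simp at hz0
    obtain ⟨ε, hε, Φ, hΦ⟩ := exists_form_sq h2 T hw hT hdet hn hv' hv
    have hAdet : (w • (1 : Matrix (Fin 2) (Fin 2) F)).det ≠ 0 := by
      rw [Matrix.det_smul, Matrix.det_one, mul_one]
      exact pow_ne_zero _ hw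
    refine finish₂ hb e P x (Matrix.GeneralLinearGroup.mkOfDetNeZero _ hAdet) ε hε ?_ Φ (fun c => by rw [hTv]; exact hΦ c)
    intro δ hδ
    refine ⟨Matrix.diagonal ![δ, 1], ?_, ?_⟩
    · show _ * (w • (1 : Matrix (Fin 2) (Fin 2) F)) = (w • (1 : Matrix (Fin 2) (Fin 2) F)) * _
      rw [Matrix.mul_smul, Matrix.smul_mul, Matrix.mul_one, Matrix.one_mul]
    · rw [Matrix.det_diagonal, Fin.prod_univ_two]
      simp
  · push Not at hs
    have hirr : Irreducible (X ^ 2 - C z : F[X]) := X_pow_sub_C_irreducible_of_prime Nat.prime_two hs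
    obtain ⟨Φ, hΦ⟩ := exists_form_nonsq T hT hirr hn
    have hAdet : (!![0, z; 1, 0] : Matrix (Fin 2) (Fin 2) F).det ≠ 0 := by
      rw [Matrix.det_fin_two_of]
      simpa using hz0
    refine finish₂ hb e P x (Matrix.GeneralLinearGroup.mkOfDetNeZero _ hAdet) (fun _ => 1) (fun _ => one_ne_zero) ?_ Φ (fun c => by rw [hTv]; exact hΦ c)
    intro δ hδ
    obtain ⟨s, t, hst⟩ := SpHerm.exists_norm h2 hz0 δ
    refine ⟨!![s, t * z; t, s], ?_, ?_⟩
    · show _ * (!![0, z; 1, 0] : Matrix (Fin 2) (Fin 2) F) = (!![0, z; 1, 0] : Matrix (Fin 2) (Fin 2) F) * _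
      ext i j
      fin_cases i <;> fin_cases j <;> simp [Matrix.mul_apply, Fin.sum_univ_two] <;> ring
    · rw [Matrix.det_fin_two_of, ← hst]
      ring

end Cases

end Cfsg.Agent.Lib.Classical.Elusive.TensorConj
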