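import Mathlib
import Cfsg.Agent.Lib.Classical.Elusive.TensorConj
import Cfsg.Agent.Lib.Classical.Elusive.SlSp
import Cfsg.Agent.Lib.Classical.Elusive.PslImprimMain

/-!
# Elements of prime order of `PSL_n(q)` and tensor decompositions with factors of different dimensions
-/

set_option autoImplicit false
set_option linter.unusedSectionVars false
set_option linter.unusedSimpArgs false
set_option linter.unusedVariables false
set_option linter.style.haveILetI false

namespace Cfsg.Agent.Lib.Classical.Elusive.TensorMain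

open Polynomial Module Matrix
open scoped Kronecker
open Cfsg.Agent.Lib.Classical.Elusive.Inv Cfsg.Agent.Lib.Classical.Elusive.SpCore Cfsg.Agent.Lib.Classical.Elusive.Tensor
  Cfsg.Agent.Lib.Classical.Elusive.TensorConj Cfsg.Agent.Lib.Classical.Elusive.PslNum
open Cfsg.Agent.Lib.Classical.Asch.Gram
open Cfsg.Agent.Lib.Linalg.Bridge

universe u

section Conj

variable {F : Type u} [Field F] {n a b : ℕ}

theorem exists_conj_kron {e : Fin n ≃ Fin a × Fin b} {P x g : GL (Fin n) F}
    (h : g⁻¹ * x * g ∈ Cfsg.Geo.tensorProductSubgroup a b e P) :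
    ∃ (A : GL (Fin a) F) (B : GL (Fin b) F) (φ : (Fin n → F) ≃ₗ[F] (Fin a × Fin b → F)),
      ∀ v, φ ((x : Matrix (Fin n) (Fin n) F) *ᵥ v) = ((A : Matrix (Fin a) (Fin a) F) ⊗ₖ (B : Matrix (Fin b) (Fin b) F)) *ᵥ φ v := by
  obtain ⟨_, ⟨k, ⟨A, B, hk⟩, rfl⟩, hxg⟩ := h
  refine ⟨A, B, (equivOfGL g⁻¹).trans (coordL e P), fun v => ?_⟩
  have h1 := coordL_mulVec e P k (((g⁻¹ : GL (Fin n) F) : Matrix (Fin n) (Fin n) F) *ᵥ v)
  rw [hk] at h1
  have h2 : ((MulAut.conj P) (Cfsg.Geo.glReindex e.symm k) : GL (Fin n) F) = g⁻¹ * x * g := hxg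
  rw [h2] at h1
  have h3 : ((g⁻¹ * x * g : GL (Fin n) F) : Matrix (Fin n) (Fin n) F) *ᵥ (((g⁻¹ : GL (Fin n) F) : Matrix (Fin n) (Fin n) F) *ᵥ v) =
      ((g⁻¹ : GL (Fin n) F) : Matrix (Fin n) (Fin n) F) *ᵥ ((x : Matrix (Fin n) (Fin n) F) *ᵥ v) := by
    rw [Matrix.mulVec_mulVec, Matrix.mulVec_mulVec, ← Units.val_mul, ← Units.val_mul, mul_assoc, mul_assoc, mul_inv_cancel, mul_one]
  rw [h3] at h1
  exact h1

variable {V W : Type*} [AddCommGroup V] [Module F V] [AddCommGroup W] [Module F W]

theorem conj_pow' (φ : V ≃ₗ[F] W) {T : Module.End F V} {S : Module.End F W} (h : ∀ v, φ (T v) = S (φ v)) (k : ℕ) (v : V) :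
    φ ((T ^ k) v) = (S ^ k) (φ v) := by
  induction k generalizing v with
  | zero => simp
  | succ k ih => rw [pow_succ, pow_succ, Module.End.mul_apply, Module.End.mul_apply, ih, h]

theorem conj_aeval (φ : V ≃ₗ[F] W) {T : Module.End F V} {S : Module.End F W} (h : ∀ v, φ (T v) = S (φ v)) (f : F[X]) (v : V) :
    φ (Polynomial.aeval T f v) = Polynomial.aeval S f (φ v) := by
  induction f using Polynomial.induction_on' with
  | add p q hp hq => simp only [map_add, LinearMap.add_apply, hp, hq]
  | monomial m c =>
    simp only [Polynomial.aeval_monomial, Module.End.mul_apply, Module.algebraMap_end_apply, map_smul]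
    rw [conj_pow' φ h]

theorem conj_ker (φ : V ≃ₗ[F] W) {T : Module.End F V} {S : Module.End F W} (h : ∀ v, φ (T v) = S (φ v)) (f : F[X]) :
    finrank F (LinearMap.ker (Polynomial.aeval T f)) = finrank F (LinearMap.ker (Polynomial.aeval S f)) := by
  have h1 : LinearMap.ker (Polynomial.aeval S f) = (LinearMap.ker (Polynomial.aeval T f)).map (φ : V →ₗ[F] W) := by
    ext w
    simp only [LinearMap.mem_ker, Submodule.mem_map]
    constructor
    · intro hw
      refine ⟨φ.symm w, ?_, by simp⟩
      apply φ.injective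
      rw [conj_aeval φ h, LinearEquiv.apply_symm_apply, hw, map_zero]
    · rintro ⟨v, hv, rfl⟩
      show Polynomial.aeval S f (φ v) = 0
      rw [← conj_aeval φ h, hv, map_zero]
  rw [h1]
  exact (LinearEquiv.finrank_map_eq φ _).symm

theorem aeval_sub_C (T : Module.End F V) (c : F) : Polynomial.aeval T (X - C c : F[X]) = T - c • 1 := by
  rw [map_sub, aeval_X, aeval_C, Module.algebraMap_end_eq_smul_id]
  rfl

theorem conj_sub_ker (φ : V ≃ₗ[F] W) {T : Module.End F V} {S : Module.End F W} (h : ∀ v, φ (T v) = S (φ v)) (c : F) :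
    finrank F (LinearMap.ker (T - c • 1)) = finrank F (LinearMap.ker (S - c • 1)) := by
  have := conj_ker φ h (X - C c)
  rwa [aeval_sub_C, aeval_sub_C] at this

end Conj

section Diag

variable {F : Type u} [Field F] {n : ℕ}

/-- The diagonal entries with two special places. -/
def w₂ (j₀ j₁ : Fin n) (s t : F) (j : Fin n) : F := (if j = j₀ then s else 1) * (if j = j₁ then t else 1)

theorem w₂_first {j₀ j₁ : Fin n} (h : j₀ ≠ j₁) (s t : F) : w₂ j₀ j₁ s t j₀ = s := by
  simp [w₂, h]

theorem w₂_second {j₀ j₁ : Fin n} (h : j₀ ≠ j₁) (s t : F) : w₂ j₀ j₁ s t j₁ = t := by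
  simp [w₂, h.symm]

theorem w₂_other {j₀ j₁ j : Fin n} (h₀ : j ≠ j₀) (h₁ : j ≠ j₁) (s t : F) : w₂ j₀ j₁ s t j = 1 := by
  simp [w₂, h₀, h₁]

theorem prod_w₂ (j₀ j₁ : Fin n) (s t : F) : ∏ j, w₂ j₀ j₁ s t j = s * t := by
  classical
  simp only [w₂]
  rw [Finset.prod_mul_distrib]
  simp [Finset.prod_ite_eq']

theorem diag_det (w : Fin n → F) : LinearMap.det (Matrix.toLin' (Matrix.diagonal w)) = ∏ j, w j := by
  rw [LinearMap.det_toLin', Matrix.det_diagonal]

theorem diag_pow (w : Fin n → F) (k : ℕ) : (Matrix.toLin' (Matrix.diagonal w)) ^ k = Matrix.toLin' (Matrix.diagonal (fun j => w j ^ k)) := by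
  rw [← Matrix.toLin'_pow, Matrix.diagonal_pow]
  rfl

theorem eig_one_w₂ {j₀ j₁ : Fin n} (h : j₀ ≠ j₁) {s t : F} (hs : s ≠ 1) (ht : t ≠ 1) :
    finrank F (LinearMap.ker (Matrix.toLin' (Matrix.diagonal (w₂ j₀ j₁ s t)) - (1 : F) • 1)) + 2 = n := by
  classical
  have h1 := SlSp.cnt_eig (w₂ j₀ j₁ s t) (1 : F)
  have h2 : (∑ j, if w₂ j₀ j₁ s t j = 1 then 1 else 0) = ((Finset.univ.erase j₀).erase j₁).card := by
    rw [Finset.card_eq_sum_ones, ← Finset.sum_filter]
    congr 1
    ext j
    simp only [Finset.mem_filter, Finset.mem_univ, true_and, Finset.mem_erase, and_true]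
    constructor
    · intro hj
      refine ⟨?_, ?_⟩
      · rintro rfl
        rw [w₂_second h] at hj
        exact ht hj
      · rintro rfl
        rw [w₂_first h] at hj
        exact hs hj
    · rintro ⟨h3, h4⟩
      exact w₂_other h4 h3 s t
  rw [h2, Finset.card_erase_of_mem (by simp [h.symm]), Finset.card_erase_of_mem (by simp), Finset.card_univ, Fintype.card_fin] at h1
  have h3 : 2 ≤ n := by
    have := Fintype.card_le_of_injective (fun b : Bool => if b then j₀ else j₁) (by
      intro x y hxy
      cases x <;> cases y <;> simp_all [h.symm])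
    simpa using this
  show SlSp.Eig _ 1 + 2 = n
  omega

theorem eig_s_w₂ {j₀ j₁ : Fin n} (h : j₀ ≠ j₁) {s t : F} (hs : s ≠ 1) (hst : t ≠ s) :
    finrank F (LinearMap.ker (Matrix.toLin' (Matrix.diagonal (w₂ j₀ j₁ s t)) - s • 1)) = 1 := by
  classical
  have h1 := SlSp.cnt_eig (w₂ j₀ j₁ s t) s
  have h2 : (∑ j, if w₂ j₀ j₁ s t j = s then 1 else 0) = ({j₀} : Finset (Fin n)).card := by
    rw [Finset.card_eq_sum_ones, ← Finset.sum_filter]
    congr 1
    ext j
    simp only [Finset.mem_filter, Finset.mem_univ, true_and, Finset.mem_singleton]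
    constructor
    · intro hj
      by_contra hne
      by_cases hj1 : j = j₁
      · subst hj1
        rw [w₂_second h] at hj
        exact hst hj
      · rw [w₂_other hne hj1] at hj
        exact hs hj.symm
    · rintro rfl
      exact w₂_first h s t
  rw [h2, Finset.card_singleton] at h1
  exact h1

end Diag

section Arith

variable {F : Type u} [Field F] [Fintype F]

/-- The existence of a root of `-1`. -/
theorem exists_pow_neg_one (h2 : (2 : F) ≠ 0) {n : ℕ} (hn0 : n ≠ 0)
    (hv : padicValNat 2 n < padicValNat 2 (Fintype.card F - 1)) : ∃ μ : F, μ ≠ 0 ∧ μ ^ n = -1 := by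
  have hq : Fintype.card F - 1 ≠ 0 := by
    have : 1 < Fintype.card F := Fintype.one_lt_card
    omega
  obtain ⟨e, m, hm, hnm⟩ := Nat.exists_eq_two_pow_mul_odd hn0
  have hs : e = padicValNat 2 n := by
    rw [hnm, padicValNat.mul (by positivity) hm.pos.ne', padicValNat.prime_pow, padicValNat.eq_zero_of_not_dvd hm.not_two_dvd_nat, add_zero]
  have hdvd : 2 ^ (e + 1) ∣ Fintype.card F - 1 := by
    rw [padicValNat_dvd_iff_le hq]
    omega
  obtain ⟨k, hk⟩ := hdvd
  have hk0 : 0 < k := by
    rcases Nat.eq_zero_or_pos k with h | h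
    · rw [h, mul_zero] at hk
      exact absurd hk hq
    · exact h
  obtain ⟨g, hg, -⟩ := exists_gen (F := F)
  let u : Fˣ := (g ^ k) ^ (2 ^ e)
  have hu2 : u ^ 2 = 1 := by
    simp only [u]
    rw [← pow_mul, ← pow_mul]
    have : k * (2 ^ e * 2) = orderOf g := by
      rw [hg, hk, pow_succ]
      ring
    rw [this, pow_orderOf_eq_one]
  have hu1 : u ≠ 1 := by
    intro h
    simp only [u] at h
    rw [← pow_mul] at h
    have h3 := orderOf_dvd_of_pow_eq_one h
    rw [hg, hk] at h3
    have h4 := Nat.le_of_dvd (by positivity) h3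
    have h5 : 2 ^ (e + 1) * k = 2 * (2 ^ e * k) := by rw [pow_succ]; ring
    have h6 : 0 < 2 ^ e * k := by positivity
    have h7 : k * 2 ^ e = 2 ^ e * k := mul_comm _ _
    omega
  have hu : (u : F) = -1 := by
    have h3 : (u : F) ^ 2 = 1 := by
      have := congrArg Units.val hu2
      simpa using this
    have h4 : ((u : F) - 1) * ((u : F) + 1) = 0 := by linear_combination h3
    rcases mul_eq_zero.mp h4 with h5 | h5
    · exfalso
      apply hu1
      apply Units.ext
      simpa using sub_eq_zero.mp h5
    · exact eq_neg_of_add_eq_zero_left h5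
  refine ⟨((g ^ k : Fˣ) : F), Units.ne_zero _, ?_⟩
  rw [hnm, pow_mul]
  have h3 : ((g ^ k : Fˣ) : F) ^ (2 ^ e) = (u : F) := by
    simp only [u]
    push_cast
    rfl
  rw [h3, hu, hm.neg_one_pow]

/-- A root of unity of order `r`. -/
theorem exists_root_order {r : ℕ} (hr : r.Prime) (hrq : r ∣ Fintype.card F - 1) : ∃ l : F, l ≠ 0 ∧ l ^ r = 1 ∧ l ≠ 1 := by
  have hq : 0 < Fintype.card F - 1 := by
    have : 1 < Fintype.card F := Fintype.one_lt_card
    omega
  obtain ⟨k, hk⟩ := hrq
  have hk0 : 0 < k := by
    rcases Nat.eq_zero_or_pos k with h | h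
    · rw [h, mul_zero] at hk
      omega
    · exact h
  obtain ⟨g, hg, -⟩ := exists_gen (F := F)
  refine ⟨((g ^ k : Fˣ) : F), Units.ne_zero _, ?_, ?_⟩
  · have : (g ^ k) ^ r = 1 := by
      rw [← pow_mul, mul_comm, ← hk, ← hg, pow_orderOf_eq_one]
    have h3 := congrArg Units.val this
    simpa using h3
  · intro h
    have h3 : g ^ k = 1 := Units.ext (by simpa using h)
    have h4 := orderOf_dvd_of_pow_eq_one h3
    rw [hg, hk] at h4
    have h5 := Nat.le_of_dvd hk0 h4
    have := hr.two_le
    nlinarith

theorem order_le_of_dvd {n r : ℕ} {p : ℕ} [Fact p.Prime] [CharP F p] (hr : r.Prime) (hrp : r ≠ p) (hn0 : n ≠ 0)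
    (hdvd : r ∣ Nat.card (GL (Fin n) F)) : orderOf ((Fintype.card F : ℕ) : ZMod r) ≤ n := by
  have hqpos : 2 ≤ Fintype.card F := Fintype.one_lt_card
  rw [Matrix.card_GL_field, SpPairsMain.prod_gl hqpos] at hdvd
  have hrq : ¬ r ∣ Fintype.card F := by
    obtain ⟨m, hp, hm⟩ := FiniteField.card F p
    rw [hm]
    intro h3
    have h4 := hr.dvd_of_dvd_pow h3
    exact hrp ((Nat.prime_dvd_prime_iff_eq hr hp).1 h4)
  have h2 : ¬ r ∣ ∏ i ∈ Finset.range n, (Fintype.card F) ^ i := by
    intro h3
    obtain ⟨j, -, hj'⟩ := (Prime.dvd_finsetProd_iff hr.prime _).1 h3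
    exact hrq (hr.dvd_of_dvd_pow hj')
  have h3 := (hr.dvd_mul.1 hdvd).resolve_left h2
  obtain ⟨j, hj, hj'⟩ := (Prime.dvd_finsetProd_iff hr.prime _).1 h3
  rw [Finset.mem_range] at hj
  have h4 : orderOf ((Fintype.card F : ℕ) : ZMod r) ∣ j + 1 := (pow_eq_one_iff' (by omega)).2 hj'
  have h6 := Nat.le_of_dvd (by omega) h4
  omega

end Arith

section Statement

variable {F : Type u} [Field F] [Fintype F]

/-- An endomorphism of determinant one with scalar power gives an element of the group. -/
theorem lhsGL {n r : ℕ} {P : Module.End F (Fin n → F) → Prop}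
    (h : ∀ x ∈ Cfsg.Geo.specialLinear (Fin n) F, (∃ z : F, ((x ^ r : GL (Fin n) F) : Matrix (Fin n) (Fin n) F) = z • (1 : Matrix (Fin n) (Fin n) F)) →
      (∀ z : F, (x : Matrix (Fin n) (Fin n) F) ≠ z • (1 : Matrix (Fin n) (Fin n) F)) → P (Matrix.toLin' (x : Matrix (Fin n) (Fin n) F)))
    (T : Module.End F (Fin n → F)) {c : F} (hT : T ^ r = c • 1) (hdet : LinearMap.det T = 1)
    (hns : ∀ z : F, T ≠ z • 1) : P T := by
  have h0 : (LinearMap.toMatrix' T).det ≠ 0 := by
    rw [LinearMap.det_toMatrix', hdet]
    exact one_ne_zero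
  let x : GL (Fin n) F := Matrix.GeneralLinearGroup.mkOfDetNeZero _ h0
  have hxv : (x : Matrix (Fin n) (Fin n) F) = LinearMap.toMatrix' T := rfl
  have hx : Matrix.toLin' (x : Matrix (Fin n) (Fin n) F) = T := by
    rw [hxv, Matrix.toLin'_toMatrix']
  have hmem : x ∈ Cfsg.Geo.specialLinear (Fin n) F := by
    show Matrix.GeneralLinearGroup.det x = 1
    apply Units.ext
    show (x : Matrix (Fin n) (Fin n) F).det = 1
    rw [hxv, LinearMap.det_toMatrix', hdet]
  have h1 := h x hmem ⟨c, by
    rw [Units.val_pow_eq_pow_val]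
    apply Matrix.toLin'.injective
    rw [Matrix.toLin'_pow, hx, hT, map_smul, Matrix.toLin'_one]
    rfl⟩ (fun z hz => hns z (by
    rw [← hx, hz, map_smul, Matrix.toLin'_one]
    rfl))
  rwa [hx] at h1

theorem transport_rank {n a b : ℕ} (hab : n = a * b) {T : Module.End F (Fin n → F)} {A : Matrix (Fin a) (Fin a) F} {B : Matrix (Fin b) (Fin b) F}
    (φ : (Fin n → F) ≃ₗ[F] (Fin a × Fin b → F)) (h : ∀ v, φ (T v) = Matrix.toLin' (A ⊗ₖ B) (φ v)) :
    finrank F (LinearMap.range (Matrix.toLin' (A ⊗ₖ B) - 1)) + finrank F (LinearMap.ker (T - (1 : F) • 1)) = n := by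
  have h1 := finrank_range_add_ker (Matrix.toLin' (A ⊗ₖ B) - 1)
  have h3 := conj_sub_ker φ h (1 : F)
  rw [h3, one_smul]
  rw [hab]
  exact h1

theorem scalar_of_transport {n a b : ℕ} {T : Module.End F (Fin n → F)} {A : Matrix (Fin a) (Fin a) F} {B : Matrix (Fin b) (Fin b) F}
    (φ : (Fin n → F) ≃ₗ[F] (Fin a × Fin b → F)) (h : ∀ v, φ (T v) = Matrix.toLin' (A ⊗ₖ B) (φ v)) {c : F} (hc : A ⊗ₖ B = c • 1) : T = c • 1 := by
  apply LinearMap.ext
  intro v
  apply φ.injective
  rw [h, hc, map_smul, Matrix.toLin'_one, LinearMap.smul_apply, LinearMap.smul_apply, map_smul]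
  rfl

theorem main {p : ℕ} [Fact p.Prime] [CharP F p] {q : ℕ} (hq : Fintype.card F = q)
    (n a b : ℕ) (hab : n = a * b) (ha : 2 ≤ a) (hlt : a < b) (e : Fin n ≃ Fin a × Fin b) (P : GL (Fin n) F)
    (r : ℕ) [Fact r.Prime]
    (hΩ : r ∣ (Cfsg.Geo.tensorProductSubgroup a b e P).relIndex (Cfsg.Geo.specialLinear (Fin n) F)) :
    (∀ x ∈ Cfsg.Geo.specialLinear (Fin n) F, (∃ z : F, ((x ^ r : GL (Fin n) F) : Matrix (Fin n) (Fin n) F) = z • (1 : Matrix (Fin n) (Fin n) F)) →
      (∀ z : F, (x : Matrix (Fin n) (Fin n) F) ≠ z • (1 : Matrix (Fin n) (Fin n) F)) →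
      ∃ g ∈ Cfsg.Geo.specialLinear (Fin n) F, g⁻¹ * x * g ∈ Cfsg.Geo.tensorProductSubgroup a b e P) ↔
    (r = 2 ∧ a = 2 ∧ Odd q ∧ padicValNat 2 (q - 1) ≤ padicValNat 2 n) := by
  classical
  subst hq
  have hr : r.Prime := Fact.out
  have hn6 : 6 ≤ n := by
    rw [hab]
    nlinarith
  have hn0 : n ≠ 0 := by omega
  have hb3 : 3 ≤ b := by omega
  have hdimn : finrank F (Fin n → F) = n := by simp
  constructor
  · intro H
    have key : ∀ (T : Module.End F (Fin n → F)) (c : F), T ^ r = c • 1 → LinearMap.det T = 1 → (∀ z : F, T ≠ z • 1) →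
        ∃ (A : GL (Fin a) F) (B : GL (Fin b) F) (φ : (Fin n → F) ≃ₗ[F] (Fin a × Fin b → F)),
          ∀ v, φ (T v) = Matrix.toLin' ((A : Matrix (Fin a) (Fin a) F) ⊗ₖ (B : Matrix (Fin b) (Fin b) F)) (φ v) := by
      intro T c hT hdet hns
      refine lhsGL (P := fun T => ∃ (A : GL (Fin a) F) (B : GL (Fin b) F) (φ : (Fin n → F) ≃ₗ[F] (Fin a × Fin b → F)),
          ∀ v, φ (T v) = Matrix.toLin' ((A : Matrix (Fin a) (Fin a) F) ⊗ₖ (B : Matrix (Fin b) (Fin b) F)) (φ v)) ?_ T hT hdet hns
      intro x hx hxz hxns
      obtain ⟨g, -, hg⟩ := H x hx hxz hxns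
      exact exists_conj_kron hg
    let j₀ : Fin n := ⟨0, by omega⟩
    let j₁ : Fin n := ⟨1, by omega⟩
    have hj : j₀ ≠ j₁ := by
      simp [j₀, j₁, Fin.ext_iff]
    -- the transvection
    have hrp : r ≠ p := by
      rintro rfl
      let M : Matrix (Fin n) (Fin n) F := Matrix.transvection j₀ j₁ (1 : F)
      have hpow : ∀ k : ℕ, M ^ k = Matrix.transvection j₀ j₁ (k : F) := by
        intro k
        induction k with
        | zero => simp
        | succ k ih =>
          rw [pow_succ, ih]
          simp only [M]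
          rw [Matrix.transvection_mul_transvection_same _ _ hj]
          push_cast
          rfl
      have hT : (Matrix.toLin' M) ^ r = (1 : F) • 1 := by
        rw [← Matrix.toLin'_pow, hpow, CharP.cast_eq_zero, Matrix.transvection_zero, Matrix.toLin'_one, one_smul]
        rfl
      have hdet : LinearMap.det (Matrix.toLin' M) = 1 := by
        rw [LinearMap.det_toLin']
        exact Matrix.det_transvection_of_ne _ _ hj 1
      have hns : ∀ z : F, Matrix.toLin' M ≠ z • 1 := by
        intro z hz
        have h1 : M = z • 1 := by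
          apply Matrix.toLin'.injective
          rw [hz, map_smul, Matrix.toLin'_one]
          rfl
        have h3 := congrFun (congrFun h1 j₀) j₁
        simp [M, Matrix.transvection, hj, Matrix.one_apply] at h3
      obtain ⟨A, B, φ, hφ⟩ := key _ _ hT hdet hns
      have hrank : finrank F (LinearMap.range (Matrix.toLin' M - 1)) ≤ 1 := by
        have h1 : LinearMap.range (Matrix.toLin' M - 1) ≤ Submodule.span F {(Pi.single j₀ (1 : F) : Fin n → F)} := by
          rintro _ ⟨v, rfl⟩
          rw [Submodule.mem_span_singleton]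
          refine ⟨v j₁, ?_⟩
          funext i
          by_cases hi : i = j₀
          · subst hi
            simp [M, Matrix.transvection, Matrix.add_mulVec, Matrix.single_mulVec, Pi.single_apply, Matrix.toLin'_apply]
          · simp [M, Matrix.transvection, Matrix.add_mulVec, Matrix.single_mulVec, Pi.single_apply, hi, Matrix.toLin'_apply]
        exact (Submodule.finrank_mono h1).trans ((finrank_span_le_card _).trans (by simp))
      have h1 := transport_rank hab φ hφ
      have h3 := LinearMap.finrank_range_add_finrank_ker (Matrix.toLin' M - (1 : F) • 1)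
      rw [one_smul, hdimn] at h3
      rw [one_smul] at h1
      have h4 : finrank F (LinearMap.range (Matrix.toLin' ((A : Matrix (Fin a) (Fin a) F) ⊗ₖ (B : Matrix (Fin b) (Fin b) F)) - 1)) ≤ 1 := by omega
      obtain ⟨c, hc⟩ := scalar_of_small_rank (by omega) (by omega) (A := (A : Matrix (Fin a) (Fin a) F)) (B := (B : Matrix (Fin b) (Fin b) F)) |>.imp fun c h => h
      exact hns c (scalar_of_transport φ hφ hc)
    have hr0 : (r : F) ≠ 0 := cast_ne_zero_of_ne hr hrp
    have hq1 : 1 ≤ Fintype.card F := Fintype.card_pos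
    by_cases hrq : r ∣ Fintype.card F - 1
    · -- the split case
      by_cases hr2 : r = 2
      · subst hr2
        have hp2 : p ≠ 2 := fun h => hrp h.symm
        have h2 : (2 : F) ≠ 0 := by
          exact_mod_cast hr0
        have hodd : Odd (Fintype.card F) := odd_card hp2
        have hne1 : (-1 : F) ≠ 1 := by
          intro h
          apply h2
          linear_combination -h
        -- the two-dimensional factor
        have ha2 : a = 2 := by
          by_contra hne
          have ha3 : 3 ≤ a := by omega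
          let T : Module.End F (Fin n → F) := Matrix.toLin' (Matrix.diagonal (w₂ j₀ j₁ (-1) (-1)))
          have hT : T ^ 2 = (1 : F) • 1 := by
            simp only [T]
            rw [diag_pow, one_smul]
            have h3 : (fun j => w₂ j₀ j₁ (-1 : F) (-1) j ^ 2) = fun _ => 1 := by
              funext j
              simp only [w₂]
              split_ifs <;> ring
            rw [h3]
            have : Matrix.diagonal (fun _ : Fin n => (1 : F)) = 1 := Matrix.diagonal_one
            rw [this, Matrix.toLin'_one]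
            rfl
          have hdet : LinearMap.det T = 1 := by
            simp only [T]
            rw [diag_det, prod_w₂]
            ring
          have hE := eig_one_w₂ hj (s := (-1 : F)) (t := -1) hne1 hne1
          have hns : ∀ z : F, T ≠ z • 1 := by
            intro z hz
            have h3 : Matrix.diagonal (w₂ j₀ j₁ (-1 : F) (-1)) = z • 1 := by
              apply Matrix.toLin'.injective
              show T = _
              rw [hz, map_smul, Matrix.toLin'_one]
              rfl
            by_cases hn3 : True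
            · let j₂ : Fin n := ⟨2, by omega⟩
              have h4 := congrFun (congrFun h3 j₀) j₀
              have h5 := congrFun (congrFun h3 j₂) j₂
              have h02 : j₂ ≠ j₀ := by simp [j₂, j₀, Fin.ext_iff]
              have h12 : j₂ ≠ j₁ := by simp [j₂, j₁, Fin.ext_iff]
              simp only [Matrix.diagonal_apply_eq, Matrix.smul_apply, Matrix.one_apply_eq, smul_eq_mul, mul_one] at h4 h5
              rw [w₂_first hj] at h4
              rw [w₂_other h02 h12] at h5
              exact hne1 (h4.trans h5.symm)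
            · exact absurd trivial hn3
          obtain ⟨A, B, φ, hφ⟩ := key T 1 hT hdet hns
          have h1 := transport_rank hab φ hφ
          have h4 : finrank F (LinearMap.range (Matrix.toLin' ((A : Matrix (Fin a) (Fin a) F) ⊗ₖ (B : Matrix (Fin b) (Fin b) F)) - 1)) ≤ 2 := by
            have : finrank F (LinearMap.ker (T - (1 : F) • 1)) + 2 = n := hE
            omega
          obtain ⟨c, hc⟩ := scalar_of_small_rank (by omega) (by omega) (A := (A : Matrix (Fin a) (Fin a) F)) (B := (B : Matrix (Fin b) (Fin b) F))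
          exact hns c (scalar_of_transport φ hφ hc)
        refine ⟨rfl, ha2, hodd, ?_⟩
        by_contra hv
        push Not at hv
        obtain ⟨μ, hμ0, hμ⟩ := exists_pow_neg_one h2 hn0 hv
        -- the reflection times a scalar
        let w : Fin n → F := fun j => if j = j₀ then -1 else 1
        have hw : ∀ j, w j = w₂ j₀ j₀ (-1) 1 j := by
          intro j
          simp [w, w₂]
        let y : Module.End F (Fin n → F) := Matrix.toLin' (Matrix.diagonal w)
        let T : Module.End F (Fin n → F) := μ • y
        have hy2 : y ^ 2 = 1 := by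
          simp only [y]
          rw [diag_pow]
          have h3 : (fun j => w j ^ 2) = fun _ => 1 := by
            funext j
            simp only [w]
            split_ifs <;> ring
          rw [h3]
          have : Matrix.diagonal (fun _ : Fin n => (1 : F)) = 1 := Matrix.diagonal_one
          rw [this, Matrix.toLin'_one]
          rfl
        have hT : T ^ 2 = (μ ^ 2) • 1 := by
          simp only [T]
          rw [_root_.smul_pow, hy2]
        have hdet : LinearMap.det T = 1 := by
          simp only [T, y]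
          rw [LinearMap.det_smul, Module.finrank_fintype_fun_eq_card, Fintype.card_fin, diag_det, hμ]
          have : ∏ j, w j = -1 := by
            simp only [w]
            simp [Finset.prod_ite_eq']
          rw [this]
          ring
        have hyj : ∀ j, (y (Pi.single j 1)) j = w j := by
          intro j
          simp [y, Matrix.toLin'_apply, Matrix.mulVec_single]
        have hns : ∀ z : F, T ≠ z • 1 := by
          intro z hz
          have h3 : ∀ j, μ * w j = z := by
            intro j
            have h4 := congrFun (congrArg (fun S : Module.End F (Fin n → F) => S (Pi.single j 1)) hz) j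
            simp only [T, LinearMap.smul_apply, Pi.smul_apply, hyj, smul_eq_mul, Module.End.one_apply, Pi.single_eq_same, mul_one] at h4
            exact h4
          have h4 := h3 j₀
          have h5 := h3 j₁
          simp only [w, if_true, if_neg hj.symm] at h4 h5
          apply h2
          have : μ * 2 = 0 := by linear_combination h5 - h4
          exact (mul_eq_zero.mp this).resolve_left hμ0
        obtain ⟨A, B, φ, hφ⟩ := key T _ hT hdet hns
        let A' : Matrix (Fin a) (Fin a) F := μ⁻¹ • (A : Matrix (Fin a) (Fin a) F)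
        have hφ' : ∀ v, φ (y v) = Matrix.toLin' (A' ⊗ₖ (B : Matrix (Fin b) (Fin b) F)) (φ v) := by
          intro v
          have h3 := hφ v
          simp only [T, LinearMap.smul_apply, map_smul] at h3
          simp only [A', Matrix.smul_kronecker, map_smul, LinearMap.smul_apply]
          rw [← h3, smul_smul, inv_mul_cancel₀ hμ0, one_smul]
        have hrank : finrank F (LinearMap.range (y - 1)) ≤ 1 := by
          have h1 : LinearMap.range (y - 1) ≤ Submodule.span F {(Pi.single j₀ (1 : F) : Fin n → F)} := by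
            rintro _ ⟨v, rfl⟩
            rw [Submodule.mem_span_singleton]
            refine ⟨-2 * v j₀, ?_⟩
            funext i
            by_cases hi : i = j₀
            · subst hi
              simp [y, w, Matrix.toLin'_apply, Matrix.mulVec_diagonal]
              ring
            · simp [y, w, Matrix.toLin'_apply, Matrix.mulVec_diagonal, hi]
          exact (Submodule.finrank_mono h1).trans ((finrank_span_le_card _).trans (by simp))
        have h1 := transport_rank hab φ hφ'
        have h3 := LinearMap.finrank_range_add_finrank_ker (y - (1 : F) • 1)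
        rw [one_smul, hdimn] at h3
        rw [one_smul] at h1
        have h4 : finrank F (LinearMap.range (Matrix.toLin' (A' ⊗ₖ (B : Matrix (Fin b) (Fin b) F)) - 1)) ≤ 1 := by omega
        obtain ⟨c, hc⟩ := scalar_of_small_rank (by omega) (by omega) (A := A') (B := (B : Matrix (Fin b) (Fin b) F))
        have h5 := scalar_of_transport φ hφ' hc
        apply hns (μ * c)
        simp only [T]
        rw [h5, smul_smul]
      · -- odd primes dividing `q - 1`
        exfalso
        obtain ⟨l, hl0, hlr, hl1⟩ := exists_root_order hr hrq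
        have hrodd : Odd r := hr.odd_of_ne_two hr2
        have hli : l⁻¹ ≠ 1 := by
          intro h
          apply hl1
          rw [← _root_.inv_inj, h, inv_one]
        have hli2 : l⁻¹ ≠ l := by
          intro h
          have h3 : l * l = 1 := by
            nth_rewrite 1 [← h]
            exact inv_mul_cancel₀ hl0
          have h4 : (l ^ 2) = 1 := by rw [_root_.sq, h3]
          apply hl1
          obtain ⟨k, hk⟩ := hrodd
          rw [hk, pow_succ, pow_mul, h4, one_pow, one_mul] at hlr
          exact hlr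
        let T : Module.End F (Fin n → F) := Matrix.toLin' (Matrix.diagonal (w₂ j₀ j₁ l l⁻¹))
        have hT : T ^ r = (1 : F) • 1 := by
          simp only [T]
          rw [diag_pow, one_smul]
          have h3 : (fun j => w₂ j₀ j₁ l l⁻¹ j ^ r) = fun _ => 1 := by
            funext j
            simp only [w₂]
            rw [mul_pow]
            split_ifs <;> simp [hlr]
          rw [h3]
          have : Matrix.diagonal (fun _ : Fin n => (1 : F)) = 1 := Matrix.diagonal_one
          rw [this, Matrix.toLin'_one]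
          rfl
        have hdet : LinearMap.det T = 1 := by
          simp only [T]
          rw [diag_det, prod_w₂, mul_inv_cancel₀ hl0]
        have hE := eig_one_w₂ hj (s := l) (t := l⁻¹) hl1 hli
        have hE2 := eig_s_w₂ hj (s := l) (t := l⁻¹) hl1 hli2
        have hns : ∀ z : F, T ≠ z • 1 := by
          intro z hz
          have h3 : Matrix.diagonal (w₂ j₀ j₁ l l⁻¹) = z • 1 := by
            apply Matrix.toLin'.injective
            show T = _
            rw [hz, map_smul, Matrix.toLin'_one]
            rfl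
          have h4 := congrFun (congrFun h3 j₀) j₀
          have h5 := congrFun (congrFun h3 j₁) j₁
          simp only [Matrix.diagonal_apply_eq, Matrix.smul_apply, Matrix.one_apply_eq, smul_eq_mul, mul_one] at h4 h5
          rw [w₂_first hj] at h4
          rw [w₂_second hj] at h5
          exact hli2 (h5.trans h4.symm)
        obtain ⟨A, B, φ, hφ⟩ := key T 1 hT hdet hns
        have h1 := transport_rank hab φ hφ
        have h4 : finrank F (LinearMap.range (Matrix.toLin' ((A : Matrix (Fin a) (Fin a) F) ⊗ₖ (B : Matrix (Fin b) (Fin b) F)) - 1)) ≤ 2 := by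
          have : finrank F (LinearMap.ker (T - (1 : F) • 1)) + 2 = n := hE
          omega
        refine no_kron_one ha hb3 (l := l) h4 ?_
        rw [← conj_sub_ker φ hφ]
        exact hE2
    · -- no roots of unity in the field
      exfalso
      obtain ⟨g, hg1, hg2, hg3, hg4⟩ := SpModel.exists_factor (F := F) (p := p) rfl hr hrp
      have hc2 : orderOf ((Fintype.card F : ℕ) : ZMod r) ≠ 1 := fun h => hrq ((order_one_iff hq1).1 h)
      have hcpos : 0 < orderOf ((Fintype.card F : ℕ) : ZMod r) := by
        rw [← hg4]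
        exact hg2.natDegree_pos
      have hcn : orderOf ((Fintype.card F : ℕ) : ZMod r) ≤ n := by
        apply order_le_of_dvd (p := p) hr hrp hn0
        have h1 := hΩ.trans (Subgroup.relIndex_dvd_card _ _)
        exact h1.trans (Subgroup.card_subgroup_dvd_card _)
      have hcr : orderOf ((Fintype.card F : ℕ) : ZMod r) < r := by
        have hrq' : ¬ r ∣ Fintype.card F := by
          obtain ⟨m, hp, hm⟩ := FiniteField.card F p
          rw [hm]
          intro h3
          have h4 := hr.dvd_of_dvd_pow h3
          exact hrp ((Nat.prime_dvd_prime_iff_eq hr hp).1 h4)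
        have h1 : orderOf ((Fintype.card F : ℕ) : ZMod r) ∣ r - 1 := by
          apply ZMod.orderOf_dvd_card_sub_one
          intro h0
          exact hrq' ((ZMod.natCast_eq_zero_iff _ _).1 h0)
        have h3 := Nat.le_of_dvd (by have := hr.two_le; omega) h1
        have := hr.two_le
        omega
      obtain ⟨T, hT, hfix⟩ := SlSp.exists_model_eq (F := F) (d := g) hg2 (by rw [hg4]; omega) (a := n - orderOf ((Fintype.card F : ℕ) : ZMod r)) (n := n)
        (by rw [hg4]; omega) (r := r) (by rw [← Phi_mul]; exact Dvd.dvd.mul_right hg3 _)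
      have hdet : LinearMap.det T = 1 := by
        apply eq_one_of_not_dvd hr hrq
        rw [← map_pow, hT, map_one]
      have hns := PslImprimMain.nonscalar_of_fix hr hrq hn0 hT (by omega)
      obtain ⟨A, B, φ, hφ⟩ := key T 1 (by rw [hT, one_smul]) hdet hns
      have hKer : finrank F (Ker T r) = orderOf ((Fintype.card F : ℕ) : ZMod r) := by
        have h1 := finrank_Fix_add hr0 hT
        rw [hdimn] at h1
        omega
      have hSr : (Matrix.toLin' ((A : Matrix (Fin a) (Fin a) F) ⊗ₖ (B : Matrix (Fin b) (Fin b) F))) ^ r = 1 := by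
        apply LinearMap.ext
        intro w
        obtain ⟨v, rfl⟩ := φ.surjective w
        rw [← conj_pow' φ hφ, hT]
        rfl
      refine no_kron_big hr hr0 ha hlt hSr (fac_Phi rfl hr hrp) hcpos hcr ?_
      rw [← hKer]
      exact (conj_ker φ hφ (Phi F r)).symm
  · rintro ⟨rfl, rfl, hodd, hv⟩ x hx ⟨z, hz⟩ hns
    have h2 : (2 : F) ≠ 0 := by
      intro h0
      have hp2 : p ∣ 2 := (CharP.cast_eq_zero_iff F p 2).mp (by exact_mod_cast h0)
      have hp : p = 2 := (Nat.prime_dvd_prime_iff_eq Fact.out Nat.prime_two).mp hp2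
      obtain ⟨m, hpp, hm⟩ := FiniteField.card F p
      rw [hm, hp] at hodd
      exact (Nat.not_even_iff_odd.mpr hodd) ((even_two.pow_of_ne_zero m.ne_zero))
    exact conj_into h2 hn0 hab (by omega) hv e P hx hz

end Statement

end Cfsg.Agent.Lib.Classical.Elusive.TensorMain
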