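import Mathlib
import Cfsg.Agent.Lib.Classical.Asch.NotSU2
import Cfsg.Agent.Lib.Classical.Elusive.TensorMain
import Cfsg.Agent.Lib.Classical.Herm.TIFrame

/-!
# Similarities of unitary forms: eigenvalue pairing and orders of semisimple elements
-/

set_option autoImplicit false
set_option linter.unusedSectionVars false
set_option linter.unusedSimpArgs false
set_option linter.unusedVariables false
set_option linter.style.haveILetI false

namespace Cfsg.Agent.Lib.Classical.Elusive.SlU

open Polynomial Module Matrix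
open Cfsg.Agent.Lib.Classical.Elusive.Inv Cfsg.Agent.Lib.Classical.Elusive.SpCore
  Cfsg.Agent.Lib.Classical.Elusive.TensorMain Cfsg.Agent.Lib.Classical.Elusive.SlSp
open Cfsg.Agent.Lib.Classical.Herm.Basic Cfsg.Agent.Lib.Classical.Herm.GU
open Cfsg.Agent.Lib.Classical.Asch.Forms
open Cfsg.Agent.Lib.Classical.Asch.NotSU2 (exists_gram_normal)
open Cfsg.Agent.Lib.Classical.Herm.PSLGraphField (sigE sigE_apply)
open Cfsg.Agent.Lib.Linalg.Bridge

universe u

variable {F : Type u} [Field F] [Fintype F] {q₀ n : ℕ} {f : (Fin n → F) → (Fin n → F) → F}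

theorem add_right (hF : Fintype.card F = q₀ ^ 2) (hf : Cfsg.Geo.IsUnitaryFormPow q₀ f) (v x y : Fin n → F) :
    f v (x + y) = f v x + f v y := by
  rw [hf.herm v (x + y), hf.add_left, pow_q_add hF, ← hf.herm, ← hf.herm]

theorem smul_right (hf : Cfsg.Geo.IsUnitaryFormPow q₀ f) (c : F) (v x : Fin n → F) :
    f v (c • x) = c ^ q₀ * f v x := by
  rw [hf.herm v (c • x), hf.smul_left, mul_pow, ← hf.herm]

theorem zero_left (hf : Cfsg.Geo.IsUnitaryFormPow q₀ f) (v : Fin n → F) : f 0 v = 0 := by
  have := hf.smul_left 0 0 v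
  rwa [smul_zero, zero_mul] at this

theorem zero_right (hF : Fintype.card F = q₀ ^ 2) (hf : Cfsg.Geo.IsUnitaryFormPow q₀ f) (v : Fin n → F) : f v 0 = 0 := by
  have := add_right hF hf v 0 0
  rw [add_zero] at this
  exact left_eq_add.mp this

theorem sub_left (hf : Cfsg.Geo.IsUnitaryFormPow q₀ f) (x y v : Fin n → F) : f (x - y) v = f x v - f y v := by
  rw [sub_eq_add_neg, hf.add_left, ← neg_one_smul F y, hf.smul_left]
  ring

theorem sum_right (hF : Fintype.card F = q₀ ^ 2) (hf : Cfsg.Geo.IsUnitaryFormPow q₀ f) {ι : Type*} (s : Finset ι) (c : ι → F)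
    (x : ι → Fin n → F) (v : Fin n → F) : f v (∑ i ∈ s, c i • x i) = ∑ i ∈ s, c i ^ q₀ * f v (x i) := by
  classical
  induction s using Finset.induction_on with
  | empty => simp [zero_right hF hf]
  | insert a s ha ih => rw [Finset.sum_insert ha, Finset.sum_insert ha, add_right hF hf, smul_right hf, ih]

theorem sum_left (hf : Cfsg.Geo.IsUnitaryFormPow q₀ f) {ι : Type*} (s : Finset ι) (c : ι → F)
    (x : ι → Fin n → F) (v : Fin n → F) : f (∑ i ∈ s, c i • x i) v = ∑ i ∈ s, c i * f (x i) v := by
  classical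
  induction s using Finset.induction_on with
  | empty => simp [zero_left hf]
  | insert a s ha ih => rw [Finset.sum_insert ha, Finset.sum_insert ha, hf.add_left, hf.smul_left, ih]

theorem isSesq (hF : Fintype.card F = q₀ ^ 2) (hf : Cfsg.Geo.IsUnitaryFormPow q₀ f) :
    IsSesq ((sigE hF : F ≃+* F) : F →+* F) f :=
  { add_left := hf.add_left
    smul_left := hf.smul_left
    add_right := add_right hF hf
    smul_right := fun c v x => by
      rw [smul_right hf]
      rfl }

/-- A unitary form is equivalent to the standard one. -/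
theorem exists_normal (hF : Fintype.card F = q₀ ^ 2) (hf : Cfsg.Geo.IsUnitaryFormPow q₀ f) :
    ∃ P : GL (Fin n) F, ∀ u v, f ((P : Matrix (Fin n) (Fin n) F) *ᵥ u) ((P : Matrix (Fin n) (Fin n) F) *ᵥ v) = Cfsg.hermForm n F q₀ u v := by
  classical
  obtain ⟨T, hT⟩ := exists_gram_normal hF hf
  refine ⟨T, fun u v => ?_⟩
  have hs := isSesq hF hf
  rw [hs.eq_sesqM, sesqM_mulVec]
  have h1 : (T : Matrix (Fin n) (Fin n) F)ᵀ * gram f * (T : Matrix (Fin n) (Fin n) F).map ((sigE hF : F ≃+* F) : F →+* F) = 1 := hT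
  rw [h1]
  simp only [sesqM, Matrix.one_mulVec, hermForm_apply, dotProduct, Function.comp_apply]
  rfl

/-- The multiplier is fixed by the field automorphism. -/
theorem mult_fixed (hf : Cfsg.Geo.IsUnitaryFormPow q₀ f) (hn : 0 < n) {T : Module.End F (Fin n → F)} {c : F}
    (hT : ∀ u v, f (T u) (T v) = c * f u v) : c ^ q₀ = c := by
  classical
  let v : Fin n → F := Pi.single ⟨0, hn⟩ 1
  have hv : v ≠ 0 := by
    intro h
    have := congrFun h ⟨0, hn⟩
    simp [v] at this
  obtain ⟨x, hx⟩ := (hf.nondegenerate v hv).1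
  have h1 := hT x v
  rw [hf.herm, hT, mul_pow, ← hf.herm] at h1
  exact mul_right_cancel₀ hx h1

theorem sim_pow {T : Module.End F (Fin n → F)} {c : F}
    (hT : ∀ u v, f (T u) (T v) = c * f u v) (k : ℕ) (u v : Fin n → F) : f ((T ^ k) u) ((T ^ k) v) = c ^ k * f u v := by
  induction k generalizing u v with
  | zero => simp
  | succ k ih =>
    rw [pow_succ, Module.End.mul_apply, Module.End.mul_apply, ih, hT, pow_succ, mul_assoc]

/-- The orthogonal complement has the expected dimension. -/
theorem perp_le (hF : Fintype.card F = q₀ ^ 2) (hf : Cfsg.Geo.IsUnitaryFormPow q₀ f) (R E : Submodule F (Fin n → F))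
    (h : ∀ w ∈ R, ∀ u ∈ E, f w u = 0) : finrank F R + finrank F E ≤ n := by
  classical
  let b := Module.finBasis F E
  let Φ : (Fin n → F) →ₗ[F] (Fin (finrank F E) → F) :=
    { toFun := fun w i => f w (b i : Fin n → F)
      map_add' := fun u v => by
        funext i
        simp [hf.add_left]
      map_smul' := fun a v => by
        funext i
        simp [hf.smul_left] }
  have hΦ : ∀ w i, Φ w i = f w (b i : Fin n → F) := fun _ _ => rfl
  have hR : R ≤ LinearMap.ker Φ := by
    intro w hw
    rw [LinearMap.mem_ker]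
    funext i
    rw [hΦ]
    exact h w hw _ (b i).2
  have hrange : LinearMap.range Φ = ⊤ := by
    by_contra hne
    obtain ⟨g, hg, hle⟩ := Submodule.exists_le_ker_of_lt_top _ (lt_top_iff_ne_top.mpr hne)
    let α : Fin (finrank F E) → F := fun i => g (Pi.single i 1)
    have hgα : ∀ y, g y = ∑ i, y i * α i := by
      intro y
      have h1 := LinearMap.pi_apply_eq_sum_univ g y
      rw [h1]
      refine Finset.sum_congr rfl fun i _ => ?_
      rw [smul_eq_mul]
      congr 2
      funext j
      simp [Pi.single_apply, eq_comm]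
    let v : Fin n → F := ∑ i, (α i) ^ q₀ • (b i : Fin n → F)
    have hv : v = 0 := by
      by_contra hv0
      obtain ⟨x, hx⟩ := (hf.nondegenerate v hv0).1
      apply hx
      simp only [v]
      rw [sum_right hF hf]
      have h3 : g (Φ x) = 0 := hle ⟨x, rfl⟩
      rw [hgα] at h3
      rw [← h3]
      refine Finset.sum_congr rfl fun i _ => ?_
      rw [pow_q_pow_q hF, hΦ, mul_comm]
    have hv' : ∑ i, (α i) ^ q₀ • b i = 0 := by
      apply Subtype.ext
      simpa using hv
    have hα : ∀ i, (α i) ^ q₀ = 0 := by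
      have hli := b.linearIndependent
      rw [Fintype.linearIndependent_iff] at hli
      exact hli _ hv'
    apply hg
    apply LinearMap.ext
    intro y
    rw [hgα]
    simp only [LinearMap.zero_apply]
    apply Finset.sum_eq_zero
    intro i _
    have h4 : α i = 0 := by
      have := hα i
      have h5 : 0 < q₀ := by
        have := two_le_q hF
        omega
      exact pow_eq_zero_iff h5.ne' |>.mp this
    rw [h4, mul_zero]
  have h1 := LinearMap.finrank_range_add_finrank_ker Φ
  rw [hrange, finrank_top, Module.finrank_fintype_fun_eq_card, Module.finrank_fintype_fun_eq_card, Fintype.card_fin, Fintype.card_fin] at h1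
  have h3 := Submodule.finrank_mono hR
  omega

theorem eig_le (hF : Fintype.card F = q₀ ^ 2) (hf : Cfsg.Geo.IsUnitaryFormPow q₀ f) {T : Module.End F (Fin n → F)} {c a : F} (ha : a ≠ 0)
    (hT : ∀ u v, f (T u) (T v) = c * f u v) : Eig T a ≤ Eig T (c / a ^ q₀) := by
  classical
  set b := c / a ^ q₀ with hb
  have h0 : a ^ q₀ ≠ 0 := pow_ne_zero _ ha
  have horth : ∀ w ∈ LinearMap.range (T - b • (1 : Module.End F (Fin n → F))), ∀ u ∈ LinearMap.ker (T - a • (1 : Module.End F (Fin n → F))), f w u = 0 := by
    rintro _ ⟨w, rfl⟩ u hu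
    have hu' : T u = a • u := by
      have := LinearMap.mem_ker.1 hu
      simpa [sub_eq_zero] using this
    have h1 := hT w u
    rw [hu', smul_right hf] at h1
    simp only [LinearMap.sub_apply, LinearMap.smul_apply, Module.End.one_apply]
    rw [sub_left hf, hf.smul_left, hb]
    field_simp
    linear_combination h1
  have h1 := perp_le hF hf _ _ horth
  have h3 := LinearMap.finrank_range_add_finrank_ker (T - b • (1 : Module.End F (Fin n → F)))
  rw [Module.finrank_fintype_fun_eq_card, Fintype.card_fin] at h3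
  unfold Eig
  omega

/-- The pairing of eigenvalues of a similarity. -/
theorem eig_eq (hF : Fintype.card F = q₀ ^ 2) (hf : Cfsg.Geo.IsUnitaryFormPow q₀ f) (hn : 0 < n) {T : Module.End F (Fin n → F)} {c a : F} (hc : c ≠ 0) (ha : a ≠ 0)
    (hT : ∀ u v, f (T u) (T v) = c * f u v) : Eig T a = Eig T (c / a ^ q₀) := by
  apply le_antisymm (eig_le hF hf ha hT)
  have h0 : a ^ q₀ ≠ 0 := pow_ne_zero _ ha
  have h1 := eig_le hF hf (div_ne_zero hc h0) hT
  have h2 : c / (c / a ^ q₀) ^ q₀ = a := by
    rw [div_pow, mult_fixed hf hn hT, pow_q_pow_q hF]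
    field_simp
  rwa [h2] at h1

/-- The kernel of the cyclotomic factor is nondegenerate. -/
theorem ker_nd (hF : Fintype.card F = q₀ ^ 2) (hf : Cfsg.Geo.IsUnitaryFormPow q₀ f) {T : Module.End F (Fin n → F)}
    (hI : ∀ u v, f (T u) (T v) = f u v) {r : ℕ} (hr : (r : F) ≠ 0) (hT : T ^ r = 1) {u : Fin n → F} (hu : u ∈ Ker T r) (hu0 : u ≠ 0) :
    ∃ v ∈ Ker T r, f u v ≠ 0 := by
  have hpow : ∀ (a : Fin n → F), a ∈ Fix T → ∀ (k : ℕ) (b : Fin n → F), f a ((T ^ k) b) = f a b := by
    intro a ha k b
    have ha' : T a = a := mem_Fix.1 ha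
    induction k with
    | zero => simp
    | succ k ih =>
      rw [pow_succ', Module.End.mul_apply, ← ih]
      nth_rewrite 1 [← ha']
      exact hI _ _
  have horth : ∀ a ∈ Fix T, ∀ b ∈ Ker T r, f a b = 0 := by
    intro a ha b hb
    have h2 : f a (Polynomial.aeval T (Phi F r) b) = (r : F) * f a b := by
      unfold Phi
      rw [map_sum, LinearMap.sum_apply]
      have h3 : ∀ (s : Finset ℕ) (g : ℕ → Fin n → F), f a (∑ i ∈ s, g i) = ∑ i ∈ s, f a (g i) := by
        intro s g
        classical
        induction s using Finset.induction_on with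
        | empty => simp [zero_right hF hf]
        | insert x s hx ih => rw [Finset.sum_insert hx, Finset.sum_insert hx, add_right hF hf, ih]
      rw [h3]
      simp only [map_pow, aeval_X, hpow a ha]
      simp
    have hb' : Polynomial.aeval T (Phi F r) b = 0 := hb
    rw [hb', zero_right hF hf] at h2
    exact (mul_eq_zero.1 h2.symm).resolve_left hr
  by_contra hcon
  push Not at hcon
  apply hu0
  by_contra hu1
  obtain ⟨x, hx⟩ := (hf.nondegenerate u hu1).2
  apply hx
  have hw : x ∈ Fix T ⊔ Ker T r := by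
    rw [sup_Fix_Ker hr hT]
    trivial
  obtain ⟨a, ha, b, hb, rfl⟩ := Submodule.mem_sup.1 hw
  rw [add_right hF hf, hcon b hb, add_zero, hf.herm, horth a ha u hu]
  have h5 : 0 < q₀ := by
    have := two_le_q hF
    omega
  exact zero_pow h5.ne'

/-- Semisimple isometries give an element of the expected order in a smaller unitary group. -/
theorem dvd_card_GU (hF : Fintype.card F = q₀ ^ 2) (hf : Cfsg.Geo.IsUnitaryFormPow q₀ f) {T : Module.End F (Fin n → F)}
    (hI : ∀ u v, f (T u) (T v) = f u v) {r : ℕ} (hrp : r.Prime) (hr : (r : F) ≠ 0) (hT : T ^ r = 1) {i : ℕ} (hi : 0 < i)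
    (hK : finrank F (Ker T r) = i) : r ∣ Nat.card (Cfsg.GU i F q₀) := by
  classical
  set W := Ker T r with hW
  have hWinv : ∀ u ∈ W, T u ∈ W := isInv_Ker T r
  let e : W ≃ₗ[F] (Fin i → F) := LinearEquiv.ofFinrankEq _ _ (by rw [hK]; simp)
  let f₁ : (Fin i → F) → (Fin i → F) → F := fun a b => f (e.symm a : Fin n → F) (e.symm b : Fin n → F)
  have hf₁ : Cfsg.Geo.IsUnitaryFormPow q₀ f₁ :=
    { add_left := fun x y v => by
        simp only [f₁, map_add, Submodule.coe_add, hf.add_left]
      smul_left := fun c x v => by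
        simp only [f₁, map_smul, Submodule.coe_smul, hf.smul_left]
      herm := fun v w => hf.herm _ _
      nondegenerate := fun a ha => by
        have h1 : ((e.symm a : W) : Fin n → F) ≠ 0 := by
          intro h
          apply ha
          have : e.symm a = 0 := Subtype.ext h
          simpa using this
        obtain ⟨v, hv, hne⟩ := ker_nd hF hf hI hr hT (e.symm a).2 h1
        refine ⟨⟨e ⟨v, hv⟩, ?_⟩, ⟨e ⟨v, hv⟩, ?_⟩⟩
        · simp only [f₁, LinearEquiv.symm_apply_apply]
          rw [hf.herm]
          intro h0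
          exact hne (pow_eq_zero_iff (by have := two_le_q hF; omega) |>.mp h0)
        · simp only [f₁, LinearEquiv.symm_apply_apply]
          exact hne }
  obtain ⟨P, hP⟩ := exists_normal hF hf₁
  let L : (Fin i → F) ≃ₗ[F] W := (equivOfGL P).trans e.symm
  have hL : ∀ a b, f (L a : Fin n → F) (L b : Fin n → F) = Cfsg.hermForm i F q₀ a b := fun a b => hP a b
  let T' : Module.End F W := T.restrict hWinv
  have hT' : ∀ u : W, ((T' u : W) : Fin n → F) = T u := fun u => rfl
  let M : Module.End F (Fin i → F) := L.symm.toLinearMap ∘ₗ T' ∘ₗ L.toLinearMap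
  have hM : ∀ a, L (M a) = T' (L a) := fun a => by simp [M]
  have hMpow : ∀ k a, L ((M ^ k) a) = (T' ^ k) (L a) := conj_pow' L.symm.symm hM
  have hMr : M ^ r = 1 := by
    apply LinearMap.ext
    intro a
    apply L.injective
    rw [hMpow]
    have h1 : ∀ (k : ℕ) (u : W), (((T' ^ k) u : W) : Fin n → F) = (T ^ k) u := by
      intro k u
      induction k generalizing u with
      | zero => simp
      | succ k ih => rw [pow_succ, pow_succ, Module.End.mul_apply, Module.End.mul_apply, ih, hT']
    apply Subtype.ext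
    rw [h1, hT]
    rfl
  have hM1 : M ≠ 1 := by
    intro h
    have hWbot : W = ⊥ := by
      rw [eq_bot_iff]
      intro u hu
      have h1 : u ∈ Fix T := by
        rw [mem_Fix]
        have h3 := hM (L.symm ⟨u, hu⟩)
        rw [h] at h3
        simp only [Module.End.one_apply, LinearEquiv.apply_symm_apply] at h3
        have h4 := congrArg Subtype.val h3
        rw [hT'] at h4
        exact h4.symm
      have h5 := Fix_inf_Ker (y := T) hr
      rw [← h5]
      exact ⟨h1, hu⟩
    rw [hWbot, finrank_bot] at hK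
    omega
  have hP' : Preserves q₀ (LinearMap.toMatrix' M) := by
    intro a b
    rw [LinearMap.toMatrix'_mulVec, LinearMap.toMatrix'_mulVec, ← hL, ← hL, hM, hM]
    exact hI _ _
  let g : Cfsg.GU i F q₀ := ⟨glOfPreserves hF _ hP', glOfPreserves_mem hF _ hP'⟩
  have hgval : ((g : GL (Fin i) F) : Matrix (Fin i) (Fin i) F) = LinearMap.toMatrix' M := rfl
  have hgT : Matrix.toLin' ((g : GL (Fin i) F) : Matrix (Fin i) (Fin i) F) = M := by
    rw [hgval, Matrix.toLin'_toMatrix']
  have hgr : g ^ r = 1 := by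
    apply Subtype.ext
    apply Units.ext
    apply Matrix.toLin'.injective
    show Matrix.toLin' (((g ^ r : Cfsg.GU i F q₀) : GL (Fin i) F) : Matrix (Fin i) (Fin i) F) = _
    have : (((g ^ r : Cfsg.GU i F q₀) : GL (Fin i) F) : Matrix (Fin i) (Fin i) F) = ((g : GL (Fin i) F) : Matrix (Fin i) (Fin i) F) ^ r := by
      simp
    rw [this, Matrix.toLin'_pow, hgT, hMr]
    simp [Matrix.toLin'_one, Module.End.one_eq_id]
  have hg1 : g ≠ 1 := by
    intro h
    apply hM1
    rw [← hgT, h]
    simp [Matrix.toLin'_one, Module.End.one_eq_id]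
  haveI : Fact r.Prime := ⟨hrp⟩
  have hord : orderOf g = r := orderOf_eq_prime hgr hg1
  rw [← hord]
  exact orderOf_dvd_natCard g

end Cfsg.Agent.Lib.Classical.Elusive.SlU
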