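import Mathlib
import Cfsg.Agent.Lib.Classical.Elusive.SpHerm
import Cfsg.Agent.Lib.Classical.Elusive.SpImprimMain
import Cfsg.Agent.Lib.Classical.Elusive.SpPairs

/-!
# Hermitian structures normalized by elements whose square is a scalar
-/

set_option autoImplicit false
set_option linter.unusedSectionVars false
set_option linter.unusedSimpArgs false
set_option linter.unusedVariables false
set_option linter.style.haveILetI false

namespace Cfsg.Agent.Lib.Classical.Elusive.SpHermInv

open Polynomial Module Matrix
open Cfsg.Agent.Lib.Classical.Elusive.Inv Cfsg.Agent.Lib.Classical.Elusive.SpCore Cfsg.Agent.Lib.Classical.Elusive.SpAtoms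
  Cfsg.Agent.Lib.Classical.Elusive.SpImprim Cfsg.Agent.Lib.Classical.Elusive.SpHerm
open Cfsg.Agent.Lib.Classical.Symp.Basic Cfsg.Agent.Lib.Classical.Symp.SpGL

section OnSub

variable {F V : Type*} [Field F] [AddCommGroup V] [Module F V] [FiniteDimensional F V]
  {B : LinearMap.BilinForm F V} {ν : F}

/-- A structure on any nondegenerate subspace. -/
theorem exists_str_on (hA : B.IsAlt) {Y : Submodule F V} (hY : Nd B Y) (ν : F) :
    ∃ J : Y →ₗ[F] Y, (∀ v, J (J v) = ν • v) ∧ ∀ u v : Y, B (J u : V) (v : V) = - B (u : V) (J v : V) := by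
  obtain ⟨m, hm⟩ := hY.even hA
  obtain ⟨e, he⟩ := Cfsg.Agent.Lib.Classical.Symp.SympBasis.exists_sympEquiv (B.restrict Y) (fun u => hA u) (hY.restrict hA) (k := m)
    (by rw [hm]; ring)
  let J : Y →ₗ[F] Y := e.symm.toLinearMap ∘ₗ (stdI m ν) ∘ₗ e.toLinearMap
  have hJ : ∀ v, J v = e.symm (stdI m ν (e v)) := fun v => rfl
  refine ⟨J, fun v => ?_, fun u v => ?_⟩
  · rw [hJ, hJ, LinearEquiv.apply_symm_apply, (stdI_isStr m ν).sq, map_smul, LinearEquiv.symm_apply_apply]
  · have h1 : ∀ a b : Y, B (a : V) (b : V) = sympBilin m F (e a) (e b) := fun a b => (he a b).symm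
    rw [h1, h1, hJ, hJ, LinearEquiv.apply_symm_apply, LinearEquiv.apply_symm_apply, (stdI_isStr m ν).adj]

end OnSub

section Main

variable {F : Type*} [Field F] [Fintype F] {d : ℕ} {ν : F}

theorem exists_mul_sq (h2 : (2 : F) ≠ 0) {a b : F} (ha : ¬ IsSquare a) (hb : ¬ IsSquare b) : ∃ c, c * c = a * b := by
  classical
  have hch : ringChar F ≠ 2 := by
    intro h
    have h3 : CharP F 2 := by
      rw [← h]
      exact ringChar.charP F
    exact h2 (CharTwo.two_eq_zero)
  have ha0 := ne_zero_of_not_square ha
  have hb0 := ne_zero_of_not_square hb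
  have h3 : quadraticChar F (a * b) = 1 := by
    rw [map_mul, (quadraticChar_neg_one_iff_not_isSquare).2 ha, (quadraticChar_neg_one_iff_not_isSquare).2 hb]
    norm_num
  obtain ⟨c, hc⟩ := (quadraticChar_one_iff_isSquare (mul_ne_zero ha0 hb0)).1 h3
  exact ⟨c, hc.symm⟩

/-- Structures normalized by an isometry whose square is a scalar. -/
theorem exists_str_of_sq (h2 : (2 : F) ≠ 0) (hν : ¬ IsSquare ν) (hd : 0 < d) (T : Module.End F (Fin d ⊕ Fin d → F))
    (hI : ∀ u v, sympBilin d F (T u) (T v) = sympBilin d F u v) {z : F} (hT : ∀ v, T (T v) = z • v) :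
    ∃ (ι : Module.End F (Fin d ⊕ Fin d → F)) (ε : F), (ε = 1 ∨ ε = -1) ∧ IsStr (sympBilin d F) ν ι ∧ ∀ v, T (ι v) = ε • ι (T v) := by
  classical
  have hA : (sympBilin d F).IsAlt := sympBilin_isAlt
  have hN : (sympBilin d F).Nondegenerate := sympBilin_nondegenerate
  have hzz : z * z = 1 := by
    obtain ⟨u, v, huv⟩ := SpImprimMain.exists_form_ne (F := F) hd
    have h3 := hI (T u) (T v)
    rw [hT, hT, hI, map_smul, map_smul, LinearMap.smul_apply, smul_smul, smul_eq_mul] at h3
    have h5 : (z * z - 1) * sympBilin d F u v = 0 := by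
      rw [sub_mul, h3, one_mul, sub_self]
    exact sub_eq_zero.1 ((mul_eq_zero.1 h5).resolve_right huv)
  rcases mul_self_eq_one_iff.1 hzz with rfl | rfl
  · -- an involution: split into the two eigenspaces
    simp only [one_smul] at hT
    have hr : ((2 : ℕ) : F) ≠ 0 := by
      push_cast
      exact h2
    have hy : T ^ 2 = 1 := by
      apply LinearMap.ext
      intro v
      rw [_root_.sq, Module.End.mul_apply, hT]
      rfl
    have hNdS : Nd (sympBilin d F) (Fix T) := fun u hu h0 => fix_nondeg hA hN hI hr hy hu h0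
    have hNdR : Nd (sympBilin d F) (Ker T 2) := fun u hu h0 => ker_nondeg hA hN hI hr hy hu h0
    have hc : IsCompl (Fix T) (Ker T 2) :=
      ⟨disjoint_iff.2 (Fix_inf_Ker hr), codisjoint_iff.2 (sup_Fix_Ker hr hy)⟩
    obtain ⟨JS, hS1, hS2⟩ := exists_str_on hA hNdS ν
    obtain ⟨JR, hR1, hR2⟩ := exists_str_on hA hNdR ν
    let ι : Module.End F (Fin d ⊕ Fin d → F) :=
      LinearMap.ofIsCompl hc ((Fix T).subtype ∘ₗ JS) ((Ker T 2).subtype ∘ₗ JR)
    have hιS : ∀ s : Fix T, ι s = JS s := fun s => LinearMap.ofIsCompl_apply_left hc s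
    have hιR : ∀ s : Ker T 2, ι s = JR s := fun s => LinearMap.ofIsCompl_apply_right hc s
    have hdec : ∀ v, ∃ (s : Fix T) (t : Ker T 2), v = (s : Fin d ⊕ Fin d → F) + (t : Fin d ⊕ Fin d → F) := by
      intro v
      have h3 : v ∈ Fix T ⊔ Ker T 2 := by
        rw [hc.sup_eq_top]
        exact Submodule.mem_top
      obtain ⟨s, hs, t, ht, rfl⟩ := Submodule.mem_sup.1 h3
      exact ⟨⟨s, hs⟩, ⟨t, ht⟩, rfl⟩
    have hTs : ∀ s : Fix T, T s = s := fun s => mem_Fix.1 s.2
    have hTt : ∀ t : Ker T 2, T t = - t := by
      intro t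
      have h3 := mem_Ker.1 t.2
      simp [Phi, Finset.sum_range_succ] at h3
      exact eq_neg_of_add_eq_zero_right h3
    have horth : ∀ (s : Fix T) (t : Ker T 2), sympBilin d F s t = 0 := fun s t => orth_Fix_Ker hI hr s.2 t.2
    have horth' : ∀ (s : Fix T) (t : Ker T 2), sympBilin d F t s = 0 := fun s t => swap_zero hA (horth s t)
    refine ⟨ι, 1, Or.inl rfl, ⟨fun v => ?_, fun u v => ?_⟩, fun v => ?_⟩
    · obtain ⟨s, t, rfl⟩ := hdec v
      rw [map_add, map_add, hιS, hιR, hιS, hιR, hS1, hR1, smul_add]
      rfl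
    · obtain ⟨s, t, rfl⟩ := hdec u
      obtain ⟨s', t', rfl⟩ := hdec v
      simp only [map_add, LinearMap.add_apply, hιS, hιR, horth, horth', hS2, hR2]
      ring
    · obtain ⟨s, t, rfl⟩ := hdec v
      rw [map_add ι, hιS, hιR, map_add T, hTs, hTt, map_add T, hTs, hTt, map_add ι, map_neg, hιS, hιR, one_smul]
  · -- the square is `-1`
    by_cases hi : IsSquare (-1 : F)
    · obtain ⟨i, hi⟩ := hi
      have hii : i * i = -1 := hi.symm
      have hi0 : i ≠ 0 := by
        rintro rfl
        rw [mul_zero] at hii
        exact h2 (by linear_combination 2 * hii)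
      let U : Submodule F (Fin d ⊕ Fin d → F) := LinearMap.ker (T - i • 1)
      let W : Submodule F (Fin d ⊕ Fin d → F) := LinearMap.ker (T + i • 1)
      have hU : ∀ {v}, v ∈ U ↔ T v = i • v := by
        intro v
        show (T - i • 1) v = 0 ↔ _
        simp [sub_eq_zero]
      have hW : ∀ {v}, v ∈ W ↔ T v = (-i) • v := by
        intro v
        show (T + i • 1) v = 0 ↔ _
        simp [add_eq_zero_iff_eq_neg]
      have hcUW : IsCompl U W := by
        constructor
        · rw [Submodule.disjoint_def]
          intro v h3 h4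
          have h5 := hU.1 h3
          rw [hW.1 h4] at h5
          have h6 : (2 * i) • v = 0 := by
            rw [show (2 : F) * i = i - (-i) by ring, sub_smul, ← h5, sub_self]
          exact (smul_eq_zero.1 h6).resolve_left (mul_ne_zero h2 hi0)
        · rw [codisjoint_iff, eq_top_iff]
          intro v _
          let a : F := (2 : F)⁻¹
          have ha : a + a = 1 := by
            show (2 : F)⁻¹ + (2 : F)⁻¹ = 1
            rw [← two_mul, mul_inv_cancel₀ h2]
          have h3 : a • v - (a * i) • T v ∈ U := by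
            apply hU.2
            simp only [map_sub, map_smul, hT, smul_sub, smul_smul]
            have e1 : a * i * (-1 : F) = -(i * a) := by ring
            have e2 : i * (a * i) = -a := by linear_combination a * hii
            rw [e1, e2]
            simp only [neg_smul, sub_neg_eq_add]
            rw [add_comm]
          have h4 : a • v + (a * i) • T v ∈ W := by
            apply hW.2
            simp only [map_add, map_smul, hT, smul_add, smul_smul]
            have e1 : a * i * (-1 : F) = -i * a := by ring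
            have e2 : -i * (a * i) = a := by linear_combination (-a) * hii
            rw [e1, e2]
            rw [add_comm]
          have h5 : v = (a • v - (a * i) • T v) + (a • v + (a * i) • T v) := by
            rw [sub_add_add_cancel, ← add_smul, ha, one_smul]
          rw [h5]
          exact Submodule.add_mem_sup h3 h4
      have htU : ∀ u ∈ U, ∀ v ∈ U, Cfsg.sympForm d F u v = 0 := by
        intro u hu v hv
        have h3 := hI u v
        rw [hU.1 hu, hU.1 hv, map_smul, map_smul, LinearMap.smul_apply, smul_smul, smul_eq_mul, hii] at h3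
        have h4 : (2 : F) * sympBilin d F u v = 0 := by
          linear_combination -h3
        exact (mul_eq_zero.1 h4).resolve_left h2
      have htW : ∀ u ∈ W, ∀ v ∈ W, Cfsg.sympForm d F u v = 0 := by
        intro u hu v hv
        have h3 := hI u v
        rw [hW.1 hu, hW.1 hv, map_smul, map_smul, LinearMap.smul_apply, smul_smul, smul_eq_mul] at h3
        have h4 : (2 : F) * sympBilin d F u v = 0 := by
          have h5 : -i * -i = -1 := by linear_combination hii
          rw [h5] at h3
          linear_combination -h3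
        exact (mul_eq_zero.1 h4).resolve_left h2
      let P : SpPairs.Pairs d F := ⟨(U, W), hcUW, htU, htW⟩
      obtain ⟨g, hg⟩ := SpPairs.exists_smul_P₀ P
      have hg1 : (SpPairs.U₀ d F).map (spToLin g : (Fin d ⊕ Fin d → F) →ₗ[F] (Fin d ⊕ Fin d → F)) = U := by
        have := congrArg (fun Q : SpPairs.Pairs d F => Q.1.1) hg
        exact this
      have hg2 : (SpPairs.W₀ d F).map (spToLin g : (Fin d ⊕ Fin d → F) →ₗ[F] (Fin d ⊕ Fin d → F)) = W := by
        have := congrArg (fun Q : SpPairs.Pairs d F => Q.1.2) hg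
        exact this
      let e := spToLin g
      let ι : Module.End F (Fin d ⊕ Fin d → F) := e.toLinearMap ∘ₗ (stdI d ν) ∘ₗ e.symm.toLinearMap
      have hι : ∀ v, ι v = e (stdI d ν (e.symm v)) := fun v => rfl
      have heF : ∀ a b, sympBilin d F (e a) (e b) = sympBilin d F a b := SpImprimDec.spToLin_form g
      have heF' : ∀ a b, sympBilin d F (e a) b = sympBilin d F a (e.symm b) := by
        intro a b
        rw [← heF a (e.symm b), LinearEquiv.apply_symm_apply]
      have heF'' : ∀ a b, sympBilin d F a (e b) = sympBilin d F (e.symm a) b := by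
        intro a b
        rw [← heF (e.symm a) b, LinearEquiv.apply_symm_apply]
      have hιU : ∀ u ∈ U, ι u ∈ W := by
        intro u hu
        rw [← hg1] at hu
        obtain ⟨a, ha, rfl⟩ := hu
        rw [hι]
        have h3 : e.symm (e a) = a := e.symm_apply_apply a
        have h4 : e.symm ((spToLin g : (Fin d ⊕ Fin d → F) →ₗ[F] (Fin d ⊕ Fin d → F)) a) = a := h3
        rw [h4, ← hg2]
        refine ⟨stdI d ν a, ?_, rfl⟩
        intro k
        exact ha k
      have hιW : ∀ u ∈ W, ι u ∈ U := by
        intro u hu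
        rw [← hg2] at hu
        obtain ⟨a, ha, rfl⟩ := hu
        rw [hι]
        have h3 : e.symm (e a) = a := e.symm_apply_apply a
        have h4 : e.symm ((spToLin g : (Fin d ⊕ Fin d → F) →ₗ[F] (Fin d ⊕ Fin d → F)) a) = a := h3
        rw [h4, ← hg1]
        refine ⟨stdI d ν a, ?_, rfl⟩
        intro k
        show ν * a (Sum.inl k) = 0
        rw [show a (Sum.inl k) = 0 from ha k, mul_zero]
      refine ⟨ι, -1, Or.inr rfl, ⟨fun v => ?_, fun u v => ?_⟩, fun v => ?_⟩
      · rw [hι, hι, LinearEquiv.symm_apply_apply, (stdI_isStr d ν).sq, map_smul, LinearEquiv.apply_symm_apply]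
      · rw [hι, hι, heF', heF'', (stdI_isStr d ν).adj]
      · have h3 : v ∈ U ⊔ W := by
          rw [hcUW.sup_eq_top]
          exact Submodule.mem_top
        obtain ⟨u, hu, w, hw, rfl⟩ := Submodule.mem_sup.1 h3
        rw [map_add, map_add, map_add, hU.1 hu, hW.1 hw, hW.1 (hιU u hu), hU.1 (hιW w hw), map_add, map_smul, map_smul]
        simp only [neg_smul, one_smul, smul_neg, neg_neg, neg_add_rev]
        rw [add_comm]
    · obtain ⟨s, hs⟩ := exists_mul_sq h2 hi hν
      refine ⟨s • T, 1, Or.inl rfl, ⟨fun v => ?_, fun u v => ?_⟩, fun v => ?_⟩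
      · show s • T (s • T v) = _
        rw [map_smul, hT, smul_smul, smul_smul, hs]
        congr 1
        ring
      · show sympBilin d F (s • T u) v = - sympBilin d F u (s • T v)
        have h3 : sympBilin d F (T u) v = - sympBilin d F u (T v) := by
          have h4 := hI u (T v)
          rw [hT] at h4
          simp only [neg_one_smul, map_neg] at h4
          rw [← h4, neg_neg]
        rw [map_smul, map_smul, LinearMap.smul_apply, h3]
        simp
      · show T (s • T v) = (1 : F) • (s • T (T v))
        rw [map_smul, one_smul]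

end Main

end Cfsg.Agent.Lib.Classical.Elusive.SpHermInv
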