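import Mathlib
import Cfsg.Agent.Lib.Classical.Elusive.SpHermInv

/-!
# Elements of odd prime order without compatible hermitian structures
-/

set_option autoImplicit false
set_option linter.unusedSectionVars false
set_option linter.unusedSimpArgs false
set_option linter.unusedVariables false
set_option linter.style.haveILetI false

namespace Cfsg.Agent.Lib.Classical.Elusive.SpHermNo

open Polynomial Module
open Cfsg.Agent.Lib.Classical.Elusive.Inv Cfsg.Agent.Lib.Classical.Elusive.SpCore Cfsg.Agent.Lib.Classical.Elusive.SpAtoms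
  Cfsg.Agent.Lib.Classical.Elusive.SpImprim Cfsg.Agent.Lib.Classical.Elusive.SpHerm

section Basic

variable {F V : Type*} [Field F] [AddCommGroup V] [Module F V] [FiniteDimensional F V]
  {B : LinearMap.BilinForm F V} {y ι : Module.End F V} {ν : F} {r : ℕ}

theorem pow_comm (hcomm : ∀ v, y (ι v) = ι (y v)) (n : ℕ) (v : V) : (y ^ n) (ι v) = ι ((y ^ n) v) := by
  induction n with
  | zero => simp
  | succ n ih =>
    rw [pow_succ', Module.End.mul_apply, ih, hcomm, Module.End.mul_apply]

theorem aeval_comm (hcomm : ∀ v, y (ι v) = ι (y v)) (P : F[X]) (v : V) :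
    Polynomial.aeval y P (ι v) = ι (Polynomial.aeval y P v) := by
  induction P using Polynomial.induction_on' with
  | add p q hp hq =>
    simp only [map_add, LinearMap.add_apply, hp, hq]
  | monomial n a =>
    rw [aeval_monomial, Module.algebraMap_end_eq_smul_id]
    simp only [Module.End.mul_apply, LinearMap.smul_apply, LinearMap.id_apply, pow_comm hcomm, map_smul]

theorem ker_inv_of_comm (hcomm : ∀ v, y (ι v) = ι (y v)) : IsInv ι (Ker y r) := by
  intro v hv
  rw [mem_Ker] at hv ⊢
  rw [aeval_comm hcomm, hv, map_zero]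

theorem aeval_swap (P Q : F[X]) (v : V) :
    Polynomial.aeval y P (Polynomial.aeval y Q v) = Polynomial.aeval y Q (Polynomial.aeval y P v) := by
  rw [← Module.End.mul_apply, ← Module.End.mul_apply, ← map_mul, ← map_mul, mul_comm]

/-- An invariant subspace of a structure has even dimension. -/
theorem even_of_inv (hν : ¬ IsSquare ν) (hι : IsStr B ν ι) {U : Submodule F V} (hU : IsInv ι U) : Even (finrank F U) := by
  have hirr : Irreducible (X ^ 2 - C ν : F[X]) :=
    X_pow_sub_C_irreducible_of_prime Nat.prime_two (fun b hb => hν ⟨b, by rw [← hb]; ring⟩)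
  have hfac : ∀ d : F[X], Irreducible d → d ∣ (X ^ 2 - C ν : F[X]) → d.natDegree = 2 := by
    intro d hd hdvd
    have h10 := hd.associated_of_dvd hirr hdvd
    rw [natDegree_eq_of_degree_eq (degree_eq_degree_of_associated h10)]
    exact natDegree_X_pow_sub_C
  have h1 : 2 ∣ finrank F U := dvd_finrank hU hirr.ne_zero (by norm_num) hfac (fun v _ => by
    simp only [map_sub, map_pow, aeval_X, aeval_C, LinearMap.sub_apply, Module.End.pow_apply, Module.algebraMap_end_apply]
    simp only [Function.iterate_succ, Function.iterate_zero, Function.comp_apply, id_eq, hι.sq, sub_self])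
  exact even_iff_two_dvd.2 h1

end Basic

section Odd

variable {F V : Type*} [Field F] [Fintype F] [AddCommGroup V] [Module F V] [FiniteDimensional F V]
  {B : LinearMap.BilinForm F V} {y ι : Module.End F V} {ν : F} {r i : ℕ}

/-- The case of a block `T ⊕ ι T` of twice an odd dimension. -/
theorem no_str_odd (h2 : (2 : F) ≠ 0) (hA : B.IsAlt) (hN : B.Nondegenerate) (hI : ∀ u v, B (y u) (y v) = B u v) (hr : (r : F) ≠ 0) (hrodd : Odd r)
    (hy : y ^ r = 1) (hν : ¬ IsSquare ν) (hι : IsStr B ν ι) (hcomm : ∀ v, y (ι v) = ι (y v)) (hi : 0 < i) (hiodd : Odd i)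
    (hfac : ∀ d, Irreducible d → d ∣ Phi F r → d.natDegree = i) (hK : finrank F (Ker y r) = 2 * i) : False := by
  classical
  have hr0 : 0 < r := hrodd.pos
  have hν0 := ne_zero_of_not_square hν
  have hKne : Ker y r ≠ ⊥ := by
    intro h
    rw [h, finrank_bot] at hK
    omega
  obtain ⟨T, hT, hTK, hTd⟩ := exists_atom hr hi hfac (isInv_Ker y r) le_rfl hKne
  have hιinj : Function.Injective ι := by
    rw [injective_iff_map_eq_zero]
    intro v hv
    have h1 := hι.sq v
    rw [hv, map_zero] at h1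
    exact (smul_eq_zero.1 h1.symm).resolve_left hν0
  let T' : Submodule F V := T.map ι
  have hT'd : finrank F T' = i := by
    rw [← hTd]
    exact (LinearEquiv.finrank_eq (Submodule.equivMapOfInjective ι hιinj T)).symm
  have hT'inv : IsInv y T' := by
    rintro _ ⟨u, hu, rfl⟩
    exact ⟨y u, hT u hu, (hcomm u).symm⟩
  have hT'K : T' ≤ Ker y r := by
    rintro _ ⟨u, hu, rfl⟩
    exact ker_inv_of_comm hcomm u (hTK hu)
  have hinf : T ⊓ T' = ⊥ := by
    rcases atom_eq hr hi hfac hTK hTd (hT.inf hT'inv) (inf_le_left : T ⊓ T' ≤ T) with h | h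
    · exact h
    · exfalso
      have h1 : T ≤ T' := by
        rw [← h]
        exact inf_le_right
      have h3 : T = T' := Submodule.eq_of_le_of_finrank_eq h1 (by rw [hTd, hT'd])
      have h4 : IsInv ι T := by
        intro u hu
        rw [h3]
        exact ⟨u, hu, rfl⟩
      have h5 := even_of_inv hν hι h4
      rw [hTd] at h5
      exact (Nat.not_even_iff_odd.2 hiodd) h5
  have hsup : T ⊔ T' = Ker y r := by
    apply Submodule.eq_of_le_of_finrank_eq (sup_le hTK hT'K)
    have h1 := Submodule.finrank_sup_add_finrank_inf_eq T T'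
    rw [hinf, finrank_bot, hTd, hT'd] at h1
    omega
  have hti : ∀ u ∈ T, ∀ v ∈ T, B u v = 0 := by
    rcases atom_dich hA hI hr hr0 hy hi hfac hT hTK hTd with h | h
    · exfalso
      have h5 := h.even hA
      rw [hTd] at h5
      exact (Nat.not_even_iff_odd.2 hiodd) h5
    · exact h
  -- the alternating form
  let P : Module.End F V := y - 1
  let Q : Module.End F V := y + 1
  let B' : LinearMap.BilinForm F V := B.compl₁₂ Q (ι ∘ₗ P)
  have hB' : ∀ u v, B' u v = B (y u + u) (ι (y v - v)) := fun u v => rfl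
  have hcommB : ∀ a b, B (y a) (ι (y b)) = B a (ι b) := by
    intro a b
    rw [← hcomm, hI]
  have hA' : B'.IsAlt := by
    intro u
    rw [hB']
    simp only [map_add, map_sub, LinearMap.add_apply, hcommB]
    have h1 := hι.adj' hA (y u) u
    have h3 : B (y u) (ι u) = B u (ι (y u)) := h1.symm
    rw [h3]
    ring
  have hPinj : ∀ u ∈ T, y u - u = 0 → u = 0 := by
    intro u hu h0
    have h1 : u ∈ Fix y ⊓ Ker y r := ⟨mem_Fix.2 (sub_eq_zero.1 h0), hTK hu⟩
    rw [Fix_inf_Ker hr] at h1
    exact h1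
  have hQinj : ∀ u, y u + u = 0 → u = 0 := by
    intro u h0
    have h1 : y u = - u := eq_neg_of_add_eq_zero_left h0
    have h3 : ∀ k : ℕ, (y ^ k) u = (-1 : F) ^ k • u := by
      intro k
      induction k with
      | zero => simp
      | succ k ih =>
        rw [pow_succ', Module.End.mul_apply, ih, map_smul, h1, pow_succ']
        simp
    have h4 := h3 r
    rw [hy, hrodd.neg_one_pow] at h4
    have h5 : (2 : F) • u = 0 := by
      rw [two_smul]
      nth_rw 1 [show u = (-1 : F) • u from h4]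
      simp
    exact (smul_eq_zero.1 h5).resolve_left h2
  have hNd : Nd B' T := by
    intro u hu hu0
    have hu2 : y u + u ≠ 0 := fun h => hu0 (hQinj u h)
    have hu3 : y u + u ∈ T := T.add_mem (hT u hu) hu
    obtain ⟨w, hw, hw0⟩ := ker_nondeg hA hN hI hr hy (hTK hu3) hu2
    rw [← hsup] at hw
    obtain ⟨t, ht, _, ⟨t₂, ht₂, rfl⟩, rfl⟩ := Submodule.mem_sup.1 hw
    rw [map_add, hti _ hu3 _ ht, zero_add] at hw0
    -- surjectivity of `y - 1` on `T`
    let Pr : T →ₗ[F] T := LinearMap.restrict P (fun a ha => T.sub_mem (hT a ha) ha)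
    have hPrinj : Function.Injective Pr := by
      rw [injective_iff_map_eq_zero]
      intro a ha
      apply Subtype.ext
      exact hPinj a a.2 (congrArg Subtype.val ha)
    have hPrsurj : Function.Surjective Pr := LinearMap.injective_iff_surjective.1 hPrinj
    obtain ⟨a, ha⟩ := hPrsurj ⟨t₂, ht₂⟩
    refine ⟨a, a.2, ?_⟩
    rw [hB']
    have h3 : y a - a = t₂ := congrArg Subtype.val ha
    rw [h3]
    exact hw0
  have h5 := hNd.even hA'
  rw [hTd] at h5
  exact (Nat.not_even_iff_odd.2 hiodd) h5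

end Odd

section Even

variable {F V : Type*} [Field F] [Fintype F] [AddCommGroup V] [Module F V] [FiniteDimensional F V]
  {B : LinearMap.BilinForm F V} {y ι : Module.End F V} {ν : F} {r : ℕ} {p : ℕ} [Fact p.Prime] [CharP F p]

/-- The case of an irreducible block of dimension divisible by four. -/
theorem no_str_even (h2 : (2 : F) ≠ 0) (hA : B.IsAlt) (hN : B.Nondegenerate) (hI : ∀ u v, B (y u) (y v) = B u v) [Fact r.Prime] (hr2 : r ≠ 2) (hrp : r ≠ p)
    (hy : y ^ r = 1) (hν : ¬ IsSquare ν) (hι : IsStr B ν ι) (hcomm : ∀ v, y (ι v) = ι (y v))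
    (h4 : 4 ∣ orderOf ((Fintype.card F : ℕ) : ZMod r)) (hK : finrank F (Ker y r) = orderOf ((Fintype.card F : ℕ) : ZMod r)) : False := by
  classical
  have hrp' : r.Prime := Fact.out
  have hr : (r : F) ≠ 0 := PslNum.cast_ne_zero_of_ne hrp' hrp
  have hν0 := ne_zero_of_not_square hν
  set q := Fintype.card F with hq
  set i := orderOf ((q : ℕ) : ZMod r) with hidef
  have hfac : ∀ d : F[X], Irreducible d → d ∣ Phi F r → d.natDegree = i := PslNum.fac_Phi (p := p) rfl hrp' hrp
  obtain ⟨g₀, -, hg2, -, hg4⟩ := SpModel.exists_factor (F := F) (p := p) rfl hrp' hrp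
  have hipos : 0 < i := by
    rw [← hidef] at hg4
    rw [← hg4]
    exact hg2.natDegree_pos
  have hKne : Ker y r ≠ ⊥ := by
    intro h
    rw [h, finrank_bot] at hK
    omega
  obtain ⟨v, hv, hv0⟩ := Submodule.exists_mem_ne_zero_of_ne_bot hKne
  obtain ⟨g, hg, hgd, f, hf, hgf⟩ := exists_irr_kill (y := y) (Phi F r) (Phi_ne_zero hr) v hv0 (mem_Ker.1 hv)
  set u₁ := Polynomial.aeval y f v with hu₁
  have hu₁K : u₁ ∈ Ker y r := (isInv_Ker y r).aeval f hv
  obtain ⟨T, hTinv, hu₁T, hTd, hTmin⟩ := exists_cyclic hg hf hgf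
  have hTK : T ≤ Ker y r := hTmin _ (isInv_Ker y r) hu₁K
  have hTeq : T = Ker y r := Submodule.eq_of_le_of_finrank_eq hTK (by rw [hTd, hK]; exact hfac g hg hgd)
  let C : Submodule F V := LinearMap.range ((LinearMap.applyₗ u₁) ∘ₗ (Polynomial.aeval y : F[X] →ₐ[F] Module.End F V).toLinearMap)
  have hCmem : ∀ P : F[X], Polynomial.aeval y P u₁ ∈ C := fun P => ⟨P, rfl⟩
  have hCinv : IsInv y C := by
    rintro _ ⟨P, rfl⟩
    refine ⟨X * P, ?_⟩
    show Polynomial.aeval y (X * P) u₁ = y (Polynomial.aeval y P u₁)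
    rw [map_mul, aeval_X, Module.End.mul_apply]
  have hu₁C : u₁ ∈ C := by
    have := hCmem 1
    simpa using this
  have hKC : Ker y r ≤ C := by
    rw [← hTeq]
    exact hTmin _ hCinv hu₁C
  have hrep : ∀ w ∈ Ker y r, ∃ P : F[X], w = Polynomial.aeval y P u₁ := by
    intro w hw
    obtain ⟨P, hP⟩ := hKC hw
    exact ⟨P, hP.symm⟩
  have hιK : IsInv ι (Ker y r) := ker_inv_of_comm hcomm
  obtain ⟨h, hh⟩ := hrep _ (hιK _ hu₁K)
  let A : Module.End F V := Polynomial.aeval y h
  have hιA : ∀ w ∈ Ker y r, ι w = A w := by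
    intro w hw
    obtain ⟨P, rfl⟩ := hrep w hw
    rw [← aeval_comm hcomm, hh]
    exact aeval_swap P h u₁
  have hpowA : ∀ (k : ℕ), ∀ w ∈ Ker y r, (A ^ k) w = (ι ^ k) w := by
    intro k
    induction k with
    | zero => intro w _; rfl
    | succ k ih =>
      intro w hw
      rw [pow_succ, Module.End.mul_apply, ← hιA w hw, ih _ (hιK w hw), pow_succ, Module.End.mul_apply]
  obtain ⟨e, he⟩ := h4
  have he0 : 0 < e := by omega
  have hb : orderOf ((q : ℕ) : ZMod r) = 2 * (2 * e) := by
    rw [← hidef, he]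
    ring
  have hrdvd : r ∣ q ^ (2 * e) + 1 := SpImprimMain.dvd_pow_add_one hr2 hb (by omega)
  obtain ⟨c', hc'⟩ := hrdvd
  set M := q ^ (2 * e) with hM
  have hyM : y ^ (M + 1) = 1 := by
    rw [hc', pow_mul, hy, one_pow]
  have hqodd : Odd q := Nat.odd_iff.2 (odd_card_of_two h2)
  obtain ⟨q', hq'⟩ := hqodd
  -- `ι ^ M` equals `ι` on everything
  have hνpow : ∃ s, M = 2 * s + 1 ∧ ν ^ s = 1 := by
    have h6 : q ^ 2 - 1 ∣ M - 1 := by
      rw [hM, pow_mul]
      simpa using Nat.sub_dvd_pow_sub_pow (q ^ 2) 1 e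
    have h7 : q ^ 2 - 1 = (q - 1) * (2 * (q' + 1)) := by
      rw [hq']
      simp only [Nat.add_sub_cancel]
      have : (2 * q' + 1) ^ 2 = (2 * q') * (2 * (q' + 1)) + 1 := by ring
      rw [this]
      simp
    rw [h7] at h6
    obtain ⟨w, hw⟩ := h6
    have hM1 : 1 ≤ M := Nat.one_le_pow _ _ (by omega)
    refine ⟨(q - 1) * (q' + 1) * w, ?_, ?_⟩
    · have : 2 * ((q - 1) * (q' + 1) * w) = (q - 1) * (2 * (q' + 1)) * w := by ring
      omega
    · rw [pow_mul, pow_mul, FiniteField.pow_card_sub_one_eq_one ν hν0, one_pow, one_pow]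
  obtain ⟨s, hs1, hs2⟩ := hνpow
  have hιpow : ∀ w, (ι ^ M) w = ι w := by
    have h6 : ∀ (k : ℕ) w, (ι ^ (2 * k)) w = ν ^ k • w := by
      intro k
      induction k with
      | zero => intro w; simp
      | succ k ih =>
        intro w
        rw [show 2 * (k + 1) = 2 * k + 2 by ring, pow_add, Module.End.mul_apply, ih, _root_.sq, Module.End.mul_apply, hι.sq, smul_smul, pow_succ]
    intro w
    rw [hs1, pow_succ, Module.End.mul_apply, h6, hs2, one_smul]
  have hself : ∀ a ∈ Ker y r, ∀ b ∈ Ker y r, B (ι a) b = B a (ι b) := by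
    intro a ha b hb'
    rw [hιA a ha, show A = Polynomial.aeval y h from rfl, adj_aeval hI hyM h a b, hM, aeval_pow_card, ← hq, ← hM,
      hpowA M b hb', hιpow]
  have hzero : ∀ a ∈ Ker y r, ∀ b ∈ Ker y r, B a (ι b) = 0 := by
    intro a ha b hb'
    have h6 := hself a ha b hb'
    rw [hι.adj] at h6
    have h7 : (2 : F) * B a (ι b) = 0 := by
      linear_combination -h6
    exact (mul_eq_zero.1 h7).resolve_left h2
  obtain ⟨b, hb', hb0⟩ := ker_nondeg hA hN hI hr hy hv hv0
  apply hb0
  have h6 : b = ι (ν⁻¹ • ι b) := by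
    rw [map_smul, hι.sq, smul_smul, inv_mul_cancel₀ hν0, one_smul]
  rw [h6]
  exact hzero v hv _ ((Ker y r).smul_mem _ (hιK b hb'))

end Even

end Cfsg.Agent.Lib.Classical.Elusive.SpHermNo
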