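import Mathlib
import Cfsg.Agent.Lib.Classical.Elusive.SpHermNo
import Cfsg.Agent.Lib.Linalg.Bridge

/-!
# Quadratic field subalgebras with a nontrivial adjoint
-/

set_option autoImplicit false
set_option linter.unusedSectionVars false
set_option linter.unusedSimpArgs false
set_option linter.unusedVariables false
set_option linter.style.haveILetI false

namespace Cfsg.Agent.Lib.Classical.Elusive.SpHermK

open Polynomial Module Matrix
open Cfsg.Agent.Lib.Classical.Elusive.Inv Cfsg.Agent.Lib.Classical.Elusive.SpCore Cfsg.Agent.Lib.Classical.Elusive.SpAtoms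
  Cfsg.Agent.Lib.Classical.Elusive.SpImprim Cfsg.Agent.Lib.Classical.Elusive.SpHerm Cfsg.Agent.Lib.Classical.Elusive.SpHermInv
open Cfsg.Agent.Lib.Classical.Symp.Basic Cfsg.Agent.Lib.Classical.Symp.SpGL Cfsg.Agent.Lib.Linalg.Bridge

variable {F : Type*} [Field F] {d : ℕ}

/-- The generator of the quadratic subalgebra. -/
structure IotaData (K : Subalgebra F (Matrix (Fin d ⊕ Fin d) (Fin d ⊕ Fin d) F)) (ν : F)
    (ι₀ : Matrix (Fin d ⊕ Fin d) (Fin d ⊕ Fin d) F) : Prop where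
  mem : ι₀ ∈ K
  sq : ι₀ * ι₀ = ν • 1
  repr : ∀ k, k ∈ K ↔ ∃ a b : F, k = a • 1 + b • ι₀
  str : IsStr (sympBilin d F) ν (Matrix.toLin' ι₀)

section Field

variable {K : Subalgebra F (Matrix (Fin d ⊕ Fin d) (Fin d ⊕ Fin d) F)}

theorem zero_div (hK : Cfsg.Geo.IsFieldSubalgebra 2 K) {x y : Matrix (Fin d ⊕ Fin d) (Fin d ⊕ Fin d) F} (hx : x ∈ K) (hy : y ∈ K) (h : x * y = 0) :
    x = 0 ∨ y = 0 := by
  by_cases h0 : x = 0
  · exact Or.inl h0
  · right
    obtain ⟨w, hw, hxw⟩ := hK.inv x hx h0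
    have h3 : w * x = 1 := by
      rw [hK.comm w hw x hx, hxw]
    calc y = (w * x) * y := by rw [h3, one_mul]
      _ = w * (x * y) := by rw [mul_assoc]
      _ = 0 := by rw [h, mul_zero]

theorem sq_eq (hK : Cfsg.Geo.IsFieldSubalgebra 2 K) {x y : Matrix (Fin d ⊕ Fin d) (Fin d ⊕ Fin d) F} (hx : x ∈ K) (hy : y ∈ K) (h : x * x = y * y) :
    x = y ∨ x = -y := by
  have h1 : (x - y) * (x + y) = 0 := by
    rw [sub_mul, mul_add, mul_add, h, hK.comm y hy x hx]
    abel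
  rcases zero_div hK (K.sub_mem hx hy) (K.add_mem hx hy) h1 with h3 | h3
  · exact Or.inl (sub_eq_zero.1 h3)
  · exact Or.inr (eq_neg_of_add_eq_zero_left h3)

theorem exists_iota [Fintype F] (h2 : (2 : F) ≠ 0) {ν : F} (hν : ¬ IsSquare ν) (hK : Cfsg.Geo.IsFieldSubalgebra 2 K)
    (hKf : Cfsg.Geo.IsAdjointClosedFor (Cfsg.sympForm d F) K) (hKns : ¬ Cfsg.Geo.IsSelfAdjointFor (Cfsg.sympForm d F) K) :
    ∃ ι₀, IotaData K ν ι₀ := by
  classical
  have hν0 := ne_zero_of_not_square hν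
  obtain ⟨a, haK, ha⟩ : ∃ a ∈ K, a ∉ Submodule.span F {(1 : Matrix (Fin d ⊕ Fin d) (Fin d ⊕ Fin d) F)} := by
    by_contra hcon
    push Not at hcon
    have h1 : Subalgebra.toSubmodule K ≤ Submodule.span F {(1 : Matrix (Fin d ⊕ Fin d) (Fin d ⊕ Fin d) F)} := fun x hx => hcon x hx
    have h3 := Submodule.finrank_mono h1
    rw [Subalgebra.finrank_toSubmodule, hK.finrank_eq] at h3
    have h5 : finrank F (Submodule.span F {(1 : Matrix (Fin d ⊕ Fin d) (Fin d ⊕ Fin d) F)}) ≤ 1 := by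
      by_cases h0 : (1 : Matrix (Fin d ⊕ Fin d) (Fin d ⊕ Fin d) F) = 0
      · exact (finrank_span_le_card _).trans (by simp)
      · rw [finrank_span_singleton h0]
    omega
  have h1ne : (1 : Matrix (Fin d ⊕ Fin d) (Fin d ⊕ Fin d) F) ≠ 0 := by
    intro h
    apply ha
    have : a = 0 := by
      rw [← one_mul a, h, zero_mul]
    rw [this]
    exact Submodule.zero_mem _
  -- any element outside the scalars spans `K` together with `1`
  have hspan : ∀ x ∈ K, x ∉ Submodule.span F {(1 : Matrix (Fin d ⊕ Fin d) (Fin d ⊕ Fin d) F)} → ∀ k ∈ K, ∃ s t : F, k = s • 1 + t • x := by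
    intro x hxK hx k hk
    have hLI : LinearIndependent F ![(1 : Matrix (Fin d ⊕ Fin d) (Fin d ⊕ Fin d) F), x] := by
      rw [LinearIndependent.pair_iff]
      intro s t hst
      by_cases ht : t = 0
      · subst ht
        rw [zero_smul, add_zero] at hst
        exact ⟨(smul_eq_zero.1 hst).resolve_right h1ne, rfl⟩
      · exfalso
        apply hx
        have h3 : x = (-(s / t)) • 1 := by
          have h4 : t • x = (-s) • 1 := by
            rw [neg_smul]
            exact eq_neg_of_add_eq_zero_right hst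
          have h5 : x = t⁻¹ • (t • x) := by
            rw [smul_smul, inv_mul_cancel₀ ht, one_smul]
          rw [h5, h4, smul_smul]
          congr 1
          field_simp
        rw [h3]
        exact Submodule.smul_mem _ _ (Submodule.mem_span_singleton_self _)
    have h5 := finrank_span_eq_card hLI
    have h6 : Set.range ![(1 : Matrix (Fin d ⊕ Fin d) (Fin d ⊕ Fin d) F), x] = {1, x} := by
      ext w
      constructor
      · rintro ⟨i, rfl⟩
        fin_cases i <;> simp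
      · rintro (rfl | rfl)
        · exact ⟨0, rfl⟩
        · exact ⟨1, rfl⟩
    rw [h6, Fintype.card_fin] at h5
    have h7 : Submodule.span F {(1 : Matrix (Fin d ⊕ Fin d) (Fin d ⊕ Fin d) F), x} = Subalgebra.toSubmodule K := by
      apply Submodule.eq_of_le_of_finrank_eq
      · rw [Submodule.span_le]
        rintro y (rfl | rfl)
        · exact K.one_mem
        · exact hxK
      · rw [Subalgebra.finrank_toSubmodule, hK.finrank_eq, h5]
    have h8 : k ∈ Submodule.span F {(1 : Matrix (Fin d ⊕ Fin d) (Fin d ⊕ Fin d) F), x} := by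
      rw [h7]
      exact hk
    obtain ⟨s, t, hst⟩ := Submodule.mem_span_pair.1 h8
    exact ⟨s, t, hst.symm⟩
  obtain ⟨α, β, hαβ⟩ := hspan a haK ha (a * a) (K.mul_mem haK haK)
  set γ := β / 2 with hγ
  have hβ : β = 2 * γ := by
    rw [hγ]
    field_simp
  let θ := a - γ • (1 : Matrix (Fin d ⊕ Fin d) (Fin d ⊕ Fin d) F)
  have hθK : θ ∈ K := K.sub_mem haK (K.smul_mem K.one_mem _)
  have hθ : θ ∉ Submodule.span F {(1 : Matrix (Fin d ⊕ Fin d) (Fin d ⊕ Fin d) F)} := by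
    intro h
    apply ha
    have h3 : a = θ + γ • 1 := by
      show a = a - γ • 1 + γ • 1
      abel
    rw [h3]
    exact Submodule.add_mem _ h (Submodule.smul_mem _ _ (Submodule.mem_span_singleton_self _))
  set μ := α + γ * γ with hμdef
  have hθθ : θ * θ = μ • 1 := by
    show (a - γ • 1) * (a - γ • 1) = _
    rw [sub_mul, mul_sub, mul_sub, hαβ, hβ]
    simp only [mul_one, one_mul, smul_mul_assoc, mul_smul_comm, smul_sub, smul_smul, add_smul, two_mul, hμdef]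
    abel
  have hμ : ¬ IsSquare μ := by
    rintro ⟨s, hs⟩
    have h3 : θ * θ = (s • (1 : Matrix (Fin d ⊕ Fin d) (Fin d ⊕ Fin d) F)) * (s • 1) := by
      rw [hθθ, hs]
      simp [smul_smul]
    rcases sq_eq hK hθK (K.smul_mem K.one_mem s) h3 with h4 | h4
    · apply hθ
      rw [h4]
      exact Submodule.smul_mem _ _ (Submodule.mem_span_singleton_self _)
    · apply hθ
      rw [h4, ← neg_smul]
      exact Submodule.smul_mem _ _ (Submodule.mem_span_singleton_self _)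
  have hμ0 := ne_zero_of_not_square hμ
  obtain ⟨c, hc⟩ := exists_mul_sq h2 hν hμ
  have hc0 : c ≠ 0 := by
    rintro rfl
    rw [mul_zero] at hc
    exact (mul_ne_zero hν0 hμ0) hc.symm
  let ι₀ := (c / μ) • θ
  have hι₀K : ι₀ ∈ K := K.smul_mem hθK _
  have hι₀ι₀ : ι₀ * ι₀ = ν • 1 := by
    show ((c / μ) • θ) * ((c / μ) • θ) = _
    rw [smul_mul_assoc, mul_smul_comm, hθθ, smul_smul, smul_smul]
    congr 1
    field_simp
    linear_combination hc
  have hrepr : ∀ k, k ∈ K ↔ ∃ s t : F, k = s • 1 + t • ι₀ := by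
    intro k
    constructor
    · intro hk
      obtain ⟨s, t, rfl⟩ := hspan θ hθK hθ k hk
      refine ⟨s, t * (μ / c), ?_⟩
      show _ = s • 1 + (t * (μ / c)) • (c / μ) • θ
      rw [smul_smul]
      congr 2
      field_simp
    · rintro ⟨s, t, rfl⟩
      exact K.add_mem (K.smul_mem K.one_mem _) (K.smul_mem hι₀K _)
  have hA : (sympBilin d F).IsAlt := sympBilin_isAlt
  obtain ⟨k', hk'K, hk'⟩ := hKf ι₀ hι₀K
  have hsep : ∀ w, (∀ u, Cfsg.sympForm d F u w = 0) → w = 0 := by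
    intro w hw
    apply sympBilin_nondegenerate.1
    intro u
    exact swap_zero hA (hw u)
  have hk'k' : k' * k' = ι₀ * ι₀ := by
    apply matrix_eq_of_mulVec_eq
    intro v
    rw [hι₀ι₀]
    have h3 : (k' * k') *ᵥ v - (ν • (1 : Matrix (Fin d ⊕ Fin d) (Fin d ⊕ Fin d) F)) *ᵥ v = 0 := by
      apply hsep
      intro u
      have h4 : Cfsg.sympForm d F u ((k' * k') *ᵥ v) = Cfsg.sympForm d F (ι₀ *ᵥ (ι₀ *ᵥ u)) v := by
        rw [hk', hk', Matrix.mulVec_mulVec]
      have h5 : ι₀ *ᵥ (ι₀ *ᵥ u) = ν • u := by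
        rw [Matrix.mulVec_mulVec, hι₀ι₀]
        simp [smul_mulVec]
      have h6 : (ν • (1 : Matrix (Fin d ⊕ Fin d) (Fin d ⊕ Fin d) F)) *ᵥ v = ν • v := by
        simp [smul_mulVec]
      show sympBilin d F u _ = 0
      rw [map_sub, h6]
      show Cfsg.sympForm d F u ((k' * k') *ᵥ v) - sympBilin d F u (ν • v) = 0
      rw [h4, h5]
      show sympBilin d F (ν • u) v - sympBilin d F u (ν • v) = 0
      simp
    exact sub_eq_zero.1 h3
  rcases sq_eq hK hk'K hι₀K hk'k' with h3 | h3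
  · exfalso
    apply hKns
    intro k hk u v
    obtain ⟨s, t, rfl⟩ := (hrepr k).1 hk
    have h4 := hk' u v
    rw [h3] at h4
    simp only [add_mulVec, smul_mulVec, one_mulVec]
    show sympBilin d F _ _ = sympBilin d F _ _
    simp only [map_add, map_smul, LinearMap.add_apply, LinearMap.smul_apply]
    have h5 : sympBilin d F (ι₀ *ᵥ u) v = sympBilin d F u (ι₀ *ᵥ v) := h4
    rw [h5]
  · refine ⟨ι₀, hι₀K, hι₀ι₀, hrepr, ⟨fun v => ?_, fun u v => ?_⟩⟩
    · rw [Matrix.toLin'_apply, Matrix.toLin'_apply, Matrix.mulVec_mulVec, hι₀ι₀]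
      simp [smul_mulVec]
    · have h4 := hk' u v
      rw [h3] at h4
      rw [Matrix.toLin'_apply, Matrix.toLin'_apply]
      show Cfsg.sympForm d F (ι₀ *ᵥ u) v = - Cfsg.sympForm d F u (ι₀ *ᵥ v)
      rw [h4]
      show sympBilin d F u _ = - sympBilin d F u _
      rw [neg_mulVec, map_neg]

end Field

section Normalizer

variable {K : Subalgebra F (Matrix (Fin d ⊕ Fin d) (Fin d ⊕ Fin d) F)} {ν : F} {ι₀ : Matrix (Fin d ⊕ Fin d) (Fin d ⊕ Fin d) F}

theorem mem_normalizer_of (hD : IotaData K ν ι₀) (g : GL (Fin d ⊕ Fin d) F) {ε : F} (hε : ε * ε = 1)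
    (h : (g : Matrix (Fin d ⊕ Fin d) (Fin d ⊕ Fin d) F) * ι₀ = ε • (ι₀ * (g : Matrix (Fin d ⊕ Fin d) (Fin d ⊕ Fin d) F))) :
    g ∈ Cfsg.Geo.subalgebraNormalizer K := by
  set G : Matrix (Fin d ⊕ Fin d) (Fin d ⊕ Fin d) F := (g : Matrix (Fin d ⊕ Fin d) (Fin d ⊕ Fin d) F) with hG
  set Gi : Matrix (Fin d ⊕ Fin d) (Fin d ⊕ Fin d) F := ((g⁻¹ : GL (Fin d ⊕ Fin d) F) : Matrix (Fin d ⊕ Fin d) (Fin d ⊕ Fin d) F) with hGi
  have h1 : G * Gi = 1 := by
    rw [hG, hGi, ← Units.val_mul, mul_inv_cancel, Units.val_one]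
  have h3 : Gi * G = 1 := by
    rw [hG, hGi, ← Units.val_mul, inv_mul_cancel, Units.val_one]
  have h4 : G * ι₀ * Gi = ε • ι₀ := by
    rw [h, smul_mul_assoc, mul_assoc, h1, mul_one]
  have h5 : Gi * ι₀ * G = ε • ι₀ := by
    have h6 : Gi * (G * ι₀) * Gi = Gi * (ε • (ι₀ * G)) * Gi := by rw [h]
    have h7 : ι₀ = ε • (Gi * ι₀ * G) := by
      have h8 : Gi * (G * ι₀) = Gi * (ε • (ι₀ * G)) := by rw [h]
      rw [← mul_assoc, h3, one_mul, mul_smul_comm, ← mul_assoc] at h8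
      exact h8
    nth_rw 2 [h7]
    rw [smul_smul, hε, one_smul]
  intro k
  constructor
  · intro hk
    obtain ⟨a, b, rfl⟩ := (hD.repr k).1 hk
    apply (hD.repr _).2
    refine ⟨a, b * ε, ?_⟩
    rw [mul_add, add_mul, mul_smul_comm, smul_mul_assoc, mul_one, h1, mul_smul_comm, smul_mul_assoc, h4, smul_smul]
  · intro hk
    obtain ⟨a, b, hab⟩ := (hD.repr _).1 hk
    have h6 : k = Gi * (G * k * Gi) * G := by
      rw [show Gi * (G * k * Gi) * G = (Gi * G) * k * (Gi * G) by simp only [mul_assoc], h3, one_mul, mul_one]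
    rw [h6, hab]
    apply (hD.repr _).2
    refine ⟨a, b * ε, ?_⟩
    rw [mul_add, add_mul, mul_smul_comm, smul_mul_assoc, mul_one, h3, mul_smul_comm, smul_mul_assoc, h5, smul_smul]

theorem commute_of_normalizer (hd : 0 < d) (h2 : (2 : F) ≠ 0) (hν0 : ν ≠ 0) (hK : Cfsg.Geo.IsFieldSubalgebra 2 K) (hD : IotaData K ν ι₀) {g : GL (Fin d ⊕ Fin d) F}
    (hg : g ∈ Cfsg.Geo.subalgebraNormalizer K) {r : ℕ} (hr : Odd r) {z : F}
    (hz : ((g ^ r : GL (Fin d ⊕ Fin d) F) : Matrix (Fin d ⊕ Fin d) (Fin d ⊕ Fin d) F) = z • 1) :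
    (g : Matrix (Fin d ⊕ Fin d) (Fin d ⊕ Fin d) F) * ι₀ = ι₀ * (g : Matrix (Fin d ⊕ Fin d) (Fin d ⊕ Fin d) F) := by
  classical
  set G : Matrix (Fin d ⊕ Fin d) (Fin d ⊕ Fin d) F := (g : Matrix (Fin d ⊕ Fin d) (Fin d ⊕ Fin d) F) with hG
  set Gi : Matrix (Fin d ⊕ Fin d) (Fin d ⊕ Fin d) F := ((g⁻¹ : GL (Fin d ⊕ Fin d) F) : Matrix (Fin d ⊕ Fin d) (Fin d ⊕ Fin d) F) with hGi
  have h1 : G * Gi = 1 := by
    rw [hG, hGi, ← Units.val_mul, mul_inv_cancel, Units.val_one]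
  have h3 : Gi * G = 1 := by
    rw [hG, hGi, ← Units.val_mul, inv_mul_cancel, Units.val_one]
  have hk' : G * ι₀ * Gi ∈ K := (hg ι₀).1 hD.mem
  have hsq : (G * ι₀ * Gi) * (G * ι₀ * Gi) = ι₀ * ι₀ := by
    rw [show (G * ι₀ * Gi) * (G * ι₀ * Gi) = G * ι₀ * (Gi * G) * ι₀ * Gi by simp only [mul_assoc], h3, mul_one,
      mul_assoc G ι₀ ι₀, hD.sq, mul_smul_comm, smul_mul_assoc, mul_one, h1]
  have hright : ∀ {A B : Matrix (Fin d ⊕ Fin d) (Fin d ⊕ Fin d) F}, A * Gi = B → A = B * G := by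
    intro A B h
    rw [← h, mul_assoc, h3, mul_one]
  rcases sq_eq hK hk' hD.mem hsq with h4 | h4
  · exact hright h4
  · exfalso
    have h5 : G * ι₀ = (-1 : F) • (ι₀ * G) := by
      rw [hright h4]
      simp
    have h6 : ∀ j : ℕ, ((g ^ j : GL (Fin d ⊕ Fin d) F) : Matrix (Fin d ⊕ Fin d) (Fin d ⊕ Fin d) F) * ι₀ =
        (-1 : F) ^ j • (ι₀ * ((g ^ j : GL (Fin d ⊕ Fin d) F) : Matrix (Fin d ⊕ Fin d) (Fin d ⊕ Fin d) F)) := by
      intro j
      induction j with
      | zero => simp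
      | succ j ih =>
        rw [pow_succ, Units.val_mul, mul_assoc, ← hG, h5, mul_smul_comm, ← mul_assoc, ih, smul_mul_assoc, smul_smul, mul_assoc, pow_succ, mul_comm ((-1 : F) ^ j)]
    have h7 := h6 r
    rw [hz, hr.neg_one_pow] at h7
    simp only [smul_mul_assoc, one_mul, mul_smul_comm, mul_one, smul_smul] at h7
    have h8 : (2 * z) • ι₀ = 0 := by
      rw [two_mul, add_smul]
      nth_rw 1 [h7]
      simp
    have h9 : (2 * z * ν) • (1 : Matrix (Fin d ⊕ Fin d) (Fin d ⊕ Fin d) F) = 0 := by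
      have h10 : ((2 * z) • ι₀) * ι₀ = 0 := by rw [h8, zero_mul]
      rw [smul_mul_assoc, hD.sq, smul_smul] at h10
      exact h10
    have h10 : (1 : Matrix (Fin d ⊕ Fin d) (Fin d ⊕ Fin d) F) ≠ 0 := by
      intro h10
      have h13 := congrFun (congrFun h10 (Sum.inl ⟨0, hd⟩)) (Sum.inl ⟨0, hd⟩)
      simp at h13
    have h11 := (smul_eq_zero.1 h9).resolve_right h10
    have hz0 : z = 0 := by
      rcases mul_eq_zero.1 h11 with h12 | h12
      · exact (mul_eq_zero.1 h12).resolve_left h2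
      · exact absurd h12 hν0
    apply h10
    have h12 := (g ^ r : GL (Fin d ⊕ Fin d) F).mul_inv
    rw [hz, hz0, zero_smul, zero_mul] at h12
    exact h12.symm

end Normalizer

end Cfsg.Agent.Lib.Classical.Elusive.SpHermK
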