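import Mathlib
import Cfsg.Agent.Lib.Classical.Elusive.SpHermK
import Cfsg.Agent.Lib.Classical.Elusive.SpPairsMain
import Cfsg.Agent.Lib.Classical.Herm.GU
import Cfsg.Agent.Lib.Classical.Symp.Count

/-!
# The unitary group inside the normalizer of a quadratic subalgebra
-/

set_option autoImplicit false
set_option linter.unusedSectionVars false
set_option linter.unusedSimpArgs false
set_option linter.unusedVariables false
set_option linter.style.haveILetI false

namespace Cfsg.Agent.Lib.Classical.Elusive.SpHermU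

open Polynomial Module Matrix
open Cfsg.Agent.Lib.Classical.Elusive.Inv Cfsg.Agent.Lib.Classical.Elusive.SpHerm Cfsg.Agent.Lib.Classical.Elusive.SpHermK
open Cfsg.Agent.Lib.Classical.Symp.Basic Cfsg.Agent.Lib.Classical.Symp.SpGL
open Cfsg.Agent.Lib.Linalg.Bridge

universe u

section Ext

variable {F : Type u} {K₂ : Type u} [Field F] [Field K₂] [Algebra F K₂]

/-- A quadratic extension with its Frobenius. -/
structure QuadExt (q : ℕ) (ν : F) (θ : K₂) : Prop where
  sq : θ * θ = algebraMap F K₂ ν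
  inj : ∀ a b : F, algebraMap F K₂ a + algebraMap F K₂ b * θ = 0 → a = 0 ∧ b = 0
  surj : ∀ k : K₂, ∃ a b : F, k = algebraMap F K₂ a + algebraMap F K₂ b * θ
  frob_base : ∀ a : F, (algebraMap F K₂ a) ^ q = algebraMap F K₂ a
  frob_θ : θ ^ q = -θ
  frob_add : ∀ x y : K₂, (x + y) ^ q = x ^ q + y ^ q

variable {q : ℕ} {ν : F} {θ : K₂}

theorem QuadExt.frob (h : QuadExt q ν θ) (a b : F) :
    (algebraMap F K₂ a + algebraMap F K₂ b * θ) ^ q = algebraMap F K₂ a - algebraMap F K₂ b * θ := by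
  rw [h.frob_add, mul_pow, h.frob_base, h.frob_base, h.frob_θ]
  ring

theorem QuadExt.comp_inj (h : QuadExt q ν θ) {a b a' b' : F}
    (he : algebraMap F K₂ a + algebraMap F K₂ b * θ = algebraMap F K₂ a' + algebraMap F K₂ b' * θ) : a = a' ∧ b = b' := by
  have := h.inj (a - a') (b - b') (by
    rw [map_sub, map_sub]
    linear_combination he)
  exact ⟨sub_eq_zero.mp this.1, sub_eq_zero.mp this.2⟩

variable {d : ℕ}

/-- The identification of the standard symplectic space with `K₂^d`. -/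
noncomputable def chiL (d : ℕ) (θ : K₂) : (Fin d ⊕ Fin d → F) →ₗ[F] (Fin d → K₂) where
  toFun e k := algebraMap F K₂ (e (Sum.inr k)) + algebraMap F K₂ (e (Sum.inl k)) * θ
  map_add' u v := by
    funext k
    simp only [Pi.add_apply, map_add]
    ring
  map_smul' c u := by
    funext k
    simp only [Pi.smul_apply, smul_eq_mul, map_mul, RingHom.id_apply, Algebra.smul_def]
    ring

@[simp] theorem chiL_apply (θ : K₂) (e : Fin d ⊕ Fin d → F) (k : Fin d) :
    chiL d θ e k = algebraMap F K₂ (e (Sum.inr k)) + algebraMap F K₂ (e (Sum.inl k)) * θ := rfl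

theorem chiL_bij (h : QuadExt q ν θ) : Function.Bijective (chiL (F := F) d θ) := by
  classical
  constructor
  · intro u v huv
    funext i
    rcases i with k | k
    · have := congrFun huv k
      simp only [chiL_apply] at this
      exact (h.comp_inj this).2
    · have := congrFun huv k
      simp only [chiL_apply] at this
      exact (h.comp_inj this).1
  · intro w
    choose a b hab using fun k => h.surj (w k)
    refine ⟨Sum.elim b a, ?_⟩
    funext k
    simp only [chiL_apply, Sum.elim_inl, Sum.elim_inr]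
    exact (hab k).symm

theorem chiL_stdI (h : QuadExt q ν θ) (e : Fin d ⊕ Fin d → F) :
    chiL d θ (stdI d ν e) = θ • chiL d θ e := by
  funext k
  simp only [chiL_apply, stdI_inl, stdI_inr, Pi.smul_apply, smul_eq_mul, map_mul]
  rw [← h.sq]
  ring

theorem herm_chiL (h : QuadExt q ν θ) (u v : Fin d ⊕ Fin d → F) :
    Cfsg.hermForm d K₂ q (chiL d θ u) (chiL d θ v) =
      algebraMap F K₂ (∑ k, (u (Sum.inr k) * v (Sum.inr k) - ν * (u (Sum.inl k) * v (Sum.inl k)))) +
        algebraMap F K₂ (- Cfsg.sympForm d F u v) * θ := by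
  rw [Cfsg.hermForm, sympForm_apply, map_sum, map_neg, map_sum, neg_mul, Finset.sum_mul, ← Finset.sum_neg_distrib,
    ← Finset.sum_add_distrib]
  refine Finset.sum_congr rfl fun k _ => ?_
  simp only [chiL_apply]
  rw [h.frob]
  simp only [map_sub, map_mul]
  have := h.sq
  linear_combination (- algebraMap F K₂ (u (Sum.inl k)) * algebraMap F K₂ (v (Sum.inl k))) * this

end Ext

section Hom

variable {F : Type u} {K₂ : Type u} [Field F] [Field K₂] [Algebra F K₂]
variable {q : ℕ} {ν : F} {θ : K₂} {d : ℕ}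

/-- The action of a matrix over the extension. -/
noncomputable def eG (g : GL (Fin d) K₂) : (Fin d → K₂) ≃ₗ[F] (Fin d → K₂) :=
  (equivOfGL g).restrictScalars F

@[simp] theorem eG_apply (g : GL (Fin d) K₂) (v : Fin d → K₂) :
    eG (F := F) g v = (g : Matrix (Fin d) (Fin d) K₂) *ᵥ v := rfl

variable (X : (Fin d ⊕ Fin d → F) ≃ₗ[F] (Fin d → K₂))

/-- The transported matrix. -/
noncomputable def psi (g : GL (Fin d) K₂) : GL (Fin d ⊕ Fin d) F :=
  glOfEquiv ((X.trans (eG g)).trans X.symm)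

theorem psi_mulVec (g : GL (Fin d) K₂) (v : Fin d ⊕ Fin d → F) :
    (psi X g : Matrix (Fin d ⊕ Fin d) (Fin d ⊕ Fin d) F) *ᵥ v = X.symm ((g : Matrix (Fin d) (Fin d) K₂) *ᵥ X v) := by
  exact glOfEquiv_mulVec _ v

/-- The transport homomorphism. -/
noncomputable def psiHom : GL (Fin d) K₂ →* GL (Fin d ⊕ Fin d) F :=
  MonoidHom.mk' (psi X) (by
    intro g h
    apply Units.ext
    apply matrix_eq_of_mulVec_eq
    intro v
    rw [Units.val_mul, ← Matrix.mulVec_mulVec, psi_mulVec, psi_mulVec, psi_mulVec]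
    simp only [Units.val_mul, Matrix.mulVec_mulVec, LinearEquiv.apply_symm_apply])

theorem psiHom_apply_mulVec (g : GL (Fin d) K₂) (v : Fin d ⊕ Fin d → F) :
    (psiHom X g : Matrix (Fin d ⊕ Fin d) (Fin d ⊕ Fin d) F) *ᵥ v = X.symm ((g : Matrix (Fin d) (Fin d) K₂) *ᵥ X v) :=
  psi_mulVec X g v

theorem psiHom_inj : Function.Injective (psiHom (K₂ := K₂) X) := by
  intro g h hgh
  apply Units.ext
  apply matrix_eq_of_mulVec_eq
  intro w
  obtain ⟨v, rfl⟩ := X.surjective w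
  have h1 := psiHom_apply_mulVec X g v
  rw [hgh, psiHom_apply_mulVec] at h1
  exact (X.symm.injective h1).symm

theorem psi_mem_sp (hq : QuadExt q ν θ)
    (hX2 : ∀ u v, ∃ a : F, Cfsg.hermForm d K₂ q (X u) (X v) = algebraMap F K₂ a + algebraMap F K₂ (- Cfsg.sympForm d F u v) * θ)
    {g : GL (Fin d) K₂} (hg : g ∈ Cfsg.GU d K₂ q) : psiHom X g ∈ Cfsg.spGL d F := by
  rw [mem_spGL_iff]
  intro u v
  rw [psiHom_apply_mulVec, psiHom_apply_mulVec]
  obtain ⟨a, ha⟩ := hX2 (X.symm (g.1 *ᵥ X u)) (X.symm (g.1 *ᵥ X v))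
  obtain ⟨b, hb⟩ := hX2 u v
  rw [LinearEquiv.apply_symm_apply, LinearEquiv.apply_symm_apply] at ha
  have hg' := hg (X u) (X v)
  have hg2 : Cfsg.hermForm d K₂ q (g.1 *ᵥ X u) (g.1 *ᵥ X v) = Cfsg.hermForm d K₂ q (X u) (X v) := hg'
  rw [ha, hb] at hg2
  have := (hq.comp_inj hg2).2
  exact neg_injective this

theorem psi_comm {ι : Module.End F (Fin d ⊕ Fin d → F)} (hX1 : ∀ v, X (ι v) = θ • X v) (g : GL (Fin d) K₂) (v : Fin d ⊕ Fin d → F) :
    (psiHom X g : Matrix (Fin d ⊕ Fin d) (Fin d ⊕ Fin d) F) *ᵥ (ι v) = ι ((psiHom X g : Matrix (Fin d ⊕ Fin d) (Fin d ⊕ Fin d) F) *ᵥ v) := by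
  rw [psiHom_apply_mulVec, psiHom_apply_mulVec, hX1, Matrix.mulVec_smul]
  apply X.injective
  rw [LinearEquiv.apply_symm_apply, hX1, LinearEquiv.apply_symm_apply]

end Hom

section Exist

variable {F : Type u} [Field F] [Fintype F]

/-- The quadratic extension exists. -/
theorem exists_quadExt {p : ℕ} [Fact p.Prime] [CharP F p] (h2 : (2 : F) ≠ 0) {ν : F} (hν : ¬ IsSquare ν) :
    ∃ (K₂ : Type u) (_ : Field K₂) (_ : Fintype K₂) (_ : Algebra F K₂) (θ : K₂),
      Fintype.card K₂ = (Fintype.card F) ^ 2 ∧ QuadExt (Fintype.card F) ν θ := by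
  classical
  have hν' : ∀ b : F, b ^ 2 ≠ ν := by
    intro b hb
    apply hν
    exact ⟨b, by rw [← hb]; ring⟩
  have hirr : Irreducible (X ^ 2 - C ν : F[X]) := X_pow_sub_C_irreducible_of_prime Nat.prime_two hν'
  haveI : Fact (Irreducible (X ^ 2 - C ν : F[X])) := ⟨hirr⟩
  let K₂ := AdjoinRoot (X ^ 2 - C ν : F[X])
  have hne : (X ^ 2 - C ν : F[X]) ≠ 0 := hirr.ne_zero
  have hdeg : (X ^ 2 - C ν : F[X]).natDegree = 2 := natDegree_X_pow_sub_C
  let pb := AdjoinRoot.powerBasis hne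
  haveI : Module.Finite F K₂ := pb.finite
  haveI : Finite K₂ := Module.finite_of_finite F
  letI : Fintype K₂ := Fintype.ofFinite K₂
  have hfr : finrank F K₂ = 2 := by
    rw [pb.finrank]
    show (X ^ 2 - C ν : F[X]).natDegree = 2
    exact hdeg
  have hcard : Fintype.card K₂ = (Fintype.card F) ^ 2 := by
    rw [Module.card_eq_pow_finrank (K := F) (V := K₂), hfr]
  let θ : K₂ := AdjoinRoot.root (X ^ 2 - C ν : F[X])
  have hsq : θ * θ = algebraMap F K₂ ν := by
    have h1 : (AdjoinRoot.root (X ^ 2 - C ν : F[X])) ^ 2 - AdjoinRoot.of (X ^ 2 - C ν : F[X]) ν = 0 := by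
      have := AdjoinRoot.eval₂_root (X ^ 2 - C ν : F[X])
      simpa using this
    have h3 : θ ^ 2 - algebraMap F K₂ ν = 0 := h1
    rw [← sq]
    exact sub_eq_zero.mp h3
  have hinj : ∀ a b : F, algebraMap F K₂ a + algebraMap F K₂ b * θ = 0 → a = 0 ∧ b = 0 := by
    intro a b hab
    by_cases hb : b = 0
    · subst hb
      simp only [map_zero, zero_mul, add_zero] at hab
      exact ⟨(map_eq_zero _).mp hab, rfl⟩
    · exfalso
      have hb' : algebraMap F K₂ b ≠ 0 := (_root_.map_ne_zero _).mpr hb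
      have hθ : θ = algebraMap F K₂ (- a / b) := by
        rw [map_div₀, map_neg, eq_div_iff hb']
        linear_combination hab
      apply hν' (- a / b)
      apply (algebraMap F K₂).injective
      rw [map_pow, ← hθ, sq, hsq]
  let m : F × F → K₂ := fun x => algebraMap F K₂ x.1 + algebraMap F K₂ x.2 * θ
  have hm : Function.Injective m := by
    rintro ⟨a, b⟩ ⟨a', b'⟩ he
    have := hinj (a - a') (b - b') (by
      have he' : algebraMap F K₂ a + algebraMap F K₂ b * θ = algebraMap F K₂ a' + algebraMap F K₂ b' * θ := he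
      rw [map_sub, map_sub]
      linear_combination he')
    exact Prod.ext (sub_eq_zero.mp this.1) (sub_eq_zero.mp this.2)
  have hms : Function.Surjective m := by
    refine (Fintype.bijective_iff_injective_and_card m).mpr ⟨hm, ?_⟩ |>.2
    rw [Fintype.card_prod, hcard, sq]
  have hsurj : ∀ k : K₂, ∃ a b : F, k = algebraMap F K₂ a + algebraMap F K₂ b * θ := by
    intro k
    obtain ⟨⟨a, b⟩, hab⟩ := hms k
    exact ⟨a, b, hab.symm⟩
  have hchar : CharP K₂ p := charP_of_injective_algebraMap (algebraMap F K₂).injective p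
  obtain ⟨n, hpp, hn⟩ := FiniteField.card F p
  have hbase : ∀ a : F, (algebraMap F K₂ a) ^ (Fintype.card F) = algebraMap F K₂ a := by
    intro a
    rw [← map_pow, FiniteField.pow_card]
  have hadd : ∀ x y : K₂, (x + y) ^ (Fintype.card F) = x ^ (Fintype.card F) + y ^ (Fintype.card F) := by
    intro x y
    rw [hn]
    haveI : ExpChar K₂ p := ExpChar.prime (Fact.out)
    exact add_pow_expChar_pow x y p n
  have hθq : θ ^ (Fintype.card F) = -θ := by
    have hodd := odd_card_of_two h2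
    have hr2 : ringChar F ≠ 2 := by
      intro hc
      apply h2
      have := ringChar.Nat.cast_ringChar (R := F)
      rwa [hc] at this
    have hν0 := ne_zero_of_not_square hν
    have hm1 : ν ^ (Fintype.card F / 2) = -1 := by
      rcases FiniteField.pow_dichotomy hr2 hν0 with h | h
      · exact absurd ((FiniteField.isSquare_iff hr2 hν0).mpr h) hν
      · exact h
    have hc : Fintype.card F = 2 * (Fintype.card F / 2) + 1 := by omega
    have hsq' : θ ^ 2 = algebraMap F K₂ ν := by rw [sq, hsq]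
    calc θ ^ (Fintype.card F) = θ ^ (2 * (Fintype.card F / 2) + 1) := by rw [← hc]
      _ = (θ ^ 2) ^ (Fintype.card F / 2) * θ := by rw [pow_succ, pow_mul]
      _ = algebraMap F K₂ (ν ^ (Fintype.card F / 2)) * θ := by rw [hsq', map_pow]
      _ = -θ := by rw [hm1, map_neg, map_one]; ring
  exact ⟨K₂, inferInstance, inferInstance, inferInstance, θ, hcard, hsq, hinj, hsurj, hbase, hθq, hadd⟩

end Exist

section Count

variable {F : Type u} [Field F] [Fintype F]
variable {d : ℕ}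
variable {K : Subalgebra F (Matrix (Fin d ⊕ Fin d) (Fin d ⊕ Fin d) F)} {ν : F} {ι₀ : Matrix (Fin d ⊕ Fin d) (Fin d ⊕ Fin d) F}

/-- The order of the finite symplectic group in `GL`. -/
theorem card_spGL {q : ℕ} (hq : Fintype.card F = q) (d : ℕ) :
    Nat.card (Cfsg.spGL d F) = q ^ (d ^ 2) * ∏ i ∈ Finset.range d, (q ^ (2 * (i + 1)) - 1) := by
  classical
  have hc : Nat.card F = q := by rw [Nat.card_eq_fintype_card, hq]
  rw [← Cfsg.Agent.Lib.Classical.Symp.Count.card_symplecticGroup (q := q) hc d]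
  refine Nat.card_congr (Equiv.ofBijective (fun g : Cfsg.spGL d F => (⟨(g.1 : Matrix _ _ F), coe_mem_symplecticGroup g.2⟩ : symplecticGroup (Fin d) F)) ⟨?_, ?_⟩)
  · intro g h hgh
    apply Subtype.ext
    apply Units.ext
    exact congrArg (fun x : symplecticGroup (Fin d) F => (x.1 : Matrix _ _ F)) hgh
  · intro y
    let e := spToLin y
    refine ⟨⟨glOfIsom e, glOfIsom_mem ?_⟩, ?_⟩
    · intro u v
      exact mem_symplecticGroup_iff_forall.mp y.2 u v
    · apply Subtype.ext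
      apply matrix_eq_of_mulVec_eq
      intro v
      exact glOfEquiv_mulVec e v

/-- The arithmetic consequence of the embedding of the unitary group. -/
theorem dvd_of_embedding (hd : 0 < d) {q : ℕ} (hq : Fintype.card F = q) (hq2 : 2 ≤ q) {p : ℕ} [Fact p.Prime] [CharP F p]
    {K₂ : Type u} [Field K₂] [Fintype K₂] [Algebra F K₂] {θ : K₂} (hK₂ : Fintype.card K₂ = q ^ 2)
    {H : Subgroup (GL (Fin d ⊕ Fin d) F)} (f : GL (Fin d) K₂ →* GL (Fin d ⊕ Fin d) F) (hf : Function.Injective f)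
    (hfH : ∀ g ∈ Cfsg.GU d K₂ q, f g ∈ H ⊓ Cfsg.spGL d F) {r : ℕ} (hr : r.Prime)
    (hΩ : r ∣ H.relIndex (Cfsg.spGL d F)) :
    r ∣ q ∨ ∃ j ∈ Finset.range d, r ∣ (if Even j then q ^ (j + 1) - 1 else q ^ (j + 1) + 1) := by
  classical
  set S := H ⊓ Cfsg.spGL d F with hS
  have h1 : Nat.card (Cfsg.GU d K₂ q) ∣ Nat.card S := by
    refine Subgroup.card_dvd_of_injective ((f.comp (Cfsg.GU d K₂ q).subtype).codRestrict S (fun g => hfH g.1 g.2)) ?_
    intro a b hab
    apply Subtype.ext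
    apply hf
    exact congrArg Subtype.val hab
  have h2 : S.relIndex (Cfsg.spGL d F) = H.relIndex (Cfsg.spGL d F) := Subgroup.inf_relIndex_right _ _
  have h3 : Nat.card S * H.relIndex (Cfsg.spGL d F) = Nat.card (Cfsg.spGL d F) := by
    rw [← h2]
    have := Subgroup.relIndex_mul_relIndex (⊥ : Subgroup (GL (Fin d ⊕ Fin d) F)) S (Cfsg.spGL d F) bot_le inf_le_right
    rw [Subgroup.relIndex_bot_left, Subgroup.relIndex_bot_left] at this
    exact this
  rw [card_spGL hq] at h3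
  rw [Cfsg.Agent.Lib.Classical.Herm.GU.card_GU hK₂] at h1
  obtain ⟨c, hc⟩ := h1
  set P₁ := ∏ i ∈ Finset.range d, (if Even i then q ^ (i + 1) + 1 else q ^ (i + 1) - 1) with hP₁
  set P₂ := ∏ j ∈ Finset.range d, (if Even j then q ^ (j + 1) - 1 else q ^ (j + 1) + 1) with hP₂
  have hprod : ∏ i ∈ Finset.range d, (q ^ (2 * (i + 1)) - 1) = P₁ * P₂ := by
    rw [hP₁, hP₂, ← Finset.prod_mul_distrib]
    refine Finset.prod_congr rfl fun i _ => ?_
    have h1 : 1 ≤ q ^ (i + 1) := Nat.one_le_pow _ _ (by omega)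
    obtain ⟨m, hm⟩ : ∃ m, q ^ (i + 1) = m + 1 := ⟨q ^ (i + 1) - 1, by omega⟩
    have h2 : q ^ (2 * (i + 1)) - 1 = m * (m + 1 + 1) := by
      rw [mul_comm 2, pow_mul, hm]
      have : (m + 1) ^ 2 = m * (m + 1 + 1) + 1 := by ring
      omega
    rw [h2, hm]
    split_ifs
    · simp only [Nat.add_sub_cancel]
      ring
    · simp only [Nat.add_sub_cancel]
  have hP₁pos : 0 < P₁ := by
    apply Finset.prod_pos
    intro i _
    have h2 : 2 ^ (i + 1) ≤ q ^ (i + 1) := Nat.pow_le_pow_left hq2 _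
    have h3 : 2 ≤ 2 ^ (i + 1) := by
      rw [pow_succ]
      have := Nat.one_le_two_pow (n := i)
      omega
    split_ifs <;> omega
  have h4 : q ^ (d * (d - 1) / 2) * c * H.relIndex (Cfsg.spGL d F) = q ^ (d ^ 2) * P₂ := by
    apply Nat.eq_of_mul_eq_mul_left hP₁pos
    rw [hc, hprod] at h3
    linear_combination h3
  have h5 : r ∣ q ^ (d ^ 2) * P₂ := by
    rw [← h4]
    exact Dvd.dvd.mul_left hΩ _
  rcases (Nat.Prime.dvd_mul hr).mp h5 with h6 | h6
  · exact Or.inl (hr.dvd_of_dvd_pow h6)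
  · right
    exact (Prime.dvd_finsetProd_iff (Nat.Prime.prime hr) _).mp h6

/-- The arithmetic conclusion for a normalizer of a quadratic subalgebra. -/
theorem dvd_main {p : ℕ} [Fact p.Prime] [CharP F p] (hd : 0 < d) (h2 : (2 : F) ≠ 0) (hν : ¬ IsSquare ν)
    (hD : IotaData K ν ι₀) {r : ℕ} (hr : r.Prime)
    (hΩ : r ∣ (Cfsg.Geo.subalgebraNormalizer K).relIndex (Cfsg.spGL d F)) :
    r ∣ Fintype.card F ∨ ∃ j ∈ Finset.range d, r ∣ (if Even j then (Fintype.card F) ^ (j + 1) - 1 else (Fintype.card F) ^ (j + 1) + 1) := by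
  classical
  obtain ⟨K₂, _, _, _, θ, hcard, hQ⟩ := exists_quadExt (p := p) h2 hν
  have hι := hD.str
  obtain ⟨g₀, hg₀, hg₀c⟩ := exists_conj_std h2 hν hι
  -- the identification
  let χ : (Fin d ⊕ Fin d → F) ≃ₗ[F] (Fin d → K₂) := LinearEquiv.ofBijective (chiL d θ) (chiL_bij hQ)
  have hχ : ∀ e, χ e = chiL d θ e := fun e => rfl
  let X : (Fin d ⊕ Fin d → F) ≃ₗ[F] (Fin d → K₂) := (equivOfGL g₀⁻¹).trans χ
  have hXa : ∀ v, X v = chiL d θ (((g₀⁻¹ : GL (Fin d ⊕ Fin d) F) : Matrix (Fin d ⊕ Fin d) (Fin d ⊕ Fin d) F) *ᵥ v) := fun v => rfl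
  have hXg : ∀ e, X ((g₀ : Matrix (Fin d ⊕ Fin d) (Fin d ⊕ Fin d) F) *ᵥ e) = chiL d θ e := by
    intro e
    rw [hXa, Matrix.mulVec_mulVec]
    rw [← Units.val_mul, inv_mul_cancel, Units.val_one, Matrix.one_mulVec]
  have hX1 : ∀ v, X (Matrix.toLin' ι₀ v) = θ • X v := by
    intro v
    obtain ⟨e, rfl⟩ : ∃ e, v = (g₀ : Matrix (Fin d ⊕ Fin d) (Fin d ⊕ Fin d) F) *ᵥ e :=
      ⟨((g₀⁻¹ : GL (Fin d ⊕ Fin d) F) : Matrix (Fin d ⊕ Fin d) (Fin d ⊕ Fin d) F) *ᵥ v, by
        rw [Matrix.mulVec_mulVec, ← Units.val_mul, mul_inv_cancel, Units.val_one, Matrix.one_mulVec]⟩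
    rw [← hg₀c, hXg, hXg, chiL_stdI hQ]
  have hX2 : ∀ u v, ∃ a : F, Cfsg.hermForm d K₂ (Fintype.card F) (X u) (X v) = algebraMap F K₂ a + algebraMap F K₂ (- Cfsg.sympForm d F u v) * θ := by
    intro u v
    obtain ⟨e, rfl⟩ : ∃ e, u = (g₀ : Matrix (Fin d ⊕ Fin d) (Fin d ⊕ Fin d) F) *ᵥ e :=
      ⟨((g₀⁻¹ : GL (Fin d ⊕ Fin d) F) : Matrix (Fin d ⊕ Fin d) (Fin d ⊕ Fin d) F) *ᵥ u, by
        rw [Matrix.mulVec_mulVec, ← Units.val_mul, mul_inv_cancel, Units.val_one, Matrix.one_mulVec]⟩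
    obtain ⟨e', rfl⟩ : ∃ e, v = (g₀ : Matrix (Fin d ⊕ Fin d) (Fin d ⊕ Fin d) F) *ᵥ e :=
      ⟨((g₀⁻¹ : GL (Fin d ⊕ Fin d) F) : Matrix (Fin d ⊕ Fin d) (Fin d ⊕ Fin d) F) *ᵥ v, by
        rw [Matrix.mulVec_mulVec, ← Units.val_mul, mul_inv_cancel, Units.val_one, Matrix.one_mulVec]⟩
    rw [hXg, hXg, herm_chiL hQ, (mem_spGL_iff g₀).mp hg₀]
    exact ⟨_, rfl⟩
  have hq2 : 2 ≤ Fintype.card F := Fintype.one_lt_card
  refine dvd_of_embedding hd rfl hq2 (p := p) (θ := θ) hcard (psiHom X) (psiHom_inj X) ?_ hr hΩ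
  intro g hg
  refine ⟨mem_normalizer_of hD _ (ε := 1) (by ring) ?_, psi_mem_sp X hQ hX2 hg⟩
  rw [one_smul]
  apply matrix_eq_of_mulVec_eq
  intro v
  rw [← Matrix.mulVec_mulVec, ← Matrix.mulVec_mulVec]
  exact psi_comm X hX1 g v

end Count

end Cfsg.Agent.Lib.Classical.Elusive.SpHermU
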