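import Mathlib
import Cfsg.Agent.Lib.Classical.Elusive.SpHermU
import Cfsg.Agent.Lib.Classical.Elusive.SpHermNo
import Cfsg.Agent.Lib.Classical.Elusive.SpHermInv
import Cfsg.Agent.Lib.Classical.Elusive.SpImprimMain

/-!
# Elements of prime order of `PSp_{2d}(q)`, `q` odd, and the subgroups of type `GU_d(q)`
-/

set_option autoImplicit false
set_option linter.unusedSectionVars false
set_option linter.unusedSimpArgs false
set_option linter.unusedVariables false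
set_option linter.style.haveILetI false

namespace Cfsg.Agent.Lib.Classical.Elusive.SpHermMain

open Polynomial Module Matrix
open Cfsg.Agent.Lib.Classical.Elusive.Inv Cfsg.Agent.Lib.Classical.Elusive.SpCore Cfsg.Agent.Lib.Classical.Elusive.SpHerm
  Cfsg.Agent.Lib.Classical.Elusive.SpHermK Cfsg.Agent.Lib.Classical.Elusive.SpHermU
  Cfsg.Agent.Lib.Classical.Elusive.SpHermNo Cfsg.Agent.Lib.Classical.Elusive.SpHermInv
open Cfsg.Agent.Lib.Classical.Symp.Basic Cfsg.Agent.Lib.Classical.Symp.SpGL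
open Cfsg.Agent.Lib.Linalg.Bridge

universe u

section Arith

theorem four_dvd_of {i s : ℕ} (h1 : i ∣ 4 * s) (h2 : ¬ i ∣ 2 * s) : 4 ∣ i := by
  by_contra h4
  apply h2
  rcases Nat.even_or_odd i with he | ho
  · obtain ⟨t, rfl⟩ := he
    have ht : Odd t := by
      rw [← Nat.not_even_iff_odd]
      rintro ⟨u, rfl⟩
      exact h4 ⟨u, by ring⟩
    have h5 : t ∣ 2 * s := by
      have : t + t = 2 * t := by ring
      rw [this, show 4 * s = 2 * (2 * s) by ring] at h1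
      exact Nat.dvd_of_mul_dvd_mul_left (by norm_num) h1
    have h6 : t ∣ s := (Nat.Coprime.dvd_mul_left (Nat.coprime_comm.mp ((Nat.coprime_two_left).mpr ht))).mp h5
    rw [show t + t = 2 * t by ring]
    exact Nat.mul_dvd_mul_left 2 h6
  · have hc : Nat.Coprime i 2 := Nat.coprime_comm.mp ((Nat.coprime_two_left).mpr ho)
    rw [show 4 * s = 2 * (2 * s) by ring] at h1
    exact (Nat.Coprime.dvd_mul_left hc).mp h1

theorem order_of_plus {q r J : ℕ} [Fact r.Prime] (hr2 : r ≠ 2) (hJ : Even J) (h : r ∣ q ^ J + 1) :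
    orderOf (q : ZMod r) ∣ 2 * J ∧ 4 ∣ orderOf (q : ZMod r) := by
  have hr : r.Prime := Fact.out
  haveI : Fact (2 < r) := ⟨by have := hr.two_le; omega⟩
  have h1 : (q : ZMod r) ^ J = -1 := by
    have := (ZMod.natCast_eq_zero_iff (q ^ J + 1) r).mpr h
    push_cast at this
    exact eq_neg_of_add_eq_zero_left this
  have h2 : orderOf (q : ZMod r) ∣ 2 * J := by
    apply orderOf_dvd_of_pow_eq_one
    rw [mul_comm, pow_mul, h1]
    ring
  have h3 : ¬ orderOf (q : ZMod r) ∣ J := by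
    intro h4
    have h5 := orderOf_dvd_iff_pow_eq_one.mp h4
    rw [h1] at h5
    have h6 : (2 : ZMod r) = 0 := by
      linear_combination -h5
    have h7 : r ∣ 2 := by
      have := (ZMod.natCast_eq_zero_iff 2 r).mp (by exact_mod_cast h6)
      exact this
    have h8 := (Nat.prime_dvd_prime_iff_eq hr Nat.prime_two).mp h7
    exact hr2 h8
  refine ⟨h2, ?_⟩
  obtain ⟨s, rfl⟩ := hJ
  apply four_dvd_of (s := s)
  · rw [show 4 * s = 2 * (s + s) by ring]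
    exact h2
  · rw [show 2 * s = s + s by ring]
    exact h3

end Arith

section Main

variable {F : Type u} [Field F]
variable {d : ℕ} {ν : F}

theorem conj_apply (g : GL (Fin d ⊕ Fin d) F) (M : Matrix (Fin d ⊕ Fin d) (Fin d ⊕ Fin d) F) (v : Fin d ⊕ Fin d → F) :
    Matrix.toLin' ((g : Matrix (Fin d ⊕ Fin d) (Fin d ⊕ Fin d) F) * M * ((g⁻¹ : GL (Fin d ⊕ Fin d) F) : Matrix (Fin d ⊕ Fin d) (Fin d ⊕ Fin d) F)) v =
      (g : Matrix (Fin d ⊕ Fin d) (Fin d ⊕ Fin d) F) *ᵥ (Matrix.toLin' M (((g⁻¹ : GL (Fin d ⊕ Fin d) F) : Matrix (Fin d ⊕ Fin d) (Fin d ⊕ Fin d) F) *ᵥ v)) := by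
  simp only [Matrix.toLin'_apply, Matrix.mulVec_mulVec, Matrix.mul_assoc]

theorem inv_mulVec_mulVec (g : GL (Fin d ⊕ Fin d) F) (v : Fin d ⊕ Fin d → F) :
    ((g⁻¹ : GL (Fin d ⊕ Fin d) F) : Matrix (Fin d ⊕ Fin d) (Fin d ⊕ Fin d) F) *ᵥ ((g : Matrix (Fin d ⊕ Fin d) (Fin d ⊕ Fin d) F) *ᵥ v) = v := by
  rw [Matrix.mulVec_mulVec, ← Units.val_mul, inv_mul_cancel, Units.val_one, Matrix.one_mulVec]

theorem mulVec_inv_mulVec' (g : GL (Fin d ⊕ Fin d) F) (v : Fin d ⊕ Fin d → F) :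
    (g : Matrix (Fin d ⊕ Fin d) (Fin d ⊕ Fin d) F) *ᵥ (((g⁻¹ : GL (Fin d ⊕ Fin d) F) : Matrix (Fin d ⊕ Fin d) (Fin d ⊕ Fin d) F) *ᵥ v) = v := by
  rw [Matrix.mulVec_mulVec, ← Units.val_mul, mul_inv_cancel, Units.val_one, Matrix.one_mulVec]

theorem conj_str {M : Matrix (Fin d ⊕ Fin d) (Fin d ⊕ Fin d) F} (hι : IsStr (sympBilin d F) ν (Matrix.toLin' M))
    {g : GL (Fin d ⊕ Fin d) F} (hg : g ∈ Cfsg.spGL d F) :
    IsStr (sympBilin d F) ν (Matrix.toLin' ((g : Matrix (Fin d ⊕ Fin d) (Fin d ⊕ Fin d) F) * M * ((g⁻¹ : GL (Fin d ⊕ Fin d) F) : Matrix (Fin d ⊕ Fin d) (Fin d ⊕ Fin d) F))) := by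
  constructor
  · intro v
    rw [conj_apply, conj_apply, inv_mulVec_mulVec, hι.sq, Matrix.mulVec_smul, mulVec_inv_mulVec']
  · intro u v
    have hB : ∀ a b, sympBilin d F ((g : Matrix (Fin d ⊕ Fin d) (Fin d ⊕ Fin d) F) *ᵥ a) ((g : Matrix (Fin d ⊕ Fin d) (Fin d ⊕ Fin d) F) *ᵥ b) = sympBilin d F a b := fun a b => (mem_spGL_iff g).mp hg a b
    obtain ⟨a, rfl⟩ : ∃ a, u = (g : Matrix (Fin d ⊕ Fin d) (Fin d ⊕ Fin d) F) *ᵥ a := ⟨_, (mulVec_inv_mulVec' g u).symm⟩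
    obtain ⟨b, rfl⟩ : ∃ a, v = (g : Matrix (Fin d ⊕ Fin d) (Fin d ⊕ Fin d) F) *ᵥ a := ⟨_, (mulVec_inv_mulVec' g v).symm⟩
    rw [conj_apply, conj_apply, inv_mulVec_mulVec, inv_mulVec_mulVec, hB, hB, hι.adj]

/-- Conjugating an element into the normalizer gives a structure commuting with it. -/
theorem str_of_conj [Fintype F] {K : Subalgebra F (Matrix (Fin d ⊕ Fin d) (Fin d ⊕ Fin d) F)} {ι₀ : Matrix (Fin d ⊕ Fin d) (Fin d ⊕ Fin d) F}
    (hd : 0 < d) (h2 : (2 : F) ≠ 0) (hν0 : ν ≠ 0) (hK : Cfsg.Geo.IsFieldSubalgebra 2 K) (hD : IotaData K ν ι₀)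
    {r : ℕ} (hr : Odd r) {x g : GL (Fin d ⊕ Fin d) F} (hxr : ((x ^ r : GL (Fin d ⊕ Fin d) F) : Matrix (Fin d ⊕ Fin d) (Fin d ⊕ Fin d) F) = 1)
    (hg : g ∈ Cfsg.spGL d F) (hgN : g⁻¹ * x * g ∈ Cfsg.Geo.subalgebraNormalizer K) :
    ∃ ι : Module.End F (Fin d ⊕ Fin d → F), IsStr (sympBilin d F) ν ι ∧
      ∀ v, (x : Matrix (Fin d ⊕ Fin d) (Fin d ⊕ Fin d) F) *ᵥ (ι v) = ι ((x : Matrix (Fin d ⊕ Fin d) (Fin d ⊕ Fin d) F) *ᵥ v) := by
  have hpow : (((g⁻¹ * x * g) ^ r : GL (Fin d ⊕ Fin d) F) : Matrix (Fin d ⊕ Fin d) (Fin d ⊕ Fin d) F) = (1 : F) • 1 := by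
    rw [one_smul]
    have h1 : (g⁻¹ * x * g) ^ r = g⁻¹ * x ^ r * g := by
      have := conj_pow (a := g⁻¹) (b := x) (i := r)
      rwa [inv_inv] at this
    have h3 : x ^ r = 1 := Units.ext hxr
    rw [h1, h3]
    simp
  have hcomm := commute_of_normalizer hd h2 hν0 hK hD hgN hr hpow
  refine ⟨_, conj_str hD.str hg, fun v => ?_⟩
  rw [conj_apply, conj_apply]
  -- transport the commutation to vectors
  have hvec : ∀ w, ((g⁻¹ * x * g : GL (Fin d ⊕ Fin d) F) : Matrix (Fin d ⊕ Fin d) (Fin d ⊕ Fin d) F) *ᵥ (Matrix.toLin' ι₀ w) =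
      Matrix.toLin' ι₀ (((g⁻¹ * x * g : GL (Fin d ⊕ Fin d) F) : Matrix (Fin d ⊕ Fin d) (Fin d ⊕ Fin d) F) *ᵥ w) := by
    intro w
    simp only [Matrix.toLin'_apply, Matrix.mulVec_mulVec]
    rw [hcomm]
  have h5 := hvec (((g⁻¹ : GL (Fin d ⊕ Fin d) F) : Matrix (Fin d ⊕ Fin d) (Fin d ⊕ Fin d) F) *ᵥ v)
  have hexp : ∀ w, ((g⁻¹ * x * g : GL (Fin d ⊕ Fin d) F) : Matrix (Fin d ⊕ Fin d) (Fin d ⊕ Fin d) F) *ᵥ w =
      ((g⁻¹ : GL (Fin d ⊕ Fin d) F) : Matrix (Fin d ⊕ Fin d) (Fin d ⊕ Fin d) F) *ᵥ ((x : Matrix (Fin d ⊕ Fin d) (Fin d ⊕ Fin d) F) *ᵥ ((g : Matrix (Fin d ⊕ Fin d) (Fin d ⊕ Fin d) F) *ᵥ w)) := by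
    intro w
    simp only [Units.val_mul, Matrix.mulVec_mulVec, Matrix.mul_assoc]
  rw [hexp, hexp, mulVec_inv_mulVec'] at h5
  have h6 := congrArg (fun w => (g : Matrix (Fin d ⊕ Fin d) (Fin d ⊕ Fin d) F) *ᵥ w) h5
  simp only [mulVec_inv_mulVec'] at h6
  exact h6

/-- A transvection does not commute with a structure. -/
theorem no_str_gt {ι : Module.End F (Fin d ⊕ Fin d → F)} (hν : ¬ IsSquare ν) (hι : IsStr (sympBilin d F) ν ι)
    {w : Fin d ⊕ Fin d → F} (hw : w ≠ 0)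
    (hc : ∀ v, ((gt w (1 : F) : GL (Fin d ⊕ Fin d) F) : Matrix (Fin d ⊕ Fin d) (Fin d ⊕ Fin d) F) *ᵥ (ι v) =
      ι (((gt w (1 : F) : GL (Fin d ⊕ Fin d) F) : Matrix (Fin d ⊕ Fin d) (Fin d ⊕ Fin d) F) *ᵥ v)) : False := by
  obtain ⟨v, hv⟩ := exists_sympForm_ne hw
  have h1 := hc v
  rw [gt_mulVec, gt_mulVec, map_add, map_smul, add_right_inj, one_mul, one_mul] at h1
  set a := Cfsg.sympForm d F (ι v) w
  set b := Cfsg.sympForm d F v w
  have h2 : ι w = (a / b) • w := by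
    rw [div_eq_inv_mul, mul_smul, h1, smul_smul, inv_mul_cancel₀ hv, one_smul]
  have h3 := hι.sq w
  rw [h2, map_smul, h2, smul_smul] at h3
  have h4 : (a / b * (a / b) - ν) • w = 0 := by
    rw [sub_smul, h3, sub_self]
  rcases smul_eq_zero.mp h4 with h5 | h5
  · apply hν
    exact ⟨a / b, (sub_eq_zero.mp h5).symm⟩
  · exact hw h5

/-- The group element of a symplectic matrix. -/
noncomputable def toGL (y : symplecticGroup (Fin d) F) : GL (Fin d ⊕ Fin d) F := glOfIsom (spToLin y)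

theorem toGL_val (y : symplecticGroup (Fin d) F) :
    (toGL y : Matrix (Fin d ⊕ Fin d) (Fin d ⊕ Fin d) F) = (y : Matrix (Fin d ⊕ Fin d) (Fin d ⊕ Fin d) F) := by
  apply matrix_eq_of_mulVec_eq
  intro v
  exact glOfEquiv_mulVec _ v

theorem toGL_mem (y : symplecticGroup (Fin d) F) : toGL y ∈ Cfsg.spGL d F :=
  glOfIsom_mem (fun u v => mem_symplecticGroup_iff_forall.mp y.2 u v)

end Main

section Statement

variable {F : Type u} [Field F] [Fintype F]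

theorem main {p : ℕ} [Fact p.Prime] [CharP F p] {q : ℕ} (hq : Fintype.card F = q)
    (hodd : Odd q) (d : ℕ) (hd : 2 ≤ d)
    (K : Subalgebra F (Matrix (Fin d ⊕ Fin d) (Fin d ⊕ Fin d) F)) (hK : Cfsg.Geo.IsFieldSubalgebra 2 K)
    (hKf : Cfsg.Geo.IsAdjointClosedFor (Cfsg.sympForm d F) K) (hKns : ¬ Cfsg.Geo.IsSelfAdjointFor (Cfsg.sympForm d F) K)
    (r : ℕ) [Fact r.Prime]
    (hΩ : r ∣ (Cfsg.Geo.subalgebraNormalizer K).relIndex (Cfsg.spGL d F)) :
    (∀ x ∈ Cfsg.spGL d F, (∃ z : F, ((x ^ r : GL (Fin d ⊕ Fin d) F) : Matrix (Fin d ⊕ Fin d) (Fin d ⊕ Fin d) F) = z • (1 : Matrix (Fin d ⊕ Fin d) (Fin d ⊕ Fin d) F)) →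
      (∀ z : F, (x : Matrix (Fin d ⊕ Fin d) (Fin d ⊕ Fin d) F) ≠ z • (1 : Matrix (Fin d ⊕ Fin d) (Fin d ⊕ Fin d) F)) →
      ∃ g ∈ Cfsg.spGL d F, g⁻¹ * x * g ∈ Cfsg.Geo.subalgebraNormalizer K) ↔ r = 2 := by
  classical
  subst hq
  have hr : r.Prime := Fact.out
  have hdpos : 0 < d := by omega
  have h2 : (2 : F) ≠ 0 := by
    intro h0
    have hp2 : p ∣ 2 := (CharP.cast_eq_zero_iff F p 2).mp (by exact_mod_cast h0)
    have hp : p = 2 := (Nat.prime_dvd_prime_iff_eq Fact.out Nat.prime_two).mp hp2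
    obtain ⟨n, hpp, hn⟩ := FiniteField.card F p
    rw [hn, hp] at hodd
    exact (Nat.not_even_iff_odd.mpr hodd) ((even_two.pow_of_ne_zero n.ne_zero))
  have hrc : ringChar F ≠ 2 := by
    intro hc
    apply h2
    have := ringChar.Nat.cast_ringChar (R := F)
    rwa [hc] at this
  obtain ⟨ν, hν⟩ := FiniteField.exists_nonsquare hrc
  have hν0 := ne_zero_of_not_square hν
  obtain ⟨ι₀, hD⟩ := exists_iota h2 hν hK hKf hKns
  have hA : (sympBilin d F).IsAlt := sympBilin_isAlt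
  have hN : (sympBilin d F).Nondegenerate := sympBilin_nondegenerate
  have hdimV : finrank F (Fin d ⊕ Fin d → F) = 2 * d := by
    rw [Module.finrank_fintype_fun_eq_card, Fintype.card_sum, Fintype.card_fin]
    ring
  constructor
  · intro H
    by_contra hr2
    have hrodd : Odd r := hr.odd_of_ne_two hr2
    have key : ∀ x ∈ Cfsg.spGL d F, ((x ^ r : GL (Fin d ⊕ Fin d) F) : Matrix (Fin d ⊕ Fin d) (Fin d ⊕ Fin d) F) = 1 →
        (∀ z : F, (x : Matrix (Fin d ⊕ Fin d) (Fin d ⊕ Fin d) F) ≠ z • (1 : Matrix (Fin d ⊕ Fin d) (Fin d ⊕ Fin d) F)) →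
        ∃ ι : Module.End F (Fin d ⊕ Fin d → F), IsStr (sympBilin d F) ν ι ∧
          ∀ v, (x : Matrix (Fin d ⊕ Fin d) (Fin d ⊕ Fin d) F) *ᵥ (ι v) = ι ((x : Matrix (Fin d ⊕ Fin d) (Fin d ⊕ Fin d) F) *ᵥ v) := by
      intro x hx hxr hns
      obtain ⟨g, hg, hgN⟩ := H x hx ⟨1, by rw [one_smul]; exact hxr⟩ hns
      exact str_of_conj hdpos h2 hν0 hK hD hrodd hxr hg hgN
    by_cases hrp : r = p
    · -- the transvections
      subst hrp
      let i₀ : Fin d := ⟨0, hdpos⟩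
      let w : Fin d ⊕ Fin d → F := Pi.single (Sum.inl i₀) 1
      have hw : w ≠ 0 := by
        intro h
        have := congrFun h (Sum.inl i₀)
        simp [w] at this
      have hpow : ∀ n : ℕ, (gt w (1 : F)) ^ n = gt w (n : F) := by
        intro n
        induction n with
        | zero => simp [gt_zero_right]
        | succ n ih => rw [pow_succ, ih, gt_mul]; push_cast; rfl
      have hx1 : ((gt w (1 : F) ^ r : GL (Fin d ⊕ Fin d) F) : Matrix (Fin d ⊕ Fin d) (Fin d ⊕ Fin d) F) = 1 := by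
        rw [hpow, CharP.cast_eq_zero, gt_zero_right]
        rfl
      obtain ⟨v, hv⟩ := exists_sympForm_ne hw
      have hns : ∀ z : F, ((gt w (1 : F) : GL (Fin d ⊕ Fin d) F) : Matrix (Fin d ⊕ Fin d) (Fin d ⊕ Fin d) F) ≠ z • (1 : Matrix (Fin d ⊕ Fin d) (Fin d ⊕ Fin d) F) := by
        intro z hz
        have h1 : ((gt w (1 : F) : GL (Fin d ⊕ Fin d) F) : Matrix (Fin d ⊕ Fin d) (Fin d ⊕ Fin d) F) *ᵥ w = z • w := by
          rw [hz, Matrix.smul_mulVec, Matrix.one_mulVec]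
        have h3 : ((gt w (1 : F) : GL (Fin d ⊕ Fin d) F) : Matrix (Fin d ⊕ Fin d) (Fin d ⊕ Fin d) F) *ᵥ v = z • v := by
          rw [hz, Matrix.smul_mulVec, Matrix.one_mulVec]
        rw [gt_mulVec, show Cfsg.sympForm d F w w = 0 from hA w, mul_zero, zero_smul, add_zero] at h1
        have hz1 : z = 1 := by
          have : (z - 1) • w = 0 := by rw [sub_smul, ← h1, one_smul, sub_self]
          rcases smul_eq_zero.mp this with h | h
          · exact sub_eq_zero.mp h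
          · exact absurd h hw
        rw [hz1, one_smul, gt_mulVec, add_eq_left, smul_eq_zero, one_mul] at h3
        rcases h3 with h | h
        · exact hv h
        · exact hw h
      obtain ⟨ι, hι, hc⟩ := key _ (gt_mem w 1) hx1 hns
      exact no_str_gt hν hι hw hc
    -- the semisimple elements
    have hr0 : (r : F) ≠ 0 := PslNum.cast_ne_zero_of_ne hr hrp
    have hq1 : 1 ≤ Fintype.card F := Fintype.card_pos
    have hrq : ¬ r ∣ Fintype.card F := by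
      obtain ⟨n, hp, hn⟩ := FiniteField.card F p
      rw [hn]
      intro h3
      have h4 := hr.dvd_of_dvd_pow h3
      exact hrp ((Nat.prime_dvd_prime_iff_eq hr hp).1 h4)
    have hipos : 0 < orderOf ((Fintype.card F : ℕ) : ZMod r) := by
      obtain ⟨g, -, hg2, -, hg4⟩ := SpModel.exists_factor (F := F) (p := p) rfl hr hrp
      rw [← hg4]
      exact hg2.natDegree_pos
    have hmodel : ∀ b K, 0 < K → SpModel.Reali F r b K → b ≤ d → ∃ y : GL (Fin d ⊕ Fin d) F, y ∈ Cfsg.spGL d F ∧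
        ((y ^ r : GL (Fin d ⊕ Fin d) F) : Matrix (Fin d ⊕ Fin d) (Fin d ⊕ Fin d) F) = 1 ∧
        (Matrix.toLin' (y : Matrix (Fin d ⊕ Fin d) (Fin d ⊕ Fin d) F)) ^ r = 1 ∧
        finrank F (Ker (Matrix.toLin' (y : Matrix (Fin d ⊕ Fin d) (Fin d ⊕ Fin d) F)) r) = K ∧
        ∃ ι : Module.End F (Fin d ⊕ Fin d → F), IsStr (sympBilin d F) ν ι ∧
          ∀ v, (Matrix.toLin' (y : Matrix (Fin d ⊕ Fin d) (Fin d ⊕ Fin d) F)) (ι v) = ι ((Matrix.toLin' (y : Matrix (Fin d ⊕ Fin d) (Fin d ⊕ Fin d) F)) v) := by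
      intro b K hK hR hbd
      have hReal := hR.nsmul (d - b) 1
      have hdb : b * 1 + (d - b) = d := by omega
      rw [hdb, mul_one] at hReal
      obtain ⟨y, hyr, hyF⟩ := hReal.toSp
      have hval := toGL_val y
      have hx1 : ((toGL y ^ r : GL (Fin d ⊕ Fin d) F) : Matrix (Fin d ⊕ Fin d) (Fin d ⊕ Fin d) F) = 1 := by
        rw [Units.val_pow_eq_pow_val, hval, hyr]
      have hTr : (Matrix.toLin' (y : Matrix (Fin d ⊕ Fin d) (Fin d ⊕ Fin d) F)) ^ r = 1 := by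
        rw [← Matrix.toLin'_pow, hyr, Matrix.toLin'_one]
        rfl
      have hKc : finrank F (Ker (Matrix.toLin' (y : Matrix (Fin d ⊕ Fin d) (Fin d ⊕ Fin d) F)) r) = K := by
        have h4 := finrank_Fix_add hr0 hTr
        rw [hdimV] at h4
        omega
      have hns : ∀ z : F, (toGL y : Matrix (Fin d ⊕ Fin d) (Fin d ⊕ Fin d) F) ≠ z • (1 : Matrix (Fin d ⊕ Fin d) (Fin d ⊕ Fin d) F) := by
        intro z
        rw [hval]
        exact SpImprimMain.nonscalar_of_K hrodd hdpos y hyr hK hyF z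
      obtain ⟨ι, hι, hc⟩ := key _ (toGL_mem y) hx1 hns
      refine ⟨toGL y, toGL_mem y, hx1, ?_, ?_, ι, hι, ?_⟩
      · rw [hval]; exact hTr
      · rw [hval]; exact hKc
      · rw [hval]
        intro v
        have := hc v
        rw [hval] at this
        exact this
    obtain ⟨j, hj, hjd⟩ := (dvd_main (p := p) hdpos h2 hν hD hr hΩ).resolve_left hrq
    have hjlt : j < d := Finset.mem_range.mp hj
    split_ifs at hjd with hje
    · -- the odd order case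
      have hi1 : orderOf ((Fintype.card F : ℕ) : ZMod r) ∣ j + 1 := (PslNum.pow_eq_one_iff' hq1).mpr hjd
      have hJodd : Odd (j + 1) := hje.add_one
      have hiodd : Odd (orderOf ((Fintype.card F : ℕ) : ZMod r)) := Odd.of_dvd_nat hJodd hi1
      have hile : orderOf ((Fintype.card F : ℕ) : ZMod r) ≤ d := (Nat.le_of_dvd (by omega) hi1).trans (by omega)
      obtain ⟨y, hym, hyr, hyT, hyK, ι, hι, hc⟩ := hmodel _ (2 * orderOf ((Fintype.card F : ℕ) : ZMod r)) (by omega)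
        (SpModel.reali_full (p := p) rfl hr hrp) hile
      exact no_str_odd h2 hA hN (fun u v => (mem_spGL_iff y).mp hym u v) hr0 hrodd hyT hν hι hc hipos hiodd
        (PslNum.fac_Phi (p := p) rfl hr hrp) hyK
    · -- the order divisible by four
      have hJe : Even (j + 1) := by
        rcases Nat.even_or_odd j with h | h
        · exact absurd h hje
        · exact h.add_one
      obtain ⟨hi1, hi4⟩ := order_of_plus hr2 hJe hjd
      obtain ⟨b, hb⟩ := hi4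
      have hib : orderOf ((Fintype.card F : ℕ) : ZMod r) = 2 * (2 * b) := by rw [hb]; ring
      have hb0 : 0 < 2 * b := by omega
      have hile : orderOf ((Fintype.card F : ℕ) : ZMod r) ≤ 2 * d := (Nat.le_of_dvd (by omega) hi1).trans (by omega)
      obtain ⟨y, hym, hyr, hyT, hyK, ι, hι, hc⟩ := hmodel (2 * b) (2 * (2 * b)) (by omega)
        (SpModel.reali_half (p := p) rfl hr hrp hib hb0 (SpImprimMain.dvd_pow_add_one hr2 hib hb0)) (by omega)
      exact no_str_even h2 hA hN (fun u v => (mem_spGL_iff y).mp hym u v) hr2 hrp hyT hν hι hc ⟨b, hb⟩ (by rw [hyK, hib])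
  · intro hr2
    subst hr2
    intro x hx hxz hns
    obtain ⟨z, hz⟩ := hxz
    have hI : ∀ u v, sympBilin d F (Matrix.toLin' (x : Matrix (Fin d ⊕ Fin d) (Fin d ⊕ Fin d) F) u) (Matrix.toLin' (x : Matrix (Fin d ⊕ Fin d) (Fin d ⊕ Fin d) F) v) = sympBilin d F u v :=
      fun u v => (mem_spGL_iff x).mp hx u v
    have hT : ∀ v, Matrix.toLin' (x : Matrix (Fin d ⊕ Fin d) (Fin d ⊕ Fin d) F) (Matrix.toLin' (x : Matrix (Fin d ⊕ Fin d) (Fin d ⊕ Fin d) F) v) = z • v := by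
      intro v
      rw [Units.val_pow_eq_pow_val] at hz
      simp only [Matrix.toLin'_apply, Matrix.mulVec_mulVec]
      rw [← _root_.sq, hz, Matrix.smul_mulVec, Matrix.one_mulVec]
    obtain ⟨ι', ε, hε, hι', hTc⟩ := exists_str_of_sq h2 hν hdpos _ hI hT
    obtain ⟨h, hhm, hh⟩ := exists_conj h2 hν hD.str hι'
    refine ⟨h, hhm, ?_⟩
    have hεε : ε * ε = 1 := by
      rcases hε with rfl | rfl <;> ring
    apply mem_normalizer_of hD _ hεε
    apply matrix_eq_of_mulVec_eq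
    intro v
    rw [Matrix.smul_mulVec, ← Matrix.mulVec_mulVec, ← Matrix.mulVec_mulVec]
    have hexp : ∀ w, ((h⁻¹ * x * h : GL (Fin d ⊕ Fin d) F) : Matrix (Fin d ⊕ Fin d) (Fin d ⊕ Fin d) F) *ᵥ w =
        ((h⁻¹ : GL (Fin d ⊕ Fin d) F) : Matrix (Fin d ⊕ Fin d) (Fin d ⊕ Fin d) F) *ᵥ ((x : Matrix (Fin d ⊕ Fin d) (Fin d ⊕ Fin d) F) *ᵥ ((h : Matrix (Fin d ⊕ Fin d) (Fin d ⊕ Fin d) F) *ᵥ w)) := by
      intro w
      simp only [Units.val_mul, Matrix.mulVec_mulVec, Matrix.mul_assoc]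
    rw [hexp, hexp]
    have e1 : (h : Matrix (Fin d ⊕ Fin d) (Fin d ⊕ Fin d) F) *ᵥ (ι₀ *ᵥ v) = ι' ((h : Matrix (Fin d ⊕ Fin d) (Fin d ⊕ Fin d) F) *ᵥ v) := hh v
    rw [e1]
    have e2 : (x : Matrix (Fin d ⊕ Fin d) (Fin d ⊕ Fin d) F) *ᵥ (ι' ((h : Matrix (Fin d ⊕ Fin d) (Fin d ⊕ Fin d) F) *ᵥ v)) =
        ε • ι' ((x : Matrix (Fin d ⊕ Fin d) (Fin d ⊕ Fin d) F) *ᵥ ((h : Matrix (Fin d ⊕ Fin d) (Fin d ⊕ Fin d) F) *ᵥ v)) := hTc _
    rw [e2, Matrix.mulVec_smul]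
    congr 1
    have e3 := hh (((h⁻¹ : GL (Fin d ⊕ Fin d) F) : Matrix (Fin d ⊕ Fin d) (Fin d ⊕ Fin d) F) *ᵥ ((x : Matrix (Fin d ⊕ Fin d) (Fin d ⊕ Fin d) F) *ᵥ ((h : Matrix (Fin d ⊕ Fin d) (Fin d ⊕ Fin d) F) *ᵥ v)))
    rw [mulVec_inv_mulVec'] at e3
    rw [← e3, inv_mulVec_mulVec]
    rfl

end Statement

end Cfsg.Agent.Lib.Classical.Elusive.SpHermMain
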