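import Mathlib
import Cfsg.Agent.Lib.Classical.Elusive.SlU
import Cfsg.Agent.Lib.Classical.Elusive.SpHermMain

/-!
# Arithmetic of the index of a unitary similarity group in `SL_n(q)`
-/

set_option autoImplicit false
set_option linter.unusedSectionVars false
set_option linter.unusedSimpArgs false
set_option linter.unusedVariables false
set_option linter.style.haveILetI false

namespace Cfsg.Agent.Lib.Classical.Elusive.SlUNum

open Polynomial Module Matrix
open Cfsg.Agent.Lib.Classical.Elusive.SlU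
open Cfsg.Agent.Lib.Classical.Herm.Basic Cfsg.Agent.Lib.Classical.Herm.GU
open Cfsg.Agent.Lib.Linalg.Bridge

universe u

/-- The factors of the order of the unitary group. -/
def facA (q₀ s : ℕ) : ℕ := if Even s then q₀ ^ (s + 1) + 1 else q₀ ^ (s + 1) - 1

/-- The complementary factors. -/
def facB (q₀ s : ℕ) : ℕ := if Even s then q₀ ^ (s + 1) - 1 else q₀ ^ (s + 1) + 1

theorem facA_mul_facB {q₀ : ℕ} (hq : 1 ≤ q₀) (s : ℕ) : facA q₀ s * facB q₀ s = (q₀ ^ 2) ^ (s + 1) - 1 := by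
  have h1 : 1 ≤ q₀ ^ (s + 1) := Nat.one_le_pow _ _ hq
  obtain ⟨c, hc⟩ : ∃ c, q₀ ^ (s + 1) = c + 1 := ⟨q₀ ^ (s + 1) - 1, by omega⟩
  have h2 : (q₀ ^ 2) ^ (s + 1) = (c + 1) ^ 2 := by
    rw [← hc, ← pow_mul, ← pow_mul, mul_comm]
  unfold facA facB
  rw [hc, h2]
  split_ifs <;> simp only [Nat.add_sub_cancel] <;> rw [show (c + 1) ^ 2 = (c + 1 + 1) * c + 1 by ring] <;> simp <;> ring

theorem facA_pos {q₀ : ℕ} (hq : 2 ≤ q₀) (s : ℕ) : 0 < facA q₀ s := by
  unfold facA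
  have h1 : 2 ≤ q₀ ^ (s + 1) := by
    calc 2 ≤ q₀ := hq
      _ = q₀ ^ 1 := (pow_one q₀).symm
      _ ≤ q₀ ^ (s + 1) := Nat.pow_le_pow_right (by omega) (by omega)
  split_ifs <;> omega

/-- Facts on the order of `q` modulo `r`, from a prime dividing a complementary factor. -/
theorem order_facts {q₀ r n : ℕ} [Fact r.Prime] (hr2 : r ≠ 2) (hq : 1 ≤ q₀) (hrq : ¬ r ∣ q₀)
    {j : ℕ} (hj : j < n) (hJ : r ∣ facB q₀ j) :
    orderOf (((q₀ ^ 2 : ℕ)) : ZMod r) ≤ n ∧ ∀ s, s < orderOf (((q₀ ^ 2 : ℕ)) : ZMod r) → ¬ r ∣ facA q₀ s := by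
  have hr : r.Prime := Fact.out
  have hx0 : ((q₀ : ℕ) : ZMod r) ≠ 0 := fun h0 => hrq ((ZMod.natCast_eq_zero_iff _ _).1 h0)
  set x : ZMod r := (q₀ : ZMod r) with hx
  have hcast : (((q₀ ^ 2 : ℕ)) : ZMod r) = x ^ 2 := by
    push_cast
    rfl
  rw [hcast]
  haveI : NeZero r := ⟨hr.ne_zero⟩
  have hipos : 0 < orderOf x := by
    apply orderOf_pos_iff.mpr
    exact isOfFinOrder_iff_pow_eq_one.mpr ⟨r - 1, by have := hr.two_le; omega, ZMod.pow_card_sub_one_eq_one hx0⟩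
  have hneg : ∀ m, r ∣ q₀ ^ m + 1 → x ^ m = -1 := by
    intro m hm
    have := (ZMod.natCast_eq_zero_iff (q₀ ^ m + 1) r).mpr hm
    push_cast at this
    exact eq_neg_of_add_eq_zero_left this
  have hone : ∀ m, r ∣ q₀ ^ m - 1 → orderOf x ∣ m := fun m hm => (Cfsg.Agent.Lib.Classical.Elusive.PslNum.pow_eq_one_iff' hq).2 hm
  have hne : (1 : ZMod r) ≠ -1 := by
    intro h
    haveI : Fact (2 < r) := ⟨by have := hr.two_le; omega⟩
    have h6 : (2 : ZMod r) = 0 := by linear_combination h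
    have h7 : r ∣ 2 := (ZMod.natCast_eq_zero_iff 2 r).mp (by exact_mod_cast h6)
    exact hr2 ((Nat.prime_dvd_prime_iff_eq hr Nat.prime_two).mp h7)
  unfold facB at hJ
  split_ifs at hJ with hje
  · -- `q₀ ^ J ≡ 1`, with `J` odd
    have h1 : orderOf x ∣ j + 1 := hone _ hJ
    have hJodd : Odd (j + 1) := hje.add_one
    have hod : Odd (orderOf x) := Odd.of_dvd_nat hJodd h1
    have hcop : Nat.Coprime (orderOf x) 2 := Nat.coprime_comm.mp ((Nat.coprime_two_left).mpr hod)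
    have h2 : orderOf (x ^ 2) = orderOf x := by
      rw [orderOf_pow' x (by norm_num)]
      have : Nat.gcd (orderOf x) 2 = 1 := hcop
      rw [this, Nat.div_one]
    rw [h2]
    refine ⟨(Nat.le_of_dvd (by omega) h1).trans (by omega), fun s hs hdvd => ?_⟩
    unfold facA at hdvd
    split_ifs at hdvd with hse
    · have h3 := hneg _ hdvd
      have h4 : x ^ (2 * (s + 1)) = 1 := by
        rw [mul_comm, pow_mul, h3]
        ring
      have h5 : orderOf x ∣ 2 * (s + 1) := orderOf_dvd_of_pow_eq_one h4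
      have h6 : orderOf x ∣ s + 1 := (Nat.Coprime.dvd_mul_left hcop).mp h5
      have h7 : x ^ (s + 1) = 1 := orderOf_dvd_iff_pow_eq_one.mp h6
      rw [h3] at h7
      exact hne h7.symm
    · have h3 := hone _ hdvd
      have hse' : Even (s + 1) := by
        rcases Nat.even_or_odd s with h | h
        · exact absurd h hse
        · exact h.add_one
      have h4 : 2 ∣ s + 1 := hse'.two_dvd
      have h5 : 2 * orderOf x ∣ s + 1 := Nat.Coprime.mul_dvd_of_dvd_of_dvd (Nat.coprime_comm.mp hcop) h4 h3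
      have h6 := Nat.le_of_dvd (by omega) h5
      omega
  · -- `q₀ ^ J ≡ -1`, with `J` even
    have hJe : Even (j + 1) := by
      rcases Nat.even_or_odd j with h | h
      · exact absurd h hje
      · exact h.add_one
    obtain ⟨h1₀, h4⟩ := Cfsg.Agent.Lib.Classical.Elusive.SpHermMain.order_of_plus (q := q₀) hr2 hJe hJ
    obtain ⟨b, hb₀⟩ := h4
    have h1 : orderOf x ∣ 2 * (j + 1) := h1₀
    have hb : orderOf x = 4 * b := hb₀
    have h2 : orderOf (x ^ 2) = 2 * b := by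
      rw [orderOf_pow' x (by norm_num)]
      have : Nat.gcd (orderOf x) 2 = 2 := by
        apply Nat.gcd_eq_right
        exact ⟨2 * b, by rw [hb]; ring⟩
      rw [this, hb]
      omega
    rw [h2]
    have hbpos : 0 < b := by
      rcases Nat.eq_zero_or_pos b with h | h
      · rw [h] at hb
        omega
      · exact h
    refine ⟨?_, fun s hs hdvd => ?_⟩
    · have h3 : 2 * b ∣ j + 1 := by
        rw [hb, show 4 * b = 2 * (2 * b) by ring] at h1
        exact Nat.dvd_of_mul_dvd_mul_left (by norm_num) h1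
      exact (Nat.le_of_dvd (by omega) h3).trans (by omega)
    · unfold facA at hdvd
      split_ifs at hdvd with hse
      · have h3 := hneg _ hdvd
        have h4 : x ^ (2 * (s + 1)) = 1 := by
          rw [mul_comm, pow_mul, h3]
          ring
        have h5 : orderOf x ∣ 2 * (s + 1) := orderOf_dvd_of_pow_eq_one h4
        rw [hb] at h5
        have h6 : 4 ∣ 2 * (s + 1) := Dvd.dvd.trans ⟨b, rfl⟩ h5
        have h7 : 2 ∣ s + 1 := by omega
        have h8 : Odd (s + 1) := hse.add_one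
        exact (Nat.not_even_iff_odd.mpr h8) (even_iff_two_dvd.mpr h7)
      · have h3 := hone _ hdvd
        rw [hb] at h3
        have h6 := Nat.le_of_dvd (by omega) h3
        omega

section Index

variable {F : Type u} [Field F] [Fintype F] {q₀ n : ℕ} {f : (Fin n → F) → (Fin n → F) → F}

/-- Isometries of a form. -/
abbrev isoU (f : (Fin n → F) → (Fin n → F) → F) : Subgroup (GL (Fin n) F) :=
  Cfsg.preserving (Units.coeHom (Matrix (Fin n) (Fin n) F)) f

theorem card_isoU (hF : Fintype.card F = q₀ ^ 2) (hf : Cfsg.Geo.IsUnitaryFormPow q₀ f) :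
    Nat.card (isoU f) = Nat.card (Cfsg.GU n F q₀) := by
  classical
  obtain ⟨P, hP⟩ := exists_normal hF hf
  have hP' : ∀ u, (P : Matrix (Fin n) (Fin n) F) *ᵥ (((P⁻¹ : GL (Fin n) F) : Matrix (Fin n) (Fin n) F) *ᵥ u) = u := by
    intro u
    rw [Matrix.mulVec_mulVec, ← Units.val_mul, mul_inv_cancel, Units.val_one, Matrix.one_mulVec]
  have hP'' : ∀ u, ((P⁻¹ : GL (Fin n) F) : Matrix (Fin n) (Fin n) F) *ᵥ ((P : Matrix (Fin n) (Fin n) F) *ᵥ u) = u := by
    intro u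
    rw [Matrix.mulVec_mulVec, ← Units.val_mul, inv_mul_cancel, Units.val_one, Matrix.one_mulVec]
  refine Nat.card_congr
    { toFun := fun g => ⟨P⁻¹ * g.1 * P, fun u v => ?_⟩
      invFun := fun g => ⟨P * g.1 * P⁻¹, fun u v => ?_⟩
      left_inv := fun g => ?_
      right_inv := fun g => ?_ }
  · show Cfsg.hermForm n F q₀ (((P⁻¹ * g.1 * P : GL (Fin n) F) : Matrix (Fin n) (Fin n) F) *ᵥ u) (((P⁻¹ * g.1 * P : GL (Fin n) F) : Matrix (Fin n) (Fin n) F) *ᵥ v) = _
    have h1 : ∀ w, ((P⁻¹ * g.1 * P : GL (Fin n) F) : Matrix (Fin n) (Fin n) F) *ᵥ w = ((P⁻¹ : GL (Fin n) F) : Matrix (Fin n) (Fin n) F) *ᵥ ((g.1 : Matrix (Fin n) (Fin n) F) *ᵥ ((P : Matrix (Fin n) (Fin n) F) *ᵥ w)) := by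
      intro w
      simp only [Units.val_mul, Matrix.mulVec_mulVec, Matrix.mul_assoc]
    rw [h1, h1, ← hP, hP', hP', ← hP]
    exact g.2 _ _
  · show f (((P * g.1 * P⁻¹ : GL (Fin n) F) : Matrix (Fin n) (Fin n) F) *ᵥ u) (((P * g.1 * P⁻¹ : GL (Fin n) F) : Matrix (Fin n) (Fin n) F) *ᵥ v) = _
    have h1 : ∀ w, ((P * g.1 * P⁻¹ : GL (Fin n) F) : Matrix (Fin n) (Fin n) F) *ᵥ w = (P : Matrix (Fin n) (Fin n) F) *ᵥ ((g.1 : Matrix (Fin n) (Fin n) F) *ᵥ (((P⁻¹ : GL (Fin n) F) : Matrix (Fin n) (Fin n) F) *ᵥ w)) := by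
      intro w
      simp only [Units.val_mul, Matrix.mulVec_mulVec, Matrix.mul_assoc]
    rw [h1, h1, hP]
    have h2 : Cfsg.hermForm n F q₀ ((g.1 : Matrix (Fin n) (Fin n) F) *ᵥ (((P⁻¹ : GL (Fin n) F) : Matrix (Fin n) (Fin n) F) *ᵥ u)) ((g.1 : Matrix (Fin n) (Fin n) F) *ᵥ (((P⁻¹ : GL (Fin n) F) : Matrix (Fin n) (Fin n) F) *ᵥ v)) = _ := g.2 _ _
    rw [h2, ← hP, hP', hP']
  · apply Subtype.ext
    show P * (P⁻¹ * g.1 * P) * P⁻¹ = g.1
    group
  · apply Subtype.ext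
    show P⁻¹ * (P * g.1 * P⁻¹) * P = g.1
    group

/-- The arithmetic consequence of a prime dividing the index of a unitary similarity group. -/
theorem index_arith (hF : Fintype.card F = q₀ ^ 2) (hf : Cfsg.Geo.IsUnitaryFormPow q₀ f) {r : ℕ} (hr : r.Prime)
    (hΩ : r ∣ (Cfsg.Geo.similarityGroup f).relIndex (Cfsg.Geo.specialLinear (Fin n) F)) :
    r ∣ q₀ ∨ ∃ j, j < n ∧ r ∣ facB q₀ j := by
  classical
  have hq2 : 2 ≤ q₀ := two_le_q hF
  haveI : (Cfsg.Geo.specialLinear (Fin n) F).Normal := by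
    unfold Cfsg.Geo.specialLinear
    infer_instance
  have h1 := SlSp.relIndex_dvd_index_right (Cfsg.Geo.similarityGroup f) (Cfsg.Geo.specialLinear (Fin n) F)
  have hle : isoU f ≤ Cfsg.Geo.similarityGroup f := by
    intro g hg
    refine ⟨1, fun u v => ?_⟩
    have h : f ((g : Matrix (Fin n) (Fin n) F) *ᵥ u) ((g : Matrix (Fin n) (Fin n) F) *ᵥ v) = f u v := hg u v
    rw [h]
    simp
  have h2 := Subgroup.index_dvd_of_le hle
  have h3 : r ∣ (isoU f).index := (hΩ.trans h1).trans h2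
  have h4 := Subgroup.index_mul_card (isoU f)
  rw [card_isoU hF hf, card_GU hF n, Matrix.card_GL_field, hF,
    SpPairsMain.prod_gl (by
      have : 2 ^ 2 ≤ q₀ ^ 2 := Nat.pow_le_pow_left hq2 2
      omega)] at h4
  have h5 : ∏ j ∈ Finset.range n, ((q₀ ^ 2) ^ (j + 1) - 1) = (∏ j ∈ Finset.range n, facA q₀ j) * ∏ j ∈ Finset.range n, facB q₀ j := by
    rw [← Finset.prod_mul_distrib]
    exact Finset.prod_congr rfl fun s _ => (facA_mul_facB (by omega) s).symm
  rw [h5] at h4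
  have h6 : (∏ i ∈ Finset.range n, (if Even i then q₀ ^ (i + 1) + 1 else q₀ ^ (i + 1) - 1)) = ∏ j ∈ Finset.range n, facA q₀ j := rfl
  rw [h6] at h4
  have hpos : 0 < ∏ j ∈ Finset.range n, facA q₀ j := Finset.prod_pos fun s _ => facA_pos hq2 s
  have h7 : (isoU f).index * q₀ ^ (n * (n - 1) / 2) =
      (∏ i ∈ Finset.range n, (q₀ ^ 2) ^ i) * ∏ j ∈ Finset.range n, facB q₀ j := by
    apply Nat.eq_of_mul_eq_mul_right hpos
    rw [mul_assoc, h4]
    ring
  have h8 : r ∣ (∏ i ∈ Finset.range n, (q₀ ^ 2) ^ i) * ∏ j ∈ Finset.range n, facB q₀ j := by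
    rw [← h7]
    exact h3.mul_right _
  rcases hr.dvd_mul.1 h8 with h9 | h9
  · left
    obtain ⟨i, -, hi⟩ := (Prime.dvd_finsetProd_iff hr.prime _).1 h9
    exact hr.dvd_of_dvd_pow (hr.dvd_of_dvd_pow hi)
  · right
    obtain ⟨j, hj, hj'⟩ := (Prime.dvd_finsetProd_iff hr.prime _).1 h9
    exact ⟨j, Finset.mem_range.1 hj, hj'⟩

end Index

end Cfsg.Agent.Lib.Classical.Elusive.SlUNum
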