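import Mathlib
import Cfsg.Agent.Lib.Classical.Elusive.SlU
import Cfsg.Agent.Lib.Classical.Elusive.SlUNum
import Cfsg.Agent.Lib.Classical.Elusive.SpModel
import Cfsg.Agent.Lib.Classical.Elusive.PslImprimMain

/-!
# Elements of prime order of `PSL_n(q₀²)` outside every conjugate of the similarity group of a unitary form
-/

set_option autoImplicit false
set_option linter.unusedSectionVars false
set_option linter.unusedSimpArgs false
set_option linter.unusedVariables false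
set_option linter.style.haveILetI false

namespace Cfsg.Agent.Lib.Classical.Elusive.SlUBad

open Polynomial Module Matrix
open scoped Kronecker
open Cfsg.Agent.Lib.Classical.Elusive.Inv Cfsg.Agent.Lib.Classical.Elusive.SpCore
  Cfsg.Agent.Lib.Classical.Elusive.TensorMain Cfsg.Agent.Lib.Classical.Elusive.SlSp
  Cfsg.Agent.Lib.Classical.Elusive.SlU Cfsg.Agent.Lib.Classical.Elusive.SlUNum
open Cfsg.Agent.Lib.Classical.Herm.Basic Cfsg.Agent.Lib.Classical.Herm.GU
open Cfsg.Agent.Lib.Linalg.Bridge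

universe u

variable {F : Type u} [Field F] [Fintype F] {q₀ n : ℕ} {f : (Fin n → F) → (Fin n → F) → F}

/-- The endomorphism is similar to a similarity of the form. -/
def ConjSim (f : (Fin n → F) → (Fin n → F) → F) (T : Module.End F (Fin n → F)) : Prop :=
  ∃ (S : Module.End F (Fin n → F)) (ψ : (Fin n → F) ≃ₗ[F] (Fin n → F)) (c : F), c ≠ 0 ∧
    (∀ v, ψ (T v) = S (ψ v)) ∧ ∀ u v, f (S u) (S v) = c * f u v

/-- The left-hand side of the criterion. -/
abbrev LHS (f : (Fin n → F) → (Fin n → F) → F) (r : ℕ) : Prop :=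
  ∀ x ∈ Cfsg.Geo.specialLinear (Fin n) F, (∃ z : F, ((x ^ r : GL (Fin n) F) : Matrix (Fin n) (Fin n) F) = z • (1 : Matrix (Fin n) (Fin n) F)) →
      (∀ z : F, (x : Matrix (Fin n) (Fin n) F) ≠ z • (1 : Matrix (Fin n) (Fin n) F)) →
      ∃ g ∈ Cfsg.Geo.specialLinear (Fin n) F, g⁻¹ * x * g ∈ Cfsg.Geo.similarityGroup f

theorem key {r : ℕ} (H : LHS f r) (T : Module.End F (Fin n → F)) {z : F} (hT : T ^ r = z • 1)
    (hdet : LinearMap.det T = 1) (hns : ∀ y : F, T ≠ y • 1) : ConjSim f T := by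
  refine lhsGL (P := ConjSim f) ?_ T hT hdet hns
  intro x hx hxz hxns
  obtain ⟨g, -, c, hc⟩ := H x hx hxz hxns
  refine ⟨Matrix.toLin' ((g⁻¹ * x * g : GL (Fin n) F) : Matrix (Fin n) (Fin n) F), equivOfGL g⁻¹, c, c.ne_zero, ?_, ?_⟩
  · intro v
    simp only [equivOfGL_apply, Matrix.toLin'_apply, Units.val_mul, Matrix.mulVec_mulVec]
    congr 1
    rw [mul_assoc, mul_assoc, Units.mul_inv, mul_one]
  · intro u v
    simpa only [Matrix.toLin'_apply] using hc u v

open _root_.Classical in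
theorem no_diag (hF : Fintype.card F = q₀ ^ 2) (hf : Cfsg.Geo.IsUnitaryFormPow q₀ f) (hn : 0 < n) {r : ℕ} (H : LHS f r)
    (w : Fin n → F) {z : F} (hz : ∀ j, w j ^ r = z) (hprod : ∏ j, w j = 1) {i j : Fin n} (hij : w i ≠ w j) :
    ∃ c : F, c ≠ 0 ∧ ∀ a : F, a ≠ 0 → a ^ q₀ = a →
      (∑ j, if w j = a then 1 else 0) = (∑ j, if w j = c / a then 1 else 0) := by
  have hT : (Matrix.toLin' (Matrix.diagonal w)) ^ r = z • (1 : Module.End F (Fin n → F)) := by
    rw [← Matrix.toLin'_pow, Matrix.diagonal_pow]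
    ext j k
    simp [Matrix.mulVec_diagonal, hz, Pi.single_apply]
  have hdet : LinearMap.det (Matrix.toLin' (Matrix.diagonal w)) = 1 := by
    rw [LinearMap.det_toLin', Matrix.det_diagonal, hprod]
  have hns : ∀ y : F, Matrix.toLin' (Matrix.diagonal w) ≠ y • (1 : Module.End F (Fin n → F)) := by
    intro y hy
    have h1 : ∀ k, w k = y := by
      intro k
      have := congrFun (LinearMap.congr_fun hy (fun _ => 1)) k
      simpa [Matrix.mulVec_diagonal] using this
    exact hij ((h1 i).trans (h1 j).symm)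
  obtain ⟨S, ψ, c, hc0, hψ, hS⟩ := key H _ hT hdet hns
  refine ⟨c, hc0, fun a ha haq => ?_⟩
  rw [← cnt_eig, ← cnt_eig]
  show finrank F _ = finrank F _
  rw [conj_sub_ker ψ hψ, conj_sub_ker ψ hψ]
  have := eig_eq hF hf hn hc0 ha hS
  rw [haq] at this
  exact this

/-- Three blocks. -/
def blockW {c₁ c₂ c₃ : ℕ} (e : (Fin c₁ ⊕ Fin c₂) ⊕ Fin c₃ ≃ Fin n) (α β γ : F) : Fin n → F :=
  fun j => Sum.elim (Sum.elim (fun _ => α) (fun _ => β)) (fun _ => γ) (e.symm j)

open _root_.Classical in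
theorem cnt_block {c₁ c₂ c₃ : ℕ} (e : (Fin c₁ ⊕ Fin c₂) ⊕ Fin c₃ ≃ Fin n) (α β γ a : F) :
    (∑ j, if blockW e α β γ j = a then 1 else 0) =
      (if α = a then c₁ else 0) + (if β = a then c₂ else 0) + (if γ = a then c₃ else 0) := by
  rw [← Equiv.sum_comp e, Fintype.sum_sum_type, Fintype.sum_sum_type]
  have h1 : ∀ x, blockW e α β γ (e (Sum.inl (Sum.inl x))) = α := by
    intro x
    simp [blockW]
  have h2 : ∀ x, blockW e α β γ (e (Sum.inl (Sum.inr x))) = β := by
    intro x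
    simp [blockW]
  have h3 : ∀ x, blockW e α β γ (e (Sum.inr x)) = γ := by
    intro x
    simp [blockW]
  simp only [h1, h2, h3, Finset.sum_const, Finset.card_univ, Fintype.card_fin, smul_eq_mul]
  split_ifs <;> simp

theorem prod_block {c₁ c₂ c₃ : ℕ} (e : (Fin c₁ ⊕ Fin c₂) ⊕ Fin c₃ ≃ Fin n) (α β γ : F) :
    ∏ j, blockW e α β γ j = α ^ c₁ * β ^ c₂ * γ ^ c₃ := by
  rw [← Equiv.prod_comp e]
  simp [blockW, Fintype.prod_sum_type]

open _root_.Classical in
theorem no_block (hF : Fintype.card F = q₀ ^ 2) (hf : Cfsg.Geo.IsUnitaryFormPow q₀ f) (hn : 0 < n) {r : ℕ} (H : LHS f r)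
    {c₁ c₂ c₃ : ℕ} (hc : c₁ + c₂ + c₃ = n) (h1 : 0 < c₁) (h2 : 0 < c₂) (α β γ : F) {z : F}
    (hα : α ^ r = z) (hβ : β ^ r = z) (hγ : γ ^ r = z) (hprod : α ^ c₁ * β ^ c₂ * γ ^ c₃ = 1) (hne : α ≠ β) :
    ∃ c : F, c ≠ 0 ∧ ∀ a : F, a ≠ 0 → a ^ q₀ = a →
      (if α = a then c₁ else 0) + (if β = a then c₂ else 0) + (if γ = a then c₃ else 0) =
      (if α = c / a then c₁ else 0) + (if β = c / a then c₂ else 0) + (if γ = c / a then c₃ else 0) := by
  have e : (Fin c₁ ⊕ Fin c₂) ⊕ Fin c₃ ≃ Fin n := Fintype.equivFinOfCardEq (by simp [hc])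
  obtain ⟨c, hc0, hcc⟩ := no_diag hF hf hn H (blockW e α β γ) (z := z) (i := e (Sum.inl (Sum.inl ⟨0, h1⟩)))
    (j := e (Sum.inl (Sum.inr ⟨0, h2⟩)))
    (by
      intro j
      unfold blockW
      rcases e.symm j with (x | x) | x <;> simpa)
    (by rw [prod_block, hprod])
    (by simpa [blockW] using hne)
  refine ⟨c, hc0, fun a ha haq => ?_⟩
  have := hcc a ha haq
  rwa [cnt_block, cnt_block] at this

theorem pow_ne_one_of {r : ℕ} {ζ : F} (hζ : orderOf ζ = r) {m : ℕ} (hm : ¬ r ∣ m) : ζ ^ m ≠ 1 := by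
  intro h
  exact hm (hζ ▸ orderOf_dvd_of_pow_eq_one h)

theorem bad_D1 (hF : Fintype.card F = q₀ ^ 2) (hf : Cfsg.Geo.IsUnitaryFormPow q₀ f) {k : ℕ} (hk : n = k + 3) {r : ℕ} (H : LHS f r)
    (hr : r.Prime) (hr2 : r ≠ 2) (hr3 : r ≠ 3) (h52 : ¬ (k = 2 ∧ r = 5)) {ζ : F} (hζ : orderOf ζ = r) (hζq : ζ ^ q₀ = ζ) : False := by
  classical
  have hr5 : 5 ≤ r := by
    have := hr.two_le
    by_contra h
    have h4 : r ≠ 4 := by
      rintro rfl
      exact absurd hr (by norm_num)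
    omega
  have hr6 : r ≠ 6 := by
    rintro rfl
    exact absurd hr (by norm_num)
  have hζr : ζ ^ r = 1 := by rw [← hζ]; exact pow_orderOf_eq_one ζ
  have hζ0 : ζ ≠ 0 := by
    intro h
    rw [h, zero_pow hr.pos.ne'] at hζr
    exact zero_ne_one hζr
  have p1 : ζ ≠ 1 := by
    have := pow_ne_one_of hζ (m := 1) (fun h => by have := Nat.le_of_dvd (by omega) h; omega)
    simpa using this
  have p2 : ζ ^ 2 ≠ 1 := pow_ne_one_of hζ (m := 2) (fun h => by have := Nat.le_of_dvd (by omega) h; omega)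
  have p3 : ζ ^ 3 ≠ 1 := pow_ne_one_of hζ (m := 3) (fun h => by have := Nat.le_of_dvd (by omega) h; omega)
  have p4 : ζ ^ 4 ≠ 1 := pow_ne_one_of hζ (m := 4) (fun h => by have := Nat.le_of_dvd (by omega) h; omega)
  have p6 : ζ ^ 6 ≠ 1 := pow_ne_one_of hζ (m := 6) (fun h => by
    have h5 := Nat.le_of_dvd (by omega) h
    have h7 : r = 5 := by omega
    subst h7
    omega)
  have p5 : r ≠ 5 → ζ ^ 5 ≠ 1 := fun h5 => pow_ne_one_of hζ (m := 5) (fun h => by
    have h6 := Nat.le_of_dvd (by omega) h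
    omega)
  set t := ζ⁻¹ with ht
  have hζt : ζ * t = 1 := mul_inv_cancel₀ hζ0
  have ht0 : t ≠ 0 := inv_ne_zero hζ0
  have htq : t ^ q₀ = t := by rw [ht, inv_pow, hζq]
  have htr : t ^ r = 1 := by rw [ht, inv_pow, hζr, inv_one]
  have n1 : ζ ≠ 1 := p1
  have n2 : t ^ 2 ≠ 1 := fun h => p2 (by linear_combination (-ζ ^ 2) * h + (ζ * t + 1) * hζt)
  have n3 : ζ ≠ t ^ 2 := fun h => p3 (by linear_combination ζ ^ 2 * h + (ζ * t + 1) * hζt)
  obtain ⟨c, hc0, hc⟩ := no_block hF hf (by omega) H (c₁ := 2) (c₂ := 1) (c₃ := k) (by omega) (by omega) (by omega)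
    ζ (t ^ 2) 1 (z := 1) hζr (by rw [← pow_mul, mul_comm, pow_mul, htr, one_pow]) (one_pow _)
    (by rw [pow_one, one_pow, mul_one, ← mul_pow, hζt, one_pow]) n3
  have H1 := hc 1 one_ne_zero (one_pow _)
  rw [div_one, if_neg n1, if_neg n2, if_pos rfl] at H1
  have Hζ := hc ζ hζ0 hζq
  rw [if_pos rfl, if_neg (Ne.symm n3), if_neg (Ne.symm n1)] at Hζ
  have Ht := hc (t ^ 2) (pow_ne_zero _ ht0) (by rw [← pow_mul, mul_comm, pow_mul, htq])
  rw [if_neg n3, if_pos rfl, if_neg (Ne.symm n2)] at Ht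
  by_cases c1 : 1 = c
  · subst c1
    have e1 : (1 : F) / ζ = t := by rw [ht, one_div]
    rw [e1, if_neg (fun h => p2 (by linear_combination ζ * h + hζt)),
      if_neg (fun h : t ^ 2 = t => p1 (by
        have h8 : t = 1 := by
          have : t * (t - 1) = 0 := by linear_combination h
          exact sub_eq_zero.1 ((mul_eq_zero.1 this).resolve_left ht0)
        rw [← one_mul ζ, ← h8]
        rw [h8, one_mul]
        rw [h8, mul_one] at hζt
        exact hζt)),
      if_neg (fun h : 1 = t => p1 (by rw [← h, mul_one] at hζt; exact hζt))] at Hζ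
    omega
  by_cases c2 : ζ = c
  · subst c2
    rw [if_pos rfl, if_neg (Ne.symm n3), if_neg (Ne.symm n1)] at H1
    have hk2 : k = 2 := by omega
    have hr5' : r ≠ 5 := fun h => h52 ⟨hk2, h⟩
    have e1 : ζ / t ^ 2 = ζ ^ 3 := by
      rw [ht]; field_simp
    rw [e1, if_neg (fun h : ζ = ζ ^ 3 => p2 (by
        have : ζ * (ζ ^ 2 - 1) = 0 := by linear_combination -h
        exact sub_eq_zero.1 ((mul_eq_zero.1 this).resolve_left hζ0))),
      if_neg (fun h : t ^ 2 = ζ ^ 3 => p5 hr5' (by linear_combination (-ζ ^ 2) * h + (ζ * t + 1) * hζt)),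
      if_neg (fun h : 1 = ζ ^ 3 => p3 h.symm)] at Ht
    omega
  by_cases c3 : t ^ 2 = c
  · subst c3
    rw [if_neg n3, if_pos rfl, if_neg (Ne.symm n2)] at H1
    have hk1 : k = 1 := by omega
    have e1 : t ^ 2 / ζ = t ^ 3 := by
      rw [ht]; field_simp
    rw [e1, if_neg (fun h : ζ = t ^ 3 => p4 (by linear_combination ζ ^ 3 * h + ((ζ * t) ^ 2 + ζ * t + 1) * hζt)),
      if_neg (fun h : t ^ 2 = t ^ 3 => p1 (by
        have h9 : t ^ 2 * (t - 1) = 0 := by linear_combination -h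
        have h8 : t = 1 := sub_eq_zero.1 ((mul_eq_zero.1 h9).resolve_left (pow_ne_zero _ ht0))
        rw [h8, mul_one] at hζt
        exact hζt)),
      if_neg (fun h : (1 : F) = t ^ 3 => p3 (by
        have : ζ ^ 3 * t ^ 3 = 1 := by rw [← mul_pow, hζt, one_pow]
        rw [← h, mul_one] at this
        exact this))] at Hζ
    omega
  · rw [if_neg c2, if_neg c3, if_neg (fun h => c1 h)] at H1
    have hk0 : k = 0 := by omega
    subst hk0
    have hz : ζ = c / ζ := by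
      by_contra hz
      rw [if_neg hz] at Hζ
      split_ifs at Hζ <;> omega
    have hc2 : c = ζ ^ 2 := by
      field_simp at hz
      rw [hz]
    subst hc2
    have e1 : ζ ^ 2 / t ^ 2 = ζ ^ 4 := by
      rw [ht]; field_simp
    rw [e1, if_neg (fun h : ζ = ζ ^ 4 => p3 (by
        have : ζ * (ζ ^ 3 - 1) = 0 := by linear_combination -h
        exact sub_eq_zero.1 ((mul_eq_zero.1 this).resolve_left hζ0))),
      if_neg (fun h : t ^ 2 = ζ ^ 4 => p6 (by linear_combination (-ζ ^ 2) * h + (ζ * t + 1) * hζt)),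
      if_neg (fun h : 1 = ζ ^ 4 => p4 h.symm)] at Ht
    omega

theorem bad_D2 (hF : Fintype.card F = q₀ ^ 2) (hf : Cfsg.Geo.IsUnitaryFormPow q₀ f) (H : LHS f 3)
    (hn : 3 ≤ n) (hn3 : n ≠ 3) (hn6 : n ≠ 6) {ζ : F} (hζ : orderOf ζ = 3) (hζq : ζ ^ q₀ = ζ) : False := by
  classical
  have hζr : ζ ^ 3 = 1 := by rw [← hζ]; exact pow_orderOf_eq_one ζ
  have hζ0 : ζ ≠ 0 := by
    intro h
    rw [h] at hζr
    norm_num at hζr
  have p1 : ζ ≠ 1 := by
    have := pow_ne_one_of hζ (m := 1) (by norm_num)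
    simpa using this
  have p2 : ζ ^ 2 ≠ 1 := pow_ne_one_of hζ (m := 2) (by norm_num)
  obtain ⟨c₀, m, hc₀, hm, hdvd, hne, hnm⟩ : ∃ c₀ m : ℕ, 0 < c₀ ∧ 0 < m ∧ 3 ∣ m ∧ c₀ ≠ m ∧ c₀ + m = n := by
    have h := Nat.mod_lt n (by norm_num : 3 > 0)
    by_cases h0 : n % 3 = 0
    · refine ⟨3, n - 3, by omega, by omega, by omega, by omega, by omega⟩
    · refine ⟨n % 3, n - n % 3, by omega, by omega, by omega, by omega, by omega⟩
  obtain ⟨c, hc0, hc⟩ := no_block hF hf (by omega) H (c₁ := c₀) (c₂ := m) (c₃ := 0) (by omega) hc₀ hm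
    1 ζ ζ (z := 1) (one_pow _) hζr hζr
    (by
      obtain ⟨l, hl⟩ := hdvd
      rw [hl, pow_mul, hζr]
      simp) (Ne.symm p1)
  have H1 := hc 1 one_ne_zero (one_pow _)
  have Hζ := hc ζ hζ0 hζq
  rw [div_one, if_pos rfl, if_neg p1, if_neg p1] at H1
  rw [if_neg p1.symm, if_pos rfl, if_pos rfl] at Hζ
  simp only [add_zero, zero_add] at H1 Hζ
  by_cases c1 : 1 = c
  · subst c1
    have hz1 : (1 : F) ≠ 1 / ζ := by
      intro h
      apply p1
      field_simp at h
      exact h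
    have hz2 : ζ ≠ 1 / ζ := by
      intro h
      apply p2
      field_simp at h
      exact h
    rw [if_neg hz1, if_neg hz2, if_neg hz2] at Hζ
    omega
  · by_cases c2 : ζ = c
    · subst c2
      rw [if_neg p1.symm, if_pos rfl, if_pos rfl] at H1
      omega
    · rw [if_neg c1, if_neg c2, if_neg c2] at H1
      omega

theorem bad_D3 (hF : Fintype.card F = q₀ ^ 2) (hf : Cfsg.Geo.IsUnitaryFormPow q₀ f) {r : ℕ} (H : LHS f r)
    (hr : r.Prime) (hr2 : r ≠ 2) (hn : n = r) {u ζ : F} (hu0 : u ≠ 0) (hζ0 : ζ ≠ 0) (hur : u ^ r * ζ = 1) (hζr : ζ ^ r = 1) (hζ1 : ζ ≠ 1) (hζ2 : ζ ^ 2 ≠ 1)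
    (huq : u ^ q₀ = u) (hζq : ζ ^ q₀ = ζ) : False := by
  classical
  subst hn
  have h3 : 3 ≤ n := by
    have := hr.two_le
    omega
  have n1 : u * ζ ≠ u := by
    intro h
    apply hζ1
    have : u * (ζ - 1) = 0 := by linear_combination h
    exact sub_eq_zero.1 ((mul_eq_zero.1 this).resolve_left hu0)
  obtain ⟨c, hc0, hc⟩ := no_block hF hf (by omega) H (c₁ := 1) (c₂ := n - 1) (c₃ := 0) (by omega) (by omega) (by omega)
    (u * ζ) u u (z := u ^ n) (by rw [mul_pow, hζr, mul_one]) rfl rfl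
    (by
      rw [pow_one, pow_zero, mul_one]
      have : u * ζ * u ^ (n - 1) = u ^ (n - 1 + 1) * ζ := by ring
      rw [this, Nat.sub_add_cancel (by omega), hur]) n1
  have Hu := hc u hu0 huq
  have Huz := hc (u * ζ) (mul_ne_zero hu0 hζ0) (by rw [mul_pow, huq, hζq])
  rw [if_neg n1, if_pos rfl, if_pos rfl] at Hu
  rw [if_pos rfl, if_neg n1.symm, if_neg n1.symm] at Huz
  simp only [add_zero, zero_add] at Hu Huz
  have hcu : u = c / u := by
    by_contra h
    rw [if_neg h, if_neg h] at Hu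
    split_ifs at Hu <;> omega
  have hc2 : c = u * u := by
    field_simp at hcu
    rw [← hcu]
    ring
  subst hc2
  have e1 : u * u / (u * ζ) = u / ζ := by
    field_simp
  rw [e1] at Huz
  have n2 : u * ζ ≠ u / ζ := by
    intro h
    apply hζ2
    have h' : u * ζ * ζ = u := by
      rw [h]
      field_simp
    have : u * (ζ ^ 2 - 1) = 0 := by linear_combination h'
    exact sub_eq_zero.1 ((mul_eq_zero.1 this).resolve_left hu0)
  have n3 : u ≠ u / ζ := by
    intro h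
    apply hζ1
    field_simp at h
    exact h
  rw [if_neg n2, if_neg n3, if_neg n3] at Huz
  omega

theorem exists_elt (hF : Fintype.card F = q₀ ^ 2) {d : ℕ} (hd : d ∣ q₀ - 1) (hd0 : 0 < d) :
    ∃ ρ : F, ρ ≠ 0 ∧ ρ ^ q₀ = ρ ∧ orderOf ρ = d := by
  classical
  have hq₀ : 2 ≤ q₀ := two_le_q hF
  obtain ⟨g, hg⟩ := IsCyclic.exists_ofOrder_eq_natCard (α := Fˣ)
  have hc : Nat.card Fˣ = q₀ ^ 2 - 1 := by
    rw [Nat.card_eq_fintype_card, Fintype.card_units, hF]
  have hfac : q₀ ^ 2 - 1 = (q₀ + 1) * (q₀ - 1) := by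
    obtain ⟨m, rfl⟩ : ∃ m, q₀ = m + 1 := ⟨q₀ - 1, by omega⟩
    simp only [Nat.add_sub_cancel]
    rw [show (m + 1) ^ 2 = (m + 1 + 1) * m + 1 by ring]
    simp
  have hdvd : d ∣ orderOf g := by
    rw [hg, hc, hfac]
    exact hd.mul_left _
  have hpos : orderOf g ≠ 0 := by
    rw [hg, hc, hfac]
    exact Nat.mul_ne_zero (by omega) (by omega)
  have h1 := orderOf_pow_orderOf_div hpos hdvd
  refine ⟨((g ^ (orderOf g / d) : Fˣ) : F), Units.ne_zero _, ?_, ?_⟩
  · have h2 : (g ^ (orderOf g / d)) ^ (q₀ - 1) = 1 := by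
      rw [← orderOf_dvd_iff_pow_eq_one, h1]
      exact hd
    have h3 : (g ^ (orderOf g / d)) ^ q₀ = g ^ (orderOf g / d) := by
      conv_lhs => rw [show q₀ = q₀ - 1 + 1 by omega, pow_succ, h2, one_mul]
    exact_mod_cast congrArg (fun y : Fˣ => (y : F)) h3
  · rw [orderOf_units, h1]

theorem bad_nonsplit {p : ℕ} [Fact p.Prime] [CharP F p] (hF : Fintype.card F = q₀ ^ 2) (hf : Cfsg.Geo.IsUnitaryFormPow q₀ f) (hn : 3 ≤ n)
    {r : ℕ} (H : LHS f r) (hr : r.Prime) (hrp : r ≠ p) (hne : ¬ r ∣ q₀ ^ 2 - 1)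
    (hi : orderOf (((q₀ ^ 2 : ℕ)) : ZMod r) ≤ n) (hA : ∀ s, s < orderOf (((q₀ ^ 2 : ℕ)) : ZMod r) → ¬ r ∣ facA q₀ s) : False := by
  classical
  have hq₀ : 2 ≤ q₀ := two_le_q hF
  have hq : 1 ≤ q₀ ^ 2 := Nat.one_le_pow _ _ (by omega)
  obtain ⟨g, hgm, hgi, hgP, hgd⟩ := Cfsg.Agent.Lib.Classical.Elusive.SpModel.exists_factor (F := F) hF hr hrp
  have hi1 : orderOf (((q₀ ^ 2 : ℕ)) : ZMod r) ≠ 1 := fun h => hne ((Cfsg.Agent.Lib.Classical.Elusive.PslNum.order_one_iff hq).1 h)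
  have hipos : 0 < orderOf (((q₀ ^ 2 : ℕ)) : ZMod r) := by
    rw [← hgd]
    exact Polynomial.natDegree_pos_iff_degree_pos.2 (Polynomial.degree_pos_of_irreducible hgi)
  have hdeg : 2 ≤ g.natDegree := by
    rw [hgd]
    omega
  have hd : g ∣ X ^ r - 1 := by
    rw [← Phi_mul]
    exact hgP.mul_right _
  obtain ⟨T, hTr, hTfix⟩ := exists_model_eq (a := n - g.natDegree) (n := n) hgi hdeg (by omega) hd
  have hrF : (r : F) ≠ 0 := Cfsg.Agent.Lib.Classical.Elusive.PslNum.cast_ne_zero_of_ne hr hrp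
  have hne' : ¬ r ∣ Fintype.card F - 1 := by rwa [hF]
  have hdet : LinearMap.det T = 1 := by
    apply eq_one_of_coprime hr hne'
    rw [← map_pow, hTr, map_one]
  have hns := Cfsg.Agent.Lib.Classical.Elusive.PslImprimMain.nonscalar_of_fix hr hne' (by omega : n ≠ 0) hTr (by rw [hTfix]; omega)
  obtain ⟨S, ψ, c, hc0, hψ, hS⟩ := key H T (z := 1) (by rw [hTr, one_smul]) hdet hns
  -- the power of `S`
  have hSr : S ^ r = 1 := by
    apply LinearMap.ext
    intro v
    have h1 := conj_pow' ψ hψ r (ψ.symm v)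
    rw [hTr, LinearEquiv.apply_symm_apply] at h1
    simpa using h1.symm
  -- the multiplier
  have hcr : c ^ r = 1 := by
    have hv : (fun _ => 1 : Fin n → F) ≠ 0 := by
      intro h0
      have := congrFun h0 ⟨0, by omega⟩
      simp at this
    obtain ⟨x, hx⟩ := (hf.nondegenerate _ hv).1
    have h1 := sim_pow hS r x (fun _ => 1)
    rw [hSr] at h1
    simp only [Module.End.one_apply] at h1
    have h2 : (c ^ r - 1) * f x (fun _ => 1) = 0 := by linear_combination -h1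
    exact sub_eq_zero.1 ((mul_eq_zero.1 h2).resolve_right hx)
  have hc1 : c = 1 := eq_one_of_coprime hr hne' hcr
  have hI : ∀ u v, f (S u) (S v) = f u v := by
    intro u v
    rw [hS, hc1, one_mul]
  -- the dimension of the kernel
  have hfix' : finrank F (Fix S) = n - g.natDegree := by
    rw [← hTfix]
    have := conj_sub_ker ψ hψ (1 : F)
    have e1 : ∀ y : Module.End F (Fin n → F), y - (1 : F) • 1 = y - 1 := fun y => by rw [one_smul]
    rw [e1, e1] at this
    exact this.symm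
  have hadd := finrank_Fix_add hrF hSr
  rw [Module.finrank_fintype_fun_eq_card, Fintype.card_fin, hfix'] at hadd
  have hK : finrank F (Ker S r) = orderOf (((q₀ ^ 2 : ℕ)) : ZMod r) := by
    rw [← hgd]
    omega
  have h1 := dvd_card_GU hF hf hI hr hrF hSr hipos hK
  rw [Cfsg.Agent.Lib.Classical.Herm.GU.card_GU hF] at h1
  obtain ⟨m, hpp, hm⟩ := FiniteField.card F p
  have hrq₀ : ¬ r ∣ q₀ := by
    intro h
    have h2 : r ∣ p ^ (m : ℕ) := by
      rw [← hm, hF]
      exact h.trans (dvd_pow_self _ (by norm_num))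
    exact hrp ((Nat.prime_dvd_prime_iff_eq hr (Fact.out)).1 (hr.dvd_of_dvd_pow h2))
  rcases (hr.dvd_mul).1 h1 with h2 | h2
  · exact hrq₀ (hr.dvd_of_dvd_pow h2)
  · rw [Prime.dvd_finsetProd_iff hr.prime] at h2
    obtain ⟨s, hs, h3⟩ := h2
    exact hA s (Finset.mem_range.1 hs) h3

theorem bad_two (hF : Fintype.card F = q₀ ^ 2) (hf : Cfsg.Geo.IsUnitaryFormPow q₀ f) (hn : 3 ≤ n) (h2 : (2 : F) ≠ 0) (hodd : Odd q₀)
    (H : LHS f 2) (hv : padicValNat 2 (q₀ ^ 2 - 1) < padicValNat 2 n) : False := by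
  classical
  have hq₀ : 2 ≤ q₀ := two_le_q hF
  obtain ⟨l, hl⟩ := hodd
  have hl0 : 1 ≤ l := by omega
  have hQ : q₀ ^ 2 - 1 = 2 * ((q₀ + 1) * l) := by
    subst hl
    rw [show (2 * l + 1) ^ 2 = 2 * ((2 * l + 1 + 1) * l) + 1 by ring]
    simp
  have hQ0 : q₀ ^ 2 - 1 ≠ 0 := by
    rw [hQ]
    have : 0 < (q₀ + 1) * l := by positivity
    omega
  set E := (q₀ + 1) * l with hE
  have hE0 : 0 < E := by positivity
  have hEeven : Even E := by
    rw [hE, hl, show 2 * l + 1 + 1 = 2 * (l + 1) by ring]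
    exact (even_two_mul _).mul_right _
  obtain ⟨k, m, hm, hQm⟩ := Nat.exists_eq_two_pow_mul_odd hQ0
  have hs : k = padicValNat 2 (q₀ ^ 2 - 1) := by
    rw [hQm, padicValNat.mul (by positivity) hm.pos.ne', padicValNat.prime_pow, padicValNat.eq_zero_of_not_dvd hm.not_two_dvd_nat, add_zero]
  have hdvd : 2 ^ (k + 1) ∣ n := by
    rw [padicValNat_dvd_iff_le (by omega)]
    omega
  obtain ⟨b', hb'⟩ := hdvd
  set b := 2 ^ k * b' with hb
  have hnb : n = 2 * b := by
    rw [hb', hb, pow_succ]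
    ring
  have hb0 : 0 < b := by
    rcases Nat.eq_zero_or_pos b with h | h
    · rw [h] at hnb
      omega
    · exact h
  obtain ⟨g, hg, -⟩ := Cfsg.Agent.Lib.Classical.Elusive.PslNum.exists_gen (F := F)
  rw [hF] at hg
  let w : F := ((g ^ m : Fˣ) : F)
  have hw0 : w ≠ 0 := Units.ne_zero _
  have hw1 : w ^ b = 1 := by
    have h1 : (g ^ m) ^ b = 1 := by
      rw [← pow_mul, hb, show m * (2 ^ k * b') = (2 ^ k * m) * b' by ring, ← hQm, pow_mul, ← hg, pow_orderOf_eq_one, one_pow]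
    simpa [w] using congrArg Units.val h1
  let u : Fˣ := g ^ E
  have hu2 : u ^ 2 = 1 := by
    simp only [u]
    rw [← pow_mul, mul_comm, ← hQ, ← hg, pow_orderOf_eq_one]
  have hu1 : u ≠ 1 := by
    intro h
    simp only [u] at h
    have h3 := orderOf_dvd_of_pow_eq_one h
    rw [hg, hQ] at h3
    have h4 := Nat.le_of_dvd hE0 h3
    omega
  have hu : (u : F) = -1 := by
    have h3 : (u : F) ^ 2 = 1 := by
      have := congrArg Units.val hu2
      simpa using this
    have h4 : ((u : F) - 1) * ((u : F) + 1) = 0 := by linear_combination h3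
    rcases mul_eq_zero.mp h4 with h5 | h5
    · exfalso
      apply hu1
      apply Units.ext
      simpa using sub_eq_zero.mp h5
    · exact eq_neg_of_add_eq_zero_left h5
  have hwE : w ^ E = -1 := by
    have h1 : ((g ^ m : Fˣ) : F) ^ E = ((u ^ m : Fˣ) : F) := by
      simp only [u]
      push_cast
      rw [← pow_mul, ← pow_mul, mul_comm]
    show ((g ^ m : Fˣ) : F) ^ E = -1
    rw [h1, Units.val_pow_eq_pow_val, hu, hm.neg_one_pow]
  let z : F := -w
  have hz0 : z ≠ 0 := neg_ne_zero.2 hw0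
  have hzE : z ^ E = -1 := by
    simp only [z]
    rw [neg_pow, hEeven.neg_one_pow, one_mul, hwE]
  have hneg : (-1 : F) ≠ 1 := by
    intro h
    apply h2
    linear_combination -h
  -- the matrix
  let e : Fin n ≃ Fin 2 × Fin b := Fintype.equivOfCardEq (by simp [hnb])
  let X : Matrix (Fin 2) (Fin 2) F := !![0, z; 1, 0]
  have hX : X * X = z • 1 := by
    ext i j
    fin_cases i <;> fin_cases j <;> simp [X, Matrix.mul_apply, Fin.sum_univ_two]
  let K : Matrix (Fin n) (Fin n) F := (X ⊗ₖ (1 : Matrix (Fin b) (Fin b) F)).submatrix e e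
  have hKK : K * K = z • 1 := by
    simp only [K]
    rw [Matrix.submatrix_mul_equiv, ← Matrix.mul_kronecker_mul, hX, Matrix.one_mul, Matrix.smul_kronecker, Matrix.one_kronecker_one]
    ext i j
    simp [Matrix.one_apply, e.injective.eq_iff]
  have hKdet : K.det = 1 := by
    simp only [K]
    rw [Matrix.det_submatrix_equiv_self, Matrix.det_kronecker, Matrix.det_one, one_pow, mul_one, Fintype.card_fin]
    have : X.det = w := by
      simp [X, z, Matrix.det_fin_two]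
    rw [this, hw1]
  have hT : (Matrix.toLin' K) ^ 2 = z • (1 : Module.End F (Fin n → F)) := by
    rw [← Matrix.toLin'_pow, _root_.sq, hKK, map_smul, Matrix.toLin'_one]
    rfl
  have hdet : LinearMap.det (Matrix.toLin' K) = 1 := by
    rw [LinearMap.det_toLin', hKdet]
  have hn0 : n ≠ 0 := by omega
  have hns : ∀ y : F, Matrix.toLin' K ≠ y • (1 : Module.End F (Fin n → F)) := by
    intro y hy
    rw [hy, _root_.smul_pow, one_pow] at hT
    have hyz : y ^ 2 = z := Cfsg.Agent.Lib.Classical.Elusive.PslMain.scalar_inj hn0 hT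
    have hy0 : y ≠ 0 := by
      intro h
      rw [h] at hyz
      apply hz0
      rw [← hyz]
      ring
    have h1 : y ^ (q₀ ^ 2 - 1) = 1 := by
      rw [← hF]
      exact FiniteField.pow_card_sub_one_eq_one y hy0
    rw [hQ, pow_mul, hyz, hzE] at h1
    exact hneg h1
  obtain ⟨S, ψ, c, hc0, hψ, hS⟩ := key H _ hT hdet hns
  have hS2 : ∀ v, (S ^ 2) v = z • v := by
    intro v
    have h1 := conj_pow' ψ hψ 2 (ψ.symm v)
    rw [hT, LinearEquiv.apply_symm_apply] at h1
    rw [← h1]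
    simp
  have hv0 : (fun _ => 1 : Fin n → F) ≠ 0 := by
    intro h0
    have := congrFun h0 ⟨0, by omega⟩
    simp at this
  obtain ⟨x, hx⟩ := (hf.nondegenerate _ hv0).1
  have h3 := sim_pow hS 2 x (fun _ => 1)
  rw [hS2, hS2, hf.smul_left, smul_right hf] at h3
  have h4 : z * z ^ q₀ = c ^ 2 := by
    have h5 : (z * z ^ q₀ - c ^ 2) * f x (fun _ => 1) = 0 := by linear_combination h3
    exact sub_eq_zero.1 ((mul_eq_zero.1 h5).resolve_right hx)
  have h5 : c ^ q₀ = c := mult_fixed hf (by omega) hS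
  have h6 : c ^ (2 * l) = 1 := by
    have h7 : c ^ (2 * l) * c = c := by
      rw [← pow_succ, ← hl, h5]
    have h8 : (c ^ (2 * l) - 1) * c = 0 := by linear_combination h7
    exact sub_eq_zero.1 ((mul_eq_zero.1 h8).resolve_right hc0)
  have h7 : z ^ E = 1 := by
    rw [hE, pow_mul, pow_succ, mul_comm (z ^ q₀), h4, ← pow_mul, h6]
  rw [hzE] at h7
  exact hneg h7

theorem not_dvd_facB {r : ℕ} (hr : r.Prime) (hr2 : r ≠ 2) (hq : 1 ≤ q₀) (h : r ∣ q₀ + 1) (j : ℕ) : ¬ r ∣ facB q₀ j := by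
  haveI : Fact r.Prime := ⟨hr⟩
  have h1 : (q₀ : ZMod r) = -1 := by
    have := (ZMod.natCast_eq_zero_iff (q₀ + 1) r).2 h
    push_cast at this
    exact eq_neg_of_add_eq_zero_left this
  have h2 : ((2 : ℕ) : ZMod r) ≠ 0 := by
    intro h3
    have := (ZMod.natCast_eq_zero_iff 2 r).1 h3
    exact hr2 ((Nat.prime_dvd_prime_iff_eq hr Nat.prime_two).1 this)
  push_cast at h2
  intro hd
  have hd' := (ZMod.natCast_eq_zero_iff _ r).2 hd
  unfold facB at hd'
  split_ifs at hd' with hj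
  · rw [Nat.cast_sub (Nat.one_le_pow _ _ (by omega))] at hd'
    push_cast at hd'
    rw [h1, hj.add_one.neg_one_pow] at hd'
    apply h2
    linear_combination -hd'
  · push_cast at hd'
    have hj' : Even (j + 1) := by
      rcases Nat.even_or_odd j with h3 | h3
      · exact absurd h3 hj
      · exact h3.add_one
    rw [h1, hj'.neg_one_pow] at hd'
    apply h2
    linear_combination hd'

theorem forward {p : ℕ} [Fact p.Prime] [CharP F p] (hF : Fintype.card F = q₀ ^ 2) (hf : Cfsg.Geo.IsUnitaryFormPow q₀ f) (hn : 3 ≤ n)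
    {r : ℕ} [hrr : Fact r.Prime] (hr : r = 2 ∨ r ≠ p) (hgap : ¬ (n = 6 ∧ r = 3))
    (hΩ : r ∣ (Cfsg.Geo.similarityGroup f).relIndex (Cfsg.Geo.specialLinear (Fin n) F)) (H : LHS f r) :
    (r = 2 ∧ (p = 2 ∨ padicValNat 2 n ≤ padicValNat 2 (q₀ ^ 2 - 1))) ∨
      ((r = 3 ∨ r = 5) ∧ n = r ∧ padicValNat r (q₀ - 1) = 1) := by
  have hrp' : r.Prime := Fact.out
  have hpp : p.Prime := Fact.out
  have hq₀ : 2 ≤ q₀ := two_le_q hF
  obtain ⟨m, hpm, hm⟩ := FiniteField.card F p
  have hpq₀ : ∀ r' : ℕ, r'.Prime → r' ∣ q₀ → r' = p := by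
    intro r' hr' h
    have h2 : r' ∣ p ^ (m : ℕ) := by
      rw [← hm, hF]
      exact h.trans (dvd_pow_self _ (by norm_num))
    exact (Nat.prime_dvd_prime_iff_eq hr' hpp).1 (hr'.dvd_of_dvd_pow h2)
  by_cases r2 : r = 2
  · subst r2
    left
    refine ⟨rfl, ?_⟩
    by_cases hp2 : p = 2
    · exact Or.inl hp2
    · right
      by_contra hv
      have h2F : (2 : F) ≠ 0 := by
        intro h
        have h3 : ((2 : ℕ) : F) = 0 := by exact_mod_cast h
        have h4 := (CharP.cast_eq_zero_iff F p 2).1 h3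
        exact hp2 ((Nat.prime_dvd_prime_iff_eq hpp Nat.prime_two).1 h4)
      have hodd : Odd q₀ := by
        have h1 := Cfsg.Agent.Lib.Classical.Elusive.PslNum.odd_card (F := F) (p := p) hp2
        rw [hF] at h1
        exact (Nat.odd_pow_iff (by norm_num)).1 h1
      exact bad_two hF hf hn h2F hodd H (by omega)
  · right
    have hrp : r ≠ p := hr.resolve_left r2
    have hrq : ¬ r ∣ q₀ := fun h => hrp (hpq₀ r hrp' h)
    rcases index_arith hF hf hrp' hΩ with h | ⟨j, hj, hJ⟩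
    · exact absurd h hrq
    by_cases hs : r ∣ q₀ ^ 2 - 1
    · have hfac : q₀ ^ 2 - 1 = (q₀ + 1) * (q₀ - 1) := by
        obtain ⟨m', rfl⟩ : ∃ m', q₀ = m' + 1 := ⟨q₀ - 1, by omega⟩
        simp only [Nat.add_sub_cancel]
        rw [show (m' + 1) ^ 2 = (m' + 1 + 1) * m' + 1 by ring]
        simp
      rw [hfac] at hs
      rcases (hrp'.dvd_mul).1 hs with h1 | h1
      · exact absurd hJ (not_dvd_facB hrp' r2 (by omega) h1 j)
      obtain ⟨ζ, hζ0, hζq, hζ⟩ := exists_elt hF h1 hrp'.pos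
      have hq1 : q₀ - 1 ≠ 0 := by omega
      have hD3 : n = r → padicValNat r (q₀ - 1) = 1 := by
        intro hnr
        by_contra hv
        have h2 : 1 ≤ padicValNat r (q₀ - 1) := by
          rw [← padicValNat_dvd_iff_le hq1, pow_one]
          exact h1
        have h3 : r ^ 2 ∣ q₀ - 1 := by
          rw [padicValNat_dvd_iff_le hq1]
          omega
        obtain ⟨u, hu0, huq, hu⟩ := exists_elt hF h3 (pow_pos hrp'.pos 2)
        have hur1 : (u ^ r) ^ r = 1 := by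
          rw [← pow_mul, ← _root_.sq, ← hu, pow_orderOf_eq_one]
        have h4 : u ^ r ≠ 1 := by
          intro h5
          have h6 := orderOf_dvd_of_pow_eq_one h5
          rw [hu] at h6
          have h7 := Nat.le_of_dvd hrp'.pos h6
          have := hrp'.two_le
          nlinarith
        have h5 : (u ^ r) ^ 2 ≠ 1 := by
          intro h5
          rw [← pow_mul] at h5
          have h6 := orderOf_dvd_of_pow_eq_one h5
          rw [hu, _root_.sq] at h6
          have h7 := Nat.dvd_of_mul_dvd_mul_left hrp'.pos h6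
          exact r2 ((Nat.prime_dvd_prime_iff_eq hrp' Nat.prime_two).1 h7)
        have hur0 : u ^ r ≠ 0 := pow_ne_zero _ hu0
        refine bad_D3 hF hf H hrp' r2 hnr (u := u) (ζ := (u ^ r)⁻¹) hu0 (inv_ne_zero hur0) (mul_inv_cancel₀ hur0) ?_ ?_ ?_ huq ?_
        · rw [inv_pow, hur1, inv_one]
        · intro h6
          apply h4
          rw [inv_eq_one] at h6
          exact h6
        · intro h6
          apply h5
          rw [inv_pow, inv_eq_one] at h6
          exact h6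
        · rw [inv_pow, ← pow_mul, mul_comm, pow_mul, huq]
      by_cases h3 : r = 3
      · subst h3
        by_cases hn3 : n = 3
        · exact ⟨Or.inl rfl, hn3, hD3 hn3⟩
        · by_cases hn6 : n = 6
          · exact absurd ⟨hn6, rfl⟩ hgap
          · exact (bad_D2 hF hf H hn hn3 hn6 hζ hζq).elim
      · by_cases h5 : r = 5 ∧ n = 5
        · obtain ⟨rfl, hn5⟩ := h5
          exact ⟨Or.inr rfl, hn5, hD3 hn5⟩
        · obtain ⟨k, rfl⟩ : ∃ k, n = k + 3 := ⟨n - 3, by omega⟩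
          exact (bad_D1 hF hf rfl H hrp' r2 h3 (fun h => h5 ⟨h.2, by omega⟩) hζ hζq).elim
    · obtain ⟨h1, h2⟩ := order_facts r2 (by omega) hrq hj hJ
      exact (bad_nonsplit hF hf hn H hrp' hrp hs h1 h2).elim

end Cfsg.Agent.Lib.Classical.Elusive.SlUBad
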