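import Mathlib
import Cfsg.Agent.Lib.Classical.Elusive.SlU
import Cfsg.Agent.Lib.Classical.Elusive.SlUBad

/-!
# Conjugating elements of prime order of `PSL_n(q₀²)` into the similarity group of a unitary form
-/

set_option autoImplicit false
set_option linter.unusedSectionVars false
set_option linter.unusedSimpArgs false
set_option linter.unusedVariables false
set_option linter.style.haveILetI false

namespace Cfsg.Agent.Lib.Classical.Elusive.SlUConj

open Polynomial Module Matrix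
open scoped Kronecker
open Cfsg.Agent.Lib.Classical.Elusive.Inv Cfsg.Agent.Lib.Classical.Elusive.SpCore
  Cfsg.Agent.Lib.Classical.Elusive.TensorMain Cfsg.Agent.Lib.Classical.Elusive.SlSp
  Cfsg.Agent.Lib.Classical.Elusive.SlU Cfsg.Agent.Lib.Classical.Elusive.SlUNum
  Cfsg.Agent.Lib.Classical.Elusive.SlUBad
open Cfsg.Agent.Lib.Classical.Herm.Basic Cfsg.Agent.Lib.Classical.Herm.GU
open Cfsg.Agent.Lib.Linalg.Bridge

universe u

section Eig

variable {F : Type u} [Field F] {V : Type*} [AddCommGroup V] [Module F V] [FiniteDimensional F V]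

theorem iSup_eig {r : ℕ} (hr : 0 < r) {ζ : F} (hζ : IsPrimitiveRoot ζ r) {T : Module.End F V} (hT : T ^ r = 1) :
    ⨆ t : Fin r, LinearMap.ker (T - ζ ^ (t : ℕ) • (1 : Module.End F V)) = ⊤ := by
  classical
  have hinj : ∀ s t : Fin r, ζ ^ (s : ℕ) = ζ ^ (t : ℕ) → s = t := by
    intro s t h
    exact Fin.ext (hζ.pow_inj s.2 t.2 h)
  have hA : ∀ a : F, aeval T (X - C a : F[X]) = T - a • (1 : Module.End F V) := by
    intro a
    rw [map_sub, aeval_X, aeval_C, Module.algebraMap_end_eq_smul_id]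
    rfl
  have key : ∀ S : Finset (Fin r), (⨆ t ∈ S, LinearMap.ker (T - ζ ^ (t : ℕ) • (1 : Module.End F V))) =
      LinearMap.ker (aeval T (∏ t ∈ S, (X - C (ζ ^ (t : ℕ)) : F[X]))) := by
    intro S
    induction S using Finset.induction_on with
    | empty =>
      simp only [Finset.notMem_empty, iSup_false, iSup_bot, Finset.prod_empty, map_one]
      exact (LinearMap.ker_eq_bot.2 Function.injective_id).symm
    | insert t S ht ih =>
      rw [Finset.iSup_insert, ih, Finset.prod_insert ht, ← hA]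
      apply sup_ker_aeval_eq_ker_aeval_mul_of_coprime
      apply IsCoprime.prod_right
      intro s hs
      apply Polynomial.isCoprime_X_sub_C_of_isUnit_sub
      apply IsUnit.mk0
      intro h
      have := hinj _ _ (sub_eq_zero.1 h)
      subst this
      exact ht hs
  have h1 := key Finset.univ
  simp only [Finset.mem_univ, iSup_pos] at h1
  rw [h1]
  have h2 : (∏ t : Fin r, (X - C (ζ ^ (t : ℕ)) : F[X])) = X ^ r - C 1 := by
    rw [X_pow_sub_C_eq_prod hζ hr (one_pow r), ← Fin.prod_univ_eq_prod_range (fun i => (X - C (ζ ^ i * 1) : F[X])) r]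
    simp
  rw [h2, map_sub, map_pow, aeval_X, aeval_C, hT, map_one, sub_self, LinearMap.ker_zero]

theorem exists_eigbasis {r : ℕ} (hr : 0 < r) {ζ : F} (hζ : IsPrimitiveRoot ζ r) {T : Module.End F V} (hT : T ^ r = 1) :
    ∃ b : Basis (Σ t : Fin r, Fin (Eig T (ζ ^ (t : ℕ)))) F V, ∀ x, T (b x) = ζ ^ (x.1 : ℕ) • b x := by
  classical
  let A : Fin r → Submodule F V := fun t => LinearMap.ker (T - ζ ^ (t : ℕ) • (1 : Module.End F V))
  have hAe : A = (Module.End.eigenspace T) ∘ (fun t : Fin r => ζ ^ (t : ℕ)) := by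
    funext t
    simp only [A, Function.comp, Module.End.eigenspace_def, Module.algebraMap_end_eq_smul_id]
  have hinj : Function.Injective (fun t : Fin r => ζ ^ (t : ℕ)) := by
    intro s t h
    exact Fin.ext (hζ.pow_inj s.2 t.2 h)
  have hI : iSupIndep A := by
    rw [hAe]
    exact (Module.End.eigenspaces_iSupIndep T).comp hinj
  have hS : iSup A = ⊤ := iSup_eig hr hζ hT
  have hint := DirectSum.isInternal_submodule_of_iSupIndep_of_iSup_eq_top hI hS
  let v : ∀ t : Fin r, Basis (Fin (Eig T (ζ ^ (t : ℕ)))) F (A t) := fun t => Module.finBasisOfFinrankEq F (A t) rfl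
  refine ⟨hint.collectedBasis v, fun x => ?_⟩
  have h1 := hint.collectedBasis_mem v x
  have h2 : (T - ζ ^ (x.1 : ℕ) • (1 : Module.End F V)) (hint.collectedBasis v x) = 0 := LinearMap.mem_ker.1 h1
  rw [LinearMap.sub_apply, LinearMap.smul_apply, Module.End.one_apply, sub_eq_zero] at h2
  exact h2

theorem sum_eig {r : ℕ} (hr : 0 < r) {ζ : F} (hζ : IsPrimitiveRoot ζ r) {T : Module.End F V} (hT : T ^ r = 1) :
    ∑ t : Fin r, Eig T (ζ ^ (t : ℕ)) = finrank F V := by
  obtain ⟨b, -⟩ := exists_eigbasis hr hζ hT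
  rw [Module.finrank_eq_card_basis b, Fintype.card_sigma]
  simp

theorem det_eig {r : ℕ} (hr : 0 < r) {ζ : F} (hζ : IsPrimitiveRoot ζ r) {T : Module.End F V} (hT : T ^ r = 1) :
    LinearMap.det T = ∏ t : Fin r, (ζ ^ (t : ℕ)) ^ Eig T (ζ ^ (t : ℕ)) := by
  classical
  obtain ⟨b, hb⟩ := exists_eigbasis hr hζ hT
  rw [← LinearMap.det_toMatrix b T]
  have h1 : LinearMap.toMatrix b b T = Matrix.diagonal (fun x => ζ ^ (x.1 : ℕ)) := by
    ext x y
    rw [LinearMap.toMatrix_apply, hb, map_smul, Basis.repr_self, Finsupp.smul_apply, Matrix.diagonal_apply]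
    by_cases h : x = y
    · subst h
      simp
    · rw [if_neg h, Finsupp.single_apply, if_neg (fun h' => h h'.symm), smul_zero]
  rw [h1, Matrix.det_diagonal, Fintype.prod_sigma]
  simp

theorem conj_of_pow {r : ℕ} (hr : 0 < r) {ζ : F} (hζ : IsPrimitiveRoot ζ r) {T S : Module.End F V} (hT : T ^ r = 1) (hS : S ^ r = 1)
    (h : ∀ t : Fin r, Eig T (ζ ^ (t : ℕ)) = Eig S (ζ ^ (t : ℕ))) : ∃ φ : V ≃ₗ[F] V, ∀ v, φ (T v) = S (φ v) := by
  classical
  obtain ⟨b, hb⟩ := exists_eigbasis hr hζ hT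
  obtain ⟨b', hb'⟩ := exists_eigbasis hr hζ hS
  let i : (Σ t : Fin r, Fin (Eig T (ζ ^ (t : ℕ)))) ≃ (Σ t : Fin r, Fin (Eig S (ζ ^ (t : ℕ)))) :=
    Equiv.sigmaCongrRight (fun t => finCongr (h t))
  refine ⟨b.equiv b' i, fun v => ?_⟩
  have h1 : (b.equiv b' i : V →ₗ[F] V) ∘ₗ T = S ∘ₗ (b.equiv b' i : V →ₗ[F] V) := by
    apply b.ext
    intro x
    simp only [LinearMap.comp_apply, LinearEquiv.coe_coe, hb, map_smul, Basis.equiv_apply, hb']
    rfl
  exact LinearMap.congr_fun h1 v

end Eig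

variable {F : Type u} [Field F] [Fintype F] {q₀ n : ℕ} {f : (Fin n → F) → (Fin n → F) → F}

theorem finish_end {j : (Fin n → F) → (Fin n → F) → F} (Q : (Fin n → F) ≃ₗ[F] (Fin n → F)) (hQ : ∀ u v, f (Q u) (Q v) = j u v)
    (x : GL (Fin n) F) (S : Module.End F (Fin n → F)) {c : F} (hc0 : c ≠ 0) (hS : ∀ u v, j (S u) (S v) = c * j u v)
    (φ : (Fin n → F) ≃ₗ[F] (Fin n → F)) (hφ : ∀ v, φ (Matrix.toLin' (x : Matrix (Fin n) (Fin n) F) v) = S (φ v))
    (hD : ∀ δ : F, δ ≠ 0 → ∃ D : Module.End F (Fin n → F), D * S = S * D ∧ LinearMap.det D = δ) :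
    ∃ g ∈ Cfsg.Geo.specialLinear (Fin n) F, g⁻¹ * x * g ∈ Cfsg.Geo.similarityGroup f := by
  classical
  have hd1 : LinearMap.det (φ.symm : (Fin n → F) →ₗ[F] (Fin n → F)) ≠ 0 := (LinearEquiv.isUnit_det' φ.symm).ne_zero
  have hd2 : LinearMap.det (Q.symm : (Fin n → F) →ₗ[F] (Fin n → F)) ≠ 0 := (LinearEquiv.isUnit_det' Q.symm).ne_zero
  obtain ⟨D, hDS, hDdet⟩ := hD _ (inv_ne_zero (mul_ne_zero hd1 hd2))
  have hD0 : LinearMap.det D ≠ 0 := by
    rw [hDdet]
    exact inv_ne_zero (mul_ne_zero hd1 hd2)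
  let De : (Fin n → F) ≃ₗ[F] (Fin n → F) := LinearMap.equivOfDetNeZero D hD0
  have hDe : ∀ v, De v = D v := fun v => rfl
  let G : (Fin n → F) ≃ₗ[F] (Fin n → F) := Q.symm.trans (De.trans φ.symm)
  have hG : ∀ v, G v = φ.symm (D (Q.symm v)) := fun v => rfl
  let g : GL (Fin n) F := glOfEquiv G
  have hg : ∀ v, (g : Matrix (Fin n) (Fin n) F) *ᵥ v = φ.symm (D (Q.symm v)) := fun v => by
    have := glOfEquiv_mulVec G v
    rw [hG] at this
    exact this
  have hdet : (g : Matrix (Fin n) (Fin n) F).det = 1 := by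
    rw [det_glOfEquiv]
    have h1 : (G : (Fin n → F) →ₗ[F] (Fin n → F)) = (φ.symm : (Fin n → F) →ₗ[F] (Fin n → F)) ∘ₗ D ∘ₗ (Q.symm : (Fin n → F) →ₗ[F] (Fin n → F)) := by
      apply LinearMap.ext
      intro v
      exact hG v
    rw [h1, LinearMap.det_comp, LinearMap.det_comp, hDdet]
    field_simp
  have hφ' : ∀ w, (x : Matrix (Fin n) (Fin n) F) *ᵥ (φ.symm w) = φ.symm (S w) := by
    intro w
    have := hφ (φ.symm w)
    rw [LinearEquiv.apply_symm_apply, Matrix.toLin'_apply] at this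
    rw [← this, LinearEquiv.symm_apply_apply]
  have h1 : ∀ u, (g : Matrix (Fin n) (Fin n) F) *ᵥ (Q (S (Q.symm u))) = (x : Matrix (Fin n) (Fin n) F) *ᵥ ((g : Matrix (Fin n) (Fin n) F) *ᵥ u) := by
    intro u
    rw [hg, hg, hφ', LinearEquiv.symm_apply_apply]
    congr 1
    exact LinearMap.congr_fun hDS _
  have h2 : ∀ u, ((g⁻¹ * x * g : GL (Fin n) F) : Matrix (Fin n) (Fin n) F) *ᵥ u = Q (S (Q.symm u)) := by
    intro u
    rw [Units.val_mul, Units.val_mul, ← Matrix.mulVec_mulVec, ← Matrix.mulVec_mulVec, ← h1, Matrix.mulVec_mulVec, Units.inv_mul, Matrix.one_mulVec]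
  refine ⟨g, ?_, Units.mk0 c hc0, fun u v => ?_⟩
  · show Matrix.GeneralLinearGroup.det g = 1
    apply Units.ext
    exact hdet
  · rw [h2, h2, hQ, hS, ← hQ, LinearEquiv.apply_symm_apply, LinearEquiv.apply_symm_apply]
    rfl

theorem finish_diag {j : (Fin n → F) → (Fin n → F) → F} (hn : 0 < n) (Q : (Fin n → F) ≃ₗ[F] (Fin n → F)) (hQ : ∀ u v, f (Q u) (Q v) = j u v)
    (x : GL (Fin n) F) (w : Fin n → F) {c : F} (hc0 : c ≠ 0)
    (hS : ∀ u v, j (Matrix.toLin' (Matrix.diagonal w) u) (Matrix.toLin' (Matrix.diagonal w) v) = c * j u v)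
    (φ : (Fin n → F) ≃ₗ[F] (Fin n → F)) (hφ : ∀ v, φ (Matrix.toLin' (x : Matrix (Fin n) (Fin n) F) v) = Matrix.toLin' (Matrix.diagonal w) (φ v)) :
    ∃ g ∈ Cfsg.Geo.specialLinear (Fin n) F, g⁻¹ * x * g ∈ Cfsg.Geo.similarityGroup f := by
  classical
  refine finish_end Q hQ x _ hc0 hS φ hφ fun δ hδ => ?_
  let j₀ : Fin n := ⟨0, hn⟩
  refine ⟨Matrix.toLin' (Matrix.diagonal fun i => if i = j₀ then δ else 1), ?_, ?_⟩
  · show _ ∘ₗ _ = _ ∘ₗ _
    rw [← Matrix.toLin'_mul, ← Matrix.toLin'_mul, Matrix.diagonal_mul_diagonal, Matrix.diagonal_mul_diagonal]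
    congr 2
    funext i
    ring
  · rw [LinearMap.det_toLin', Matrix.det_diagonal, Finset.prod_ite_eq' ]
    simp

/-- The Hermitian form with antidiagonal Gram matrix. -/
def revForm (q₀ n : ℕ) (u v : Fin n → F) : F := ∑ i, u i * v (Fin.rev i) ^ q₀

theorem revForm_eq (u v : Fin n → F) : revForm q₀ n u v = Cfsg.hermForm n F q₀ u (v ∘ Fin.rev) := rfl

theorem revForm_unitary (hF : Fintype.card F = q₀ ^ 2) : Cfsg.Geo.IsUnitaryFormPow q₀ (revForm q₀ n : (Fin n → F) → (Fin n → F) → F) where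
  add_left x y v := by
    simp only [revForm_eq, hermForm_add_left]
  smul_left c x v := by
    simp only [revForm_eq, hermForm_smul_left]
  herm v w := by
    rw [revForm_eq, revForm_eq, hermForm_pow_q hF, hermForm_apply, hermForm_apply]
    rw [← Equiv.sum_comp Fin.revPerm]
    refine Finset.sum_congr rfl fun i _ => ?_
    simp [Fin.revPerm]
  nondegenerate v hv := by
    constructor
    · have h1 : v ∘ Fin.rev ≠ 0 := by
        intro h
        apply hv
        funext i
        have := congrFun h (Fin.rev i)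
        simpa using this
      by_contra h
      push Not at h
      exact h1 (hermForm_nondegenerate_right hF n _ (fun u => by rw [← revForm_eq]; exact h u))
    · by_contra h
      push Not at h
      apply hv
      refine hermForm_nondegenerate_left hF n v (fun y => ?_)
      have := h (y ∘ Fin.rev)
      rw [revForm_eq] at this
      have e : y ∘ Fin.rev ∘ Fin.rev = y := by
        funext i
        simp
      rwa [Function.comp_assoc, e] at this

theorem exists_herm_equiv (hF : Fintype.card F = q₀ ^ 2) (hf : Cfsg.Geo.IsUnitaryFormPow q₀ f) :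
    ∃ Q : (Fin n → F) ≃ₗ[F] (Fin n → F), ∀ u v, f (Q u) (Q v) = Cfsg.hermForm n F q₀ u v := by
  obtain ⟨P, hP⟩ := exists_normal hF hf
  exact ⟨equivOfGL P, fun u v => hP u v⟩

theorem exists_rev_equiv (hF : Fintype.card F = q₀ ^ 2) (hf : Cfsg.Geo.IsUnitaryFormPow q₀ f) :
    ∃ Q : (Fin n → F) ≃ₗ[F] (Fin n → F), ∀ u v, f (Q u) (Q v) = revForm q₀ n u v := by
  obtain ⟨Q₁, h₁⟩ := exists_herm_equiv hF hf
  obtain ⟨Q₂, h₂⟩ := exists_herm_equiv (f := revForm q₀ n) hF (revForm_unitary hF)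
  refine ⟨Q₂.symm.trans Q₁, fun u v => ?_⟩
  show f (Q₁ (Q₂.symm u)) (Q₁ (Q₂.symm v)) = _
  rw [h₁, ← h₂, LinearEquiv.apply_symm_apply, LinearEquiv.apply_symm_apply]

/-! ### The exceptional elements -/

set_option synthInstance.maxHeartbeats 0 in
set_option synthInstance.maxSize 2000 in
theorem dec5 : ∀ c₀ c₁ c₂ c₃ c₄ : Fin 6, c₀.val + c₁.val + c₂.val + c₃.val + c₄.val = 5 →
    5 ∣ c₁.val + 2 * c₂.val + 3 * c₃.val + 4 * c₄.val → c₀.val ≠ 5 → c₁.val ≠ 5 → c₂.val ≠ 5 → c₃.val ≠ 5 → c₄.val ≠ 5 →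
    ∃ A₀ A₁ a : Fin 5, ∀ t : Fin 5, (∑ i : Fin 5, if (![A₀, A₁, a, 2 * a - A₁, 2 * a - A₀] : Fin 5 → Fin 5) i = t then 1 else 0) = (![c₀, c₁, c₂, c₃, c₄] t).val := by
  decide +kernel

theorem dec3 : ∀ c₀ c₁ c₂ : Fin 4, c₀.val + c₁.val + c₂.val = 3 →
    3 ∣ c₁.val + 2 * c₂.val → c₀.val ≠ 3 → c₁.val ≠ 3 → c₂.val ≠ 3 →
    ∃ A₀ a : Fin 3, ∀ t : Fin 3, (∑ i : Fin 3, if (![A₀, a, 2 * a - A₀] : Fin 3 → Fin 3) i = t then 1 else 0) = (![c₀, c₁, c₂] t).val := by
  decide +kernel

theorem dec5' : ∀ (A₀ A₁ a i : Fin 5), (((![A₀, A₁, a, 2 * a - A₁, 2 * a - A₀] : Fin 5 → Fin 5) i).val + ((![A₀, A₁, a, 2 * a - A₁, 2 * a - A₀] : Fin 5 → Fin 5) (Fin.rev i)).val) % 5 = (2 * a.val) % 5 := by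
  decide +kernel

theorem dec3' : ∀ (A₀ a i : Fin 3), (((![A₀, a, 2 * a - A₀] : Fin 3 → Fin 3) i).val + ((![A₀, a, 2 * a - A₀] : Fin 3 → Fin 3) (Fin.rev i)).val) % 3 = (2 * a.val) % 3 := by
  decide +kernel

/-- The combinatorial property behind the exceptions. -/
def GoodR (r : ℕ) : Prop :=
  ∀ c : Fin r → ℕ, (∑ t, c t = r) → (r ∣ ∑ t : Fin r, t.val * c t) → (∀ t, c t ≠ r) →
    ∃ (A : Fin r → Fin r) (a : Fin r), (∀ i, ((A i).val + (A (Fin.rev i)).val) % r = (2 * a.val) % r) ∧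
      ∀ t, (∑ i, if A i = t then 1 else 0) = c t

theorem good5 : GoodR 5 := by
  intro c hc hd hne
  have hle : ∀ t, c t < 6 := by
    intro t
    have := Finset.single_le_sum (fun i _ => Nat.zero_le (c i)) (Finset.mem_univ t)
    omega
  rw [Fin.sum_univ_five] at hc
  rw [Fin.sum_univ_five] at hd
  obtain ⟨A₀, A₁, a, h⟩ := dec5 ⟨c 0, hle 0⟩ ⟨c 1, hle 1⟩ ⟨c 2, hle 2⟩ ⟨c 3, hle 3⟩ ⟨c 4, hle 4⟩ hc
    (by simpa using hd) (hne 0) (hne 1) (hne 2) (hne 3) (hne 4)
  refine ⟨![A₀, A₁, a, 2 * a - A₁, 2 * a - A₀], a, dec5' A₀ A₁ a, fun t => ?_⟩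
  rw [h t]
  fin_cases t <;> rfl

theorem good3 : GoodR 3 := by
  intro c hc hd hne
  have hle : ∀ t, c t < 4 := by
    intro t
    have := Finset.single_le_sum (fun i _ => Nat.zero_le (c i)) (Finset.mem_univ t)
    omega
  rw [Fin.sum_univ_three] at hc
  rw [Fin.sum_univ_three] at hd
  obtain ⟨A₀, a, h⟩ := dec3 ⟨c 0, hle 0⟩ ⟨c 1, hle 1⟩ ⟨c 2, hle 2⟩ hc
    (by simpa using hd) (hne 0) (hne 1) (hne 2)
  refine ⟨![A₀, a, 2 * a - A₀], a, dec3' A₀ a, fun t => ?_⟩
  rw [h t]
  fin_cases t <;> rfl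

theorem det_of_irr {r : ℕ} (hn : n = r) (hr : r.Prime) (hr2 : r ≠ 2) {T : Module.End F (Fin n → F)} {z : F} (hT : T ^ r = z • 1)
    (hz : ∀ b : F, b ^ r ≠ z) : LinearMap.det T = z := by
  have hirr : Irreducible (X ^ r - C z : F[X]) := X_pow_sub_C_irreducible_of_prime hr hz
  have hmon : (X ^ r - C z : F[X]).Monic := monic_X_pow_sub_C z hr.pos.ne'
  have hae : aeval T (X ^ r - C z : F[X]) = 0 := Cfsg.Agent.Lib.Classical.Elusive.PslMain.aeval_X_pow_sub_C hT
  haveI : Nontrivial (Module.End F (Fin n → F)) := by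
    refine ⟨⟨1, 0, fun h => ?_⟩⟩
    have h4 := congrFun (LinearMap.congr_fun h (fun _ => 1)) ⟨0, by rw [hn]; exact hr.pos⟩
    simp at h4
  have h1 := minpoly.eq_of_irreducible_of_monic hirr hae hmon
  have h2 : (X ^ r - C z : F[X]) ∣ T.charpoly := by
    rw [h1]
    exact LinearMap.minpoly_dvd_charpoly T
  have h3 : T.charpoly = X ^ r - C z := by
    apply Polynomial.eq_of_monic_of_dvd_of_natDegree_le hmon (LinearMap.charpoly_monic T) h2
    rw [LinearMap.charpoly_natDegree, natDegree_X_pow_sub_C, Module.finrank_fintype_fun_eq_card, Fintype.card_fin, hn]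
  have hodd : Odd r := hr.odd_of_ne_two hr2
  rw [LinearMap.det_eq_sign_charpoly_coeff, h3, Module.finrank_fintype_fun_eq_card, Fintype.card_fin, hn, hodd.neg_one_pow]
  simp [coeff_X_pow, hr.ne_zero, hr.ne_zero.symm]

theorem pow_congr_mod {ζ : F} {r m m' : ℕ} (hζ : ζ ^ r = 1) (h : m % r = m' % r) : ζ ^ m = ζ ^ m' := by
  rw [pow_eq_pow_mod m hζ, pow_eq_pow_mod m' hζ, h]

open _root_.Classical in
theorem case_exc (hF : Fintype.card F = q₀ ^ 2) (hf : Cfsg.Geo.IsUnitaryFormPow q₀ f) {r : ℕ} (hr : r.Prime) (hr2 : r ≠ 2) (hG : GoodR r)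
    (hn : n = r) (hv : padicValNat r (q₀ - 1) = 1) (x : GL (Fin n) F) (hx : x ∈ Cfsg.Geo.specialLinear (Fin n) F) {z : F}
    (hxz : ((x ^ r : GL (Fin n) F) : Matrix (Fin n) (Fin n) F) = z • (1 : Matrix (Fin n) (Fin n) F))
    (hns : ∀ y : F, (x : Matrix (Fin n) (Fin n) F) ≠ y • (1 : Matrix (Fin n) (Fin n) F)) :
    ∃ g ∈ Cfsg.Geo.specialLinear (Fin n) F, g⁻¹ * x * g ∈ Cfsg.Geo.similarityGroup f := by
  haveI : Fact r.Prime := ⟨hr⟩
  have hq₀ : 2 ≤ q₀ := two_le_q hF
  have hq1 : q₀ - 1 ≠ 0 := by omega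
  have hn0 : 0 < n := by
    rw [hn]
    exact hr.pos
  set T : Module.End F (Fin n → F) := Matrix.toLin' (x : Matrix (Fin n) (Fin n) F) with hTdef
  have hTz : T ^ r = z • 1 := by
    rw [hTdef, ← Matrix.toLin'_pow, ← Units.val_pow_eq_pow_val, hxz, map_smul, Matrix.toLin'_one]
    rfl
  have hdet : LinearMap.det T = 1 := by
    rw [hTdef, LinearMap.det_toLin']
    have : Matrix.GeneralLinearGroup.det x = 1 := hx
    have h1 := congrArg Units.val this
    exact h1
  have hzr : z ^ r = 1 := by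
    have h1 := congrArg LinearMap.det hTz
    rw [map_pow, hdet, one_pow, LinearMap.det_smul, Module.finrank_fintype_fun_eq_card, Fintype.card_fin, map_one, mul_one] at h1
    rw [← hn]
    exact h1.symm
  have hrq1 : r ∣ q₀ - 1 := by
    have : r ^ 1 ∣ q₀ - 1 := by
      rw [padicValNat_dvd_iff_le hq1]
      omega
    simpa using this
  have hrq2 : ¬ r ^ 2 ∣ q₀ - 1 := by
    rw [padicValNat_dvd_iff_le hq1]
    omega
  have hfac : q₀ ^ 2 - 1 = (q₀ + 1) * (q₀ - 1) := by
    obtain ⟨m', rfl⟩ : ∃ m', q₀ = m' + 1 := ⟨q₀ - 1, by omega⟩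
    simp only [Nat.add_sub_cancel]
    rw [show (m' + 1) ^ 2 = (m' + 1 + 1) * m' + 1 by ring]
    simp
  have hrq3 : ¬ r ∣ q₀ + 1 := by
    intro h
    have h2 : r ∣ 2 := by
      have : q₀ + 1 = (q₀ - 1) + 2 := by omega
      rw [this] at h
      exact (Nat.dvd_add_right hrq1).1 h
    exact hr2 ((Nat.prime_dvd_prime_iff_eq hr Nat.prime_two).1 h2)
  have hrq4 : ¬ r ^ 2 ∣ q₀ ^ 2 - 1 := by
    intro h
    rw [hfac] at h
    have hcop : Nat.Coprime (r ^ 2) (q₀ + 1) := Nat.Coprime.pow_left 2 ((Nat.Prime.coprime_iff_not_dvd hr).2 hrq3)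
    exact hrq2 (hcop.dvd_of_dvd_mul_left h)
  -- the scalar is one
  have hz1 : z = 1 := by
    by_cases hs : ∃ y : F, y ^ r = z
    · obtain ⟨y, rfl⟩ := hs
      have hy0 : y ≠ 0 := by
        intro h
        rw [h, zero_pow hr.pos.ne', zero_pow hr.pos.ne'] at hzr
        exact zero_ne_one hzr
      have h1 : y ^ (q₀ ^ 2 - 1) = 1 := by
        rw [← hF]
        exact FiniteField.pow_card_sub_one_eq_one y hy0
      have h2 : y ^ (r ^ 2) = 1 := by
        rw [_root_.sq, pow_mul]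
        exact hzr
      have h3 : y ^ Nat.gcd (r ^ 2) (q₀ ^ 2 - 1) = 1 := pow_gcd_eq_one.2 ⟨h2, h1⟩
      obtain ⟨k, hk, hke⟩ := (Nat.dvd_prime_pow hr).1 (Nat.gcd_dvd_left (r ^ 2) (q₀ ^ 2 - 1))
      have hk2 : k ≠ 2 := by
        rintro rfl
        apply hrq4
        rw [← hke]
        exact Nat.gcd_dvd_right _ _
      have hkr : Nat.gcd (r ^ 2) (q₀ ^ 2 - 1) ∣ r := by
        rw [hke]
        have : k ≤ 1 := by omega
        calc r ^ k ∣ r ^ 1 := pow_dvd_pow _ this
          _ = r := pow_one r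
      obtain ⟨d, hd⟩ := hkr
      conv_lhs => rw [hd, pow_mul, h3, one_pow]
    · push Not at hs
      have h1 := det_of_irr hn hr hr2 hTz hs
      rw [hdet] at h1
      exact h1.symm
  subst hz1
  have hT : T ^ r = 1 := by
    rw [hTz, one_smul]
  obtain ⟨ζ, hζ0, hζq, hζo⟩ := exists_elt hF hrq1 hr.pos
  have hζ : IsPrimitiveRoot ζ r := by
    rw [← hζo]
    exact IsPrimitiveRoot.orderOf ζ
  have hζr : ζ ^ r = 1 := hζ.pow_eq_one
  have hsum := sum_eig hr.pos hζ hT
  rw [Module.finrank_fintype_fun_eq_card, Fintype.card_fin] at hsum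
  have hsum' := hsum.trans hn
  have hdvd : r ∣ ∑ t : Fin r, t.val * Eig T (ζ ^ (t : ℕ)) := by
    have h1 := det_eig hr.pos hζ hT
    rw [hdet] at h1
    have h2 : ∏ t : Fin r, (ζ ^ (t : ℕ)) ^ Eig T (ζ ^ (t : ℕ)) = ζ ^ (∑ t : Fin r, t.val * Eig T (ζ ^ (t : ℕ))) := by
      rw [← Finset.prod_pow_eq_pow_sum]
      refine Finset.prod_congr rfl fun t _ => ?_
      rw [pow_mul]
    rw [h2] at h1
    exact (hζ.pow_eq_one_iff_dvd _).1 h1.symm
  have hconc : ∀ t : Fin r, Eig T (ζ ^ (t : ℕ)) ≠ r := by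
    intro t ht
    have h1 : LinearMap.ker (T - ζ ^ (t : ℕ) • (1 : Module.End F (Fin n → F))) = ⊤ := by
      apply Submodule.eq_top_of_finrank_eq
      rw [Module.finrank_fintype_fun_eq_card, Fintype.card_fin]
      exact ht.trans hn.symm
    apply hns (ζ ^ (t : ℕ))
    apply Matrix.toLin'.injective
    rw [map_smul, Matrix.toLin'_one]
    show T = ζ ^ (t : ℕ) • _
    apply LinearMap.ext
    intro v
    have h2 : v ∈ LinearMap.ker (T - ζ ^ (t : ℕ) • (1 : Module.End F (Fin n → F))) := by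
      rw [h1]
      exact Submodule.mem_top
    have h3 := LinearMap.mem_ker.1 h2
    rw [LinearMap.sub_apply, sub_eq_zero] at h3
    exact h3
  obtain ⟨A, a, hA, hAc⟩ := hG _ hsum' hdvd hconc
  subst hn
  -- the diagonal model
  let w : Fin n → F := fun i => ζ ^ (A i : ℕ)
  have hwq : ∀ i, w i ^ q₀ = w i := by
    intro i
    simp only [w]
    rw [← pow_mul, mul_comm, pow_mul, hζq]
  have hS : (Matrix.toLin' (Matrix.diagonal w)) ^ n = (1 : Module.End F (Fin n → F)) := by
    rw [← Matrix.toLin'_pow, Matrix.diagonal_pow]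
    have : (w ^ n) = 1 := by
      funext i
      simp only [w, Pi.pow_apply, Pi.one_apply]
      rw [← pow_mul, mul_comm, pow_mul, hζr, one_pow]
    rw [this, show (Matrix.diagonal (1 : Fin n → F)) = 1 from Matrix.diagonal_one, Matrix.toLin'_one]
    rfl
  have hE : ∀ t : Fin n, Eig T (ζ ^ (t : ℕ)) = Eig (Matrix.toLin' (Matrix.diagonal w)) (ζ ^ (t : ℕ)) := by
    intro t
    rw [cnt_eig, ← hAc t]
    refine Finset.sum_congr rfl fun i _ => ?_
    by_cases h : A i = t
    · rw [if_pos h, if_pos]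
      simp only [w]
      rw [h]
    · rw [if_neg h, if_neg]
      intro h'
      exact h (Fin.ext (hζ.pow_inj (A i).2 t.2 h'))
  obtain ⟨φ, hφ⟩ := conj_of_pow hr.pos hζ hT hS hE
  obtain ⟨Q, hQ⟩ := exists_rev_equiv hF hf
  refine finish_diag hn0 Q hQ x w (c := ζ ^ (2 * a.val)) (pow_ne_zero _ hζ0) ?_ φ hφ
  intro u v
  simp only [Matrix.toLin'_apply, Matrix.mulVec_diagonal, revForm, Finset.mul_sum]
  refine Finset.sum_congr rfl fun i _ => ?_
  have h1 : ζ ^ ((A i).val + (A (Fin.rev i)).val) = ζ ^ (2 * a.val) := pow_congr_mod hζr (hA i)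
  have h2 : w (Fin.rev i) ^ q₀ = w (Fin.rev i) := hwq _
  have h3 : (w (Fin.rev i) * v (Fin.rev i)) ^ q₀ = w (Fin.rev i) * v (Fin.rev i) ^ q₀ := by
    rw [mul_pow, h2]
  show w i * u i * ((fun j => w j * v j) (Fin.rev i)) ^ q₀ = _
  simp only []
  rw [h3, ← h1, pow_add]
  simp only [w]
  ring

/-! ### Involutions in odd characteristic -/

theorem nonsq_false (hF : Fintype.card F = q₀ ^ 2) (h2 : (2 : F) ≠ 0) (hodd : Odd q₀) {b : ℕ} (hn : n = 2 * b) (hb : 0 < b) {z : F} (hz0 : z ≠ 0)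
    (hns : ∀ y : F, y ^ 2 ≠ z) (hdet : (-z) ^ b = 1) (hv : padicValNat 2 n ≤ padicValNat 2 (q₀ ^ 2 - 1)) : False := by
  classical
  have hq₀ : 2 ≤ q₀ := two_le_q hF
  obtain ⟨l, hl⟩ := hodd
  have hl0 : 1 ≤ l := by omega
  have hQ : q₀ ^ 2 - 1 = 2 * ((q₀ + 1) * l) := by
    subst hl
    rw [show (2 * l + 1) ^ 2 = 2 * ((2 * l + 1 + 1) * l) + 1 by ring]
    simp
  have hQ0 : q₀ ^ 2 - 1 ≠ 0 := by
    rw [hQ]
    have : 0 < (q₀ + 1) * l := by positivity
    omega
  set E := (q₀ + 1) * l with hE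
  have hEeven : Even E := by
    rw [hE, hl, show 2 * l + 1 + 1 = 2 * (l + 1) by ring]
    exact (even_two_mul _).mul_right _
  have hcard : Fintype.card F / 2 = E := by
    have : Fintype.card F = 2 * E + 1 := by
      rw [hF, ← hQ]
      have : 1 ≤ q₀ ^ 2 := Nat.one_le_pow _ _ (by omega)
      omega
    omega
  have hchar : ringChar F ≠ 2 := by
    intro h
    apply h2
    have := ringChar.Nat.cast_ringChar (R := F)
    rw [h] at this
    exact_mod_cast this
  have hzE : z ^ E = -1 := by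
    rcases FiniteField.pow_dichotomy hchar hz0 with h | h
    · exfalso
      rw [hcard] at h
      obtain ⟨y, hy⟩ := (FiniteField.isSquare_iff hchar hz0).2 (by rw [hcard]; exact h)
      exact hns y (by rw [_root_.sq, hy])
    · rwa [hcard] at h
  have hyE : (-z) ^ E = -1 := by
    rw [neg_pow, hEeven.neg_one_pow, one_mul, hzE]
  obtain ⟨s, m, hm, hQm⟩ := Nat.exists_eq_two_pow_mul_odd hQ0
  have hs : s = padicValNat 2 (q₀ ^ 2 - 1) := by
    rw [hQm, padicValNat.mul (by positivity) hm.pos.ne', padicValNat.prime_pow, padicValNat.eq_zero_of_not_dvd hm.not_two_dvd_nat, add_zero]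
  obtain ⟨t, b', hb', hbm⟩ := Nat.exists_eq_two_pow_mul_odd hb.ne'
  have ht : t + 1 = padicValNat 2 n := by
    rw [hn, hbm, ← mul_assoc, ← pow_succ', padicValNat.mul (by positivity) hb'.pos.ne', padicValNat.prime_pow, padicValNat.eq_zero_of_not_dvd hb'.not_two_dvd_nat, add_zero]
  have hts : t + 1 ≤ s := by omega
  obtain ⟨g, hg⟩ : ∃ g, s = t + 1 + g := ⟨s - (t + 1), by omega⟩
  have hEform : E = 2 ^ (t + g) * m := by
    have h5 : 2 * E = 2 * (2 ^ (t + g) * m) := by
      rw [← hQ, hQm, hg, show t + 1 + g = (t + g) + 1 by ring, pow_succ]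
      ring
    omega
  have h1 : (-z) ^ (E * b') = 1 := by
    have : E * b' = b * (2 ^ g * m) := by
      rw [hEform, hbm, pow_add]
      ring
    rw [this, pow_mul, hdet, one_pow]
  rw [pow_mul, hyE, hb'.neg_one_pow] at h1
  apply h2
  linear_combination -h1

theorem case_odd (hF : Fintype.card F = q₀ ^ 2) (hf : Cfsg.Geo.IsUnitaryFormPow q₀ f) (hn : 3 ≤ n) (h2 : (2 : F) ≠ 0) (hodd : Odd q₀)
    (hv : padicValNat 2 n ≤ padicValNat 2 (q₀ ^ 2 - 1)) (x : GL (Fin n) F) (hx : x ∈ Cfsg.Geo.specialLinear (Fin n) F) {z : F}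
    (hxz : ((x ^ 2 : GL (Fin n) F) : Matrix (Fin n) (Fin n) F) = z • (1 : Matrix (Fin n) (Fin n) F))
    (hns : ∀ y : F, (x : Matrix (Fin n) (Fin n) F) ≠ y • (1 : Matrix (Fin n) (Fin n) F)) :
    ∃ g ∈ Cfsg.Geo.specialLinear (Fin n) F, g⁻¹ * x * g ∈ Cfsg.Geo.similarityGroup f := by
  classical
  have hq₀ : 2 ≤ q₀ := two_le_q hF
  have hn0 : 0 < n := by omega
  set T : Module.End F (Fin n → F) := Matrix.toLin' (x : Matrix (Fin n) (Fin n) F) with hTdef
  have hTz : T ^ 2 = z • 1 := by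
    rw [hTdef, ← Matrix.toLin'_pow, ← Units.val_pow_eq_pow_val, hxz, map_smul, Matrix.toLin'_one]
    rfl
  have hdet : LinearMap.det T = 1 := by
    rw [hTdef, LinearMap.det_toLin']
    have : Matrix.GeneralLinearGroup.det x = 1 := hx
    have h1 := congrArg Units.val this
    exact h1
  have hzn : z ^ n = 1 := by
    have h1 := congrArg LinearMap.det hTz
    rw [map_pow, hdet, one_pow, LinearMap.det_smul, Module.finrank_fintype_fun_eq_card, Fintype.card_fin, map_one, mul_one] at h1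
    exact h1.symm
  have hz0 : z ≠ 0 := by
    intro h
    rw [h, zero_pow hn0.ne'] at hzn
    exact zero_ne_one hzn
  by_cases hs : ∃ w : F, w ^ 2 = z
  · obtain ⟨w, hw⟩ := hs
    have hw0 : w ≠ 0 := by
      intro h
      rw [h] at hw
      apply hz0
      rw [← hw]
      ring
    let T' : Module.End F (Fin n → F) := w⁻¹ • T
    have hTT' : ∀ v, T v = w • T' v := by
      intro v
      simp only [T', LinearMap.smul_apply, smul_smul, mul_inv_cancel₀ hw0, one_smul]
    have hT' : T' ^ 2 = 1 := by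
      simp only [T']
      rw [_root_.smul_pow, hTz, ← hw, smul_smul, inv_pow, inv_mul_cancel₀ (pow_ne_zero _ hw0), one_smul]
    have hprim : IsPrimitiveRoot (-1 : F) 2 := by
      apply IsPrimitiveRoot.mk_of_lt (-1 : F) (by norm_num) (by norm_num)
      intro l hl0 hl2
      have : l = 1 := by omega
      subst this
      intro h
      apply h2
      rw [pow_one] at h
      linear_combination -h
    have hsum := sum_eig (by norm_num) hprim hT'
    rw [Module.finrank_fintype_fun_eq_card, Fintype.card_fin, Fin.sum_univ_two] at hsum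
    simp only [Fin.val_zero, pow_zero, Fin.val_one, pow_one] at hsum
    set a := Eig T' (-1) with ha
    have hne : (1 : F) ≠ -1 := by
      intro h
      apply h2
      linear_combination h
    let e : (Fin a ⊕ Fin (n - a)) ⊕ Fin 0 ≃ Fin n := Fintype.equivFinOfCardEq (by simp; omega)
    let ε : Fin n → F := blockW e (-1) 1 1
    have hε : ∀ i, ε i ^ 2 = 1 := by
      intro i
      simp only [ε, blockW]
      rcases e.symm i with (k | k) | k <;> simp
    have hε' : ∀ i, ε i ^ (q₀ + 1) = 1 := by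
      intro i
      obtain ⟨l, hl⟩ := hodd
      rw [hl, show 2 * l + 1 + 1 = 2 * (l + 1) by ring, pow_mul, hε, one_pow]
    have hS₀ : (Matrix.toLin' (Matrix.diagonal ε)) ^ 2 = (1 : Module.End F (Fin n → F)) := by
      rw [← Matrix.toLin'_pow, Matrix.diagonal_pow]
      have : (ε ^ 2) = 1 := by
        funext i
        exact hε i
      rw [this, show (Matrix.diagonal (1 : Fin n → F)) = 1 from Matrix.diagonal_one, Matrix.toLin'_one]
      rfl
    have hE1 : Eig (Matrix.toLin' (Matrix.diagonal ε)) 1 = n - a := by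
      rw [cnt_eig]
      have h3 := cnt_block e (-1 : F) 1 1 1
      rw [if_neg (Ne.symm hne), if_pos rfl, if_pos rfl] at h3
      simp only [add_zero, zero_add] at h3
      rw [← h3]
    have hE2 : Eig (Matrix.toLin' (Matrix.diagonal ε)) (-1) = a := by
      rw [cnt_eig]
      have h3 := cnt_block e (-1 : F) 1 1 (-1)
      rw [if_pos rfl, if_neg hne, if_neg hne] at h3
      simp only [add_zero, zero_add] at h3
      rw [← h3]
    obtain ⟨φ, hφ⟩ := conj_of_pow (by norm_num) hprim hT' hS₀ (by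
      intro t
      fin_cases t
      · simp only [Fin.zero_eta, Fin.val_zero, pow_zero, hE1]
        omega
      · simp only [Fin.mk_one, Fin.val_one, pow_one, hE2]
        exact ha.symm)
    obtain ⟨Q, hQ⟩ := exists_herm_equiv hF hf
    refine finish_diag hn0 Q hQ x (fun i => w * ε i) (c := w ^ (q₀ + 1)) (pow_ne_zero _ hw0) ?_ φ ?_
    · intro u v
      simp only [Matrix.toLin'_apply, Matrix.mulVec_diagonal, hermForm_apply, Finset.mul_sum]
      refine Finset.sum_congr rfl fun i _ => ?_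
      have h3 := hε' i
      rw [pow_succ] at h3
      rw [mul_pow, mul_pow, pow_succ w]
      linear_combination (w ^ q₀ * w * u i * v i ^ q₀) * h3
    · intro v
      show φ (T v) = _
      rw [hTT', map_smul, hφ]
      funext i
      simp [Matrix.mulVec_diagonal, mul_assoc]
  · exfalso
    push Not at hs
    have hirr : Irreducible (X ^ 2 - C z : F[X]) := X_pow_sub_C_irreducible_of_prime Nat.prime_two hs
    have hdvd : 2 ∣ finrank F (⊤ : Submodule F (Fin n → F)) := by
      refine Cfsg.Agent.Lib.Classical.Elusive.PslMain.dvd_of_irr (by norm_num) hTz hirr.ne_zero ?_ (isInv_top T)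
      intro d hd hdd
      have h1 : Associated d (X ^ 2 - C z : F[X]) := hd.associated_of_dvd hirr hdd
      rw [Polynomial.natDegree_eq_of_degree_eq (Polynomial.degree_eq_degree_of_associated h1), natDegree_X_pow_sub_C]
    rw [finrank_top, Module.finrank_fintype_fun_eq_card, Fintype.card_fin] at hdvd
    obtain ⟨b, hb⟩ := hdvd
    have hb0 : 0 < b := by omega
    obtain ⟨Φ, hΦ⟩ := Cfsg.Agent.Lib.Classical.Elusive.TensorConj.exists_form_nonsq T hTz hirr hb
    have hTeq : T = (Φ : (Fin 2 × Fin b → F) →ₗ[F] (Fin n → F)) ∘ₗ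
        Matrix.toLin' (!![0, z; 1, 0] ⊗ₖ Matrix.diagonal (fun _ : Fin b => (1 : F))) ∘ₗ (Φ.symm : (Fin n → F) →ₗ[F] (Fin 2 × Fin b → F)) := by
      apply LinearMap.ext
      intro v
      have := hΦ (Φ.symm v)
      rw [LinearEquiv.apply_symm_apply] at this
      rw [this]
      rfl
    have hdet2 : (-z) ^ b = 1 := by
      rw [← hdet, hTeq, LinearMap.det_conj, LinearMap.det_toLin', Matrix.det_kronecker, Matrix.det_diagonal, Matrix.det_fin_two_of]
      simp
    exact nonsq_false hF h2 hodd hb hb0 hz0 (fun y hy => hs y hy) hdet2 hv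

/-! ### Involutions in characteristic two -/

section Normal

variable {V : Type*} [AddCommGroup V] [Module F V] [FiniteDimensional F V]

theorem lc_eq_zero {ι : Type*} [Fintype ι] {U : Submodule F V} (b : Basis ι F U) (β : ι → F) (h : ∑ i, β i • (b i : V) = 0) : β = 0 := by
  have h1 : ∑ i, β i • b i = 0 := by
    apply Subtype.ext
    rw [Submodule.coe_sum]
    simpa using h
  funext i
  exact Fintype.linearIndependent_iff.1 b.linearIndependent β h1 i

theorem exists_normal_form (N : Module.End F V) (hN : ∀ v, N (N v) = 0) {a m : ℕ} (ha : finrank F (LinearMap.range N) = a)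
    (hm : finrank F V = 2 * a + m) :
    ∃ L : ((Fin a → F) × (Fin a → F) × (Fin m → F)) ≃ₗ[F] V, ∀ α β γ, N (L (α, β, γ)) = L (0, α, 0) := by
  classical
  set R := LinearMap.range N with hR
  have hRker : R ≤ LinearMap.ker N := by
    rintro _ ⟨v, rfl⟩
    exact hN v
  let bR : Basis (Fin a) F R := Module.finBasisOfFinrankEq F R ha
  have hc : ∀ i, ∃ c : V, N c = (bR i : V) := fun i => (bR i).2
  choose c hcN using hc
  obtain ⟨D', hD'⟩ := Submodule.exists_isCompl R
  set D := D' ⊓ LinearMap.ker N with hD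
  have hsup : R ⊔ D = LinearMap.ker N := by
    rw [hD, ← sup_inf_assoc_of_le _ hRker, hD'.sup_eq_top, top_inf_eq]
  have hinf : R ⊓ D = ⊥ := by
    apply le_bot_iff.1
    calc R ⊓ D ≤ R ⊓ D' := inf_le_inf_left _ inf_le_left
      _ = ⊥ := hD'.inf_eq_bot
  have hdim : finrank F D = m := by
    have h1 := Submodule.finrank_sup_add_finrank_inf_eq R D
    rw [hsup, hinf, finrank_bot, add_zero] at h1
    have h2 := LinearMap.finrank_range_add_finrank_ker N
    rw [← hR] at h2
    omega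
  let bD : Basis (Fin m) F D := Module.finBasisOfFinrankEq F D hdim
  let L₀ : ((Fin a → F) × (Fin a → F) × (Fin m → F)) →ₗ[F] V :=
    (Fintype.linearCombination F c).coprod
      ((Fintype.linearCombination F (fun i => (bR i : V))).coprod (Fintype.linearCombination F (fun j => (bD j : V))))
  have hL₀ : ∀ α β γ, L₀ (α, β, γ) = ∑ i, α i • c i + (∑ i, β i • (bR i : V) + ∑ j, γ j • (bD j : V)) := by
    intro α β γ
    simp [L₀, LinearMap.coprod_apply, Fintype.linearCombination_apply]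
  have hNR : ∀ i, N (bR i : V) = 0 := fun i => hRker (bR i).2
  have hND : ∀ j, N (bD j : V) = 0 := fun j => (bD j).2.2
  have hNL : ∀ α β γ, N (L₀ (α, β, γ)) = L₀ (0, α, 0) := by
    intro α β γ
    rw [hL₀, hL₀]
    simp [map_add, map_sum, hcN, hNR, hND]
  have hinj : Function.Injective L₀ := by
    rw [← LinearMap.ker_eq_bot, LinearMap.ker_eq_bot']
    rintro ⟨α, β, γ⟩ h
    have h1 := hNL α β γ
    rw [h, map_zero, hL₀] at h1
    simp only [Pi.zero_apply, zero_smul, Finset.sum_const_zero, zero_add, add_zero] at h1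
    have hα : α = 0 := lc_eq_zero bR α h1.symm
    subst hα
    rw [hL₀] at h
    simp only [Pi.zero_apply, zero_smul, Finset.sum_const_zero, zero_add] at h
    have h2 : ∑ i, β i • (bR i : V) ∈ R ⊓ D := by
      constructor
      · exact Submodule.sum_mem _ fun i _ => Submodule.smul_mem _ _ (bR i).2
      · rw [eq_neg_of_add_eq_zero_left h]
        exact Submodule.neg_mem _ (Submodule.sum_mem _ fun j _ => Submodule.smul_mem _ _ (bD j).2)
    rw [hinf, Submodule.mem_bot] at h2
    have hβ : β = 0 := lc_eq_zero bR β h2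
    rw [h2, zero_add] at h
    have hγ : γ = 0 := lc_eq_zero bD γ h
    rw [hβ, hγ]
    rfl
  have hdimL : finrank F ((Fin a → F) × (Fin a → F) × (Fin m → F)) = finrank F V := by
    rw [Module.finrank_prod, Module.finrank_prod, Module.finrank_fintype_fun_eq_card, Module.finrank_fintype_fun_eq_card, Fintype.card_fin, Fintype.card_fin, hm]
    ring
  refine ⟨L₀.linearEquivOfInjective hinj hdimL, fun α β γ => ?_⟩
  simp only [LinearMap.linearEquivOfInjective_apply]
  exact hNL α β γ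

end Normal

theorem case_char2 (hF : Fintype.card F = q₀ ^ 2) (hf : Cfsg.Geo.IsUnitaryFormPow q₀ f) (hn : 3 ≤ n) (hchar : ringChar F = 2)
    (x : GL (Fin n) F) (hx : x ∈ Cfsg.Geo.specialLinear (Fin n) F) {z : F}
    (hxz : ((x ^ 2 : GL (Fin n) F) : Matrix (Fin n) (Fin n) F) = z • (1 : Matrix (Fin n) (Fin n) F))
    (hns : ∀ y : F, (x : Matrix (Fin n) (Fin n) F) ≠ y • (1 : Matrix (Fin n) (Fin n) F)) :
    ∃ g ∈ Cfsg.Geo.specialLinear (Fin n) F, g⁻¹ * x * g ∈ Cfsg.Geo.similarityGroup f := by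
  classical
  have h20 : (2 : F) = 0 := by
    have := ringChar.Nat.cast_ringChar (R := F)
    rw [hchar] at this
    exact_mod_cast this
  have hneg : ∀ y : F, -y = y := by
    intro y
    linear_combination (-y) * h20
  have hn0 : 0 < n := by omega
  set T : Module.End F (Fin n → F) := Matrix.toLin' (x : Matrix (Fin n) (Fin n) F) with hTdef
  have hTz : T ^ 2 = z • 1 := by
    rw [hTdef, ← Matrix.toLin'_pow, ← Units.val_pow_eq_pow_val, hxz, map_smul, Matrix.toLin'_one]
    rfl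
  have hdet : LinearMap.det T = 1 := by
    rw [hTdef, LinearMap.det_toLin']
    have : Matrix.GeneralLinearGroup.det x = 1 := hx
    have h1 := congrArg Units.val this
    exact h1
  have hzn : z ^ n = 1 := by
    have h1 := congrArg LinearMap.det hTz
    rw [map_pow, hdet, one_pow, LinearMap.det_smul, Module.finrank_fintype_fun_eq_card, Fintype.card_fin, map_one, mul_one] at h1
    exact h1.symm
  have hz0 : z ≠ 0 := by
    intro h
    rw [h, zero_pow hn0.ne'] at hzn
    exact zero_ne_one hzn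
  have hsq : ∀ y : F, ∃ s : F, s ^ 2 = y := by
    intro y
    obtain ⟨s, hs⟩ := FiniteField.isSquare_of_char_two hchar y
    exact ⟨s, by rw [_root_.sq, hs]⟩
  obtain ⟨w, hw⟩ := hsq z
  have hw0 : w ≠ 0 := by
    intro h
    rw [h] at hw
    apply hz0
    rw [← hw]
    ring
  let T' : Module.End F (Fin n → F) := w⁻¹ • T
  have hTT' : ∀ v, T v = w • T' v := by
    intro v
    simp only [T', LinearMap.smul_apply, smul_smul, mul_inv_cancel₀ hw0, one_smul]
  have hT' : T' ^ 2 = 1 := by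
    simp only [T']
    rw [_root_.smul_pow, hTz, ← hw, smul_smul, inv_pow, inv_mul_cancel₀ (pow_ne_zero _ hw0), one_smul]
  have hT'v : ∀ v, T' (T' v) = v := by
    intro v
    have := LinearMap.congr_fun hT' v
    simpa [_root_.sq] using this
  let N : Module.End F (Fin n → F) := T' - 1
  have hNv : ∀ v, N v = T' v - v := fun v => rfl
  have hN : ∀ v, N (N v) = 0 := by
    intro v
    rw [hNv, hNv, map_sub, hT'v]
    have h3 : ∀ y : Fin n → F, -y = y := by
      intro y
      funext i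
      exact hneg _
    have h4 : ∀ y : Fin n → F, y + y = 0 := by
      intro y
      nth_rewrite 1 [← h3 y]
      exact neg_add_cancel y
    have h5 : v - T' v - (T' v - v) = (v + v) - (T' v + T' v) := by abel
    rw [h5, h4, h4, sub_zero]
  set a := finrank F (LinearMap.range N) with ha
  have ha0 : 0 < a := by
    rcases Nat.eq_zero_or_pos a with h | h
    · exfalso
      have h1 : LinearMap.range N = ⊥ := Submodule.finrank_eq_zero.1 (by rw [← ha, h])
      have h2 : ∀ v, T' v = v := by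
        intro v
        have h3 : N v ∈ LinearMap.range N := ⟨v, rfl⟩
        rw [h1, Submodule.mem_bot, hNv, sub_eq_zero] at h3
        exact h3
      apply hns w
      apply Matrix.toLin'.injective
      rw [map_smul, Matrix.toLin'_one]
      apply LinearMap.ext
      intro v
      show T v = _
      rw [hTT', h2]
      rfl
    · exact h
  have h2a : 2 * a ≤ n := by
    have h1 : LinearMap.range N ≤ LinearMap.ker N := by
      rintro _ ⟨v, rfl⟩
      exact hN v
    have h2 := Submodule.finrank_mono h1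
    have h3 := LinearMap.finrank_range_add_finrank_ker N
    rw [Module.finrank_fintype_fun_eq_card, Fintype.card_fin] at h3
    omega
  obtain ⟨m, hm⟩ : ∃ m, n = 2 * a + m := ⟨n - 2 * a, by omega⟩
  obtain ⟨L, hL⟩ := exists_normal_form N hN (m := m) ha.symm (by rw [Module.finrank_fintype_fun_eq_card, Fintype.card_fin]; exact hm)
  -- the model
  let e : Fin n ≃ (Fin a × Fin 2) ⊕ Fin m := Fintype.equivOfCardEq (by simp; omega)
  let τ : (Fin a × Fin 2) ⊕ Fin m ≃ (Fin a × Fin 2) ⊕ Fin m :=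
    Equiv.sumCongr (Equiv.prodCongr (Equiv.refl _) (Equiv.swap 0 1)) (Equiv.refl _)
  let σ : Equiv.Perm (Fin n) := (e.trans τ).trans e.symm
  have hσ : ∀ i, e (σ i) = τ (e i) := by
    intro i
    simp [σ]
  let S₀ : Module.End F (Fin n → F) := LinearMap.funLeft F F σ
  have hS₀ : ∀ u i, S₀ u i = u (σ i) := fun u i => rfl
  -- the normal form of the model
  let LS₀ : ((Fin a → F) × (Fin a → F) × (Fin m → F)) →ₗ[F] (Fin n → F) :=
    { toFun := fun y i => Sum.elim (fun p : Fin a × Fin 2 => if p.2 = 0 then y.2.1 p.1 else y.1 p.1 + y.2.1 p.1) y.2.2 (e i)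
      map_add' := by
        intro y y'
        funext i
        simp only [Pi.add_apply]
        rcases e i with ⟨p, k⟩ | d
        · simp only [Sum.elim_inl, Prod.fst_add, Prod.snd_add, Pi.add_apply]
          split_ifs <;> ring
        · simp
      map_smul' := by
        intro s y
        funext i
        simp only [Pi.smul_apply, RingHom.id_apply, smul_eq_mul]
        rcases e i with ⟨p, k⟩ | d
        · simp only [Sum.elim_inl, Prod.smul_fst, Prod.smul_snd, Pi.smul_apply, smul_eq_mul]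
          split_ifs <;> ring
        · simp }
  have hLS : ∀ y i, LS₀ y i = Sum.elim (fun p : Fin a × Fin 2 => if p.2 = 0 then y.2.1 p.1 else y.1 p.1 + y.2.1 p.1) y.2.2 (e i) := fun y i => rfl
  have hinj : Function.Injective LS₀ := by
    rw [← LinearMap.ker_eq_bot, LinearMap.ker_eq_bot']
    rintro ⟨α, β, γ⟩ h
    have h1 : ∀ p, Sum.elim (fun p : Fin a × Fin 2 => if p.2 = 0 then β p.1 else α p.1 + β p.1) γ p = 0 := by
      intro p
      have := congrFun h (e.symm p)
      rw [hLS, Equiv.apply_symm_apply] at this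
      exact this
    have hβ : β = 0 := by
      funext i
      have := h1 (Sum.inl (i, 0))
      simpa using this
    have hα : α = 0 := by
      funext i
      have := h1 (Sum.inl (i, 1))
      simp only [Sum.elim_inl, one_ne_zero, if_false, hβ, Pi.zero_apply, add_zero] at this
      exact this
    have hγ : γ = 0 := by
      funext i
      have := h1 (Sum.inr i)
      simpa using this
    rw [hα, hβ, hγ]
    rfl
  have hdimL : finrank F ((Fin a → F) × (Fin a → F) × (Fin m → F)) = finrank F (Fin n → F) := by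
    rw [Module.finrank_prod, Module.finrank_prod, Module.finrank_fintype_fun_eq_card, Module.finrank_fintype_fun_eq_card, Module.finrank_fintype_fun_eq_card, Fintype.card_fin, Fintype.card_fin, Fintype.card_fin, hm]
    ring
  let LS : ((Fin a → F) × (Fin a → F) × (Fin m → F)) ≃ₗ[F] (Fin n → F) := LS₀.linearEquivOfInjective hinj hdimL
  have hLSe : ∀ y, LS y = LS₀ y := fun y => rfl
  have hNS : ∀ α β γ, S₀ (LS (α, β, γ)) - LS (α, β, γ) = LS (0, α, 0) := by
    intro α β γ
    funext i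
    simp only [Pi.sub_apply, hS₀, hLSe, hLS, hσ]
    rcases h : e i with ⟨p, k⟩ | d
    · fin_cases k
      · simp [τ]
      · simp [τ]
        rw [hneg]
    · simp [τ]
  -- the conjugating map
  let φ : (Fin n → F) ≃ₗ[F] (Fin n → F) := L.symm.trans LS
  have hφN : ∀ v, φ (N v) = S₀ (φ v) - φ v := by
    intro v
    obtain ⟨⟨α, β, γ⟩, rfl⟩ := L.surjective v
    simp only [φ, LinearEquiv.trans_apply, LinearEquiv.symm_apply_apply, hL]
    rw [hNS]
  have hφT : ∀ v, φ (T v) = (w • S₀) (φ v) := by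
    intro v
    have h1 : T' v = N v + v := by
      rw [hNv]
      abel
    rw [hTT', map_smul, h1, map_add, hφN]
    simp
  obtain ⟨Q, hQ⟩ := exists_herm_equiv hF hf
  refine finish_end Q hQ x (w • S₀) (c := w ^ (q₀ + 1)) (pow_ne_zero _ hw0) ?_ φ hφT ?_
  · intro u v
    have h1 : ∀ y : Fin n → F, (w • S₀) y = w • (y ∘ σ) := fun y => rfl
    rw [h1, h1, hermForm_smul_left, hermForm_smul_right]
    have h2 : Cfsg.hermForm n F q₀ (u ∘ σ) (v ∘ σ) = Cfsg.hermForm n F q₀ u v := by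
      simp only [hermForm_apply, Function.comp]
      exact Equiv.sum_comp σ (fun k => u k * v k ^ q₀)
    rw [h2, pow_succ]
    ring
  · intro δ hδ
    obtain ⟨s, hs⟩ := hsq δ
    let a₀ : Fin a := ⟨0, ha0⟩
    let d : Fin n → F := fun i => Sum.elim (fun p : Fin a × Fin 2 => if p.1 = a₀ then s else 1) (fun _ => 1) (e i)
    have hdσ : ∀ i, d (σ i) = d i := by
      intro i
      simp only [d, hσ]
      rcases e i with ⟨p, k⟩ | l <;> simp [τ]
    refine ⟨Matrix.toLin' (Matrix.diagonal d), ?_, ?_⟩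
    · apply LinearMap.ext
      intro u
      funext i
      simp only [Module.End.mul_apply, Matrix.toLin'_apply, Matrix.mulVec_diagonal, LinearMap.smul_apply, Pi.smul_apply, hS₀, smul_eq_mul, hdσ]
      ring
    · rw [LinearMap.det_toLin', Matrix.det_diagonal, ← Equiv.prod_comp e.symm]
      simp only [d, Equiv.apply_symm_apply, Fintype.prod_sum_type, Sum.elim_inl, Sum.elim_inr, Finset.prod_const_one, mul_one,
        Fintype.prod_prod_type, Finset.prod_const, Finset.card_univ, Fintype.card_fin]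
      have h3 : ∀ y : Fin a, ∏ _k : Fin 2, (if y = a₀ then s else 1) = if y = a₀ then s ^ 2 else 1 := by
        intro y
        rw [Fin.prod_univ_two]
        split_ifs <;> ring
      rw [Finset.prod_congr rfl (fun y _ => h3 y), Finset.prod_ite_eq']
      simp [hs]

theorem main {p : ℕ} [Fact p.Prime] [CharP F p] {q : ℕ} (hq : Fintype.card F = q)
    (q₀ : ℕ) (hq₀ : q = q₀ ^ 2) (n : ℕ) (hn : 3 ≤ n) (f : (Fin n → F) → (Fin n → F) → F) (hf : Cfsg.Geo.IsUnitaryFormPow q₀ f)
    (r : ℕ) [Fact r.Prime] (hr : r = 2 ∨ r ≠ p) (hgap : ¬ (n = 6 ∧ r = 3))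
    (hΩ : r ∣ (Cfsg.Geo.similarityGroup f).relIndex (Cfsg.Geo.specialLinear (Fin n) F)) :
    (∀ x ∈ Cfsg.Geo.specialLinear (Fin n) F, (∃ z : F, ((x ^ r : GL (Fin n) F) : Matrix (Fin n) (Fin n) F) = z • (1 : Matrix (Fin n) (Fin n) F)) →
      (∀ z : F, (x : Matrix (Fin n) (Fin n) F) ≠ z • (1 : Matrix (Fin n) (Fin n) F)) →
      ∃ g ∈ Cfsg.Geo.specialLinear (Fin n) F, g⁻¹ * x * g ∈ Cfsg.Geo.similarityGroup f) ↔
    ((r = 2 ∧ (p = 2 ∨ padicValNat 2 n ≤ padicValNat 2 (q - 1))) ∨ ((r = 3 ∨ r = 5) ∧ n = r ∧ padicValNat r (q₀ - 1) = 1)) := by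
  subst hq₀
  constructor
  · intro H
    exact forward hq hf hn hr hgap hΩ H
  · rintro (⟨rfl, h⟩ | ⟨h35, hnr, hv⟩)
    · rintro x hx ⟨z, hxz⟩ hns
      by_cases hp : p = 2
      · subst hp
        exact case_char2 hq hf hn (ringChar.eq F 2) x hx hxz hns
      · have hv : padicValNat 2 n ≤ padicValNat 2 (q₀ ^ 2 - 1) := h.resolve_left hp
        have hpp : p.Prime := Fact.out
        have h2F : (2 : F) ≠ 0 := by
          intro h
          have h3 : ((2 : ℕ) : F) = 0 := by exact_mod_cast h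
          have h4 := (CharP.cast_eq_zero_iff F p 2).1 h3
          exact hp ((Nat.prime_dvd_prime_iff_eq hpp Nat.prime_two).1 h4)
        have hodd : Odd q₀ := by
          have h1 := Cfsg.Agent.Lib.Classical.Elusive.PslNum.odd_card (F := F) (p := p) hp
          rw [hq] at h1
          exact (Nat.odd_pow_iff (by norm_num)).1 h1
        exact case_odd hq hf hn h2F hodd hv x hx hxz hns
    · rintro x hx ⟨z, hxz⟩ hns
      rcases h35 with rfl | rfl
      · exact case_exc hq hf (by norm_num) (by norm_num) good3 hnr hv x hx hxz hns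
      · exact case_exc hq hf (by norm_num) (by norm_num) good5 hnr hv x hx hxz hns

end Cfsg.Agent.Lib.Classical.Elusive.SlUConj
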