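import Mathlib
import Cfsg.Agent.Lib.Classical.Elusive.SlUConj
import Cfsg.Agent.Lib.Classical.Witt.Index
import Cfsg.Agent.Lib.Classical.OrthAut.FldOdd
import Cfsg.Agent.Lib.Classical.Orth.Models
import Cfsg.Agent.Lib.Linalg.OrthModels
import Cfsg.Agent.S0286
import Cfsg.Agent.S0287
import Cfsg.Agent.S0288
import Cfsg.Agent.S0289
import Cfsg.Agent.S0290
import Cfsg.Agent.S0291

/-!
# Elements of prime order of `PSL_n(q)` outside every conjugate of the similarity group of a quadratic form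
-/

set_option autoImplicit false
set_option linter.unusedSectionVars false
set_option linter.unusedSimpArgs false
set_option linter.unusedVariables false
set_option linter.style.haveILetI false

namespace Cfsg.Agent.Lib.Classical.Elusive.SlO

open Polynomial Module Matrix QuadraticMap
open scoped Kronecker
open Cfsg.Agent.Lib.Classical.Elusive.Inv Cfsg.Agent.Lib.Classical.Elusive.SpCore
  Cfsg.Agent.Lib.Classical.Elusive.TensorMain Cfsg.Agent.Lib.Classical.Elusive.SlSp
  Cfsg.Agent.Lib.Classical.Elusive.SlUBad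
open Cfsg.Agent.Lib.Classical.Witt.Hyp Cfsg.Agent.Lib.Classical.Witt.Index
open Cfsg.Agent.Lib.Linalg.OrthModels Cfsg.Agent.Lib.Linalg.OrthOrder
open Cfsg.Agent.Lib.Linalg.Bridge

universe u

section Setup

variable {F : Type u} [Field F] [Fintype F] {n : ℕ} {Q : QuadraticForm F (Fin n → F)}

/-- The endomorphism is similar to a similarity of the form. -/
def ConjSim (Q : QuadraticForm F (Fin n → F)) (T : Module.End F (Fin n → F)) : Prop :=
  ∃ (S : Module.End F (Fin n → F)) (ψ : (Fin n → F) ≃ₗ[F] (Fin n → F)) (c : F), c ≠ 0 ∧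
    (∀ v, ψ (T v) = S (ψ v)) ∧ ∀ v, Q (S v) = c * Q v

/-- The left-hand side of the criterion. -/
abbrev LHSq (Q : (Fin n → F) → F) (r : ℕ) : Prop :=
  ∀ x ∈ Cfsg.Geo.specialLinear (Fin n) F, (∃ z : F, ((x ^ r : GL (Fin n) F) : Matrix (Fin n) (Fin n) F) = z • (1 : Matrix (Fin n) (Fin n) F)) →
      (∀ z : F, (x : Matrix (Fin n) (Fin n) F) ≠ z • (1 : Matrix (Fin n) (Fin n) F)) →
      ∃ g ∈ Cfsg.Geo.specialLinear (Fin n) F, g⁻¹ * x * g ∈ Cfsg.Geo.quadSimilarityGroup Q

theorem key {r : ℕ} (H : LHSq (⇑Q) r) (T : Module.End F (Fin n → F)) {z : F} (hT : T ^ r = z • 1)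
    (hdet : LinearMap.det T = 1) (hns : ∀ y : F, T ≠ y • 1) : ConjSim Q T := by
  refine lhsGL (P := ConjSim Q) ?_ T hT hdet hns
  intro x hx hxz hxns
  obtain ⟨g, -, c, hc⟩ := H x hx hxz hxns
  refine ⟨Matrix.toLin' ((g⁻¹ * x * g : GL (Fin n) F) : Matrix (Fin n) (Fin n) F), equivOfGL g⁻¹, c, c.ne_zero, ?_, ?_⟩
  · intro v
    simp only [equivOfGL_apply, Matrix.toLin'_apply, Units.val_mul, Matrix.mulVec_mulVec]
    congr 1
    rw [mul_assoc, mul_assoc, Units.mul_inv, mul_one]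
  · intro v
    simpa only [Matrix.toLin'_apply] using hc v

theorem sim_polar {V : Type*} [AddCommGroup V] [Module F V] {Q : QuadraticForm F V} {S : Module.End F V} {c : F} (hS : ∀ v, Q (S v) = c * Q v) (u v : V) :
    polarBilin Q (S u) (S v) = c * polarBilin Q u v := by
  simp only [polarBilin_apply_apply, polar]
  rw [← map_add, hS, hS, hS]
  ring

open _root_.Classical in
theorem no_diag (hN : (polarBilin Q).Nondegenerate) {r : ℕ} (H : LHSq (⇑Q) r)
    (w : Fin n → F) {z : F} (hz : ∀ j, w j ^ r = z) (hprod : ∏ j, w j = 1) {i j : Fin n} (hij : w i ≠ w j) :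
    ∃ c : F, c ≠ 0 ∧ ∀ a : F, a ≠ 0 →
      (∑ j, if w j = a then 1 else 0) = (∑ j, if w j = c / a then 1 else 0) := by
  have hT : (Matrix.toLin' (Matrix.diagonal w)) ^ r = z • (1 : Module.End F (Fin n → F)) := by
    rw [← Matrix.toLin'_pow, Matrix.diagonal_pow]
    ext j k
    simp [Matrix.mulVec_diagonal, hz, Pi.single_apply]
  have hdet : LinearMap.det (Matrix.toLin' (Matrix.diagonal w)) = 1 := by
    rw [LinearMap.det_toLin', Matrix.det_diagonal, hprod]
  have hns : ∀ y : F, Matrix.toLin' (Matrix.diagonal w) ≠ y • (1 : Module.End F (Fin n → F)) := by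
    intro y hy
    have h1 : ∀ k, w k = y := by
      intro k
      have := congrFun (LinearMap.congr_fun hy (fun _ => 1)) k
      simpa [Matrix.mulVec_diagonal] using this
    exact hij ((h1 i).trans (h1 j).symm)
  obtain ⟨S, ψ, c, hc0, hψ, hS⟩ := key H _ hT hdet hns
  refine ⟨c, hc0, fun a ha => ?_⟩
  rw [← cnt_eig, ← cnt_eig]
  show finrank F _ = finrank F _
  rw [conj_sub_ker ψ hψ, conj_sub_ker ψ hψ]
  exact eig_eq hN hc0 ha (sim_polar hS)

open _root_.Classical in
/-- The pairing of multiplicities for three blocks. -/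
def BP (F : Type u) [Field F] (n r : ℕ) : Prop :=
  ∀ (c₁ c₂ c₃ : ℕ) (_ : c₁ + c₂ + c₃ = n) (_ : 0 < c₁) (_ : 0 < c₂) (α β γ : F) (z : F)
    (_ : α ^ r = z) (_ : β ^ r = z) (_ : γ ^ r = z) (_ : α ^ c₁ * β ^ c₂ * γ ^ c₃ = 1) (_ : α ≠ β),
    ∃ c : F, c ≠ 0 ∧ ∀ a : F, a ≠ 0 →
      (if α = a then c₁ else 0) + (if β = a then c₂ else 0) + (if γ = a then c₃ else 0) =
      (if α = c / a then c₁ else 0) + (if β = c / a then c₂ else 0) + (if γ = c / a then c₃ else 0)

open _root_.Classical in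
theorem bp_of_lhs (hN : (polarBilin Q).Nondegenerate) {r : ℕ} (H : LHSq (⇑Q) r) : BP F n r := by
  intro c₁ c₂ c₃ hc h1 h2 α β γ z hα hβ hγ hprod hne
  have e : (Fin c₁ ⊕ Fin c₂) ⊕ Fin c₃ ≃ Fin n := Fintype.equivFinOfCardEq (by simp [hc])
  obtain ⟨c, hc0, hcc⟩ := no_diag hN H (blockW e α β γ) (z := z) (i := e (Sum.inl (Sum.inl ⟨0, h1⟩)))
    (j := e (Sum.inl (Sum.inr ⟨0, h2⟩)))
    (by
      intro j
      unfold blockW
      rcases e.symm j with (x | x) | x <;> simpa)
    (by rw [prod_block, hprod])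
    (by simpa [blockW] using hne)
  refine ⟨c, hc0, fun a ha => ?_⟩
  have := hcc a ha
  rwa [cnt_block, cnt_block] at this

end Setup

section Blocks

variable {F : Type u} [Field F] [Fintype F] {n : ℕ}

theorem bad_D1 {k : ℕ} (hk : n = k + 3) {r : ℕ} (hB : BP F n r)
    (hr : r.Prime) (hr2 : r ≠ 2) (hr3 : r ≠ 3) (h52 : ¬ (k = 2 ∧ r = 5)) {ζ : F} (hζ : orderOf ζ = r) : False := by
  classical
  have hr5 : 5 ≤ r := by
    have := hr.two_le
    by_contra h
    have h4 : r ≠ 4 := by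
      rintro rfl
      exact absurd hr (by norm_num)
    omega
  have hr6 : r ≠ 6 := by
    rintro rfl
    exact absurd hr (by norm_num)
  have hζr : ζ ^ r = 1 := by rw [← hζ]; exact pow_orderOf_eq_one ζ
  have hζ0 : ζ ≠ 0 := by
    intro h
    rw [h, zero_pow hr.pos.ne'] at hζr
    exact zero_ne_one hζr
  have p1 : ζ ≠ 1 := by
    have := pow_ne_one_of hζ (m := 1) (fun h => by have := Nat.le_of_dvd (by omega) h; omega)
    simpa using this
  have p2 : ζ ^ 2 ≠ 1 := pow_ne_one_of hζ (m := 2) (fun h => by have := Nat.le_of_dvd (by omega) h; omega)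
  have p3 : ζ ^ 3 ≠ 1 := pow_ne_one_of hζ (m := 3) (fun h => by have := Nat.le_of_dvd (by omega) h; omega)
  have p4 : ζ ^ 4 ≠ 1 := pow_ne_one_of hζ (m := 4) (fun h => by have := Nat.le_of_dvd (by omega) h; omega)
  have p6 : ζ ^ 6 ≠ 1 := pow_ne_one_of hζ (m := 6) (fun h => by
    have h5 := Nat.le_of_dvd (by omega) h
    have h7 : r = 5 := by omega
    subst h7
    omega)
  have p5 : r ≠ 5 → ζ ^ 5 ≠ 1 := fun h5 => pow_ne_one_of hζ (m := 5) (fun h => by
    have h6 := Nat.le_of_dvd (by omega) h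
    omega)
  set t := ζ⁻¹ with ht
  have hζt : ζ * t = 1 := mul_inv_cancel₀ hζ0
  have ht0 : t ≠ 0 := inv_ne_zero hζ0
  have htr : t ^ r = 1 := by rw [ht, inv_pow, hζr, inv_one]
  have n1 : ζ ≠ 1 := p1
  have n2 : t ^ 2 ≠ 1 := fun h => p2 (by linear_combination (-ζ ^ 2) * h + (ζ * t + 1) * hζt)
  have n3 : ζ ≠ t ^ 2 := fun h => p3 (by linear_combination ζ ^ 2 * h + (ζ * t + 1) * hζt)
  obtain ⟨c, hc0, hc⟩ := hB 2 1 k (by omega) (by omega) (by omega)
    ζ (t ^ 2) 1 1 hζr (by rw [← pow_mul, mul_comm, pow_mul, htr, one_pow]) (one_pow _)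
    (by rw [pow_one, one_pow, mul_one, ← mul_pow, hζt, one_pow]) n3
  have H1 := hc 1 one_ne_zero
  rw [div_one, if_neg n1, if_neg n2, if_pos rfl] at H1
  have Hζ := hc ζ hζ0
  rw [if_pos rfl, if_neg (Ne.symm n3), if_neg (Ne.symm n1)] at Hζ
  have Ht := hc (t ^ 2) (pow_ne_zero _ ht0)
  rw [if_neg n3, if_pos rfl, if_neg (Ne.symm n2)] at Ht
  by_cases c1 : 1 = c
  · subst c1
    have e1 : (1 : F) / ζ = t := by rw [ht, one_div]
    rw [e1, if_neg (fun h => p2 (by linear_combination ζ * h + hζt)),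
      if_neg (fun h : t ^ 2 = t => p1 (by
        have h8 : t = 1 := by
          have : t * (t - 1) = 0 := by linear_combination h
          exact sub_eq_zero.1 ((mul_eq_zero.1 this).resolve_left ht0)
        rw [h8, mul_one] at hζt
        exact hζt)),
      if_neg (fun h : 1 = t => p1 (by rw [← h, mul_one] at hζt; exact hζt))] at Hζ
    omega
  by_cases c2 : ζ = c
  · subst c2
    rw [if_pos rfl, if_neg (Ne.symm n3), if_neg (Ne.symm n1)] at H1
    have hk2 : k = 2 := by omega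
    have hr5' : r ≠ 5 := fun h => h52 ⟨hk2, h⟩
    have e1 : ζ / t ^ 2 = ζ ^ 3 := by
      rw [ht]; field_simp
    rw [e1, if_neg (fun h : ζ = ζ ^ 3 => p2 (by
        have : ζ * (ζ ^ 2 - 1) = 0 := by linear_combination -h
        exact sub_eq_zero.1 ((mul_eq_zero.1 this).resolve_left hζ0))),
      if_neg (fun h : t ^ 2 = ζ ^ 3 => p5 hr5' (by linear_combination (-ζ ^ 2) * h + (ζ * t + 1) * hζt)),
      if_neg (fun h : 1 = ζ ^ 3 => p3 h.symm)] at Ht
    omega
  by_cases c3 : t ^ 2 = c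
  · subst c3
    rw [if_neg n3, if_pos rfl, if_neg (Ne.symm n2)] at H1
    have hk1 : k = 1 := by omega
    have e1 : t ^ 2 / ζ = t ^ 3 := by
      rw [ht]; field_simp
    rw [e1, if_neg (fun h : ζ = t ^ 3 => p4 (by linear_combination ζ ^ 3 * h + ((ζ * t) ^ 2 + ζ * t + 1) * hζt)),
      if_neg (fun h : t ^ 2 = t ^ 3 => p1 (by
        have h9 : t ^ 2 * (t - 1) = 0 := by linear_combination -h
        have h8 : t = 1 := sub_eq_zero.1 ((mul_eq_zero.1 h9).resolve_left (pow_ne_zero _ ht0))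
        rw [h8, mul_one] at hζt
        exact hζt)),
      if_neg (fun h : (1 : F) = t ^ 3 => p3 (by
        have : ζ ^ 3 * t ^ 3 = 1 := by rw [← mul_pow, hζt, one_pow]
        rw [← h, mul_one] at this
        exact this))] at Hζ
    omega
  · rw [if_neg c2, if_neg c3, if_neg (fun h => c1 h)] at H1
    have hk0 : k = 0 := by omega
    subst hk0
    have hz : ζ = c / ζ := by
      by_contra hz
      rw [if_neg hz] at Hζ
      split_ifs at Hζ <;> omega
    have hc2 : c = ζ ^ 2 := by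
      field_simp at hz
      rw [hz]
    subst hc2
    have e1 : ζ ^ 2 / t ^ 2 = ζ ^ 4 := by
      rw [ht]; field_simp
    rw [e1, if_neg (fun h : ζ = ζ ^ 4 => p3 (by
        have : ζ * (ζ ^ 3 - 1) = 0 := by linear_combination -h
        exact sub_eq_zero.1 ((mul_eq_zero.1 this).resolve_left hζ0))),
      if_neg (fun h : t ^ 2 = ζ ^ 4 => p6 (by linear_combination (-ζ ^ 2) * h + (ζ * t + 1) * hζt)),
      if_neg (fun h : 1 = ζ ^ 4 => p4 h.symm)] at Ht
    omega

theorem bad_D2 (hB : BP F n 3) (hn : 3 ≤ n) (hn3 : n ≠ 3) (hn6 : n ≠ 6) {ζ : F} (hζ : orderOf ζ = 3) : False := by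
  classical
  have hζr : ζ ^ 3 = 1 := by rw [← hζ]; exact pow_orderOf_eq_one ζ
  have hζ0 : ζ ≠ 0 := by
    intro h
    rw [h] at hζr
    norm_num at hζr
  have p1 : ζ ≠ 1 := by
    have := pow_ne_one_of hζ (m := 1) (by norm_num)
    simpa using this
  have p2 : ζ ^ 2 ≠ 1 := pow_ne_one_of hζ (m := 2) (by norm_num)
  obtain ⟨c₀, m, hc₀, hm, hdvd, hne, hnm⟩ : ∃ c₀ m : ℕ, 0 < c₀ ∧ 0 < m ∧ 3 ∣ m ∧ c₀ ≠ m ∧ c₀ + m = n := by
    have h := Nat.mod_lt n (by norm_num : 3 > 0)
    by_cases h0 : n % 3 = 0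
    · refine ⟨3, n - 3, by omega, by omega, by omega, by omega, by omega⟩
    · refine ⟨n % 3, n - n % 3, by omega, by omega, by omega, by omega, by omega⟩
  obtain ⟨c, hc0, hc⟩ := hB c₀ m 0 (by omega) hc₀ hm
    1 ζ ζ 1 (one_pow _) hζr hζr
    (by
      obtain ⟨l, hl⟩ := hdvd
      rw [hl, pow_mul, hζr]
      simp) (Ne.symm p1)
  have H1 := hc 1 one_ne_zero
  have Hζ := hc ζ hζ0
  rw [div_one, if_pos rfl, if_neg p1, if_neg p1] at H1
  rw [if_neg p1.symm, if_pos rfl, if_pos rfl] at Hζ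
  simp only [add_zero, zero_add] at H1 Hζ
  by_cases c1 : 1 = c
  · subst c1
    have hz1 : (1 : F) ≠ 1 / ζ := by
      intro h
      apply p1
      field_simp at h
      exact h
    have hz2 : ζ ≠ 1 / ζ := by
      intro h
      apply p2
      field_simp at h
      exact h
    rw [if_neg hz1, if_neg hz2, if_neg hz2] at Hζ
    omega
  · by_cases c2 : ζ = c
    · subst c2
      rw [if_neg p1.symm, if_pos rfl, if_pos rfl] at H1
      omega
    · rw [if_neg c1, if_neg c2, if_neg c2] at H1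
      omega

theorem bad_D3 {r : ℕ} (hB : BP F n r)
    (hr : r.Prime) (hr2 : r ≠ 2) (hn : n = r) {u ζ : F} (hu0 : u ≠ 0) (hζ0 : ζ ≠ 0) (hur : u ^ r * ζ = 1) (hζr : ζ ^ r = 1) (hζ1 : ζ ≠ 1) (hζ2 : ζ ^ 2 ≠ 1) : False := by
  classical
  subst hn
  have h3 : 3 ≤ n := by
    have := hr.two_le
    omega
  have n1 : u * ζ ≠ u := by
    intro h
    apply hζ1
    have : u * (ζ - 1) = 0 := by linear_combination h
    exact sub_eq_zero.1 ((mul_eq_zero.1 this).resolve_left hu0)
  obtain ⟨c, hc0, hc⟩ := hB 1 (n - 1) 0 (by omega) (by omega) (by omega)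
    (u * ζ) u u (u ^ n) (by rw [mul_pow, hζr, mul_one]) rfl rfl
    (by
      rw [pow_one, pow_zero, mul_one]
      have : u * ζ * u ^ (n - 1) = u ^ (n - 1 + 1) * ζ := by ring
      rw [this, Nat.sub_add_cancel (by omega), hur]) n1
  have Hu := hc u hu0
  have Huz := hc (u * ζ) (mul_ne_zero hu0 hζ0)
  rw [if_neg n1, if_pos rfl, if_pos rfl] at Hu
  rw [if_pos rfl, if_neg n1.symm, if_neg n1.symm] at Huz
  simp only [add_zero, zero_add] at Hu Huz
  have hcu : u = c / u := by
    by_contra h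
    rw [if_neg h, if_neg h] at Hu
    split_ifs at Hu <;> omega
  have hc2 : c = u * u := by
    field_simp at hcu
    rw [← hcu]
    ring
  subst hc2
  have e1 : u * u / (u * ζ) = u / ζ := by
    field_simp
  rw [e1] at Huz
  have n2 : u * ζ ≠ u / ζ := by
    intro h
    apply hζ2
    have h' : u * ζ * ζ = u := by
      rw [h]
      field_simp
    have : u * (ζ ^ 2 - 1) = 0 := by linear_combination h'
    exact sub_eq_zero.1 ((mul_eq_zero.1 this).resolve_left hu0)
  have n3 : u ≠ u / ζ := by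
    intro h
    apply hζ1
    field_simp at h
    exact h
  rw [if_neg n2, if_neg n3, if_neg n3] at Huz
  omega

end Blocks

section Elements

variable {F : Type u} [Field F] [Fintype F] {n : ℕ} {Q : QuadraticForm F (Fin n → F)}

theorem exists_order {d : ℕ} (hd : d ∣ Fintype.card F - 1) (hd0 : 0 < d) : ∃ ρ : F, ρ ≠ 0 ∧ orderOf ρ = d := by
  classical
  obtain ⟨g, hg⟩ := IsCyclic.exists_ofOrder_eq_natCard (α := Fˣ)
  have hc : Nat.card Fˣ = Fintype.card F - 1 := by
    rw [Nat.card_eq_fintype_card, Fintype.card_units]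
  have hdvd : d ∣ orderOf g := by
    rw [hg, hc]
    exact hd
  have hpos : orderOf g ≠ 0 := by
    rw [hg, Nat.card_eq_fintype_card]
    exact Fintype.card_ne_zero
  have h1 := orderOf_pow_orderOf_div hpos hdvd
  refine ⟨((g ^ (orderOf g / d) : Fˣ) : F), Units.ne_zero _, ?_⟩
  rw [orderOf_units, h1]

/-- A transvection is never conjugate to a similarity of a quadratic form. -/
theorem bad_p {p : ℕ} [Fact p.Prime] [CharP F p] (hN : (polarBilin Q).Nondegenerate) (h2 : (2 : F) ≠ 0) (hn : 3 ≤ n) (H : LHSq (⇑Q) p) : False := by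
  classical
  let j₀ : Fin n := ⟨0, by omega⟩
  let j₁ : Fin n := ⟨1, by omega⟩
  have hj : j₀ ≠ j₁ := by
    simp [j₀, j₁, Fin.ext_iff]
  let M : Matrix (Fin n) (Fin n) F := Matrix.transvection j₀ j₁ (1 : F)
  have hpow : ∀ k : ℕ, M ^ k = Matrix.transvection j₀ j₁ (k : F) := by
    intro k
    induction k with
    | zero => simp
    | succ k ih =>
      rw [pow_succ, ih]
      simp only [M]
      rw [Matrix.transvection_mul_transvection_same _ _ hj]
      push_cast
      rfl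
  have hT : (Matrix.toLin' M) ^ p = (1 : F) • 1 := by
    rw [← Matrix.toLin'_pow, hpow, CharP.cast_eq_zero, Matrix.transvection_zero, Matrix.toLin'_one, one_smul]
    rfl
  have hdet : LinearMap.det (Matrix.toLin' M) = 1 := by
    rw [LinearMap.det_toLin']
    exact Matrix.det_transvection_of_ne _ _ hj _
  have hMv : ∀ v, Matrix.toLin' M v = v + v j₁ • (Pi.single j₀ 1 : Fin n → F) := by
    intro v
    funext k
    rw [Matrix.toLin'_apply]
    simp only [M, Matrix.transvection, Matrix.add_mulVec, Matrix.one_mulVec, Pi.add_apply, Pi.smul_apply, smul_eq_mul]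
    congr 1
    simp only [Matrix.mulVec, dotProduct, Matrix.single_apply]
    by_cases hk : k = j₀
    · subst hk
      simp [Finset.sum_ite_eq', Pi.single_apply]
    · simp [hk, Pi.single_apply, Ne.symm hk]
  have hns : ∀ y : F, Matrix.toLin' M ≠ y • (1 : Module.End F (Fin n → F)) := by
    intro y hy
    have h1 := LinearMap.congr_fun hy (Pi.single j₁ 1)
    rw [hMv] at h1
    have h3 := congrFun h1 j₀
    have h4 := congrFun h1 j₁
    simp [Pi.single_apply, hj, Ne.symm hj] at h3 h4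
  obtain ⟨S, ψ, c, hc0, hψ, hS⟩ := key H _ hT hdet hns
  -- the action of `S`
  set w : Fin n → F := ψ (Pi.single j₀ 1) with hw
  have hw0 : w ≠ 0 := by
    intro h
    have h1 : (Pi.single j₀ 1 : Fin n → F) = 0 := ψ.injective (by rw [← hw, h, map_zero])
    have := congrFun h1 j₀
    simp at this
  let φ : (Fin n → F) →ₗ[F] F := (LinearMap.proj j₁) ∘ₗ (ψ.symm : (Fin n → F) →ₗ[F] (Fin n → F))
  have hφa : ∀ u, φ u = (ψ.symm u) j₁ := fun u => rfl
  have hSu : ∀ u, S u = u + φ u • w := by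
    intro u
    have h1 := hψ (ψ.symm u)
    rw [LinearEquiv.apply_symm_apply, hMv, map_add, map_smul, LinearEquiv.apply_symm_apply] at h1
    exact h1.symm
  have hφw : φ w = 0 := by
    rw [hφa, hw, LinearEquiv.symm_apply_apply]
    simp [Pi.single_apply, Ne.symm hj]
  obtain ⟨u₁, hu₁⟩ : ∃ u, φ u ≠ 0 := by
    refine ⟨ψ (Pi.single j₁ 1), ?_⟩
    rw [hφa, LinearEquiv.symm_apply_apply]
    simp
  -- the multiplier is one
  have hSp : S ^ p = 1 := by
    apply LinearMap.ext
    intro v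
    have h1 := conj_pow' ψ hψ p (ψ.symm v)
    rw [hT, LinearEquiv.apply_symm_apply] at h1
    simpa using h1.symm
  haveI : Nonempty (Fin n) := ⟨j₀⟩
  have hcp : c ^ p = 1 := c_pow_eq_one hN (sim_polar hS) hSp
  have hc1 : c = 1 := by
    have h3 : (c - 1) ^ p = 0 := by
      rw [sub_pow_char, hcp, one_pow, sub_self]
    exact sub_eq_zero.1 (pow_eq_zero_iff (Fact.out : p.Prime).ne_zero |>.1 h3)
  subst hc1
  set B := polarBilin Q with hB
  have hBs : ∀ x y, B x y = B y x := fun x y => by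
    simp only [hB, polarBilin_apply_apply]
    exact polar_comm _ _ _
  have hexp : ∀ x y, φ y * B x w + φ x * B w y + φ x * φ y * B w w = 0 := by
    intro x y
    have h1 := sim_polar hS x y
    rw [one_mul, hSu, hSu] at h1
    simp only [map_add, map_smul, LinearMap.add_apply, LinearMap.smul_apply, smul_eq_mul] at h1
    linear_combination h1
  have hww : B w w = 0 := by
    have h1 := hexp u₁ w
    rw [hφw] at h1
    simp only [zero_mul, zero_add, mul_zero, add_zero] at h1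
    exact (mul_eq_zero.1 h1).resolve_left hu₁
  have hzero : ∀ x, φ x * B x w = 0 := by
    intro x
    have h1 := hexp x x
    rw [hww, hBs w x] at h1
    have h3 : (2 : F) * (φ x * B x w) = 0 := by linear_combination h1
    exact (mul_eq_zero.1 h3).resolve_left h2
  obtain ⟨u₂, hu₂⟩ : ∃ u, B u w ≠ 0 := by
    by_contra h
    push Not at h
    exact hw0 (hN.2 w h)
  have h6 : B u₁ w = 0 := (mul_eq_zero.1 (hzero u₁)).resolve_left hu₁
  by_cases h7 : φ u₂ = 0
  · have h8 := hzero (u₁ + u₂)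
    rw [map_add, h7, add_zero, map_add, LinearMap.add_apply, h6, zero_add] at h8
    exact hu₂ ((mul_eq_zero.1 h8).resolve_left hu₁)
  · exact hu₂ ((mul_eq_zero.1 (hzero u₂)).resolve_left h7)

/-- The split case. -/
theorem split_case (hN : (polarBilin Q).Nondegenerate) (hn : 3 ≤ n) {r : ℕ} [hrr : Fact r.Prime] (hr2 : r ≠ 2) (hgap : ¬ (n = 6 ∧ r = 3))
    (hs : r ∣ Fintype.card F - 1) (H : LHSq (⇑Q) r) :
    (r = 3 ∨ r = 5) ∧ n = r ∧ padicValNat r (Fintype.card F - 1) = 1 := by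
  classical
  have hrp' : r.Prime := Fact.out
  have hB : BP F n r := bp_of_lhs hN H
  have hq1 : Fintype.card F - 1 ≠ 0 := by
    have : 1 < Fintype.card F := Fintype.one_lt_card
    omega
  obtain ⟨ζ, hζ0, hζ⟩ := exists_order hs hrp'.pos
  have hD3 : n = r → padicValNat r (Fintype.card F - 1) = 1 := by
    intro hnr
    by_contra hv
    have h2 : 1 ≤ padicValNat r (Fintype.card F - 1) := by
      rw [← padicValNat_dvd_iff_le hq1, pow_one]
      exact hs
    have h3 : r ^ 2 ∣ Fintype.card F - 1 := by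
      rw [padicValNat_dvd_iff_le hq1]
      omega
    obtain ⟨u, hu0, hu⟩ := exists_order h3 (pow_pos hrp'.pos 2)
    have hur1 : (u ^ r) ^ r = 1 := by
      rw [← pow_mul, ← _root_.sq, ← hu, pow_orderOf_eq_one]
    have h4 : u ^ r ≠ 1 := by
      intro h5
      have h6 := orderOf_dvd_of_pow_eq_one h5
      rw [hu] at h6
      have h7 := Nat.le_of_dvd hrp'.pos h6
      have := hrp'.two_le
      nlinarith
    have h5 : (u ^ r) ^ 2 ≠ 1 := by
      intro h5
      rw [← pow_mul] at h5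
      have h6 := orderOf_dvd_of_pow_eq_one h5
      rw [hu, _root_.sq] at h6
      have h7 := Nat.dvd_of_mul_dvd_mul_left hrp'.pos h6
      exact hr2 ((Nat.prime_dvd_prime_iff_eq hrp' Nat.prime_two).1 h7)
    have hur0 : u ^ r ≠ 0 := pow_ne_zero _ hu0
    refine bad_D3 hB hrp' hr2 hnr (u := u) (ζ := (u ^ r)⁻¹) hu0 (inv_ne_zero hur0) (mul_inv_cancel₀ hur0) ?_ ?_ ?_
    · rw [inv_pow, hur1, inv_one]
    · intro h6
      apply h4
      rw [inv_eq_one] at h6
      exact h6
    · intro h6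
      apply h5
      rw [inv_pow, inv_eq_one] at h6
      exact h6
  by_cases h3 : r = 3
  · subst h3
    by_cases hn3 : n = 3
    · exact ⟨Or.inl rfl, hn3, hD3 hn3⟩
    · by_cases hn6 : n = 6
      · exact absurd ⟨hn6, rfl⟩ hgap
      · exact (bad_D2 hB hn hn3 hn6 hζ).elim
  · by_cases h5 : r = 5 ∧ n = 5
    · obtain ⟨rfl, hn5⟩ := h5
      exact ⟨Or.inr rfl, hn5, hD3 hn5⟩
    · obtain ⟨k, hk⟩ : ∃ k, n = k + 3 := ⟨n - 3, by omega⟩
      exact (bad_D1 hk hB hrp' hr2 h3 (fun h => h5 ⟨h.2, by omega⟩) hζ).elim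

end Elements

end Cfsg.Agent.Lib.Classical.Elusive.SlO
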