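import Mathlib
import Cfsg.Agent.Lib.Classical.Elusive.SlO

/-!
# The non-split case for `PSL_n(q)` and quadratic forms
-/

set_option autoImplicit false
set_option linter.unusedSectionVars false
set_option linter.unusedSimpArgs false
set_option linter.unusedVariables false
set_option linter.style.haveILetI false

namespace Cfsg.Agent.Lib.Classical.Elusive.SlOFree

open Polynomial Module Matrix QuadraticMap
open scoped Kronecker
open Cfsg.Agent.Lib.Classical.Elusive.Inv Cfsg.Agent.Lib.Classical.Elusive.SpCore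
  Cfsg.Agent.Lib.Classical.Elusive.TensorMain Cfsg.Agent.Lib.Classical.Elusive.SlSp
  Cfsg.Agent.Lib.Classical.Elusive.SlO
open Cfsg.Agent.Lib.Classical.Witt.Hyp Cfsg.Agent.Lib.Classical.Witt.Index
open Cfsg.Agent.Lib.Linalg.OrthModels Cfsg.Agent.Lib.Linalg.OrthOrder
open Cfsg.Agent.Lib.Linalg.Bridge

universe u

section Zeros

variable {F : Type u} [Field F] {V : Type*} [AddCommGroup V] [Module F V]

theorem dvd_zeros [Finite V] (f : V → F) (hf0 : f 0 = 0) (S : Module.End F V) (hQ : ∀ v, f (S v) = f v) {r : ℕ} [Fact r.Prime]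
    (hS : S ^ r = 1) (hfree : ∀ v, S v = v → v = 0) : r ∣ Nat.card {v : V // f v = 0} - 1 := by
  classical
  haveI := Fintype.ofFinite {v : V // f v = 0}
  let g : Function.End {v : V // f v = 0} := fun v => ⟨S v.1, by rw [hQ]; exact v.2⟩
  have hgk : ∀ (k : ℕ) (v : {v : V // f v = 0}), ((g ^ k) v).1 = (S ^ k) v.1 := by
    intro k
    induction k with
    | zero => intro v; rfl
    | succ k ih =>
      intro v
      rw [pow_succ, pow_succ, Module.End.mul_apply]
      exact ih (g v)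
  have hg : g ^ r ^ 1 = 1 := by
    rw [pow_one]
    funext v
    apply Subtype.ext
    rw [hgk, hS]
    rfl
  have h := Equiv.Perm.card_fixedPoints_modEq (f := g) (p := r) (n := 1) hg
  have hfix : Fintype.card (Function.fixedPoints g) = 1 := by
    rw [Fintype.card_eq_one_iff]
    refine ⟨⟨⟨0, hf0⟩, ?_⟩, ?_⟩
    · apply Subtype.ext
      show S 0 = 0
      rw [map_zero]
    · rintro ⟨⟨v, hv⟩, hv'⟩
      apply Subtype.ext
      apply Subtype.ext
      have h1 : S v = v := congrArg Subtype.val hv'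
      exact hfree v h1
  rw [hfix] at h
  rw [Nat.card_eq_fintype_card]
  have h1 : 1 ≤ Fintype.card {v : V // f v = 0} := Fintype.card_pos_iff.2 ⟨⟨0, hf0⟩⟩
  exact (Nat.modEq_iff_dvd' h1).1 h.symm

theorem ker_nondeg_symm [FiniteDimensional F V] {B : LinearMap.BilinForm F V} (hBs : ∀ x y, B x y = B y x) (hN : B.Nondegenerate) {y : Module.End F V}
    (hI : ∀ u v, B (y u) (y v) = B u v) {r : ℕ} (hr : (r : F) ≠ 0) (hy : y ^ r = 1) {u : V} (hu : u ∈ Ker y r) (hu0 : u ≠ 0) :
    ∃ v ∈ Ker y r, B u v ≠ 0 := by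
  by_contra hcon
  push Not at hcon
  apply hu0
  apply hN.1 u
  intro w
  have hw : w ∈ Fix y ⊔ Ker y r := by
    rw [sup_Fix_Ker hr hy]
    trivial
  obtain ⟨a, ha, b, hb, rfl⟩ := Submodule.mem_sup.1 hw
  rw [map_add, hBs u a, orth_Fix_Ker hI hr ha hu, hcon b hb, add_zero]

end Zeros

section Main

variable {F : Type u} [Field F] [Fintype F] {n : ℕ}

theorem ker_zeros {V : Type*} [AddCommGroup V] [Module F V] [FiniteDimensional F V] (Q : QuadraticForm F V) (hN : (polarBilin Q).Nondegenerate)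
    (S : Module.End F V) (hI : ∀ v, Q (S v) = Q v) {r : ℕ} [Fact r.Prime] (hr : (r : F) ≠ 0) (hS : S ^ r = 1) {m : ℕ}
    (hK : finrank F (Ker S r) = 2 * m + 1) {q : ℕ} (hq : Fintype.card F = q) (hodd : Odd q) : r ∣ q ^ (2 * m) - 1 := by
  classical
  haveI : Finite V := Module.finite_of_finite F
  set U := Ker S r with hU
  have hdim : finrank F U = finrank F (Unit ⊕ (Fin m ⊕ Fin m) → F) := by
    rw [hK, Module.finrank_fintype_fun_eq_card]
    simp
    omega
  let e : U ≃ₗ[F] (Unit ⊕ (Fin m ⊕ Fin m) → F) := LinearEquiv.ofFinrankEq _ _ hdim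
  let Q₁ : QuadraticForm F (Unit ⊕ (Fin m ⊕ Fin m) → F) := Q.comp (U.subtype ∘ₗ (e.symm : (Unit ⊕ (Fin m ⊕ Fin m) → F) →ₗ[F] U))
  have hQ₁ : ∀ x, Q₁ x = Q (e.symm x : V) := fun x => rfl
  have hBs : ∀ x y, polarBilin Q x y = polarBilin Q y x := fun x y => by
    simp only [polarBilin_apply_apply]
    exact polar_comm _ _ _
  have hI' : ∀ u v, polarBilin Q (S u) (S v) = polarBilin Q u v := by
    intro u v
    have := sim_polar (Q := Q) (S := S) (c := 1) (fun v => by rw [hI, one_mul]) u v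
    rwa [one_mul] at this
  have hnd : (polarBilin Q₁).Nondegenerate := by
    apply nondeg_of_polarNondeg
    intro x hx
    by_contra hx0
    have hu0 : ((e.symm x : U) : V) ≠ 0 := by
      intro h
      apply hx0
      have : e.symm x = 0 := Subtype.ext h
      simpa using this
    obtain ⟨v, hv, hvne⟩ := ker_nondeg_symm hBs hN hI' hr hS (e.symm x).2 hu0
    apply hvne
    have h1 := hx (e ⟨v, hv⟩)
    simp only [polar, hQ₁, map_add, LinearEquiv.symm_apply_apply] at h1
    simp only [polarBilin_apply_apply, polar]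
    exact h1
  obtain ⟨g, d, hd, hg⟩ := Cfsg.Agent.Lib.Classical.OrthAut.FldOdd.exists_match m Q₁ hnd
  have hinv : ∀ u ∈ U, S u ∈ U := fun u hu => isInv_Ker S r u hu
  let SU : Module.End F U := S.restrict hinv
  have hSU : ∀ u : U, (SU u : V) = S u := fun u => rfl
  have hSUr : SU ^ r = 1 := by
    have h1 : ∀ (k : ℕ) (u : U), ((SU ^ k) u : V) = (S ^ k) u := by
      intro k
      induction k with
      | zero => intro u; rfl
      | succ k ih =>
        intro u
        rw [pow_succ, pow_succ, Module.End.mul_apply, Module.End.mul_apply, ih, hSU]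
    apply LinearMap.ext
    intro u
    apply Subtype.ext
    rw [h1, hS]
    rfl
  have hfree : ∀ u : U, SU u = u → u = 0 := by
    intro u hu
    have h1 : (u : V) ∈ Fix S := mem_Fix.2 (congrArg Subtype.val hu)
    have h2 : (u : V) ∈ Fix S ⊓ Ker S r := ⟨h1, u.2⟩
    rw [Fix_inf_Ker hr] at h2
    exact Subtype.ext h2
  have h1 := dvd_zeros (fun u : U => Q (u : V)) (by simp) SU (fun u => by
    show Q (SU u : V) = _
    rw [hSU, hI]) hSUr hfree
  have hcard : Nat.card {u : U // Q (u : V) = 0} = Nat.card {x : Unit ⊕ (Fin m ⊕ Fin m) → F // Cfsg.quadFormOdd m F x = 0} := by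
    apply Nat.card_congr
    refine Equiv.subtypeEquiv (e.trans g).toEquiv (fun u => ?_)
    have h2 : Cfsg.quadFormOdd m F ((e.trans g) u) = d * Q (u : V) := by
      rw [← Cfsg.Agent.Lib.Classical.Orth.Models.coe_oddForm_apply, LinearEquiv.trans_apply, hg, hQ₁, LinearEquiv.symm_apply_apply]
    show _ ↔ Cfsg.quadFormOdd m F ((e.trans g) u) = 0
    rw [h2]
    simp [hd]
  rw [hcard, Cfsg.Agent.S0291.result hq hodd m] at h1
  exact h1

/-- An element with a `Φ`-part of odd degree. -/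
theorem bad_odd {p : ℕ} [Fact p.Prime] [CharP F p] {Q : QuadraticForm F (Fin n → F)} {q : ℕ} (hF : Fintype.card F = q) (hodd : Odd q) (hN : (polarBilin Q).Nondegenerate) (hn : 0 < n)
    {r : ℕ} [hrr : Fact r.Prime] (H : LHSq (⇑Q) r) (hrp : r ≠ p) (hne : ¬ r ∣ q - 1)
    (hi : Odd (orderOf (q : ZMod r))) (hle : orderOf (q : ZMod r) ≤ n) : False := by
  classical
  have hr : r.Prime := Fact.out
  have hq : 1 ≤ q := by
    rw [← hF]
    exact Fintype.card_pos
  obtain ⟨g, hgm, hgi, hgP, hgd⟩ := Cfsg.Agent.Lib.Classical.Elusive.SpModel.exists_factor (F := F) hF hr hrp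
  have hi1 : orderOf (q : ZMod r) ≠ 1 := fun h => hne ((Cfsg.Agent.Lib.Classical.Elusive.PslNum.order_one_iff hq).1 h)
  have hdeg : 2 ≤ g.natDegree := by
    rw [hgd]
    obtain ⟨m, hm⟩ := hi
    omega
  have hd : g ∣ X ^ r - 1 := by
    rw [← Phi_mul]
    exact hgP.mul_right _
  obtain ⟨T, hTr, hTfix⟩ := exists_model_eq (a := n - g.natDegree) (n := n) hgi hdeg (by omega) hd
  have hrF : (r : F) ≠ 0 := Cfsg.Agent.Lib.Classical.Elusive.PslNum.cast_ne_zero_of_ne hr hrp
  have hne' : ¬ r ∣ Fintype.card F - 1 := by rwa [hF]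
  have hdet : LinearMap.det T = 1 := by
    apply eq_one_of_coprime hr hne'
    rw [← map_pow, hTr, map_one]
  have hns := Cfsg.Agent.Lib.Classical.Elusive.PslImprimMain.nonscalar_of_fix hr hne' (by omega : n ≠ 0) hTr (by rw [hTfix]; omega)
  obtain ⟨S, ψ, c, hc0, hψ, hS⟩ := key H T (z := 1) (by rw [hTr, one_smul]) hdet hns
  have hSr : S ^ r = 1 := by
    apply LinearMap.ext
    intro v
    have h1 := conj_pow' ψ hψ r (ψ.symm v)
    rw [hTr, LinearEquiv.apply_symm_apply] at h1
    simpa using h1.symm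
  haveI : Nonempty (Fin n) := ⟨⟨0, hn⟩⟩
  have hcr : c ^ r = 1 := c_pow_eq_one hN (sim_polar hS) hSr
  have hc1 : c = 1 := eq_one_of_coprime hr hne' hcr
  have hI : ∀ v, Q (S v) = Q v := by
    intro v
    rw [hS, hc1, one_mul]
  have hfix' : finrank F (Fix S) = n - g.natDegree := by
    rw [← hTfix]
    have := conj_sub_ker ψ hψ (1 : F)
    have e1 : ∀ y : Module.End F (Fin n → F), y - (1 : F) • 1 = y - 1 := fun y => by rw [one_smul]
    rw [e1, e1] at this
    exact this.symm
  have hadd := finrank_Fix_add hrF hSr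
  rw [Module.finrank_fintype_fun_eq_card, Fintype.card_fin, hfix'] at hadd
  obtain ⟨m, hm⟩ := hi
  have hK : finrank F (Ker S r) = 2 * m + 1 := by
    rw [← hm, ← hgd]
    omega
  have h1 := ker_zeros Q hN S hI hrF hSr hK hF hodd
  have h2 : orderOf (q : ZMod r) ∣ 2 * m := (Cfsg.Agent.Lib.Classical.Elusive.PslNum.pow_eq_one_iff' hq).2 h1
  have hm0 : m ≠ 0 := by
    rintro rfl
    omega
  have h3 := Nat.le_of_dvd (by omega) h2
  omega

theorem exists_free_model {d : F[X]} (hirr : Irreducible d) (hdeg : 2 ≤ d.natDegree)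
    {a n : ℕ} (hn : n = a * d.natDegree) {r : ℕ} (hd : d ∣ X ^ r - 1) :
    ∃ T : Module.End F (Fin n → F), T ^ r = 1 ∧ ∀ v, T v = v → v = 0 := by
  classical
  haveI : Fact (Irreducible d) := ⟨hirr⟩
  let K := AdjoinRoot d
  let θ : K := AdjoinRoot.root d
  have hθd : aeval θ d = 0 := by
    rw [AdjoinRoot.aeval_eq, AdjoinRoot.mk_self]
  have hθr : θ ^ r = 1 := by
    obtain ⟨e, he⟩ := hd
    have h1 := congrArg (aeval θ) he
    rw [map_mul, hθd, zero_mul, map_sub, map_pow, aeval_X, map_one, sub_eq_zero] at h1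
    exact h1
  have hθ1 : θ ≠ 1 := by
    intro h
    have h1 : aeval (algebraMap F K 1) d = 0 := by
      rw [map_one, ← h]
      exact hθd
    rw [aeval_algebraMap_apply] at h1
    have h2 : aeval (1 : F) d = 0 := by
      apply (algebraMap F K).injective
      rw [h1, map_zero]
    rw [coe_aeval_eq_eval] at h2
    have h3 : (X - C (1 : F)) ∣ d := dvd_iff_isRoot.2 h2
    have h4 : Irreducible (X - C (1 : F)) := irreducible_X_sub_C 1
    have h5 := h4.associated_of_dvd hirr h3
    have h6 := natDegree_eq_of_degree_eq (degree_eq_degree_of_associated h5)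
    rw [natDegree_X_sub_C] at h6
    omega
  haveI : Module.Finite F K := (AdjoinRoot.powerBasis hirr.ne_zero).finite
  have hKdim : finrank F K = d.natDegree := by
    rw [(AdjoinRoot.powerBasis hirr.ne_zero).finrank, AdjoinRoot.powerBasis_dim]
  let y : Module.End F (Fin a → K) := LinearMap.pi (fun i => (LinearMap.mulLeft F θ) ∘ₗ (LinearMap.proj i))
  have hy : ∀ v i, y v i = θ * v i := fun v i => rfl
  have hyk : ∀ (k : ℕ) v i, (y ^ k) v i = θ ^ k * v i := by
    intro k
    induction k with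
    | zero => intro v i; simp
    | succ k ih =>
      intro v i
      rw [pow_succ, Module.End.mul_apply, ih, hy, pow_succ, mul_assoc]
  have hfin : finrank F (Fin a → K) = finrank F (Fin n → F) := by
    rw [Module.finrank_pi_fintype, finrank_fin_fun, hn]
    simp [hKdim]
  let e := LinearEquiv.ofFinrankEq (Fin a → K) (Fin n → F) hfin
  let T : Module.End F (Fin n → F) := e.conj y
  have hT : ∀ v, T v = e (y (e.symm v)) := fun v => rfl
  have hTk : ∀ (k : ℕ) v, (T ^ k) v = e ((y ^ k) (e.symm v)) := by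
    intro k
    induction k with
    | zero => intro v; simp
    | succ k ih =>
      intro v
      rw [pow_succ, Module.End.mul_apply, hT, ih, LinearEquiv.symm_apply_apply, pow_succ, Module.End.mul_apply]
  refine ⟨T, ?_, ?_⟩
  · apply LinearMap.ext
    intro v
    rw [hTk]
    have : (y ^ r) (e.symm v) = e.symm v := by
      funext i
      rw [hyk, hθr, one_mul]
    rw [this]
    simp
  · intro v hv
    have h1 : y (e.symm v) = e.symm v := by
      apply e.injective
      rw [← hT, hv, LinearEquiv.apply_symm_apply]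
    have h2 : e.symm v = 0 := by
      funext i
      have h3 := congrFun h1 i
      rw [hy] at h3
      have h4 : (θ - 1) * (e.symm v i) = 0 := by
        rw [sub_mul, h3, one_mul, sub_self]
      exact (mul_eq_zero.1 h4).resolve_left (sub_ne_zero.2 hθ1)
    simpa using h2

/-- A fixed-point-free element with a similarity as a conjugate. -/
theorem exists_free_sim {p : ℕ} [Fact p.Prime] [CharP F p] {Q : QuadraticForm F (Fin n → F)} {q : ℕ} (hF : Fintype.card F = q) (hN : (polarBilin Q).Nondegenerate) (hn : 0 < n)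
    {r : ℕ} [hrr : Fact r.Prime] (H : LHSq (⇑Q) r) (hrp : r ≠ p) (hne : ¬ r ∣ q - 1)
    (hdvd : orderOf (q : ZMod r) ∣ n) : ∃ S : Module.End F (Fin n → F), (∀ v, Q (S v) = Q v) ∧ S ^ r = 1 ∧ ∀ v, S v = v → v = 0 := by
  classical
  have hr : r.Prime := Fact.out
  have hq : 1 ≤ q := by
    rw [← hF]
    exact Fintype.card_pos
  obtain ⟨g, hgm, hgi, hgP, hgd⟩ := Cfsg.Agent.Lib.Classical.Elusive.SpModel.exists_factor (F := F) hF hr hrp
  have hi1 : orderOf (q : ZMod r) ≠ 1 := fun h => hne ((Cfsg.Agent.Lib.Classical.Elusive.PslNum.order_one_iff hq).1 h)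
  have hipos : 0 < orderOf (q : ZMod r) := by
    rw [← hgd]
    exact Polynomial.natDegree_pos_iff_degree_pos.2 (Polynomial.degree_pos_of_irreducible hgi)
  have hdeg : 2 ≤ g.natDegree := by
    rw [hgd]
    omega
  have hd : g ∣ X ^ r - 1 := by
    rw [← Phi_mul]
    exact hgP.mul_right _
  obtain ⟨a, ha⟩ := hdvd
  obtain ⟨T, hTr, hTfree⟩ := exists_free_model (a := a) (n := n) hgi hdeg (by rw [hgd, ha, mul_comm]) hd
  have hne' : ¬ r ∣ Fintype.card F - 1 := by rwa [hF]
  have hdet : LinearMap.det T = 1 := by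
    apply eq_one_of_coprime hr hne'
    rw [← map_pow, hTr, map_one]
  have hns : ∀ y : F, T ≠ y • 1 := by
    intro y hy
    rw [hy, _root_.smul_pow, one_pow] at hTr
    have hyr : y ^ r = 1 := Cfsg.Agent.Lib.Classical.Elusive.PslMain.scalar_inj (by omega : n ≠ 0) (by rw [hTr, one_smul])
    have hy1 : y = 1 := eq_one_of_coprime hr hne' hyr
    have h1 := hTfree (fun _ => 1) (by rw [hy, hy1]; simp)
    have := congrFun h1 ⟨0, hn⟩
    simp at this
  obtain ⟨S, ψ, c, hc0, hψ, hS⟩ := key H T (z := 1) (by rw [hTr, one_smul]) hdet hns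
  have hSr : S ^ r = 1 := by
    apply LinearMap.ext
    intro v
    have h1 := conj_pow' ψ hψ r (ψ.symm v)
    rw [hTr, LinearEquiv.apply_symm_apply] at h1
    simpa using h1.symm
  haveI : Nonempty (Fin n) := ⟨⟨0, hn⟩⟩
  have hcr : c ^ r = 1 := c_pow_eq_one hN (sim_polar hS) hSr
  have hc1 : c = 1 := eq_one_of_coprime hr hne' hcr
  refine ⟨S, fun v => by rw [hS, hc1, one_mul], hSr, fun v hv => ?_⟩
  have h1 : T (ψ.symm v) = ψ.symm v := by
    apply ψ.injective
    rw [hψ, LinearEquiv.apply_symm_apply, hv]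
  have h2 := hTfree _ h1
  simpa using h2

/-- Isometry groups of scaled equivalent forms have the same order. -/
theorem card_iso_of_scaled {ι κ : Type} [Fintype ι] [DecidableEq ι] [Fintype κ] [DecidableEq κ] (Q : QuadraticForm F (ι → F)) (Q' : QuadraticForm F (κ → F))
    (g : (ι → F) ≃ₗ[F] (κ → F)) {d : F} (hd : d ≠ 0) (h : ∀ v, Q' (g v) = d * Q v) :
    Nat.card (Cfsg.isometryGroup F (⇑Q)) = Nat.card (Cfsg.isometryGroup F (⇑Q')) := by
  rw [card_isometryGroup_eq, card_isometryGroup_eq]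
  have h' : ∀ w, Q (g.symm w) = d⁻¹ * Q' w := by
    intro w
    have := h (g.symm w)
    rw [LinearEquiv.apply_symm_apply] at this
    rw [this]
    field_simp
  refine Nat.card_congr
    { toFun := fun x => ⟨g.symm.trans (x.1.trans g), ?_⟩
      invFun := fun y => ⟨g.trans (y.1.trans g.symm), ?_⟩
      left_inv := fun x => ?_
      right_inv := fun y => ?_ }
  · rw [mem_orthGroup]
    intro v
    show Q' (g (x.1 (g.symm v))) = Q' v
    rw [h, mem_orthGroup.1 x.2, ← h, LinearEquiv.apply_symm_apply]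
  · rw [mem_orthGroup]
    intro v
    show Q (g.symm (y.1 (g v))) = Q v
    rw [h', mem_orthGroup.1 y.2, h, ← mul_assoc, inv_mul_cancel₀ hd, one_mul]
  · apply Subtype.ext
    ext1 v
    simp
  · apply Subtype.ext
    ext1 v
    simp

theorem gl_split (q k : ℕ) : ∏ j ∈ Finset.range (2 * k), (q ^ (j + 1) - 1) =
    (∏ t ∈ Finset.range k, (q ^ (2 * t + 1) - 1)) * ∏ t ∈ Finset.range k, (q ^ (2 * (t + 1)) - 1) := by
  induction k with
  | zero => simp
  | succ k ih =>
    rw [show 2 * (k + 1) = 2 * k + 1 + 1 by ring, Finset.prod_range_succ, Finset.prod_range_succ, ih, Finset.prod_range_succ,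
      Finset.prod_range_succ, show 2 * k + 1 + 1 = 2 * (k + 1) by ring]
    ring

/-- The index of the isometry group. -/
theorem index_dvd {Q : (Fin n → F) → F} {r : ℕ}
    (hΩ : r ∣ (Cfsg.Geo.quadSimilarityGroup Q).relIndex (Cfsg.Geo.specialLinear (Fin n) F)) :
    r ∣ (Cfsg.isometryGroup F Q).index := by
  classical
  haveI : (Cfsg.Geo.specialLinear (Fin n) F).Normal := by
    unfold Cfsg.Geo.specialLinear
    infer_instance
  have h1 := relIndex_dvd_index_right (Cfsg.Geo.quadSimilarityGroup Q) (Cfsg.Geo.specialLinear (Fin n) F)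
  have hle : Cfsg.isometryGroup F Q ≤ Cfsg.Geo.quadSimilarityGroup Q := by
    intro g hg
    refine ⟨1, fun v => ?_⟩
    have h : Q ((g : Matrix (Fin n) (Fin n) F) *ᵥ v) = Q v := hg v 0
    rw [h]
    simp
  exact (hΩ.trans h1).trans (Subgroup.index_dvd_of_le hle)

theorem index_mul_eq {Q : (Fin n → F) → F} {q : ℕ} (hF : Fintype.card F = q) :
    (Cfsg.isometryGroup F Q).index * Nat.card (Cfsg.isometryGroup F Q) =
      (∏ i ∈ Finset.range n, q ^ i) * ∏ j ∈ Finset.range n, (q ^ (j + 1) - 1) := by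
  classical
  have h4 := Subgroup.index_mul_card (Cfsg.isometryGroup F Q)
  rw [Matrix.card_GL_field, hF, Cfsg.Agent.Lib.Classical.Elusive.SpPairsMain.prod_gl (by
    rw [← hF]
    exact Fintype.one_lt_card)] at h4
  exact h4

theorem dvd_of_prod {r q : ℕ} (hr : r.Prime) {n : ℕ} (h : r ∣ ∏ i ∈ Finset.range n, q ^ i) : r ∣ q := by
  obtain ⟨i, -, hi⟩ := (Prime.dvd_finsetProd_iff hr.prime _).1 h
  exact hr.dvd_of_dvd_pow hi

theorem sub_one_pos' {q k : ℕ} (hq : 2 ≤ q) (hk : 0 < k) : 0 < q ^ k - 1 := by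
  have : 2 ≤ q ^ k := by
    calc 2 ≤ q := hq
      _ = q ^ 1 := (pow_one q).symm
      _ ≤ q ^ k := Nat.pow_le_pow_right (by omega) hk
  omega

theorem arith_odd {Q : QuadraticForm F (Fin n → F)} {q : ℕ} (hF : Fintype.card F = q) (hodd : Odd q) (hN : (polarBilin Q).Nondegenerate) {m : ℕ}
    (hn : n = 2 * m + 1) {r : ℕ} (hr : r.Prime) (h : r ∣ (Cfsg.isometryGroup F (⇑Q)).index) :
    r ∣ q ∨ ∃ t, t ≤ m ∧ r ∣ q ^ (2 * t + 1) - 1 := by
  classical
  have hq : 2 ≤ q := by
    rw [← hF]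
    exact Fintype.one_lt_card
  subst hn
  have h2 : (2 : F) ≠ 0 := Cfsg.Agent.Lib.Classical.Asch.Forms.two_ne_zero_of_odd (by rwa [hF])
  -- the model
  have hdim : finrank F (Fin (2 * m + 1) → F) = finrank F (Unit ⊕ (Fin m ⊕ Fin m) → F) := by
    simp [Module.finrank_fintype_fun_eq_card]
    omega
  let e : (Fin (2 * m + 1) → F) ≃ₗ[F] (Unit ⊕ (Fin m ⊕ Fin m) → F) := LinearEquiv.ofFinrankEq _ _ hdim
  let Q₁ : QuadraticForm F (Unit ⊕ (Fin m ⊕ Fin m) → F) := Q.comp (e.symm : (Unit ⊕ (Fin m ⊕ Fin m) → F) →ₗ[F] (Fin (2 * m + 1) → F))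
  have hQ₁ : ∀ x, Q₁ x = Q (e.symm x) := fun x => rfl
  have hnd : (polarBilin Q₁).Nondegenerate := by
    apply nondeg_of_polarNondeg
    intro x hx
    have h3 : e.symm x = 0 := by
      apply polarNondeg_of_nondeg Q hN
      intro y
      have h4 := hx (e y)
      simp only [polar, hQ₁, map_add, LinearEquiv.symm_apply_apply] at h4
      exact h4
    simpa using h3
  obtain ⟨g, d, hd, hg⟩ := Cfsg.Agent.Lib.Classical.OrthAut.FldOdd.exists_match m Q₁ hnd
  have hcard : Nat.card (Cfsg.isometryGroup F (⇑Q)) = Nat.card (Cfsg.isometryGroup F (Cfsg.quadFormOdd m F)) := by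
    rw [← Cfsg.Agent.Lib.Classical.Orth.Models.coe_oddForm]
    refine card_iso_of_scaled Q _ (e.trans g) hd (fun v => ?_)
    rw [LinearEquiv.trans_apply, hg, hQ₁, LinearEquiv.symm_apply_apply]
  have h1 := index_mul_eq (Q := ⇑Q) hF
  have he : ∏ j ∈ Finset.range (2 * m + 1), (q ^ (j + 1) - 1) =
      (∏ t ∈ Finset.range m, (q ^ (2 * t + 1) - 1)) * (∏ t ∈ Finset.range m, (q ^ (2 * (t + 1)) - 1)) * (q ^ (2 * m + 1) - 1) := by
    rw [Finset.prod_range_succ, gl_split]
  rw [hcard, Cfsg.Agent.S0286.result hF hodd m, he] at h1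
  set E := ∏ t ∈ Finset.range m, (q ^ (2 * (t + 1)) - 1) with hE
  have hE0 : 0 < E := Finset.prod_pos fun t _ => sub_one_pos' hq (by omega)
  have h3 : (Cfsg.isometryGroup F (⇑Q)).index * (2 * q ^ m ^ 2) =
      (∏ i ∈ Finset.range (2 * m + 1), q ^ i) * ((∏ t ∈ Finset.range m, (q ^ (2 * t + 1) - 1)) * (q ^ (2 * m + 1) - 1)) := by
    apply Nat.eq_of_mul_eq_mul_right hE0
    rw [mul_assoc, mul_assoc]
    calc _ = (Cfsg.isometryGroup F (⇑Q)).index * (2 * q ^ m ^ 2 * E) := by ring
      _ = _ := by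
        rw [h1]
        ring
  have h4 : r ∣ (∏ i ∈ Finset.range (2 * m + 1), q ^ i) * ((∏ t ∈ Finset.range m, (q ^ (2 * t + 1) - 1)) * (q ^ (2 * m + 1) - 1)) := by
    rw [← h3]
    exact h.mul_right _
  rcases hr.dvd_mul.1 h4 with h5 | h5
  · exact Or.inl (dvd_of_prod hr h5)
  · right
    rcases hr.dvd_mul.1 h5 with h6 | h6
    · obtain ⟨t, ht, h7⟩ := (Prime.dvd_finsetProd_iff hr.prime _).1 h6
      exact ⟨t, (Finset.mem_range.1 ht).le, h7⟩
    · exact ⟨m, le_rfl, h6⟩

theorem arith_even {Q : (Fin n → F) → F} {q : ℕ} (hF : Fintype.card F = q) {k : ℕ} (hk : 1 ≤ k) (hn : n = 2 * k) {r : ℕ} (hr : r.Prime)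
    (h : r ∣ (Cfsg.isometryGroup F Q).index) {A B : ℕ} (hAB : A * B = q ^ (2 * k) - 1) (hA : 0 < A)
    (hcard : Nat.card (Cfsg.isometryGroup F Q) = 2 * q ^ (k * (k - 1)) * A * ∏ i ∈ Finset.range (k - 1), (q ^ (2 * (i + 1)) - 1)) :
    r ∣ q ∨ (∃ t, t < k ∧ r ∣ q ^ (2 * t + 1) - 1) ∨ r ∣ B := by
  classical
  have hq : 2 ≤ q := by
    rw [← hF]
    exact Fintype.one_lt_card
  subst hn
  obtain ⟨k', rfl⟩ : ∃ k', k = k' + 1 := ⟨k - 1, by omega⟩
  have h1 := index_mul_eq (Q := Q) hF
  simp only [Nat.add_sub_cancel] at hcard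
  rw [hcard, gl_split, Finset.prod_range_succ (fun t => q ^ (2 * (t + 1)) - 1), ← hAB] at h1
  set E := ∏ t ∈ Finset.range k', (q ^ (2 * (t + 1)) - 1) with hE
  have hE0 : 0 < E := Finset.prod_pos fun t _ => sub_one_pos' hq (by omega)
  have h3 : (Cfsg.isometryGroup F Q).index * (2 * q ^ ((k' + 1) * k')) =
      (∏ i ∈ Finset.range (2 * (k' + 1)), q ^ i) * ((∏ t ∈ Finset.range (k' + 1), (q ^ (2 * t + 1) - 1)) * B) := by
    apply Nat.eq_of_mul_eq_mul_right (mul_pos hA hE0)
    calc _ = (Cfsg.isometryGroup F Q).index * (2 * q ^ ((k' + 1) * k') * A * E) := by ring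
      _ = _ := by
        rw [h1]
        ring
  have h4 : r ∣ (∏ i ∈ Finset.range (2 * (k' + 1)), q ^ i) * ((∏ t ∈ Finset.range (k' + 1), (q ^ (2 * t + 1) - 1)) * B) := by
    rw [← h3]
    exact h.mul_right _
  rcases hr.dvd_mul.1 h4 with h5 | h5
  · exact Or.inl (dvd_of_prod hr h5)
  · right
    rcases hr.dvd_mul.1 h5 with h6 | h6
    · obtain ⟨t, ht, h7⟩ := (Prime.dvd_finsetProd_iff hr.prime _).1 h6
      exact Or.inl ⟨t, Finset.mem_range.1 ht, h7⟩
    · exact Or.inr h6

theorem zeros_eq_plus {κ : Type} [Fintype κ] {Q : QuadraticForm F (Fin n → F)} {Q' : (κ → F) → F} (g : (Fin n → F) ≃ₗ[F] (κ → F)) (h : ∀ v, Q' (g v) = Q v) :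
    Nat.card {v : Fin n → F // Q v = 0} = Nat.card {v : κ → F // Q' v = 0} := by
  apply Nat.card_congr
  refine Equiv.subtypeEquiv g.toEquiv (fun u => ?_)
  show _ ↔ Q' (g u) = 0
  rw [h]

/-- The non-split case. -/
theorem nonsplit_case {p : ℕ} [Fact p.Prime] [CharP F p] {Q : QuadraticForm F (Fin n → F)} {q : ℕ} (hF : Fintype.card F = q) (hodd : Odd q) (hN : (polarBilin Q).Nondegenerate) (hn : 3 ≤ n)
    {r : ℕ} [hrr : Fact r.Prime] (hr2 : r ≠ 2) (hrp : r ≠ p) (hne : ¬ r ∣ q - 1)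
    (hΩ : r ∣ (Cfsg.Geo.quadSimilarityGroup (⇑Q)).relIndex (Cfsg.Geo.specialLinear (Fin n) F)) (H : LHSq (⇑Q) r) : False := by
  classical
  have hr : r.Prime := Fact.out
  have hpp : p.Prime := Fact.out
  have hq : 2 ≤ q := by
    rw [← hF]
    exact Fintype.one_lt_card
  have hq1 : 1 ≤ q := by omega
  have hrq : ¬ r ∣ q := by
    intro h
    obtain ⟨m, hm, hc⟩ := FiniteField.card F p
    rw [hF] at hc
    rw [hc] at h
    exact hrp ((Nat.prime_dvd_prime_iff_eq hr hpp).1 (hr.dvd_of_dvd_pow h))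
  have hidx := index_dvd hΩ
  have hi1 : orderOf (q : ZMod r) ≠ 1 := fun h => hne ((Cfsg.Agent.Lib.Classical.Elusive.PslNum.order_one_iff hq1).1 h)
  have hoddcase : ∀ t, 2 * t + 1 ≤ n → r ∣ q ^ (2 * t + 1) - 1 → False := by
    intro t ht h
    have h1 : orderOf (q : ZMod r) ∣ 2 * t + 1 := (Cfsg.Agent.Lib.Classical.Elusive.PslNum.pow_eq_one_iff' hq1).2 h
    exact bad_odd hF hodd hN (by omega) H hrp hne (Odd.of_dvd_nat ⟨t, rfl⟩ h1) ((Nat.le_of_dvd (by omega) h1).trans ht)
  have hq2r : ∀ m : ℕ, r ∣ q ^ m + 1 → r ∣ q ^ m - 1 → False := by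
    intro m h1 h2
    have h3 : q ^ m + 1 = (q ^ m - 1) + 2 := by
      have := Nat.one_le_pow m q (by omega)
      omega
    rw [h3] at h1
    have h4 := (Nat.dvd_add_right h2).1 h1
    exact hr2 ((Nat.prime_dvd_prime_iff_eq hr Nat.prime_two).1 h4)
  rcases Nat.even_or_odd' n with ⟨k, hk | hk⟩
  · -- the even case
    have hk1 : 1 ≤ k := by omega
    have hdim : finrank F (Fin n → F) = 2 * k := by
      simp [Module.finrank_fintype_fun_eq_card, hk]
    obtain ⟨k', hk'⟩ : ∃ k', k = k' + 1 := ⟨k - 1, by omega⟩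
    have hfac : (q ^ k - 1) * (q ^ k + 1) = q ^ (2 * k) - 1 := by
      obtain ⟨c, hc⟩ : ∃ c, q ^ k = c + 1 := ⟨q ^ k - 1, by have := Nat.one_le_pow k q (by omega); omega⟩
      rw [show 2 * k = k + k by ring, pow_add, hc]
      simp only [Nat.add_sub_cancel]
      rw [show (c + 1) * (c + 1) = c * (c + 1 + 1) + 1 by ring]
      simp
    have hfreeS : orderOf (q : ZMod r) ∣ n → ∃ S : Module.End F (Fin n → F), (∀ v, Q (S v) = Q v) ∧ S ^ r = 1 ∧ ∀ v, S v = v → v = 0 :=
      fun h => exists_free_sim hF hN (by omega) H hrp hne h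
    have hQ0 : Q 0 = 0 := map_zero Q
    rcases exists_isometry_plus_or_minus hk1 hdim Q hN with ⟨g, hg⟩ | ⟨ζ, hζ, g, hg⟩
    · have hcard : Nat.card (Cfsg.isometryGroup F (⇑Q)) = 2 * q ^ (k * (k - 1)) * (q ^ k - 1) * ∏ i ∈ Finset.range (k - 1), (q ^ (2 * (i + 1)) - 1) := by
        rw [← Cfsg.Agent.S0287.result hF k hk1, ← coe_plusQ]
        exact card_iso_of_scaled Q _ g one_ne_zero (fun v => by rw [hg, one_mul])
      rcases arith_even hF hk1 hk hr hidx hfac (sub_one_pos' hq (by omega)) hcard with h | ⟨t, ht, h⟩ | h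
      · exact hrq h
      · exact hoddcase t (by omega) h
      · have h2 : orderOf (q : ZMod r) ∣ n := by
          rw [hk, (Cfsg.Agent.Lib.Classical.Elusive.PslNum.pow_eq_one_iff' hq1)]
          rw [← hfac]
          exact h.mul_left _
        obtain ⟨S, hS, hSr, hfree⟩ := hfreeS h2
        have h3 := dvd_zeros (fun v => Q v) hQ0 S hS hSr hfree
        have h4 : Nat.card {v : Fin n → F // Q v = 0} = Nat.card {v : Fin k ⊕ Fin k → F // Cfsg.quadFormPlus k F v = 0} :=
          zeros_eq_plus g hg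
        rw [h4, Cfsg.Agent.S0289.result hF k hk1] at h3
        have h5 : q ^ (2 * k - 1) + q ^ k - q ^ (k - 1) - 1 = (q ^ k - 1) * (q ^ (k - 1) + 1) := by
          subst hk'
          simp only [Nat.add_sub_cancel]
          rw [show 2 * (k' + 1) - 1 = (k' + 1) + k' by omega, pow_add]
          obtain ⟨c, hc⟩ : ∃ c, q ^ (k' + 1) = c + 1 := ⟨q ^ (k' + 1) - 1, by have := Nat.one_le_pow (k' + 1) q (by omega); omega⟩
          rw [hc]
          simp only [Nat.add_sub_cancel]
          rw [Nat.sub_sub]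
          apply Nat.sub_eq_of_eq_add
          ring
        rw [h5] at h3
        rcases hr.dvd_mul.1 h3 with h6 | h6
        · exact hq2r k h h6
        · -- `q ≡ 1`
          apply hne
          subst hk'
          simp only [Nat.add_sub_cancel] at h6
          have h7 : q * (q ^ k' + 1) = (q ^ (k' + 1) + 1) + (q - 1) := by
            rw [pow_succ]
            have : q * (q ^ k' + 1) = q ^ k' * q + q := by ring
            omega
          have h8 : r ∣ q * (q ^ k' + 1) := h6.mul_left _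
          rw [h7] at h8
          exact (Nat.dvd_add_right h).1 h8
    · have hab := anisotropic_of_no_root hζ
      have hcard : Nat.card (Cfsg.isometryGroup F (⇑Q)) = 2 * q ^ (k * (k - 1)) * (q ^ k + 1) * ∏ i ∈ Finset.range (k - 1), (q ^ (2 * (i + 1)) - 1) := by
        rw [← Cfsg.Agent.S0288.result hF k hk1 1 ζ hab, ← coe_minusQ]
        exact card_iso_of_scaled Q _ g one_ne_zero (fun v => by rw [hg, one_mul])
      rcases arith_even hF hk1 hk hr hidx (by rw [mul_comm]; exact hfac) (by positivity) hcard with h | ⟨t, ht, h⟩ | h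
      · exact hrq h
      · exact hoddcase t (by omega) h
      · have h2₀ : orderOf (q : ZMod r) ∣ k := (Cfsg.Agent.Lib.Classical.Elusive.PslNum.pow_eq_one_iff' hq1).2 h
        have h2 : orderOf (q : ZMod r) ∣ n := by
          rw [hk]
          exact h2₀.mul_left _
        obtain ⟨S, hS, hSr, hfree⟩ := hfreeS h2
        have h3 := dvd_zeros (fun v => Q v) hQ0 S hS hSr hfree
        have h4 : Nat.card {v : Fin n → F // Q v = 0} = Nat.card {v : (Fin (k - 1) ⊕ Fin (k - 1)) ⊕ Fin 2 → F // Cfsg.quadFormMinus (k - 1) F 1 ζ v = 0} :=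
          zeros_eq_plus g hg
        rw [h4, Cfsg.Agent.S0290.result hF k hk1 1 ζ hab] at h3
        have h5 : q ^ (2 * k - 1) + q ^ (k - 1) - q ^ k - 1 = (q ^ k + 1) * (q ^ (k - 1) - 1) := by
          subst hk'
          simp only [Nat.add_sub_cancel]
          rw [show 2 * (k' + 1) - 1 = (k' + 1) + k' by omega, pow_add]
          obtain ⟨c, hc⟩ : ∃ c, q ^ k' = c + 1 := ⟨q ^ k' - 1, by have := Nat.one_le_pow k' q (by omega); omega⟩
          rw [hc]
          simp only [Nat.add_sub_cancel]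
          rw [Nat.sub_sub]
          apply Nat.sub_eq_of_eq_add
          ring
        rw [h5] at h3
        rcases hr.dvd_mul.1 h3 with h6 | h6
        · exact hq2r k h6 h
        · -- the order divides both `k` and `k - 1`
          have h7 : orderOf (q : ZMod r) ∣ k - 1 := (Cfsg.Agent.Lib.Classical.Elusive.PslNum.pow_eq_one_iff' hq1).2 h6
          have h8 : orderOf (q : ZMod r) ∣ 1 := by
            have h9 : k = (k - 1) + 1 := by omega
            rw [h9] at h2₀
            exact (Nat.dvd_add_right h7).1 h2₀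
          exact hi1 (Nat.dvd_one.1 h8)
  · rcases arith_odd hF hodd hN hk hr hidx with h | ⟨t, ht, h⟩
    · exact hrq h
    · exact hoddcase t (by omega) h

end Main

end Cfsg.Agent.Lib.Classical.Elusive.SlOFree
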