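import Mathlib
import Cfsg.Agent.Lib.Classical.Elusive.TensorMain
import Cfsg.Agent.Lib.Classical.Elusive.SpAtoms
import Cfsg.Agent.Lib.Classical.Elusive.SpHermNo

/-!
# Kronecker products with a small moved space, without order assumptions on the dimensions
-/

set_option autoImplicit false
set_option linter.unusedSectionVars false
set_option linter.unusedSimpArgs false
set_option linter.unusedVariables false
set_option linter.style.haveILetI false

namespace Cfsg.Agent.Lib.Classical.Elusive.TensorSp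

open Polynomial Module Matrix
open scoped Kronecker
open Cfsg.Agent.Lib.Classical.Elusive.Inv Cfsg.Agent.Lib.Classical.Elusive.PslMain Cfsg.Agent.Lib.Classical.Elusive.SpCore
  Cfsg.Agent.Lib.Classical.Elusive.Tensor Cfsg.Agent.Lib.Classical.Elusive.TensorMain
  Cfsg.Agent.Lib.Classical.Elusive.SpAtoms

universe u

variable {F : Type u} [Field F] {a b : ℕ}

theorem ker_one_kron {r : ℕ} (hr0 : (r : F) ≠ 0) (ha0 : 0 < a) (M : Matrix (Fin b) (Fin b) F)
    (hK : (Matrix.toLin' ((1 : Matrix (Fin a) (Fin a) F) ⊗ₖ M)) ^ r = 1) :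
    (Matrix.toLin' M) ^ r = 1 ∧ a * finrank F (Ker (Matrix.toLin' M) r) = finrank F (Ker (Matrix.toLin' ((1 : Matrix (Fin a) (Fin a) F) ⊗ₖ M)) r) := by
  classical
  have hKm : ((1 : Matrix (Fin a) (Fin a) F) ⊗ₖ M) ^ r = 1 := by
    apply Matrix.toLin'.injective
    rw [Matrix.toLin'_pow, hK, Matrix.toLin'_one]
    rfl
  have hMr : M ^ r = 1 := by
    rw [kron_pow, one_pow] at hKm
    ext t t'
    have := congrFun (congrFun hKm ((⟨0, ha0⟩ : Fin a), t)) ((⟨0, ha0⟩ : Fin a), t')
    simp only [Matrix.kroneckerMap_apply, Matrix.one_apply_eq, one_mul, Matrix.one_apply, Prod.mk.injEq, true_and] at this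
    rw [this, Matrix.one_apply]
  have hTr : (Matrix.toLin' M) ^ r = 1 := by
    rw [← Matrix.toLin'_pow, hMr, Matrix.toLin'_one]
    rfl
  refine ⟨hTr, ?_⟩
  have h1 := finrank_Fix_add hr0 hTr
  have hdimb : finrank F (Fin b → F) = b := by simp
  rw [hdimb] at h1
  have h2 := finrank_Fix_add hr0 hK
  have hdim : finrank F (Fin a × Fin b → F) = a * b := by simp
  rw [hdim] at h2
  have h3 : finrank F (Fix (Matrix.toLin' ((1 : Matrix (Fin a) (Fin a) F) ⊗ₖ M))) = a * finrank F (Fix (Matrix.toLin' M)) := by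
    have h4 : Fix (Matrix.toLin' ((1 : Matrix (Fin a) (Fin a) F) ⊗ₖ M)) = LinearMap.ker (Matrix.toLin' ((1 : Matrix (Fin a) (Fin a) F) ⊗ₖ (M - 1))) := by
      rw [kron_sub', Matrix.one_kronecker_one, map_sub, Matrix.toLin'_one]
      rfl
    have h5 : Fix (Matrix.toLin' M) = LinearMap.ker (Matrix.toLin' (M - 1)) := by
      rw [map_sub, Matrix.toLin'_one]
      rfl
    rw [h4, h5, finrank_ker_one_kron]
  rw [h3] at h2
  have h6 : a * b = a * finrank F (Fix (Matrix.toLin' M)) + a * finrank F (Ker (Matrix.toLin' M) r) := by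
    rw [← mul_add, h1]
  omega

/-- Exchanging the two factors. -/
noncomputable def swapL (a b : ℕ) : (Fin a × Fin b → F) ≃ₗ[F] (Fin b × Fin a → F) :=
  LinearEquiv.funCongrLeft F F (Equiv.prodComm (Fin b) (Fin a))

theorem swapL_apply (u : Fin a × Fin b → F) (t : Fin b) (s : Fin a) : swapL a b u (t, s) = u (s, t) := rfl

theorem swap_conj (A : Matrix (Fin a) (Fin a) F) (B : Matrix (Fin b) (Fin b) F) (u : Fin a × Fin b → F) :
    swapL a b (Matrix.toLin' (A ⊗ₖ B) u) = Matrix.toLin' (B ⊗ₖ A) (swapL a b u) := by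
  funext ⟨t, s⟩
  rw [swapL_apply]
  simp only [Matrix.toLin'_apply, Matrix.mulVec, dotProduct, Fintype.sum_prod_type, Matrix.kroneckerMap_apply, swapL_apply]
  rw [Finset.sum_comm]
  refine Finset.sum_congr rfl fun i _ => Finset.sum_congr rfl fun j _ => ?_
  ring

theorem swap_ker (A : Matrix (Fin a) (Fin a) F) (B : Matrix (Fin b) (Fin b) F) (r : ℕ) :
    finrank F (Ker (Matrix.toLin' (A ⊗ₖ B)) r) = finrank F (Ker (Matrix.toLin' (B ⊗ₖ A)) r) :=
  conj_ker (swapL a b) (swap_conj A B) (Phi F r)

theorem swap_pow (A : Matrix (Fin a) (Fin a) F) (B : Matrix (Fin b) (Fin b) F) {r : ℕ} (h : (Matrix.toLin' (A ⊗ₖ B)) ^ r = 1) :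
    (Matrix.toLin' (B ⊗ₖ A)) ^ r = 1 := by
  apply LinearMap.ext
  intro w
  obtain ⟨v, rfl⟩ := (swapL (F := F) a b).surjective w
  have h1 := conj_pow' (swapL (F := F) a b) (swap_conj A B) r v
  rw [← h1, h]
  rfl

theorem kron_row (A : Matrix (Fin a) (Fin a) F) (B : Matrix (Fin b) (Fin b) F) (u : Fin a × Fin b → F) (s : Fin a) :
    (fun t => ((A ⊗ₖ B) *ᵥ u) (s, t)) = ∑ s', A s s' • (B *ᵥ (fun t => u (s', t))) := by
  funext t
  simp only [Matrix.mulVec, dotProduct, Fintype.sum_prod_type, Matrix.kroneckerMap_apply, Finset.sum_apply, Pi.smul_apply, smul_eq_mul,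
    Finset.mul_sum]
  refine Finset.sum_congr rfl fun i _ => Finset.sum_congr rfl fun j _ => ?_
  ring

/-- The lower bound for the moved space coming from an atom of the right factor. -/
theorem ker_lower {r i : ℕ} (hr : (r : F) ≠ 0) (hfac : ∀ d : F[X], Irreducible d → d ∣ Phi F r → d.natDegree = i) (hi : 0 < i)
    {A Ainv : Matrix (Fin a) (Fin a) F} (hA : Ainv * A = 1) {B : Matrix (Fin b) (Fin b) F}
    (hB1 : Ker (Matrix.toLin' B) r ≠ ⊥) (hK : (Matrix.toLin' (A ⊗ₖ B)) ^ r = 1) :
    a * i ≤ a + finrank F (Ker (Matrix.toLin' (A ⊗ₖ B)) r) := by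
  classical
  obtain ⟨D, hD, hDK, hDd⟩ := exists_atom hr hi hfac (isInv_Ker _ r) le_rfl hB1
  let W : Submodule F (Fin a × Fin b → F) :=
    { carrier := {u | ∀ s, (fun t => u (s, t)) ∈ D}
      add_mem' := fun {u v} hu hv s => D.add_mem (hu s) (hv s)
      zero_mem' := fun s => D.zero_mem
      smul_mem' := fun c u hu s => D.smul_mem c (hu s) }
  have hW : IsInv (Matrix.toLin' (A ⊗ₖ B)) W := by
    intro u hu s
    have h1 : (fun t => Matrix.toLin' (A ⊗ₖ B) u (s, t)) = ∑ s', A s s' • (B *ᵥ (fun t => u (s', t))) := kron_row A B u s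
    rw [h1]
    exact D.sum_mem fun s' _ => D.smul_mem _ (hD _ (hu s'))
  have hWd : finrank F W = a * i := by
    let e : W ≃ₗ[F] (Fin a → D) :=
      { toFun := fun u s => ⟨fun t => u.1 (s, t), u.2 s⟩
        map_add' := fun u v => by
          funext s
          apply Subtype.ext
          rfl
        map_smul' := fun c u => by
          funext s
          apply Subtype.ext
          rfl
        invFun := fun g => ⟨fun p => (g p.1).1 p.2, fun s => (g s).2⟩
        left_inv := fun u => by
          apply Subtype.ext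
          rfl
        right_inv := fun g => by
          funext s
          apply Subtype.ext
          rfl }
    rw [e.finrank_eq, Module.finrank_pi_fintype]
    simp [hDd]
  have hDne : ∃ d₀ ∈ D, d₀ ≠ 0 := by
    by_contra hcon
    push Not at hcon
    have : D = ⊥ := (Submodule.eq_bot_iff D).mpr hcon
    rw [this, finrank_bot] at hDd
    omega
  obtain ⟨d₀, hd₀, hd₀0⟩ := hDne
  obtain ⟨t₀, ht₀⟩ : ∃ t₀, d₀ t₀ ≠ 0 := by
    by_contra hcon
    push Not at hcon
    exact hd₀0 (funext hcon)
  have hsplit := finrank_split hr hK hW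
  have h1 : finrank F ↥(W ⊓ Ker (Matrix.toLin' (A ⊗ₖ B)) r) ≤ finrank F (Ker (Matrix.toLin' (A ⊗ₖ B)) r) :=
    Submodule.finrank_mono inf_le_right
  have h2 : finrank F ↥(W ⊓ Fix (Matrix.toLin' (A ⊗ₖ B))) ≤ a := by
    let L : ↥(W ⊓ Fix (Matrix.toLin' (A ⊗ₖ B))) →ₗ[F] (Fin a → F) :=
      { toFun := fun u s => u.1 (s, t₀)
        map_add' := fun u v => rfl
        map_smul' := fun c u => rfl }
    have hL : Function.Injective L := by
      rw [injective_iff_map_eq_zero]
      rintro ⟨u, hmem⟩ hu0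
      obtain ⟨huW, huF'⟩ := Submodule.mem_inf.mp hmem
      have hu1 : ∀ s, u (s, t₀) = 0 := fun s => congrFun hu0 s
      have huF := mem_Fix.mp huF'
      let E : Submodule F (Fin b → F) := Submodule.span F (Set.range fun s => (fun t => u (s, t)))
      have hEle : E ≤ D := Submodule.span_le.mpr (by
        rintro _ ⟨s, rfl⟩
        exact huW s)
      have hrow : ∀ s, (fun t => u (s, t)) = ∑ s', A s s' • (B *ᵥ (fun t => u (s', t))) := by
        intro s
        have h3 := kron_row A B u s
        have h4 : (A ⊗ₖ B) *ᵥ u = u := huF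
        rwa [h4] at h3
      have hBu : ∀ s, B *ᵥ (fun t => u (s, t)) = ∑ s', Ainv s s' • (fun t => u (s', t)) := by
        intro s
        calc B *ᵥ (fun t => u (s, t)) = ∑ s'', (Ainv * A) s s'' • (B *ᵥ (fun t => u (s'', t))) := by
              rw [hA]
              simp [Matrix.one_apply, ite_smul]
          _ = ∑ s', Ainv s s' • ∑ s'', A s' s'' • (B *ᵥ (fun t => u (s'', t))) := by
              simp only [Matrix.mul_apply, Finset.sum_smul, Finset.smul_sum, smul_smul]
              rw [Finset.sum_comm]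
          _ = ∑ s', Ainv s s' • (fun t => u (s', t)) := by
              refine Finset.sum_congr rfl fun s' _ => ?_
              rw [← hrow s']
      have hEinv : IsInv (Matrix.toLin' B) E := by
        intro v hv
        induction hv using Submodule.span_induction with
        | mem x hx =>
          obtain ⟨s, rfl⟩ := hx
          show B *ᵥ _ ∈ E
          rw [hBu]
          exact E.sum_mem fun s' _ => E.smul_mem _ (Submodule.subset_span ⟨s', rfl⟩)
        | zero => simp
        | add x y _ _ hx hy =>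
          rw [map_add]
          exact E.add_mem hx hy
        | smul c x _ hx =>
          rw [map_smul]
          exact E.smul_mem c hx
      rcases atom_eq hr hi hfac hDK hDd hEinv hEle with h | h
      · apply Subtype.ext
        funext ⟨s, t⟩
        have h3 : (fun t => u (s, t)) ∈ E := Submodule.subset_span ⟨s, rfl⟩
        rw [h, Submodule.mem_bot] at h3
        exact congrFun h3 t
      · exfalso
        have h3 : d₀ ∈ E := by rw [h]; exact hd₀
        have h4 : E ≤ LinearMap.ker (LinearMap.proj t₀ : (Fin b → F) →ₗ[F] F) := Submodule.span_le.mpr (by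
          rintro _ ⟨s, rfl⟩
          exact hu1 s)
        exact ht₀ (h4 h3)
    have h3 := LinearMap.finrank_le_finrank_of_injective hL
    simpa using h3
  rw [hWd] at hsplit
  omega

/-- The divisibility when the power of a factor is not an `r`-th power. -/
theorem dvd_of_nonpower [Fintype F] {r : ℕ} (hr : r.Prime) {A : Matrix (Fin a) (Fin a) F} {B : Matrix (Fin b) (Fin b) F} {α : F}
    (hα : A ^ r = α • 1) (hu : ∀ u : F, u ^ r ≠ α) : r ∣ finrank F (Ker (Matrix.toLin' (A ⊗ₖ B)) r) := by
  classical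
  have hirr : Irreducible (X ^ r - C α : F[X]) := X_pow_sub_C_irreducible_of_prime hr hu
  let A' : Module.End F (Fin a × Fin b → F) := Matrix.toLin' (A ⊗ₖ (1 : Matrix (Fin b) (Fin b) F))
  have hA'r : A' ^ r = α • 1 := by
    show (Matrix.toLin' (A ⊗ₖ (1 : Matrix (Fin b) (Fin b) F))) ^ r = α • 1
    rw [← Matrix.toLin'_pow, kron_pow, one_pow, hα, Matrix.smul_kronecker, Matrix.one_kronecker_one, map_smul, Matrix.toLin'_one]
    rfl
  have hcomm : ∀ v, A' (Matrix.toLin' (A ⊗ₖ B) v) = Matrix.toLin' (A ⊗ₖ B) (A' v) := by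
    intro v
    simp only [A', Matrix.toLin'_apply, Matrix.mulVec_mulVec, ← Matrix.mul_kronecker_mul, Matrix.mul_one, Matrix.one_mul]
  have hinv : IsInv A' (Ker (Matrix.toLin' (A ⊗ₖ B)) r) := by
    intro v hv
    rw [mem_Ker] at hv ⊢
    rw [SpHermNo.aeval_comm (fun v => (hcomm v).symm), hv, map_zero]
  exact dvd_of_irr hr.pos hA'r hirr.ne_zero (PslNum.fac_irr hirr) hinv

/-- The structure of a Kronecker product acting with a single block of the expected size. -/
theorem no_kron_sp [Fintype F] {r i c : ℕ} (hr : r.Prime) (hr2 : r ≠ 2) (hr0 : (r : F) ≠ 0) (ha : 2 ≤ a) (hae : Even a) (hb : 3 ≤ b)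
    {A : Matrix (Fin a) (Fin a) F} {B : Matrix (Fin b) (Fin b) F}
    (hK : (Matrix.toLin' (A ⊗ₖ B)) ^ r = 1)
    (hfac : ∀ d : F[X], Irreducible d → d ∣ Phi F r → d.natDegree = i) (hi : 2 ≤ i) (hir : i < r)
    (hc : (Even i ∧ c = i) ∨ (Odd i ∧ c = 2 * i))
    (hKer : finrank F (Ker (Matrix.toLin' (A ⊗ₖ B)) r) = c) :
    a = 2 ∧ Odd i ∧ ∃ M : Matrix (Fin b) (Fin b) F, A ⊗ₖ B = (1 : Matrix (Fin a) (Fin a) F) ⊗ₖ M := by
  classical
  have hrpos := hr.pos
  have hipos : 0 < i := by omega
  have ha0 : 0 < a := by omega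
  have hb0 : 0 < b := by omega
  have hcle : c ≤ 2 * i := by
    rcases hc with ⟨-, h⟩ | ⟨-, h⟩ <;> omega
  have hcpos : 0 < c := by
    rcases hc with ⟨-, h⟩ | ⟨-, h⟩ <;> omega
  have hKm : (A ⊗ₖ B) ^ r = 1 := by
    apply Matrix.toLin'.injective
    rw [Matrix.toLin'_pow, hK, Matrix.toLin'_one]
    rfl
  by_cases hA : ∃ c₁ : F, A = c₁ • 1
  · obtain ⟨c₁, rfl⟩ := hA
    have hKM : (c₁ • (1 : Matrix (Fin a) (Fin a) F)) ⊗ₖ B = (1 : Matrix (Fin a) (Fin a) F) ⊗ₖ (c₁ • B) := by
      rw [Matrix.kronecker_smul, Matrix.smul_kronecker]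
    rw [hKM] at hK hKer
    obtain ⟨hMr, hM⟩ := ker_one_kron hr0 ha0 _ hK
    rw [hKer] at hM
    set e := finrank F (Ker (Matrix.toLin' (c₁ • B)) r) with he
    have he0 : 0 < e := by
      rcases Nat.eq_zero_or_pos e with h | h
      · rw [h, mul_zero] at hM
        omega
      · exact h
    have h6 : i ∣ e := dvd_finrank (isInv_Ker _ r) (Phi_ne_zero hr0) hipos hfac (fun v hv => hv)
    have h7 := Nat.le_of_dvd he0 h6
    have h8 : a * i ≤ a * e := Nat.mul_le_mul_left _ h7
    rcases hc with ⟨hev, hci⟩ | ⟨hod, hci⟩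
    · exfalso
      have : 2 * i ≤ a * i := Nat.mul_le_mul_right _ ha
      omega
    · refine ⟨?_, hod, _, hKM⟩
      by_contra hne
      have ha3 : 3 ≤ a := by omega
      have : 3 * i ≤ a * i := Nat.mul_le_mul_right _ ha3
      omega
  · push Not at hA
    exfalso
    rw [kron_pow] at hKm
    have hKm' : (A ^ r) ⊗ₖ (B ^ r) = (1 : F) • 1 := by
      rw [one_smul]
      exact hKm
    obtain ⟨α, hα⟩ := scalar_left_of_kron hb0 one_ne_zero hKm'
    have hα0 : α ≠ 0 := by
      rintro rfl
      rw [hα, zero_smul, Matrix.zero_kronecker] at hKm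
      have := congrFun (congrFun hKm ((⟨0, ha0⟩ : Fin a), (⟨0, hb0⟩ : Fin b))) ((⟨0, ha0⟩ : Fin a), (⟨0, hb0⟩ : Fin b))
      simp at this
    by_cases hu : ∃ u : F, u ^ r = α
    · obtain ⟨u, hu⟩ := hu
      have hu0 : u ≠ 0 := by
        rintro rfl
        rw [zero_pow hr.ne_zero] at hu
        exact hα0 hu.symm
      set A₁ : Matrix (Fin a) (Fin a) F := u⁻¹ • A with hA₁
      set B₁ : Matrix (Fin b) (Fin b) F := u • B with hB₁
      have hsame : A₁ ⊗ₖ B₁ = A ⊗ₖ B := by
        rw [hA₁, hB₁, Matrix.smul_kronecker, Matrix.kronecker_smul, smul_smul, inv_mul_cancel₀ hu0, one_smul]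
      have hA₁r : A₁ ^ r = 1 := by
        rw [hA₁, _root_.smul_pow, hα, smul_smul, inv_pow, hu, inv_mul_cancel₀ hα0, one_smul]
      rw [← hsame] at hK hKer
      have hKm₁ : (A₁ ⊗ₖ B₁) ^ r = 1 := by
        apply Matrix.toLin'.injective
        rw [Matrix.toLin'_pow, hK, Matrix.toLin'_one]
        rfl
      have hB₁r : B₁ ^ r = 1 := by
        rw [kron_pow, hA₁r] at hKm₁
        ext t t'
        have := congrFun (congrFun hKm₁ ((⟨0, ha0⟩ : Fin a), t)) ((⟨0, ha0⟩ : Fin a), t')
        simp only [Matrix.kroneckerMap_apply, Matrix.one_apply_eq, one_mul, Matrix.one_apply, Prod.mk.injEq, true_and] at this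
        rw [this, Matrix.one_apply]
      have hTA : (Matrix.toLin' A₁) ^ r = 1 := by
        rw [← Matrix.toLin'_pow, hA₁r, Matrix.toLin'_one]
        rfl
      have hTB : (Matrix.toLin' B₁) ^ r = 1 := by
        rw [← Matrix.toLin'_pow, hB₁r, Matrix.toLin'_one]
        rfl
      have hnz : ∀ {n : ℕ} (M : Matrix (Fin n) (Fin n) F), (Matrix.toLin' M) ^ r = 1 → (∀ z : F, M ≠ z • 1) → Ker (Matrix.toLin' M) r ≠ ⊥ := by
        intro n M hM hns h0
        have h1 := finrank_Fix_add hr0 hM
        rw [h0, finrank_bot, add_zero] at h1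
        have h2 : Fix (Matrix.toLin' M) = ⊤ := Submodule.eq_top_of_finrank_eq h1
        apply hns 1
        apply Matrix.toLin'.injective
        rw [one_smul, Matrix.toLin'_one]
        apply LinearMap.ext
        intro v
        have : v ∈ Fix (Matrix.toLin' M) := by rw [h2]; trivial
        rw [mem_Fix] at this
        rw [this]
        rfl
      have hA₁ns : ∀ z : F, A₁ ≠ z • 1 := by
        intro z hz
        apply hA (u * z)
        rw [← smul_smul, ← hz, hA₁, smul_smul, mul_inv_cancel₀ hu0, one_smul]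
      have hAK := hnz A₁ hTA hA₁ns
      have hale : i ≤ a := by
        have h6 : i ∣ finrank F (Ker (Matrix.toLin' A₁) r) := dvd_finrank (isInv_Ker _ r) (Phi_ne_zero hr0) hipos hfac (fun v hv => hv)
        have h7 : 0 < finrank F (Ker (Matrix.toLin' A₁) r) := Nat.pos_of_ne_zero (fun h => hAK (Submodule.finrank_eq_zero.mp h))
        have h8 := Nat.le_of_dvd h7 h6
        have h9 := Submodule.finrank_le (Ker (Matrix.toLin' A₁) r)
        simp only [Module.finrank_fintype_fun_eq_card, Fintype.card_fin] at h9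
        omega
      by_cases hBs : ∃ c₂ : F, B₁ = c₂ • 1
      · obtain ⟨c₂, hc₂⟩ := hBs
        rw [hc₂] at hK hKer
        have hKM : A₁ ⊗ₖ (c₂ • (1 : Matrix (Fin b) (Fin b) F)) = (c₂ • A₁) ⊗ₖ (1 : Matrix (Fin b) (Fin b) F) := by
          clear_value A₁ B₁
          rw [Matrix.kronecker_smul, Matrix.smul_kronecker]
        rw [hKM] at hK hKer
        have hK' := swap_pow _ _ hK
        rw [swap_ker] at hKer
        obtain ⟨hMr, hM⟩ := ker_one_kron hr0 hb0 _ hK'
        rw [hKer] at hM
        set e := finrank F (Ker (Matrix.toLin' (c₂ • A₁)) r) with he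
        have he0 : 0 < e := by
          rcases Nat.eq_zero_or_pos e with h | h
          · rw [h, mul_zero] at hM
            omega
          · exact h
        have h6 : i ∣ e := dvd_finrank (isInv_Ker _ r) (Phi_ne_zero hr0) hipos hfac (fun v hv => hv)
        have h7 := Nat.le_of_dvd he0 h6
        have h8 : b * i ≤ b * e := Nat.mul_le_mul_left _ h7
        have h9 : 3 * i ≤ b * i := Nat.mul_le_mul_right _ hb
        omega
      · push Not at hBs
        have hBK := hnz B₁ hTB hBs
        -- the inverses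
        have hAinv : (A₁ ^ (r - 1)) * A₁ = 1 := by
          rw [← pow_succ, Nat.sub_add_cancel hrpos, hA₁r]
        have hBinv : (B₁ ^ (r - 1)) * B₁ = 1 := by
          rw [← pow_succ, Nat.sub_add_cancel hrpos, hB₁r]
        have hl1 := ker_lower hr0 hfac hipos hAinv hBK hK
        have hl2 := ker_lower hr0 hfac hipos hBinv hAK (swap_pow _ _ hK)
        rw [← swap_ker, hKer] at hl2
        rw [hKer] at hl1
        rcases hc with ⟨hev, hci⟩ | ⟨hod, hci⟩
        · -- even order
          rw [hci] at hl1 hl2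
          have h3 : 3 * i ≤ b * i := Nat.mul_le_mul_right _ hb
          have h4 : 2 * b ≤ b * i := by
            rw [mul_comm 2 b]
            exact Nat.mul_le_mul_left _ hi
          omega
        · -- odd order
          rw [hci] at hl1 hl2
          have hi3 : 3 ≤ i := by
            rcases hod with ⟨m, hm⟩
            omega
          have ha4 : 4 ≤ a := by
            rcases hod with ⟨m, hm⟩
            rcases hae with ⟨k, hk⟩
            omega
          nlinarith
    · push Not at hu
      have h1 := dvd_of_nonpower (B := B) hr hα hu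
      rw [hKer] at h1
      rcases hc with ⟨-, h⟩ | ⟨-, h⟩
      · rw [h] at h1
        have := Nat.le_of_dvd hipos h1
        omega
      · rw [h] at h1
        rcases (hr.dvd_mul).mp h1 with h3 | h3
        · exact hr2 ((Nat.prime_dvd_prime_iff_eq hr Nat.prime_two).mp h3)
        · have := Nat.le_of_dvd hipos h3
          omega

end Cfsg.Agent.Lib.Classical.Elusive.TensorSp
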