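import Mathlib
import Cfsg.Agent.Lib.Classical.Elusive.TensorSp
import Cfsg.Agent.Lib.Classical.Elusive.SpHermMain
import Cfsg.Agent.Lib.Classical.Elusive.SpPairs

/-!
# Conjugacy of involutions in symplectic groups and their tensor forms
-/

set_option autoImplicit false
set_option linter.unusedSectionVars false
set_option linter.unusedSimpArgs false
set_option linter.unusedVariables false
set_option linter.style.haveILetI false

namespace Cfsg.Agent.Lib.Classical.Elusive.TensorSpConj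

open Polynomial Module Matrix
open scoped Kronecker
open Cfsg.Agent.Lib.Classical.Elusive.Inv Cfsg.Agent.Lib.Classical.Elusive.SpCore Cfsg.Agent.Lib.Classical.Elusive.SpAtoms
  Cfsg.Agent.Lib.Classical.Elusive.SpHerm Cfsg.Agent.Lib.Classical.Elusive.SpHermMain Cfsg.Agent.Lib.Classical.Elusive.SpPairs
  Cfsg.Agent.Lib.Classical.Elusive.TensorMain
open Cfsg.Agent.Lib.Classical.Symp.Basic Cfsg.Agent.Lib.Classical.Symp.SpGL
open Cfsg.Agent.Lib.Classical.Asch.Gram
open Cfsg.Agent.Lib.Linalg.Bridge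

universe u

section General

variable {F : Type u} [Field F] {V : Type*} [AddCommGroup V] [Module F V] [FiniteDimensional F V]

theorem aeval_Phi_two (T : Module.End F V) : Polynomial.aeval T (Phi F 2) = T + 1 := by
  unfold Phi
  simp [Finset.sum_range_succ, add_comm]

theorem mem_Ker_two {T : Module.End F V} {v : V} : v ∈ Ker T 2 ↔ T v = -v := by
  rw [mem_Ker, aeval_Phi_two, LinearMap.add_apply, Module.End.one_apply]
  exact add_eq_zero_iff_eq_neg

end General

section Invol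

variable {F : Type u} [Field F] {d : ℕ}

local notation "Ix" => (Fin d ⊕ Fin d)
local notation "Mt" => Matrix (Fin d ⊕ Fin d) (Fin d ⊕ Fin d) F

/-- Involutions of the symplectic group with eigenspaces of the same dimensions are conjugate. -/
theorem invol_conj (h2 : (2 : F) ≠ 0) {x y : GL Ix F} (hx : x ∈ Cfsg.spGL d F) (hy : y ∈ Cfsg.spGL d F)
    (hx2 : (x : Mt) * x = 1) (hy2 : (y : Mt) * y = 1)
    (hdim : finrank F (Ker (Matrix.toLin' (x : Mt)) 2) = finrank F (Ker (Matrix.toLin' (y : Mt)) 2)) :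
    ∃ g ∈ Cfsg.spGL d F, g⁻¹ * x * g = y := by
  classical
  have hA : (sympBilin d F).IsAlt := sympBilin_isAlt
  have hN : (sympBilin d F).Nondegenerate := sympBilin_nondegenerate
  have hr2 : ((2 : ℕ) : F) ≠ 0 := by exact_mod_cast h2
  have hIx : ∀ u v, sympBilin d F (Matrix.toLin' (x : Mt) u) (Matrix.toLin' (x : Mt) v) = sympBilin d F u v := fun u v => (mem_spGL_iff x).mp hx u v
  have hIy : ∀ u v, sympBilin d F (Matrix.toLin' (y : Mt) u) (Matrix.toLin' (y : Mt) v) = sympBilin d F u v := fun u v => (mem_spGL_iff y).mp hy u v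
  have hTx2 : (Matrix.toLin' (x : Mt)) ^ 2 = 1 := by
    rw [← Matrix.toLin'_pow, _root_.sq, hx2, Matrix.toLin'_one]
    rfl
  have hTy2 : (Matrix.toLin' (y : Mt)) ^ 2 = 1 := by
    rw [← Matrix.toLin'_pow, _root_.sq, hy2, Matrix.toLin'_one]
    rfl
  have hNx : Nd (sympBilin d F) (Ker (Matrix.toLin' (x : Mt)) 2) := fun u hu h0 => ker_nondeg hA hN hIx hr2 hTx2 hu h0
  have hNy : Nd (sympBilin d F) (Ker (Matrix.toLin' (y : Mt)) 2) := fun u hu h0 => ker_nondeg hA hN hIy hr2 hTy2 hu h0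
  obtain ⟨k, hk⟩ := hNy.even hA
  have hk' : finrank F (Ker (Matrix.toLin' (y : Mt)) 2) = 2 * k := by omega
  have hk'' : finrank F (Ker (Matrix.toLin' (x : Mt)) 2) = 2 * k := by omega
  obtain ⟨ey, hey⟩ := Cfsg.Agent.Lib.Classical.Symp.SympBasis.exists_sympEquiv ((sympBilin d F).restrict (Ker (Matrix.toLin' (y : Mt)) 2)) (fun v => hA v) (hNy.restrict hA) hk'
  obtain ⟨ex, hex⟩ := Cfsg.Agent.Lib.Classical.Symp.SympBasis.exists_sympEquiv ((sympBilin d F).restrict (Ker (Matrix.toLin' (x : Mt)) 2)) (fun v => hA v) (hNx.restrict hA) hk''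
  let φ : Ker (Matrix.toLin' (y : Mt)) 2 ≃ₗ[F] Ker (Matrix.toLin' (x : Mt)) 2 := ey.trans ex.symm
  have hφ : ∀ a b : Ker (Matrix.toLin' (y : Mt)) 2, Cfsg.sympForm d F (φ a : Ix → F) (φ b : Ix → F) = Cfsg.sympForm d F (a : Ix → F) (b : Ix → F) := by
    intro a b
    have h1 := hex (φ a) (φ b)
    have h3 := hey a b
    have h4 : ex (φ a) = ey a := by simp [φ]
    have h5 : ex (φ b) = ey b := by simp [φ]
    rw [h4, h5, h3] at h1
    exact h1.symm
  obtain ⟨g, hg, hgL⟩ := exists_spGL_of_injective (Ker (Matrix.toLin' (y : Mt)) 2).subtype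
    ((Ker (Matrix.toLin' (x : Mt)) 2).subtype.comp (φ : Ker (Matrix.toLin' (y : Mt)) 2 →ₗ[F] Ker (Matrix.toLin' (x : Mt)) 2))
    Subtype.val_injective (fun a b hab => φ.injective (Subtype.ext hab)) (fun a b => hφ a b)
  refine ⟨g, hg, ?_⟩
  have hgI : ∀ u v, Cfsg.sympForm d F ((g : Mt) *ᵥ u) ((g : Mt) *ᵥ v) = Cfsg.sympForm d F u v := (mem_spGL_iff g).mp hg
  have hgφ : ∀ a : Ker (Matrix.toLin' (y : Mt)) 2, (g : Mt) *ᵥ (a : Ix → F) = (φ a : Ix → F) := fun a => hgL a
  have hcomm : ∀ v, (x : Mt) *ᵥ ((g : Mt) *ᵥ v) = (g : Mt) *ᵥ ((y : Mt) *ᵥ v) := by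
    intro v
    have hv : v ∈ Fix (Matrix.toLin' (y : Mt)) ⊔ Ker (Matrix.toLin' (y : Mt)) 2 := by
      rw [sup_Fix_Ker hr2 hTy2]
      trivial
    obtain ⟨a, ha, b, hb, rfl⟩ := Submodule.mem_sup.1 hv
    rw [Matrix.mulVec_add, Matrix.mulVec_add, Matrix.mulVec_add, Matrix.mulVec_add]
    congr 1
    · have hya : (y : Mt) *ᵥ a = a := mem_Fix.1 ha
      rw [hya]
      have hu : (g : Mt) *ᵥ a ∈ Fix (Matrix.toLin' (x : Mt)) ⊔ Ker (Matrix.toLin' (x : Mt)) 2 := by
        rw [sup_Fix_Ker hr2 hTx2]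
        trivial
      obtain ⟨u₁, hu₁, u₂, hu₂, hu⟩ := Submodule.mem_sup.1 hu
      have hu20 : u₂ = 0 := by
        by_contra h0
        obtain ⟨c, hc, hne⟩ := hNx u₂ hu₂ h0
        let c' := φ.symm ⟨c, hc⟩
        have hgc : (g : Mt) *ᵥ (c' : Ix → F) = c := by
          rw [hgφ]
          simp [c']
        have h1 : sympBilin d F ((g : Mt) *ᵥ a) c = 0 := by
          rw [← hgc]
          show Cfsg.sympForm d F _ _ = 0
          rw [hgI]
          exact orth_Fix_Ker hIy hr2 ha c'.2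
        rw [← hu, map_add, LinearMap.add_apply, orth_Fix_Ker hIx hr2 hu₁ hc, zero_add] at h1
        exact hne h1
      rw [← hu, hu20, add_zero]
      exact mem_Fix.1 hu₁
    · have hyb : (y : Mt) *ᵥ b = -b := mem_Ker_two.1 hb
      rw [hyb, Matrix.mulVec_neg, hgφ ⟨b, hb⟩]
      exact mem_Ker_two.1 (φ ⟨b, hb⟩).2
  have hmat : x * g = g * y := by
    apply Units.ext
    apply matrix_eq_of_mulVec_eq
    intro v
    rw [Units.val_mul, Units.val_mul, ← Matrix.mulVec_mulVec, ← Matrix.mulVec_mulVec]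
    exact hcomm v
  rw [mul_assoc, hmat, ← mul_assoc, inv_mul_cancel, one_mul]

/-- The eigenspace pair of an element of square `-1`. -/
theorem eigPair_spec (h2 : (2 : F) ≠ 0) {i₀ : F} (hi : i₀ * i₀ = -1) (T : Module.End F (Ix → F)) (hT : ∀ v, T (T v) = -v)
    (hI : ∀ u v, Cfsg.sympForm d F (T u) (T v) = Cfsg.sympForm d F u v) :
    IsCompl (LinearMap.ker (T - i₀ • 1)) (LinearMap.ker (T + i₀ • 1)) ∧
    (∀ u ∈ LinearMap.ker (T - i₀ • 1), ∀ v ∈ LinearMap.ker (T - i₀ • 1), Cfsg.sympForm d F u v = 0) ∧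
    (∀ u ∈ LinearMap.ker (T + i₀ • 1), ∀ v ∈ LinearMap.ker (T + i₀ • 1), Cfsg.sympForm d F u v = 0) := by
  have hi0 : i₀ ≠ 0 := by
    rintro rfl
    have h3 : (1 : F) = 0 := by
      have := hi
      rw [zero_mul] at this
      exact neg_eq_zero.mp this.symm
    exact one_ne_zero h3
  have hmem1 : ∀ v, v ∈ LinearMap.ker (T - i₀ • 1) ↔ T v = i₀ • v := by
    intro v
    simp [LinearMap.mem_ker, sub_eq_zero]
  have hmem2 : ∀ v, v ∈ LinearMap.ker (T + i₀ • 1) ↔ T v = -(i₀ • v) := by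
    intro v
    simp [LinearMap.mem_ker, add_eq_zero_iff_eq_neg]
  refine ⟨⟨?_, ?_⟩, ?_, ?_⟩
  · rw [Submodule.disjoint_def]
    intro v h₁ h₂
    rw [hmem1] at h₁
    rw [hmem2] at h₂
    have h3 : (2 * i₀) • v = 0 := by
      rw [two_mul, add_smul, ← h₁]
      nth_rewrite 2 [h₁]
      rw [h₂]
      simp
    rcases smul_eq_zero.mp h3 with h | h
    · exact absurd h (mul_ne_zero h2 hi0)
    · exact h
  · rw [codisjoint_iff, eq_top_iff]
    intro v _
    have h1 : v - i₀ • T v ∈ LinearMap.ker (T - i₀ • 1) := by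
      rw [hmem1, map_sub, map_smul, hT, smul_sub, smul_smul, hi]
      simp [add_comm]
    have h3 : v + i₀ • T v ∈ LinearMap.ker (T + i₀ • 1) := by
      rw [hmem2, map_add, map_smul, hT, smul_add, smul_smul, hi]
      simp only [neg_smul, one_smul, smul_neg, neg_add_rev, neg_neg]
    have h4 : v = (2 : F)⁻¹ • (v - i₀ • T v) + (2 : F)⁻¹ • (v + i₀ • T v) := by
      rw [← smul_add, sub_add_add_cancel, ← two_smul F v, smul_smul, inv_mul_cancel₀ h2, one_smul]
    rw [h4]
    exact Submodule.add_mem _ (Submodule.mem_sup_left (Submodule.smul_mem _ _ h1)) (Submodule.mem_sup_right (Submodule.smul_mem _ _ h3))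
  · intro u hu v hv
    rw [hmem1] at hu hv
    have h1 := hI u v
    rw [hu, hv] at h1
    have hb : ∀ (c e : F), Cfsg.sympForm d F (c • u) (e • v) = c * e * Cfsg.sympForm d F u v := by
      intro c e
      show sympBilin d F (c • u) (e • v) = c * e * sympBilin d F u v
      rw [map_smul, map_smul]
      simp only [LinearMap.smul_apply, smul_eq_mul]
      ring
    rw [hb, hi] at h1
    have h3 : (2 : F) * Cfsg.sympForm d F u v = 0 := by linear_combination -h1
    exact (mul_eq_zero.mp h3).resolve_left h2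
  · intro u hu v hv
    rw [hmem2] at hu hv
    have h1 := hI u v
    rw [hu, hv, ← neg_smul, ← neg_smul] at h1
    have hb : ∀ (c e : F), Cfsg.sympForm d F (c • u) (e • v) = c * e * Cfsg.sympForm d F u v := by
      intro c e
      show sympBilin d F (c • u) (e • v) = c * e * sympBilin d F u v
      rw [map_smul, map_smul]
      simp only [LinearMap.smul_apply, smul_eq_mul]
      ring
    rw [hb, neg_mul_neg, hi] at h1
    have h3 : (2 : F) * Cfsg.sympForm d F u v = 0 := by linear_combination -h1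
    exact (mul_eq_zero.mp h3).resolve_left h2

/-- Elements of square `-1` of the symplectic group are conjugate. -/
theorem neg_conj [Fintype F] (h2 : (2 : F) ≠ 0) {x y : GL Ix F} (hx : x ∈ Cfsg.spGL d F) (hy : y ∈ Cfsg.spGL d F)
    (hx2 : (x : Mt) * x = -1) (hy2 : (y : Mt) * y = -1) :
    ∃ g ∈ Cfsg.spGL d F, g⁻¹ * x * g = y := by
  classical
  have hsq : ∀ z : GL Ix F, (z : Mt) * z = -1 → ∀ v, Matrix.toLin' (z : Mt) (Matrix.toLin' (z : Mt) v) = -v := by
    intro z hz v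
    simp only [Matrix.toLin'_apply, Matrix.mulVec_mulVec]
    rw [hz, Matrix.neg_mulVec, Matrix.one_mulVec]
  by_cases hs : IsSquare (-1 : F)
  · obtain ⟨i₀, hi₀⟩ := hs
    have hi : i₀ * i₀ = -1 := hi₀.symm
    have hIx : ∀ u v, Cfsg.sympForm d F (Matrix.toLin' (x : Mt) u) (Matrix.toLin' (x : Mt) v) = Cfsg.sympForm d F u v := fun u v => (mem_spGL_iff x).mp hx u v
    have hIy : ∀ u v, Cfsg.sympForm d F (Matrix.toLin' (y : Mt) u) (Matrix.toLin' (y : Mt) v) = Cfsg.sympForm d F u v := fun u v => (mem_spGL_iff y).mp hy u v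
    obtain ⟨cx, tx1, tx2⟩ := eigPair_spec h2 hi (Matrix.toLin' (x : Mt)) (hsq x hx2) hIx
    obtain ⟨cy, ty1, ty2⟩ := eigPair_spec h2 hi (Matrix.toLin' (y : Mt)) (hsq y hy2) hIy
    let Px : Pairs d F := ⟨(LinearMap.ker (Matrix.toLin' (x : Mt) - i₀ • 1), LinearMap.ker (Matrix.toLin' (x : Mt) + i₀ • 1)), cx, tx1, tx2⟩
    let Py : Pairs d F := ⟨(LinearMap.ker (Matrix.toLin' (y : Mt) - i₀ • 1), LinearMap.ker (Matrix.toLin' (y : Mt) + i₀ • 1)), cy, ty1, ty2⟩
    obtain ⟨g₁, hg₁⟩ := exists_smul_P₀ Px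
    obtain ⟨g₂, hg₂⟩ := exists_smul_P₀ Py
    have hh : (g₁ * g₂⁻¹) • Py = Px := by
      rw [← hg₂, ← hg₁, smul_smul, inv_mul_cancel_right]
    set h : symplecticGroup (Fin d) F := g₁ * g₂⁻¹ with hhdef
    have hval := congrArg Subtype.val hh
    rw [smul_val] at hval
    have hU : (LinearMap.ker (Matrix.toLin' (y : Mt) - i₀ • 1)).map (spToLin h : (Ix → F) →ₗ[F] (Ix → F)) = LinearMap.ker (Matrix.toLin' (x : Mt) - i₀ • 1) := congrArg Prod.fst hval
    have hW : (LinearMap.ker (Matrix.toLin' (y : Mt) + i₀ • 1)).map (spToLin h : (Ix → F) →ₗ[F] (Ix → F)) = LinearMap.ker (Matrix.toLin' (x : Mt) + i₀ • 1) := congrArg Prod.snd hval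
    refine ⟨toGL h, toGL_mem h, ?_⟩
    have hcomm : ∀ v, (x : Mt) *ᵥ ((h : Mt) *ᵥ v) = (h : Mt) *ᵥ ((y : Mt) *ᵥ v) := by
      intro v
      have hv : v ∈ LinearMap.ker (Matrix.toLin' (y : Mt) - i₀ • 1) ⊔ LinearMap.ker (Matrix.toLin' (y : Mt) + i₀ • 1) := by
        rw [cy.sup_eq_top]
        trivial
      obtain ⟨a, ha, b, hb, rfl⟩ := Submodule.mem_sup.1 hv
      rw [Matrix.mulVec_add, Matrix.mulVec_add, Matrix.mulVec_add, Matrix.mulVec_add]
      congr 1
      · have h1 : (h : Mt) *ᵥ a ∈ LinearMap.ker (Matrix.toLin' (x : Mt) - i₀ • 1) := by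
          rw [← hU]
          exact ⟨a, ha, rfl⟩
        have h3 : (x : Mt) *ᵥ ((h : Mt) *ᵥ a) = i₀ • ((h : Mt) *ᵥ a) := by
          have := h1
          simpa [LinearMap.mem_ker, sub_eq_zero] using this
        have h4 : (y : Mt) *ᵥ a = i₀ • a := by
          have := ha
          simpa [LinearMap.mem_ker, sub_eq_zero] using this
        rw [h3, h4, Matrix.mulVec_smul]
      · have h1 : (h : Mt) *ᵥ b ∈ LinearMap.ker (Matrix.toLin' (x : Mt) + i₀ • 1) := by
          rw [← hW]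
          exact ⟨b, hb, rfl⟩
        have h3 : (x : Mt) *ᵥ ((h : Mt) *ᵥ b) = -(i₀ • ((h : Mt) *ᵥ b)) := by
          have := h1
          simpa [LinearMap.mem_ker, add_eq_zero_iff_eq_neg] using this
        have h4 : (y : Mt) *ᵥ b = -(i₀ • b) := by
          have := hb
          simpa [LinearMap.mem_ker, add_eq_zero_iff_eq_neg] using this
        rw [h3, h4, Matrix.mulVec_neg, Matrix.mulVec_smul]
    have hmat : x * toGL h = toGL h * y := by
      apply Units.ext
      apply matrix_eq_of_mulVec_eq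
      intro v
      rw [Units.val_mul, Units.val_mul, toGL_val, ← Matrix.mulVec_mulVec, ← Matrix.mulVec_mulVec]
      exact hcomm v
    rw [mul_assoc, hmat, ← mul_assoc, inv_mul_cancel, one_mul]
  · have hstr : ∀ z : GL Ix F, z ∈ Cfsg.spGL d F → (z : Mt) * z = -1 → IsStr (sympBilin d F) (-1) (Matrix.toLin' (z : Mt)) := by
      intro z hz hz2
      refine ⟨fun v => ?_, fun u v => ?_⟩
      · rw [hsq z hz2, neg_smul, one_smul]
      · have hI : ∀ u v, sympBilin d F (Matrix.toLin' (z : Mt) u) (Matrix.toLin' (z : Mt) v) = sympBilin d F u v := fun u v => (mem_spGL_iff z).mp hz u v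
        rw [← hI (Matrix.toLin' (z : Mt) u) v, hsq z hz2, map_neg, LinearMap.neg_apply]
    obtain ⟨g, hg, hgc⟩ := exists_conj h2 hs (hstr x hx hx2) (hstr y hy hy2)
    refine ⟨g⁻¹, inv_mem hg, ?_⟩
    have hmat : g * x = y * g := by
      apply Units.ext
      apply matrix_eq_of_mulVec_eq
      intro v
      rw [Units.val_mul, Units.val_mul, ← Matrix.mulVec_mulVec, ← Matrix.mulVec_mulVec]
      exact hgc v
    rw [inv_inv, hmat, mul_assoc, mul_inv_cancel, mul_one]

end Invol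

section Symm

variable {F : Type u} [Field F]

/-- Involutive isometries of a symmetric form with prescribed `-1`-eigenspace dimension. -/
theorem exists_M (h2 : (2 : F) ≠ 0) {b : ℕ} {G : Matrix (Fin b) (Fin b) F} (hG : Gᵀ = G) {m : ℕ} (hm : m ≤ b) :
    ∃ M : Matrix (Fin b) (Fin b) F, M * M = 1 ∧ Mᵀ * G * M = G ∧ finrank F (LinearMap.ker (Matrix.toLin' (M + 1))) = m := by
  classical
  letI : Invertible (2 : F) := invertibleOfNonzero h2
  have hB : (Matrix.toBilin' G).IsSymm := by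
    refine ⟨fun x y => ?_⟩
    show Matrix.toBilin' G x y = Matrix.toBilin' G y x
    rw [Matrix.toBilin'_apply', Matrix.toBilin'_apply', Matrix.dotProduct_mulVec, dotProduct_comm, ← Matrix.mulVec_transpose, hG]
  obtain ⟨v, hv⟩ := LinearMap.BilinForm.exists_orthogonal_basis (LinearMap.BilinForm.isSymm_iff.mp hB)
  have hn : finrank F (Fin b → F) = b := by simp
  obtain ⟨S, -, hS⟩ := Finset.exists_subset_card_eq (s := (Finset.univ : Finset (Fin (finrank F (Fin b → F))))) (n := m) (by simp; omega)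
  let τ : Fin (finrank F (Fin b → F)) → F := fun j => if j ∈ S then -1 else 1
  have hττ : ∀ i, τ i * τ i = 1 := by
    intro i
    simp only [τ]
    split_ifs <;> ring
  let T : Module.End F (Fin b → F) := v.constr F (fun i => τ i • v i)
  have hTv : ∀ i, T (v i) = τ i • v i := fun i => by
    simp only [T]
    rw [Basis.constr_basis]
  let M : Matrix (Fin b) (Fin b) F := LinearMap.toMatrix' T
  have hM : Matrix.toLin' M = T := Matrix.toLin'_toMatrix' T
  refine ⟨M, ?_, ?_, ?_⟩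
  · apply Matrix.toLin'.injective
    rw [Matrix.toLin'_mul, hM, Matrix.toLin'_one]
    apply v.ext
    intro i
    simp only [LinearMap.comp_apply, LinearMap.id_apply]
    rw [hTv, map_smul, hTv, smul_smul, hττ, one_smul]
  · apply Matrix.toBilin'.injective
    rw [← Matrix.toBilin'_comp, hM]
    apply LinearMap.BilinForm.ext_basis v
    intro i j
    show Matrix.toBilin' G (T (v i)) (T (v j)) = _
    rw [hTv, hTv]
    by_cases hij : i = j
    · subst hij
      rw [map_smul, map_smul]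
      simp only [LinearMap.smul_apply, smul_eq_mul]
      rw [← mul_assoc, hττ, one_mul]
    · have h0 : Matrix.toBilin' G (v i) (v j) = 0 := hv hij
      rw [map_smul, map_smul]
      simp only [LinearMap.smul_apply, smul_eq_mul]
      rw [h0]
      simp
  · have h1 : Matrix.toLin' (M + 1) = T - (-1 : F) • 1 := by
      rw [map_add, hM, Matrix.toLin'_one]
      apply LinearMap.ext
      intro w
      simp
    rw [h1]
    have hconj : ∀ u, v.equivFun (T u) = Matrix.toLin' (Matrix.diagonal τ) (v.equivFun u) := by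
      intro u
      have h3 : (v.equivFun : (Fin b → F) →ₗ[F] _).comp T = (Matrix.toLin' (Matrix.diagonal τ)).comp (v.equivFun : (Fin b → F) →ₗ[F] _) := by
        apply v.ext
        intro i
        simp only [LinearMap.comp_apply, LinearEquiv.coe_coe]
        rw [hTv, map_smul, Matrix.toLin'_apply]
        funext j
        rw [Matrix.mulVec_diagonal]
        simp only [Basis.equivFun_apply, Basis.repr_self, Pi.smul_apply, smul_eq_mul, Finsupp.single_apply, Pi.single_apply] 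
        split_ifs with h <;> simp_all
      exact LinearMap.congr_fun h3 u
    rw [conj_sub_ker v.equivFun hconj (-1 : F)]
    have h5 := SlSp.cnt_eig τ (-1 : F)
    have hne : (1 : F) ≠ -1 := by
      intro h
      apply h2
      linear_combination h
    have h6 : (∑ j, if τ j = -1 then 1 else 0) = S.card := by
      rw [Finset.card_eq_sum_ones, ← Finset.sum_filter]
      congr 1
      ext j
      simp only [Finset.mem_filter, Finset.mem_univ, true_and, τ]
      split_ifs with h7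
      · simp [h7]
      · simp [h7, hne]
    rw [h6, hS] at h5
    exact h5

end Symm

section Coord

variable {F : Type u} [Field F] {d a b : ℕ}

local notation "Ix" => (Fin d ⊕ Fin d)
local notation "Mt" => Matrix (Fin d ⊕ Fin d) (Fin d ⊕ Fin d) F

theorem formOfGram_eq' {κ : Type} [Fintype κ] (G : Matrix κ κ F) (x y : κ → F) : Cfsg.Geo.formOfGram id G x y = x ⬝ᵥ (G *ᵥ y) := by
  simp only [Cfsg.Geo.formOfGram, dotProduct, Matrix.mulVec, Finset.mul_sum, id, mul_assoc]

/-- The symplectic form in the coordinates of a tensor structure. -/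
theorem form_coord {e : Ix ≃ Fin a × Fin b} {P : GL Ix F} {f₁ : (Fin a → F) → (Fin a → F) → F} {f₂ : (Fin b → F) → (Fin b → F) → F}
    (hS : Cfsg.Geo.IsTensorFormStructure id (Cfsg.sympForm d F) f₁ f₂ e P) :
    ∃ c : F, c ≠ 0 ∧ ∀ u v, Cfsg.sympForm d F u v = c * (coordL e P u ⬝ᵥ ((Cfsg.Geo.gramMatrix f₁ ⊗ₖ Cfsg.Geo.gramMatrix f₂) *ᵥ coordL e P v)) := by
  obtain ⟨c, hc, h⟩ := hS
  refine ⟨c, hc, fun u v => ?_⟩
  have hs : ∀ u : Ix → F, (P : Mt) *ᵥ ((coordL e P u) ∘ e) = u := fun u => (coordL e P).symm_apply_apply u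
  have h1 := h (coordL e P u) (coordL e P v)
  rw [hs, hs] at h1
  rw [h1, formOfGram_eq']

/-- The element of the tensor subgroup attached to a Kronecker matrix. -/
noncomputable def yOf (e : Ix ≃ Fin a × Fin b) (P : GL Ix F) (K : GL (Fin a × Fin b) F) : GL Ix F :=
  MulAut.conj P (Cfsg.Geo.glReindex e.symm K)

theorem yOf_coord (e : Ix ≃ Fin a × Fin b) (P : GL Ix F) (K : GL (Fin a × Fin b) F) (u : Ix → F) :
    coordL e P ((yOf e P K : Mt) *ᵥ u) = (K : Matrix (Fin a × Fin b) (Fin a × Fin b) F) *ᵥ coordL e P u :=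
  coordL_mulVec e P K u

theorem yOf_mem (e : Ix ≃ Fin a × Fin b) (P : GL Ix F) {K : GL (Fin a × Fin b) F} (hK : K ∈ Cfsg.Geo.kroneckerSubgroup a b F) :
    yOf e P K ∈ Cfsg.Geo.tensorProductSubgroup a b e P :=
  ⟨_, ⟨K, hK, rfl⟩, rfl⟩

theorem yOf_sp {e : Ix ≃ Fin a × Fin b} {P : GL Ix F} {G : Matrix (Fin a × Fin b) (Fin a × Fin b) F} {c : F}
    (hf : ∀ u v, Cfsg.sympForm d F u v = c * (coordL e P u ⬝ᵥ (G *ᵥ coordL e P v))) {K : GL (Fin a × Fin b) F}
    (hK : (K : Matrix (Fin a × Fin b) (Fin a × Fin b) F)ᵀ * G * K = G) : yOf e P K ∈ Cfsg.spGL d F := by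
  rw [mem_spGL_iff]
  intro u v
  rw [hf, hf, yOf_coord, yOf_coord]
  congr 1
  rw [Matrix.mulVec_mulVec, ← Matrix.vecMul_transpose, ← Matrix.dotProduct_mulVec, Matrix.mulVec_mulVec, ← mul_assoc, hK]

/-- The Kronecker product as an element of the general linear group. -/
def krGL (A : GL (Fin a) F) (B : GL (Fin b) F) : GL (Fin a × Fin b) F where
  val := (A : Matrix (Fin a) (Fin a) F) ⊗ₖ (B : Matrix (Fin b) (Fin b) F)
  inv := ((A⁻¹ : GL (Fin a) F) : Matrix (Fin a) (Fin a) F) ⊗ₖ ((B⁻¹ : GL (Fin b) F) : Matrix (Fin b) (Fin b) F)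
  val_inv := by
    rw [← Matrix.mul_kronecker_mul, ← Units.val_mul, ← Units.val_mul, mul_inv_cancel, mul_inv_cancel, Units.val_one, Units.val_one, Matrix.one_kronecker_one]
  inv_val := by
    rw [← Matrix.mul_kronecker_mul, ← Units.val_mul, ← Units.val_mul, inv_mul_cancel, inv_mul_cancel, Units.val_one, Units.val_one, Matrix.one_kronecker_one]

theorem krGL_mem (A : GL (Fin a) F) (B : GL (Fin b) F) : krGL A B ∈ Cfsg.Geo.kroneckerSubgroup a b F := ⟨A, B, rfl⟩

end Coord

section Conj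

variable {F : Type u} [Field F] [Fintype F] {d b : ℕ}

local notation "Ix" => (Fin d ⊕ Fin d)
local notation "Mt" => Matrix (Fin d ⊕ Fin d) (Fin d ⊕ Fin d) F

/-- Elements with scalar square can be conjugated into the tensor subgroup of a product with a
two-dimensional symplectic space. -/
theorem conj_into (h2 : (2 : F) ≠ 0) (hbd : b = d) {e : Ix ≃ Fin 2 × Fin b} {P : GL Ix F}
    {f₁ : (Fin 2 → F) → (Fin 2 → F) → F} {f₂ : (Fin b → F) → (Fin b → F) → F}
    (hf₁ : Cfsg.Geo.IsSymplecticForm f₁) (hf₂ : Cfsg.Geo.IsSymmetricForm f₂)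
    (hS : Cfsg.Geo.IsTensorFormStructure id (Cfsg.sympForm d F) f₁ f₂ e P)
    {x : GL Ix F} (hx : x ∈ Cfsg.spGL d F) {z : F} (hz : ((x ^ 2 : GL Ix F) : Mt) = z • 1) (hd : 0 < d) :
    ∃ g ∈ Cfsg.spGL d F, g⁻¹ * x * g ∈ Cfsg.Geo.tensorProductSubgroup 2 b e P := by
  classical
  obtain ⟨c, hc, hf⟩ := form_coord hS
  have hxx : (x : Mt) * x = z • 1 := by
    rw [← hz, Units.val_pow_eq_pow_val, _root_.sq]
  have hIx : ∀ u v, sympBilin d F (Matrix.toLin' (x : Mt) u) (Matrix.toLin' (x : Mt) v) = sympBilin d F u v := fun u v => (mem_spGL_iff x).mp hx u v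
  have hN : (sympBilin d F).Nondegenerate := sympBilin_nondegenerate
  have hA : (sympBilin d F).IsAlt := sympBilin_isAlt
  have hzz : z = 1 ∨ z = -1 := by
    have h1 : z * z = 1 := by
      by_contra hne
      have h3 : ∀ u v, (z * z - 1) * sympBilin d F u v = 0 := by
        intro u v
        have h4 := hIx (Matrix.toLin' (x : Mt) u) (Matrix.toLin' (x : Mt) v)
        have h5 : ∀ w, Matrix.toLin' (x : Mt) (Matrix.toLin' (x : Mt) w) = z • w := by
          intro w
          simp only [Matrix.toLin'_apply, Matrix.mulVec_mulVec]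
          rw [hxx, Matrix.smul_mulVec, Matrix.one_mulVec]
        rw [h5, h5, hIx, map_smul, map_smul] at h4
        simp only [LinearMap.smul_apply, smul_eq_mul] at h4
        linear_combination h4
      have h4 : ∀ u v, sympBilin d F u v = 0 := fun u v => (mul_eq_zero.mp (h3 u v)).resolve_left (sub_ne_zero.mpr hne)
      let i₀ : Fin d := ⟨0, hd⟩
      have h5 : (Pi.single (Sum.inl i₀) (1 : F) : Ix → F) = 0 := hN.1 _ (fun w => h4 _ _)
      have h6 := congrFun h5 (Sum.inl i₀)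
      simp at h6
    have h3 : (z - 1) * (z + 1) = 0 := by linear_combination h1
    rcases mul_eq_zero.mp h3 with h | h
    · exact Or.inl (sub_eq_zero.mp h)
    · exact Or.inr (eq_neg_of_add_eq_zero_left h)
  rcases hzz with rfl | rfl
  · -- involutions
    rw [one_smul] at hxx
    have hr2 : ((2 : ℕ) : F) ≠ 0 := by exact_mod_cast h2
    have hTx2 : (Matrix.toLin' (x : Mt)) ^ 2 = 1 := by
      rw [← Matrix.toLin'_pow, _root_.sq, hxx, Matrix.toLin'_one]
      rfl
    have hNx : Nd (sympBilin d F) (Ker (Matrix.toLin' (x : Mt)) 2) := fun u hu h0 => ker_nondeg hA hN hIx hr2 hTx2 hu h0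
    obtain ⟨k, hk⟩ := hNx.even hA
    have hkd : k ≤ b := by
      have h1 := Submodule.finrank_le (Ker (Matrix.toLin' (x : Mt)) 2)
      rw [Module.finrank_fintype_fun_eq_card, Fintype.card_sum, Fintype.card_fin] at h1
      omega
    have hG : (Cfsg.Geo.gramMatrix f₂)ᵀ = Cfsg.Geo.gramMatrix f₂ := by
      ext i j
      simp only [Matrix.transpose_apply, Cfsg.Geo.gramMatrix]
      exact hf₂.symm _ _
    obtain ⟨M, hMM, hMG, hMk⟩ := exists_M h2 hG hkd
    let B : GL (Fin b) F := ⟨M, M, hMM, hMM⟩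
    let K : GL (Fin 2 × Fin b) F := krGL 1 B
    have hKval : (K : Matrix (Fin 2 × Fin b) (Fin 2 × Fin b) F) = (1 : Matrix (Fin 2) (Fin 2) F) ⊗ₖ M := rfl
    have hKG : (K : Matrix (Fin 2 × Fin b) (Fin 2 × Fin b) F)ᵀ * (Cfsg.Geo.gramMatrix f₁ ⊗ₖ Cfsg.Geo.gramMatrix f₂) * K = Cfsg.Geo.gramMatrix f₁ ⊗ₖ Cfsg.Geo.gramMatrix f₂ := by
      rw [hKval, ← Matrix.kroneckerMap_transpose, Matrix.transpose_one, ← Matrix.mul_kronecker_mul, ← Matrix.mul_kronecker_mul, hMG, Matrix.one_mul, Matrix.mul_one]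
    have hKK : (K : Matrix (Fin 2 × Fin b) (Fin 2 × Fin b) F) * K = 1 := by
      rw [hKval, ← Matrix.mul_kronecker_mul, hMM, Matrix.one_mul, Matrix.one_kronecker_one]
    have hym := yOf_sp hf hKG
    have hyT := yOf_mem e P (krGL_mem 1 B)
    have hyc : ∀ v, coordL e P (Matrix.toLin' (yOf e P K : Mt) v) = Matrix.toLin' (K : Matrix (Fin 2 × Fin b) (Fin 2 × Fin b) F) (coordL e P v) := fun v => yOf_coord e P K v
    have hyy : (yOf e P K : Mt) * (yOf e P K : Mt) = 1 := by
      apply matrix_eq_of_mulVec_eq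
      intro v
      apply (coordL e P).injective
      rw [← Matrix.mulVec_mulVec, yOf_coord, yOf_coord, Matrix.mulVec_mulVec, hKK, Matrix.one_mulVec, Matrix.one_mulVec]
    have hdim : finrank F (Ker (Matrix.toLin' (x : Mt)) 2) = finrank F (Ker (Matrix.toLin' (yOf e P K : Mt)) 2) := by
      have h1 : finrank F (Ker (Matrix.toLin' (yOf e P K : Mt)) 2) = finrank F (Ker (Matrix.toLin' (K : Matrix (Fin 2 × Fin b) (Fin 2 × Fin b) F)) 2) :=
        conj_ker (coordL e P) hyc (Phi F 2)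
      have h3 : finrank F (Ker (Matrix.toLin' (K : Matrix (Fin 2 × Fin b) (Fin 2 × Fin b) F)) 2) = 2 * k := by
        have h4 : Ker (Matrix.toLin' (K : Matrix (Fin 2 × Fin b) (Fin 2 × Fin b) F)) 2 = LinearMap.ker (Matrix.toLin' ((1 : Matrix (Fin 2) (Fin 2) F) ⊗ₖ (M + 1))) := by
          unfold Ker
          rw [aeval_Phi_two, hKval, Matrix.kroneckerMap_add_right (fun a b => a * b) mul_add, Matrix.one_kronecker_one, map_add, Matrix.toLin'_one]
          rfl
        rw [h4, Cfsg.Agent.Lib.Classical.Elusive.Tensor.finrank_ker_one_kron, hMk]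
      rw [h1, h3, hk]
      ring
    obtain ⟨g, hg, hgy⟩ := invol_conj h2 hx hym hxx hyy hdim
    exact ⟨g, hg, by rw [hgy]; exact hyT⟩
  · -- square minus one
    rw [neg_smul, one_smul] at hxx
    have hG₁ : Cfsg.Geo.gramMatrix f₁ 0 0 = 0 := hf₁.alternating _
    have hG₂ : Cfsg.Geo.gramMatrix f₁ 1 1 = 0 := hf₁.alternating _
    have hG₃ : Cfsg.Geo.gramMatrix f₁ 1 0 = - Cfsg.Geo.gramMatrix f₁ 0 1 := hf₁.skew _ _
    let X₀ : Matrix (Fin 2) (Fin 2) F := !![0, -1; 1, 0]
    have hX₀ : X₀ * X₀ = -1 := by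
      ext i j
      fin_cases i <;> fin_cases j <;> simp [X₀, Matrix.mul_apply, Fin.sum_univ_two]
    have hX₀inv : X₀ * (-X₀) = 1 := by
      rw [Matrix.mul_neg, hX₀, neg_neg]
    have hX₀inv' : (-X₀) * X₀ = 1 := by
      rw [Matrix.neg_mul, hX₀, neg_neg]
    let A : GL (Fin 2) F := ⟨X₀, -X₀, hX₀inv, hX₀inv'⟩
    let K : GL (Fin 2 × Fin b) F := krGL A 1
    have hKval : (K : Matrix (Fin 2 × Fin b) (Fin 2 × Fin b) F) = X₀ ⊗ₖ (1 : Matrix (Fin b) (Fin b) F) := rfl
    have hX₀G : X₀ᵀ * Cfsg.Geo.gramMatrix f₁ * X₀ = Cfsg.Geo.gramMatrix f₁ := by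
      ext i j
      fin_cases i <;> fin_cases j <;> simp [X₀, Matrix.mul_apply, Fin.sum_univ_two, hG₁, hG₂, hG₃]
    have hKG : (K : Matrix (Fin 2 × Fin b) (Fin 2 × Fin b) F)ᵀ * (Cfsg.Geo.gramMatrix f₁ ⊗ₖ Cfsg.Geo.gramMatrix f₂) * K = Cfsg.Geo.gramMatrix f₁ ⊗ₖ Cfsg.Geo.gramMatrix f₂ := by
      rw [hKval, ← Matrix.kroneckerMap_transpose, Matrix.transpose_one, ← Matrix.mul_kronecker_mul, ← Matrix.mul_kronecker_mul, hX₀G, Matrix.one_mul, Matrix.mul_one]
    have hKK : (K : Matrix (Fin 2 × Fin b) (Fin 2 × Fin b) F) * K = -1 := by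
      rw [hKval, ← Matrix.mul_kronecker_mul, hX₀, Matrix.one_mul, show (-1 : Matrix (Fin 2) (Fin 2) F) = (-1 : F) • 1 by simp,
        Matrix.smul_kronecker, Matrix.one_kronecker_one]
      simp
    have hym := yOf_sp hf hKG
    have hyT := yOf_mem e P (krGL_mem A 1)
    have hyy : (yOf e P K : Mt) * (yOf e P K : Mt) = -1 := by
      apply matrix_eq_of_mulVec_eq
      intro v
      apply (coordL e P).injective
      rw [← Matrix.mulVec_mulVec, yOf_coord, yOf_coord, Matrix.mulVec_mulVec, hKK, Matrix.neg_mulVec, Matrix.neg_mulVec, Matrix.one_mulVec, Matrix.one_mulVec, map_neg]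
    obtain ⟨g, hg, hgy⟩ := neg_conj h2 hx hym hxx hyy
    exact ⟨g, hg, by rw [hgy]; exact hyT⟩

end Conj

end Cfsg.Agent.Lib.Classical.Elusive.TensorSpConj
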