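import Mathlib
import Cfsg.Agent.Lib.Classical.Elusive.TensorSpConj
import Cfsg.Agent.Lib.Classical.Elusive.SpImprimMain
import Cfsg.Agent.Lib.Classical.Elusive.SpHermU
import Cfsg.Agent.Lib.Classical.Elusive.SpHermNo

/-!
# Elements of prime order of `PSp_{2d}(q)`, `q` odd, and tensor decompositions `Sp_a(q) ⊗ O_b(q)`
-/

set_option autoImplicit false
set_option linter.unusedSectionVars false
set_option linter.unusedSimpArgs false
set_option linter.unusedVariables false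
set_option linter.style.haveILetI false

namespace Cfsg.Agent.Lib.Classical.Elusive.TensorSpMain

open Polynomial Module Matrix
open scoped Kronecker
open Cfsg.Agent.Lib.Classical.Elusive.Inv Cfsg.Agent.Lib.Classical.Elusive.SpCore
  Cfsg.Agent.Lib.Classical.Elusive.SpHerm Cfsg.Agent.Lib.Classical.Elusive.SpHermMain
  Cfsg.Agent.Lib.Classical.Elusive.TensorMain Cfsg.Agent.Lib.Classical.Elusive.Tensor
  Cfsg.Agent.Lib.Classical.Elusive.TensorSp Cfsg.Agent.Lib.Classical.Elusive.TensorSpConj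
  Cfsg.Agent.Lib.Classical.Elusive.SpHermNo
open Cfsg.Agent.Lib.Classical.Symp.Basic Cfsg.Agent.Lib.Classical.Symp.SpGL
open Cfsg.Agent.Lib.Classical.Asch.Gram
open Cfsg.Agent.Lib.Linalg.Bridge

universe u

section Generic

variable {F : Type u} [Field F]

open _root_.Classical in
/-- Counting eigenvalues of a diagonal matrix over an arbitrary index type. -/
theorem cnt_eig' {κ : Type*} [Fintype κ] [DecidableEq κ] (w : κ → F) (a : F) :
    finrank F (LinearMap.ker (Matrix.toLin' (Matrix.diagonal w) - a • (1 : Module.End F (κ → F)))) = ∑ j, if w j = a then 1 else 0 := by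
  classical
  have h1 : Matrix.toLin' (Matrix.diagonal w) - a • (1 : Module.End F (κ → F)) =
      Matrix.toLin' (Matrix.diagonal fun j => w j - a) := by
    ext j k
    simp [Matrix.diagonal_apply, Pi.single_apply, Matrix.mulVec_diagonal]
    split_ifs <;> simp_all
  have h2 := LinearMap.finrank_range_add_finrank_ker (Matrix.toLin' (Matrix.diagonal fun j => w j - a))
  have h3 : finrank F (LinearMap.range (Matrix.toLin' (Matrix.diagonal fun j => w j - a))) =
      Fintype.card {j // w j - a ≠ 0} := by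
    rw [← Matrix.rank_diagonal]
    rfl
  rw [h1]
  rw [h3, Module.finrank_fintype_fun_eq_card] at h2
  have h4 : Fintype.card {j // w j - a ≠ 0} + Fintype.card {j // w j = a} = Fintype.card κ := by
    have h5 : Fintype.card {j // w j - a ≠ 0} = Fintype.card {j // ¬ (w j = a)} := by
      apply Fintype.card_congr
      exact Equiv.subtypeEquivRight fun j => by rw [Ne, sub_eq_zero]
    rw [h5, Fintype.card_subtype_compl]
    have h6 : Fintype.card {j // w j = a} ≤ Fintype.card κ := Fintype.card_subtype_le _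
    omega
  have h5 : ∑ j, (if w j = a then 1 else 0) = Fintype.card {j // w j = a} := by
    rw [Fintype.card_subtype, Finset.card_filter]
  rw [h5]
  omega

variable {V : Type*} [AddCommGroup V] [Module F V] [FiniteDimensional F V] {a b : ℕ}

theorem rank_transport {T : Module.End F V} {A : Matrix (Fin a) (Fin a) F} {B : Matrix (Fin b) (Fin b) F}
    (φ : V ≃ₗ[F] (Fin a × Fin b → F)) (h : ∀ v, φ (T v) = Matrix.toLin' (A ⊗ₖ B) (φ v)) :
    finrank F (LinearMap.range (Matrix.toLin' (A ⊗ₖ B) - 1)) = finrank F (LinearMap.range (T - 1)) := by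
  have h1 := finrank_range_add_ker (Matrix.toLin' (A ⊗ₖ B) - 1)
  have h3 := conj_sub_ker φ h (1 : F)
  rw [one_smul, one_smul] at h3
  have h4 := LinearMap.finrank_range_add_finrank_ker (T - 1)
  rw [φ.finrank_eq] at h4
  have h5 : finrank F (Fin a × Fin b → F) = a * b := by simp
  omega

theorem scalar_transport {T : Module.End F V} {A : Matrix (Fin a) (Fin a) F} {B : Matrix (Fin b) (Fin b) F}
    (φ : V ≃ₗ[F] (Fin a × Fin b → F)) (h : ∀ v, φ (T v) = Matrix.toLin' (A ⊗ₖ B) (φ v)) {c : F} (hc : A ⊗ₖ B = c • 1) : T = c • 1 := by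
  apply LinearMap.ext
  intro v
  apply φ.injective
  rw [h, hc, map_smul, Matrix.toLin'_one, LinearMap.smul_apply, LinearMap.smul_apply, map_smul]
  rfl

end Generic

section Diag

variable {F : Type u} [Field F] {d : ℕ}

local notation "Ix" => (Fin d ⊕ Fin d)
local notation "Mt" => Matrix (Fin d ⊕ Fin d) (Fin d ⊕ Fin d) F

/-- The entries of a diagonal element moving a hyperbolic plane. -/
def dgW (k₀ : Fin d) (l : F) : Ix → F :=
  Sum.elim (fun k => if k = k₀ then l else 1) (fun k => if k = k₀ then l⁻¹ else 1)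

/-- A diagonal symplectic element. -/
theorem exists_dg (k₀ : Fin d) {l : F} (hl : l ≠ 0) :
    ∃ x : GL Ix F, x ∈ Cfsg.spGL d F ∧ (x : Mt) = Matrix.diagonal (dgW k₀ l) := by
  classical
  have h1 : ∀ j, dgW k₀ l j * dgW k₀ l⁻¹ j = 1 := by
    rintro (k | k)
    · simp only [dgW, Sum.elim_inl]
      split_ifs <;> simp [hl]
    · simp only [dgW, Sum.elim_inr]
      split_ifs <;> simp [hl]
  have h3 : ∀ j, dgW k₀ l⁻¹ j * dgW k₀ l j = 1 := fun j => by rw [mul_comm, h1]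
  let x : GL Ix F := ⟨Matrix.diagonal (dgW k₀ l), Matrix.diagonal (dgW k₀ l⁻¹),
    by rw [Matrix.diagonal_mul_diagonal]; simp only [h1]; exact Matrix.diagonal_one,
    by rw [Matrix.diagonal_mul_diagonal]; simp only [h3]; exact Matrix.diagonal_one⟩
  refine ⟨x, ?_, rfl⟩
  rw [mem_spGL_iff]
  intro u v
  show Cfsg.sympForm d F (Matrix.diagonal (dgW k₀ l) *ᵥ u) (Matrix.diagonal (dgW k₀ l) *ᵥ v) = _
  rw [sympForm_apply, sympForm_apply]
  refine Finset.sum_congr rfl fun i _ => ?_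
  simp only [Matrix.mulVec_diagonal]
  have h5 : dgW k₀ l (Sum.inr i) * dgW k₀ l (Sum.inl i) = 1 := by
    simp only [dgW, Sum.elim_inl, Sum.elim_inr]
    split_ifs <;> simp [hl]
  linear_combination (u (Sum.inr i) * v (Sum.inl i) - u (Sum.inl i) * v (Sum.inr i)) * h5

theorem dg_pow (k₀ : Fin d) {l : F} {r : ℕ} (hl : l ≠ 0) (hr : l ^ r = 1) : (Matrix.diagonal (dgW k₀ l)) ^ r = 1 := by
  classical
  rw [Matrix.diagonal_pow]
  have : dgW k₀ l ^ r = fun _ => 1 := by
    funext j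
    rcases j with k | k
    · simp only [dgW, Pi.pow_apply, Sum.elim_inl]
      split_ifs <;> simp [hr]
    · simp only [dgW, Pi.pow_apply, Sum.elim_inr]
      split_ifs <;> simp [hr]
  rw [this]
  exact Matrix.diagonal_one

theorem sum_ne (k₀ : Fin d) : (∑ k : Fin d, if k = k₀ then 0 else 1) = d - 1 := by
  classical
  have h1 : ∀ k : Fin d, (if k = k₀ then 0 else 1) = if k ≠ k₀ then 1 else 0 := by
    intro k
    by_cases h : k = k₀ <;> simp [h]
  simp only [h1]
  rw [Finset.sum_boole]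
  simp [Finset.filter_ne', Finset.card_erase_of_mem]

theorem eig_dg_one (hd : 0 < d) (k₀ : Fin d) {l : F} (hl : l ≠ 1) (hl' : l⁻¹ ≠ 1) :
    finrank F (LinearMap.ker (Matrix.toLin' (Matrix.diagonal (dgW k₀ l)) - (1 : F) • (1 : Module.End F (Ix → F)))) + 2 = 2 * d := by
  classical
  rw [cnt_eig', Fintype.sum_sum_type]
  have h1 : ∀ k : Fin d, (if dgW k₀ l (Sum.inl k) = 1 then 1 else 0) = if k = k₀ then 0 else 1 := by
    intro k
    simp only [dgW, Sum.elim_inl]
    by_cases h : k = k₀ <;> simp [h, hl]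
  have h3 : ∀ k : Fin d, (if dgW k₀ l (Sum.inr k) = 1 then 1 else 0) = if k = k₀ then 0 else 1 := by
    intro k
    simp only [dgW, Sum.elim_inr]
    by_cases h : k = k₀ <;> simp [h, hl']
  simp only [h1, h3, sum_ne]
  omega

theorem eig_dg_l (k₀ : Fin d) {l : F} (hl : l ≠ 1) (hl' : l⁻¹ ≠ l) :
    finrank F (LinearMap.ker (Matrix.toLin' (Matrix.diagonal (dgW k₀ l)) - l • (1 : Module.End F (Ix → F)))) = 1 := by
  classical
  rw [cnt_eig', Fintype.sum_sum_type]
  have h1 : ∀ k : Fin d, (if dgW k₀ l (Sum.inl k) = l then 1 else 0) = if k = k₀ then 1 else 0 := by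
    intro k
    simp only [dgW, Sum.elim_inl]
    by_cases h : k = k₀ <;> simp [h, hl.symm]
  have h3 : ∀ k : Fin d, (if dgW k₀ l (Sum.inr k) = l then 1 else 0) = 0 := by
    intro k
    simp only [dgW, Sum.elim_inr]
    by_cases h : k = k₀ <;> simp [h, hl', hl.symm]
  simp only [h1, h3]
  simp

theorem dg_nonscalar {k₀ k₁ : Fin d} (h : k₁ ≠ k₀) {l : F} (hl : l ≠ 1) (z : F) :
    Matrix.diagonal (dgW k₀ l) ≠ z • (1 : Mt) := by
  intro hz
  have h1 := congrFun (congrFun hz (Sum.inl k₀)) (Sum.inl k₀)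
  have h3 := congrFun (congrFun hz (Sum.inl k₁)) (Sum.inl k₁)
  simp only [Matrix.diagonal_apply_eq, Matrix.smul_apply, Matrix.one_apply_eq, smul_eq_mul, mul_one, dgW, Sum.elim_inl, if_true, if_neg h] at h1 h3
  exact hl (h1.trans h3.symm)

theorem gt_nonscalar {w : Ix → F} (hw : w ≠ 0) (z : F) :
    ((gt w (1 : F) : GL Ix F) : Mt) ≠ z • (1 : Mt) := by
  intro hz
  obtain ⟨v, hv⟩ := exists_sympForm_ne hw
  have h1 : ((gt w (1 : F) : GL Ix F) : Mt) *ᵥ w = z • w := by
    rw [hz, Matrix.smul_mulVec, Matrix.one_mulVec]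
  have h3 : ((gt w (1 : F) : GL Ix F) : Mt) *ᵥ v = z • v := by
    rw [hz, Matrix.smul_mulVec, Matrix.one_mulVec]
  have hA : (sympBilin d F).IsAlt := sympBilin_isAlt
  rw [gt_mulVec, show Cfsg.sympForm d F w w = 0 from hA w, mul_zero, zero_smul, add_zero] at h1
  have hz1 : z = 1 := by
    have : (z - 1) • w = 0 := by rw [sub_smul, ← h1, one_smul, sub_self]
    rcases smul_eq_zero.mp this with h | h
    · exact sub_eq_zero.mp h
    · exact absurd h hw
  rw [hz1, one_smul, gt_mulVec, add_eq_left, smul_eq_zero, one_mul] at h3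
  rcases h3 with h | h
  · exact hv h
  · exact hw h

theorem gt_rank (w : Ix → F) :
    finrank F (LinearMap.range (Matrix.toLin' ((gt w (1 : F) : GL Ix F) : Mt) - 1)) ≤ 1 := by
  have h1 : LinearMap.range (Matrix.toLin' ((gt w (1 : F) : GL Ix F) : Mt) - 1) ≤ Submodule.span F {w} := by
    rintro _ ⟨v, rfl⟩
    rw [Submodule.mem_span_singleton]
    refine ⟨1 * Cfsg.sympForm d F v w, ?_⟩
    simp only [LinearMap.sub_apply, Matrix.toLin'_apply, Module.End.one_apply]
    rw [gt_mulVec, add_sub_cancel_left]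
  exact (Submodule.finrank_mono h1).trans ((finrank_span_le_card _).trans (by simp))

theorem gt_pow [Fintype F] {p : ℕ} [CharP F p] (w : Ix → F) :
    ((gt w (1 : F) ^ p : GL Ix F) : Mt) = 1 := by
  have hpow : ∀ n : ℕ, (gt w (1 : F)) ^ n = gt w (n : F) := by
    intro n
    induction n with
    | zero => simp [gt_zero_right]
    | succ n ih => rw [pow_succ, ih, gt_mul]; push_cast; rfl
  rw [hpow, CharP.cast_eq_zero, gt_zero_right]
  rfl

end Diag

section Data

variable {F : Type u} [Field F] {d a b : ℕ}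

local notation "Ix" => (Fin d ⊕ Fin d)
local notation "Mt" => Matrix (Fin d ⊕ Fin d) (Fin d ⊕ Fin d) F

/-- The Kronecker form of an element of the tensor subgroup. -/
theorem coord_of_mem {e : Ix ≃ Fin a × Fin b} {P y : GL Ix F} (h : y ∈ Cfsg.Geo.tensorProductSubgroup a b e P) :
    ∃ (A : GL (Fin a) F) (B : GL (Fin b) F), ∀ v, coordL e P (Matrix.toLin' (y : Mt) v) =
      Matrix.toLin' ((A : Matrix (Fin a) (Fin a) F) ⊗ₖ (B : Matrix (Fin b) (Fin b) F)) (coordL e P v) := by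
  obtain ⟨_, ⟨k, ⟨A, B, hk⟩, rfl⟩, hxg⟩ := h
  refine ⟨A, B, fun v => ?_⟩
  have h1 := coordL_mulVec e P k v
  rw [hk] at h1
  have h2 : ((MulAut.conj P) (Cfsg.Geo.glReindex e.symm k) : GL Ix F) = y := hxg
  rw [h2] at h1
  exact h1

theorem conj_toLin (g x : GL Ix F) (v : Ix → F) :
    equivOfGL g⁻¹ (Matrix.toLin' (x : Mt) v) = Matrix.toLin' ((g⁻¹ * x * g : GL Ix F) : Mt) (equivOfGL g⁻¹ v) := by
  simp only [equivOfGL_apply, Matrix.toLin'_apply, Matrix.mulVec_mulVec]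
  rw [← Units.val_mul, ← Units.val_mul, mul_assoc, mul_assoc, mul_inv_cancel, mul_one, Units.val_mul]

/-- The structure commuting with `1 ⊗ M`. -/
theorem exists_str_of_one_kron {e : Ix ≃ Fin 2 × Fin b} {P : GL Ix F} {f₁ : (Fin 2 → F) → (Fin 2 → F) → F} {G₂ : Matrix (Fin b) (Fin b) F}
    (hf₁ : Cfsg.Geo.IsSymplecticForm f₁) {c : F}
    (hf : ∀ u v, Cfsg.sympForm d F u v = c * (coordL e P u ⬝ᵥ ((Cfsg.Geo.gramMatrix f₁ ⊗ₖ G₂) *ᵥ coordL e P v)))
    (ν : F) {T : Module.End F (Ix → F)} {M : Matrix (Fin b) (Fin b) F}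
    (hT : ∀ v, coordL e P (T v) = Matrix.toLin' ((1 : Matrix (Fin 2) (Fin 2) F) ⊗ₖ M) (coordL e P v)) :
    ∃ ι : Module.End F (Ix → F), IsStr (sympBilin d F) ν ι ∧ ∀ v, T (ι v) = ι (T v) := by
  classical
  have hG₁ : Cfsg.Geo.gramMatrix f₁ 0 0 = 0 := hf₁.alternating _
  have hG₂ : Cfsg.Geo.gramMatrix f₁ 1 1 = 0 := hf₁.alternating _
  have hG₃ : Cfsg.Geo.gramMatrix f₁ 1 0 = - Cfsg.Geo.gramMatrix f₁ 0 1 := hf₁.skew _ _
  let X : Matrix (Fin 2) (Fin 2) F := !![0, ν; 1, 0]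
  have hX : X * X = ν • 1 := by
    ext i j
    fin_cases i <;> fin_cases j <;> simp [X, Matrix.mul_apply, Fin.sum_univ_two]
  have hXG : Xᵀ * Cfsg.Geo.gramMatrix f₁ = - (Cfsg.Geo.gramMatrix f₁ * X) := by
    ext i j
    fin_cases i <;> fin_cases j <;> simp [X, Matrix.mul_apply, Fin.sum_univ_two, hG₁, hG₂, hG₃] <;> ring
  let K : Matrix (Fin 2 × Fin b) (Fin 2 × Fin b) F := X ⊗ₖ (1 : Matrix (Fin b) (Fin b) F)
  have hKK : K * K = ν • 1 := by
    simp only [K]
    rw [← Matrix.mul_kronecker_mul, hX, Matrix.one_mul, Matrix.smul_kronecker, Matrix.one_kronecker_one]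
  have hKG : Kᵀ * (Cfsg.Geo.gramMatrix f₁ ⊗ₖ G₂) = - ((Cfsg.Geo.gramMatrix f₁ ⊗ₖ G₂) * K) := by
    simp only [K]
    rw [← Matrix.kroneckerMap_transpose, Matrix.transpose_one, ← Matrix.mul_kronecker_mul, ← Matrix.mul_kronecker_mul, hXG, Matrix.one_mul, Matrix.mul_one]
    ext s t
    simp [Matrix.kroneckerMap_apply]
  let C := coordL e P
  let ι : Module.End F (Ix → F) := (C.symm : (Fin 2 × Fin b → F) →ₗ[F] (Ix → F)) ∘ₗ Matrix.toLin' K ∘ₗ (C : (Ix → F) →ₗ[F] (Fin 2 × Fin b → F))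
  have hι : ∀ v, C (ι v) = K *ᵥ C v := by
    intro v
    simp [ι, Matrix.toLin'_apply]
  refine ⟨ι, ⟨fun v => ?_, fun u v => ?_⟩, fun v => ?_⟩
  · apply C.injective
    rw [hι, hι, Matrix.mulVec_mulVec, hKK, map_smul, Matrix.smul_mulVec, Matrix.one_mulVec]
  · show Cfsg.sympForm d F (ι u) v = - Cfsg.sympForm d F u (ι v)
    rw [hf, hf, hι, hι, Matrix.mulVec_mulVec, ← mul_neg]
    congr 1
    rw [← Matrix.vecMul_transpose, ← Matrix.dotProduct_mulVec, Matrix.mulVec_mulVec, hKG, Matrix.neg_mulVec, dotProduct_neg]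
  · apply C.injective
    rw [hT, hι, hι, hT, Matrix.toLin'_apply, Matrix.toLin'_apply, Matrix.mulVec_mulVec, Matrix.mulVec_mulVec]
    congr 1
    simp only [K]
    rw [← Matrix.mul_kronecker_mul, ← Matrix.mul_kronecker_mul, Matrix.one_mul, Matrix.mul_one, Matrix.one_mul, Matrix.mul_one]

end Data

section Statement

variable {F : Type u} [Field F] [Fintype F]

theorem main {p : ℕ} [Fact p.Prime] [CharP F p] {q : ℕ} (hq : Fintype.card F = q)
    (hodd : Odd q) (d : ℕ) (hd : 2 ≤ d) (a b : ℕ) (hab : 2 * d = a * b) (ha : Even a) (ha2 : 2 ≤ a) (hb : 3 ≤ b)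
    (e : (Fin d ⊕ Fin d) ≃ Fin a × Fin b) (P : GL (Fin d ⊕ Fin d) F)
    (f₁ : (Fin a → F) → (Fin a → F) → F) (f₂ : (Fin b → F) → (Fin b → F) → F)
    (hf₁ : Cfsg.Geo.IsSymplecticForm f₁) (hf₂ : Cfsg.Geo.IsSymmetricForm f₂)
    (hS : Cfsg.Geo.IsTensorFormStructure id (Cfsg.sympForm d F) f₁ f₂ e P)
    (r : ℕ) [Fact r.Prime]
    (hΩ : r ∣ (Cfsg.Geo.tensorProductSubgroup a b e P).relIndex (Cfsg.spGL d F)) :
    (∀ x ∈ Cfsg.spGL d F, (∃ z : F, ((x ^ r : GL (Fin d ⊕ Fin d) F) : Matrix (Fin d ⊕ Fin d) (Fin d ⊕ Fin d) F) = z • (1 : Matrix (Fin d ⊕ Fin d) (Fin d ⊕ Fin d) F)) →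
      (∀ z : F, (x : Matrix (Fin d ⊕ Fin d) (Fin d ⊕ Fin d) F) ≠ z • (1 : Matrix (Fin d ⊕ Fin d) (Fin d ⊕ Fin d) F)) →
      ∃ g ∈ Cfsg.spGL d F, g⁻¹ * x * g ∈ Cfsg.Geo.tensorProductSubgroup a b e P) ↔ (r = 2 ∧ a = 2) := by
  classical
  subst hq
  have hr : r.Prime := Fact.out
  have hdpos : 0 < d := by omega
  have h2 : (2 : F) ≠ 0 := by
    intro h0
    have hp2 : p ∣ 2 := (CharP.cast_eq_zero_iff F p 2).mp (by exact_mod_cast h0)
    have hp : p = 2 := (Nat.prime_dvd_prime_iff_eq Fact.out Nat.prime_two).mp hp2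
    obtain ⟨n, hpp, hn⟩ := FiniteField.card F p
    rw [hn, hp] at hodd
    exact (Nat.not_even_iff_odd.mpr hodd) ((even_two.pow_of_ne_zero n.ne_zero))
  have hrc : ringChar F ≠ 2 := by
    intro hc
    apply h2
    have := ringChar.Nat.cast_ringChar (R := F)
    rwa [hc] at this
  have hA : (sympBilin d F).IsAlt := sympBilin_isAlt
  have hN : (sympBilin d F).Nondegenerate := sympBilin_nondegenerate
  have hdimV : finrank F (Fin d ⊕ Fin d → F) = 2 * d := by
    rw [Module.finrank_fintype_fun_eq_card, Fintype.card_sum, Fintype.card_fin]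
    ring
  constructor
  · intro H
    -- data for elements of order `r`
    have key : ∀ x ∈ Cfsg.spGL d F, ∀ z : F, ((x ^ r : GL (Fin d ⊕ Fin d) F) : Matrix (Fin d ⊕ Fin d) (Fin d ⊕ Fin d) F) = z • (1 : Matrix (Fin d ⊕ Fin d) (Fin d ⊕ Fin d) F) →
        (∀ z : F, (x : Matrix (Fin d ⊕ Fin d) (Fin d ⊕ Fin d) F) ≠ z • (1 : Matrix (Fin d ⊕ Fin d) (Fin d ⊕ Fin d) F)) →
        ∃ (y : GL (Fin d ⊕ Fin d) F) (A : GL (Fin a) F) (B : GL (Fin b) F) (ψ : (Fin d ⊕ Fin d → F) ≃ₗ[F] (Fin d ⊕ Fin d → F)),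
          y ∈ Cfsg.spGL d F ∧ (∀ v, ψ (Matrix.toLin' (x : Matrix (Fin d ⊕ Fin d) (Fin d ⊕ Fin d) F) v) = Matrix.toLin' (y : Matrix (Fin d ⊕ Fin d) (Fin d ⊕ Fin d) F) (ψ v)) ∧
          ∀ v, coordL e P (Matrix.toLin' (y : Matrix (Fin d ⊕ Fin d) (Fin d ⊕ Fin d) F) v) =
            Matrix.toLin' ((A : Matrix (Fin a) (Fin a) F) ⊗ₖ (B : Matrix (Fin b) (Fin b) F)) (coordL e P v) := by
      intro x hx z hz hns
      obtain ⟨g, hg, hgT⟩ := H x hx ⟨z, hz⟩ hns
      obtain ⟨A, B, hAB⟩ := coord_of_mem hgT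
      exact ⟨_, A, B, equivOfGL g⁻¹, mul_mem (mul_mem (inv_mem hg) hx) hg, conj_toLin g x, hAB⟩
    let k₀ : Fin d := ⟨0, hdpos⟩
    let k₁ : Fin d := ⟨1, by omega⟩
    have hk : k₁ ≠ k₀ := by simp [k₀, k₁, Fin.ext_iff]
    have hq1 : 1 ≤ Fintype.card F := Fintype.card_pos
    -- elements of small rank are scalar
    have hsmall : ∀ x ∈ Cfsg.spGL d F, ∀ z : F, ((x ^ r : GL (Fin d ⊕ Fin d) F) : Matrix (Fin d ⊕ Fin d) (Fin d ⊕ Fin d) F) = z • (1 : Matrix (Fin d ⊕ Fin d) (Fin d ⊕ Fin d) F) →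
        (∀ z : F, (x : Matrix (Fin d ⊕ Fin d) (Fin d ⊕ Fin d) F) ≠ z • (1 : Matrix (Fin d ⊕ Fin d) (Fin d ⊕ Fin d) F)) →
        finrank F (LinearMap.range (Matrix.toLin' (x : Matrix (Fin d ⊕ Fin d) (Fin d ⊕ Fin d) F) - 1)) < a →
        finrank F (LinearMap.range (Matrix.toLin' (x : Matrix (Fin d ⊕ Fin d) (Fin d ⊕ Fin d) F) - 1)) < b → False := by
      intro x hx z hz hns h1 h3
      obtain ⟨y, A, B, ψ, hy, hψ, hAB⟩ := key x hx z hz hns
      have hφ : ∀ v, (ψ.trans (coordL e P)) (Matrix.toLin' (x : Matrix (Fin d ⊕ Fin d) (Fin d ⊕ Fin d) F) v) =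
          Matrix.toLin' ((A : Matrix (Fin a) (Fin a) F) ⊗ₖ (B : Matrix (Fin b) (Fin b) F)) ((ψ.trans (coordL e P)) v) := by
        intro v
        simp only [LinearEquiv.trans_apply]
        rw [hψ, hAB]
      have h4 := rank_transport _ hφ
      obtain ⟨c, hc⟩ := scalar_of_small_rank (by rw [h4]; exact h1) (by rw [h4]; exact h3)
      apply hns c
      apply Matrix.toLin'.injective
      rw [scalar_transport _ hφ hc, map_smul, Matrix.toLin'_one]
      rfl
    -- the rank of a diagonal element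
    have hdgrank : ∀ l : F, l ≠ 1 → l⁻¹ ≠ 1 → finrank F (LinearMap.range (Matrix.toLin' (Matrix.diagonal (dgW k₀ l)) - 1)) ≤ 2 := by
      intro l h1 h3
      have h4 := eig_dg_one hdpos k₀ h1 h3
      have h5 := LinearMap.finrank_range_add_finrank_ker (Matrix.toLin' (Matrix.diagonal (dgW k₀ l)) - (1 : F) • (1 : Module.End F (Fin d ⊕ Fin d → F)))
      rw [hdimV] at h5
      rw [one_smul] at h4 h5
      omega
    -- the transvection
    have hrp : r ≠ p := by
      rintro rfl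
      let w : Fin d ⊕ Fin d → F := Pi.single (Sum.inl k₀) 1
      have hw : w ≠ 0 := by
        intro h
        have := congrFun h (Sum.inl k₀)
        simp [w] at this
      have h1 := gt_rank w
      refine hsmall (gt w 1) (gt_mem w 1) 1 (by rw [one_smul]; exact gt_pow w) (gt_nonscalar hw) (by omega) (by omega)
    have hr0 : (r : F) ≠ 0 := PslNum.cast_ne_zero_of_ne hr hrp
    by_cases hr2 : r = 2
    · subst hr2
      refine ⟨rfl, ?_⟩
      by_contra hne
      have ha4 : 4 ≤ a := by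
        obtain ⟨t, ht⟩ := ha
        omega
      have hm1 : (-1 : F) ≠ 1 := by
        intro h
        apply h2
        linear_combination -h
      have hm0 : (-1 : F) ≠ 0 := neg_ne_zero.mpr one_ne_zero
      have hm1' : (-1 : F)⁻¹ ≠ 1 := by
        rw [inv_neg, inv_one]
        exact hm1
      obtain ⟨x, hx, hxv⟩ := exists_dg k₀ hm0
      have h1 := hdgrank _ hm1 hm1'
      refine hsmall x hx 1 ?_ ?_ ?_ ?_
      · rw [one_smul, Units.val_pow_eq_pow_val, hxv]
        exact dg_pow k₀ hm0 (by norm_num)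
      · rw [hxv]
        exact dg_nonscalar hk hm1
      · rw [hxv]
        omega
      · rw [hxv]
        omega
    -- odd primes
    exfalso
    have hrodd : Odd r := hr.odd_of_ne_two hr2
    have hrq : ¬ r ∣ Fintype.card F := by
      obtain ⟨n, hp, hn⟩ := FiniteField.card F p
      rw [hn]
      intro h3
      have h4 := hr.dvd_of_dvd_pow h3
      exact hrp ((Nat.prime_dvd_prime_iff_eq hr hp).1 h4)
    obtain ⟨g₀, -, hg2, -, hg4⟩ := SpModel.exists_factor (F := F) (p := p) rfl hr hrp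
    have hipos : 0 < orderOf ((Fintype.card F : ℕ) : ZMod r) := by
      rw [← hg4]
      exact hg2.natDegree_pos
    have hir : orderOf ((Fintype.card F : ℕ) : ZMod r) < r := by
      have h1 : orderOf ((Fintype.card F : ℕ) : ZMod r) ∣ r - 1 := by
        apply ZMod.orderOf_dvd_card_sub_one
        intro h0
        exact hrq ((ZMod.natCast_eq_zero_iff _ _).1 h0)
      have h3 := Nat.le_of_dvd (by have := hr.two_le; omega) h1
      have := hr.two_le
      omega
    have hfac := PslNum.fac_Phi (p := p) (F := F) rfl hr hrp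
    by_cases hi1 : orderOf ((Fintype.card F : ℕ) : ZMod r) = 1
    · -- the split case
      obtain ⟨l, hl0, hlr, hl1⟩ := exists_root_order hr ((PslNum.order_one_iff hq1).1 hi1)
      have hli : l⁻¹ ≠ 1 := by
        intro h
        apply hl1
        rw [← _root_.inv_inj, h, inv_one]
      have hli2 : l⁻¹ ≠ l := by
        intro h
        have h3 : l * l = 1 := by
          nth_rewrite 1 [← h]
          exact inv_mul_cancel₀ hl0
        have h4 : (l ^ 2) = 1 := by rw [_root_.sq, h3]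
        apply hl1
        obtain ⟨k, hk⟩ := hrodd
        rw [hk, pow_succ, pow_mul, h4, one_pow, one_mul] at hlr
        exact hlr
      obtain ⟨x, hx, hxv⟩ := exists_dg k₀ hl0
      have hxr : ((x ^ r : GL (Fin d ⊕ Fin d) F) : Matrix (Fin d ⊕ Fin d) (Fin d ⊕ Fin d) F) = (1 : F) • (1 : Matrix (Fin d ⊕ Fin d) (Fin d ⊕ Fin d) F) := by
        rw [one_smul, Units.val_pow_eq_pow_val, hxv]
        exact dg_pow k₀ hl0 hlr
      obtain ⟨y, A, B, ψ, hy, hψ, hAB⟩ := key x hx 1 hxr (by rw [hxv]; exact dg_nonscalar hk hl1)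
      rw [hxv] at hψ
      have hφ : ∀ v, (ψ.trans (coordL e P)) (Matrix.toLin' (Matrix.diagonal (dgW k₀ l)) v) =
          Matrix.toLin' ((A : Matrix (Fin a) (Fin a) F) ⊗ₖ (B : Matrix (Fin b) (Fin b) F)) ((ψ.trans (coordL e P)) v) := by
        intro v
        simp only [LinearEquiv.trans_apply]
        rw [hψ, hAB]
      have h4 := rank_transport _ hφ
      refine no_kron_one ha2 hb (l := l) (by rw [h4]; exact hdgrank l hl1 hli) ?_
      rw [← conj_sub_ker _ hφ]
      exact eig_dg_l k₀ hl1 hli2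
    have hi2 : 2 ≤ orderOf ((Fintype.card F : ℕ) : ZMod r) := by omega
    -- bound on the order
    obtain ⟨j, hj, hjd⟩ : ∃ j ∈ Finset.range d, r ∣ (Fintype.card F) ^ (2 * (j + 1)) - 1 := by
      have h1 := hΩ.trans (Subgroup.relIndex_dvd_card _ _)
      rw [SpHermU.card_spGL rfl d] at h1
      rcases (Nat.Prime.dvd_mul hr).1 h1 with h3 | h3
      · exact absurd (hr.dvd_of_dvd_pow h3) hrq
      · exact (Prime.dvd_finsetProd_iff hr.prime _).1 h3
    have hjlt : j < d := Finset.mem_range.mp hj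
    have hi3 : orderOf ((Fintype.card F : ℕ) : ZMod r) ∣ 2 * (j + 1) := (PslNum.pow_eq_one_iff' hq1).mpr hjd
    -- models
    have hmodel : ∀ b' K, 0 < K → SpModel.Reali F r b' K → b' ≤ d → ∃ x : GL (Fin d ⊕ Fin d) F, x ∈ Cfsg.spGL d F ∧
        ((x ^ r : GL (Fin d ⊕ Fin d) F) : Matrix (Fin d ⊕ Fin d) (Fin d ⊕ Fin d) F) = 1 ∧
        (Matrix.toLin' (x : Matrix (Fin d ⊕ Fin d) (Fin d ⊕ Fin d) F)) ^ r = 1 ∧
        finrank F (Ker (Matrix.toLin' (x : Matrix (Fin d ⊕ Fin d) (Fin d ⊕ Fin d) F)) r) = K ∧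
        ∀ z : F, (x : Matrix (Fin d ⊕ Fin d) (Fin d ⊕ Fin d) F) ≠ z • (1 : Matrix (Fin d ⊕ Fin d) (Fin d ⊕ Fin d) F) := by
      intro b' K hK hR hbd
      have hReal := hR.nsmul (d - b') 1
      have hdb : b' * 1 + (d - b') = d := by omega
      rw [hdb, mul_one] at hReal
      obtain ⟨y, hyr, hyF⟩ := hReal.toSp
      have hval := toGL_val y
      have hx1 : ((toGL y ^ r : GL (Fin d ⊕ Fin d) F) : Matrix (Fin d ⊕ Fin d) (Fin d ⊕ Fin d) F) = 1 := by
        rw [Units.val_pow_eq_pow_val, hval, hyr]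
      have hTr : (Matrix.toLin' (y : Matrix (Fin d ⊕ Fin d) (Fin d ⊕ Fin d) F)) ^ r = 1 := by
        rw [← Matrix.toLin'_pow, hyr, Matrix.toLin'_one]
        rfl
      have hKc : finrank F (Ker (Matrix.toLin' (y : Matrix (Fin d ⊕ Fin d) (Fin d ⊕ Fin d) F)) r) = K := by
        have h4 := finrank_Fix_add hr0 hTr
        rw [hdimV] at h4
        omega
      refine ⟨toGL y, toGL_mem y, hx1, ?_, ?_, ?_⟩
      · rw [hval]; exact hTr
      · rw [hval]; exact hKc
      · intro z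
        rw [hval]
        exact SpImprimMain.nonscalar_of_K hrodd hdpos y hyr hK hyF z
    -- the consequence of lying in the tensor subgroup
    have hconseq : ∀ x ∈ Cfsg.spGL d F, ((x ^ r : GL (Fin d ⊕ Fin d) F) : Matrix (Fin d ⊕ Fin d) (Fin d ⊕ Fin d) F) = 1 →
        (Matrix.toLin' (x : Matrix (Fin d ⊕ Fin d) (Fin d ⊕ Fin d) F)) ^ r = 1 →
        (∀ z : F, (x : Matrix (Fin d ⊕ Fin d) (Fin d ⊕ Fin d) F) ≠ z • (1 : Matrix (Fin d ⊕ Fin d) (Fin d ⊕ Fin d) F)) →
        ∀ c, (((Even (orderOf ((Fintype.card F : ℕ) : ZMod r))) ∧ c = orderOf ((Fintype.card F : ℕ) : ZMod r)) ∨ (Odd (orderOf ((Fintype.card F : ℕ) : ZMod r)) ∧ c = 2 * orderOf ((Fintype.card F : ℕ) : ZMod r))) →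
        finrank F (Ker (Matrix.toLin' (x : Matrix (Fin d ⊕ Fin d) (Fin d ⊕ Fin d) F)) r) = c →
        ∃ (y : GL (Fin d ⊕ Fin d) F) (M : Matrix (Fin b) (Fin b) F), y ∈ Cfsg.spGL d F ∧ (Matrix.toLin' (y : Matrix (Fin d ⊕ Fin d) (Fin d ⊕ Fin d) F)) ^ r = 1 ∧
          finrank F (Ker (Matrix.toLin' (y : Matrix (Fin d ⊕ Fin d) (Fin d ⊕ Fin d) F)) r) = c ∧ a = 2 ∧ Odd (orderOf ((Fintype.card F : ℕ) : ZMod r)) ∧
          ∃ (A : GL (Fin a) F) (B : GL (Fin b) F), (A : Matrix (Fin a) (Fin a) F) ⊗ₖ (B : Matrix (Fin b) (Fin b) F) = (1 : Matrix (Fin a) (Fin a) F) ⊗ₖ M ∧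
            ∀ v, coordL e P (Matrix.toLin' (y : Matrix (Fin d ⊕ Fin d) (Fin d ⊕ Fin d) F) v) =
              Matrix.toLin' ((A : Matrix (Fin a) (Fin a) F) ⊗ₖ (B : Matrix (Fin b) (Fin b) F)) (coordL e P v) := by
      intro x hx hxr hTr hns c hc hKc
      obtain ⟨y, A, B, ψ, hy, hψ, hAB⟩ := key x hx 1 (by rw [one_smul]; exact hxr) hns
      have hφ : ∀ v, (ψ.trans (coordL e P)) (Matrix.toLin' (x : Matrix (Fin d ⊕ Fin d) (Fin d ⊕ Fin d) F) v) =
          Matrix.toLin' ((A : Matrix (Fin a) (Fin a) F) ⊗ₖ (B : Matrix (Fin b) (Fin b) F)) ((ψ.trans (coordL e P)) v) := by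
        intro v
        simp only [LinearEquiv.trans_apply]
        rw [hψ, hAB]
      have hSr : (Matrix.toLin' ((A : Matrix (Fin a) (Fin a) F) ⊗ₖ (B : Matrix (Fin b) (Fin b) F))) ^ r = 1 := by
        apply LinearMap.ext
        intro w
        obtain ⟨v, rfl⟩ := (ψ.trans (coordL e P)).surjective w
        rw [← conj_pow' _ hφ, hTr]
        rfl
      have hKer : finrank F (Ker (Matrix.toLin' ((A : Matrix (Fin a) (Fin a) F) ⊗ₖ (B : Matrix (Fin b) (Fin b) F))) r) = c := by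
        rw [← hKc]
        exact (conj_ker _ hφ (Phi F r)).symm
      obtain ⟨ha2', hodd', M, hM⟩ := no_kron_sp hr hr2 hr0 ha2 ha hb hSr hfac hi2 hir hc hKer
      refine ⟨y, M, hy, ?_, ?_, ha2', hodd', A, B, hM, hAB⟩
      · apply LinearMap.ext
        intro w
        obtain ⟨v, rfl⟩ := ψ.surjective w
        rw [← conj_pow' ψ hψ, hTr]
        rfl
      · rw [← hKc]
        exact (conj_ker ψ hψ (Phi F r)).symm
    rcases Nat.even_or_odd (orderOf ((Fintype.card F : ℕ) : ZMod r)) with hev | hod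
    · -- even order
      obtain ⟨b', hb'⟩ := hev
      have hib : orderOf ((Fintype.card F : ℕ) : ZMod r) = 2 * b' := by rw [hb']; ring
      have hb0 : 0 < b' := by omega
      have hbd : b' ≤ d := by
        have h1 : b' ∣ j + 1 := by
          rw [hib] at hi3
          exact Nat.dvd_of_mul_dvd_mul_left (by norm_num) hi3
        exact (Nat.le_of_dvd (by omega) h1).trans (by omega)
      obtain ⟨x, hx, hxr, hTr, hK, hns⟩ := hmodel b' (2 * b') (by omega) (SpModel.reali_half (p := p) rfl hr hrp hib hb0 (SpImprimMain.dvd_pow_add_one hr2 hib hb0)) hbd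
      obtain ⟨y, M, hy, hyT, hyK, ha2', hodd', -⟩ := hconseq x hx hxr hTr hns (2 * b') (Or.inl ⟨⟨b', hb'⟩, hib.symm⟩) hK
      exact (Nat.not_even_iff_odd.mpr hodd') ⟨b', hb'⟩
    · -- odd order
      have hile : orderOf ((Fintype.card F : ℕ) : ZMod r) ≤ d := by
        have hc : Nat.Coprime (orderOf ((Fintype.card F : ℕ) : ZMod r)) 2 := Nat.coprime_comm.mp ((Nat.coprime_two_left).mpr hod)
        have h1 : orderOf ((Fintype.card F : ℕ) : ZMod r) ∣ j + 1 := (Nat.Coprime.dvd_mul_left hc).mp hi3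
        exact (Nat.le_of_dvd (by omega) h1).trans (by omega)
      obtain ⟨x, hx, hxr, hTr, hK, hns⟩ := hmodel _ (2 * orderOf ((Fintype.card F : ℕ) : ZMod r)) (by omega) (SpModel.reali_full (p := p) rfl hr hrp) hile
      obtain ⟨y, M, hy, hyT, hyK, ha2', hodd', A, B, hM, hAB⟩ := hconseq x hx hxr hTr hns _ (Or.inr ⟨hod, rfl⟩) hK
      subst ha2'
      obtain ⟨c, hc, hf⟩ := form_coord hS
      obtain ⟨ν, hν⟩ := FiniteField.exists_nonsquare hrc
      rw [hM] at hAB
      obtain ⟨ι, hι, hcomm⟩ := exists_str_of_one_kron hf₁ hf ν hAB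
      exact no_str_odd h2 hA hN (fun u v => (mem_spGL_iff y).mp hy u v) hr0 hrodd hyT hν hι hcomm hipos hod hfac hyK
  · rintro ⟨rfl, rfl⟩
    intro x hx ⟨z, hz⟩ hns
    exact conj_into h2 (by omega) hf₁ hf₂ hS hx hz hdpos

end Statement

end Cfsg.Agent.Lib.Classical.Elusive.TensorSpMain
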