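import Mathlib
import Cfsg.Agent.Lib.Classical.Elusive.SlOFree
import Cfsg.Agent.Lib.Classical.Geo.OPts
import Cfsg.Agent.Lib.Classical.Elusive.TensorSpMain

/-!
# Conjugating elements of prime order of `PSL_n(q)` into the similarity group of a quadratic form
-/

set_option autoImplicit false
set_option linter.unusedSectionVars false
set_option linter.unusedSimpArgs false
set_option linter.unusedVariables false
set_option linter.style.haveILetI false

namespace Cfsg.Agent.Lib.Classical.Elusive.SlOConj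

open Polynomial Module Matrix QuadraticMap
open scoped Kronecker
open Cfsg.Agent.Lib.Classical.Elusive.Inv Cfsg.Agent.Lib.Classical.Elusive.SpCore
  Cfsg.Agent.Lib.Classical.Elusive.TensorMain Cfsg.Agent.Lib.Classical.Elusive.SlSp
  Cfsg.Agent.Lib.Classical.Elusive.SlO Cfsg.Agent.Lib.Classical.Elusive.SlOFree
  Cfsg.Agent.Lib.Classical.Elusive.SlUBad
open Cfsg.Agent.Lib.Classical.Elusive.SlUConj (exists_eigbasis sum_eig det_eig conj_of_pow det_of_irr pow_congr_mod)
open Cfsg.Agent.Lib.Classical.Witt.Hyp Cfsg.Agent.Lib.Classical.Witt.Index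
open Cfsg.Agent.Lib.Linalg.OrthModels Cfsg.Agent.Lib.Linalg.OrthOrder
open Cfsg.Agent.Lib.Linalg.Bridge

universe u

section Two

variable {F : Type u} [Field F] {V V' : Type*} [AddCommGroup V] [Module F V] [FiniteDimensional F V] [AddCommGroup V'] [Module F V'] [FiniteDimensional F V']

theorem conj_of_pow₂ {r : ℕ} (hr : 0 < r) {ζ : F} (hζ : IsPrimitiveRoot ζ r) {T : Module.End F V} {S : Module.End F V'} (hT : T ^ r = 1) (hS : S ^ r = 1)
    (h : ∀ t : Fin r, Eig T (ζ ^ (t : ℕ)) = Eig S (ζ ^ (t : ℕ))) : ∃ φ : V ≃ₗ[F] V', ∀ v, φ (T v) = S (φ v) := by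
  classical
  obtain ⟨b, hb⟩ := exists_eigbasis hr hζ hT
  obtain ⟨b', hb'⟩ := exists_eigbasis hr hζ hS
  let i : (Σ t : Fin r, Fin (Eig T (ζ ^ (t : ℕ)))) ≃ (Σ t : Fin r, Fin (Eig S (ζ ^ (t : ℕ)))) :=
    Equiv.sigmaCongrRight (fun t => finCongr (h t))
  refine ⟨b.equiv b' i, fun v => ?_⟩
  have h1 : (b.equiv b' i : V →ₗ[F] V') ∘ₗ T = S ∘ₗ (b.equiv b' i : V →ₗ[F] V') := by
    apply b.ext
    intro x
    simp only [LinearMap.comp_apply, LinearEquiv.coe_coe, hb, map_smul, Basis.equiv_apply, hb']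
    rfl
  exact LinearMap.congr_fun h1 v

end Two

variable {F : Type u} [Field F] [Fintype F] {n : ℕ}

theorem finish_q {κ : Type} [Fintype κ] [DecidableEq κ] {Q : (Fin n → F) → F} {j : (κ → F) → F} (Ψ : (κ → F) ≃ₗ[F] (Fin n → F)) {d : F}
    (hΨ : ∀ u, Q (Ψ u) = d * j u) (x : GL (Fin n) F) (S : Module.End F (κ → F)) {c : F} (hc0 : c ≠ 0) (hS : ∀ u, j (S u) = c * j u)
    (φ : (Fin n → F) ≃ₗ[F] (κ → F)) (hφ : ∀ v, φ (Matrix.toLin' (x : Matrix (Fin n) (Fin n) F) v) = S (φ v))
    (hD : ∀ δ : F, δ ≠ 0 → ∃ D : Module.End F (κ → F), D * S = S * D ∧ LinearMap.det D = δ) :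
    ∃ g ∈ Cfsg.Geo.specialLinear (Fin n) F, g⁻¹ * x * g ∈ Cfsg.Geo.quadSimilarityGroup Q := by
  classical
  let ρ : (Fin n → F) ≃ₗ[F] (Fin n → F) := Ψ.symm.trans φ.symm
  have hd2 : LinearMap.det (ρ : (Fin n → F) →ₗ[F] (Fin n → F)) ≠ 0 := (LinearEquiv.isUnit_det' ρ).ne_zero
  obtain ⟨D, hDS, hDdet⟩ := hD _ (inv_ne_zero hd2)
  have hD0 : LinearMap.det D ≠ 0 := by
    rw [hDdet]
    exact inv_ne_zero hd2
  let De : (κ → F) ≃ₗ[F] (κ → F) := LinearMap.equivOfDetNeZero D hD0
  have hDe : ∀ v, De v = D v := fun v => rfl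
  let G : (Fin n → F) ≃ₗ[F] (Fin n → F) := Ψ.symm.trans (De.trans φ.symm)
  have hG : ∀ v, G v = φ.symm (D (Ψ.symm v)) := fun v => rfl
  let g : GL (Fin n) F := glOfEquiv G
  have hg : ∀ v, (g : Matrix (Fin n) (Fin n) F) *ᵥ v = φ.symm (D (Ψ.symm v)) := fun v => by
    have := glOfEquiv_mulVec G v
    rw [hG] at this
    exact this
  have hdet : (g : Matrix (Fin n) (Fin n) F).det = 1 := by
    rw [det_glOfEquiv]
    have h1 : (G : (Fin n → F) →ₗ[F] (Fin n → F)) = ((φ.symm : (κ → F) →ₗ[F] (Fin n → F)) ∘ₗ D ∘ₗ ((φ.symm).symm : (Fin n → F) →ₗ[F] (κ → F))) ∘ₗ (ρ : (Fin n → F) →ₗ[F] (Fin n → F)) := by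
      apply LinearMap.ext
      intro v
      show G v = φ.symm (D (φ.symm.symm (φ.symm (Ψ.symm v))))
      rw [hG, LinearEquiv.symm_apply_apply]
    rw [h1, LinearMap.det_comp, LinearMap.det_conj, hDdet]
    exact inv_mul_cancel₀ hd2
  have hφ' : ∀ w, (x : Matrix (Fin n) (Fin n) F) *ᵥ (φ.symm w) = φ.symm (S w) := by
    intro w
    have := hφ (φ.symm w)
    rw [LinearEquiv.apply_symm_apply, Matrix.toLin'_apply] at this
    rw [← this, LinearEquiv.symm_apply_apply]
  have h1 : ∀ u, (g : Matrix (Fin n) (Fin n) F) *ᵥ (Ψ (S (Ψ.symm u))) = (x : Matrix (Fin n) (Fin n) F) *ᵥ ((g : Matrix (Fin n) (Fin n) F) *ᵥ u) := by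
    intro u
    rw [hg, hg, hφ', LinearEquiv.symm_apply_apply]
    congr 1
    exact LinearMap.congr_fun hDS _
  have h2 : ∀ u, ((g⁻¹ * x * g : GL (Fin n) F) : Matrix (Fin n) (Fin n) F) *ᵥ u = Ψ (S (Ψ.symm u)) := by
    intro u
    rw [Units.val_mul, Units.val_mul, ← Matrix.mulVec_mulVec, ← Matrix.mulVec_mulVec, ← h1, Matrix.mulVec_mulVec, Units.inv_mul, Matrix.one_mulVec]
  refine ⟨g, ?_, Units.mk0 c hc0, fun v => ?_⟩
  · show Matrix.GeneralLinearGroup.det g = 1
    apply Units.ext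
    exact hdet
  · rw [h2, hΨ, hS, Units.val_mk0]
    have h3 := hΨ (Ψ.symm v)
    rw [LinearEquiv.apply_symm_apply] at h3
    rw [h3]
    ring

theorem finish_diagq {κ : Type} [Fintype κ] [DecidableEq κ] [Nonempty κ] {Q : (Fin n → F) → F} {j : (κ → F) → F} (Ψ : (κ → F) ≃ₗ[F] (Fin n → F)) {d : F}
    (hΨ : ∀ u, Q (Ψ u) = d * j u) (x : GL (Fin n) F) (w : κ → F) {c : F} (hc0 : c ≠ 0)
    (hS : ∀ u, j (Matrix.toLin' (Matrix.diagonal w) u) = c * j u)
    (φ : (Fin n → F) ≃ₗ[F] (κ → F)) (hφ : ∀ v, φ (Matrix.toLin' (x : Matrix (Fin n) (Fin n) F) v) = Matrix.toLin' (Matrix.diagonal w) (φ v)) :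
    ∃ g ∈ Cfsg.Geo.specialLinear (Fin n) F, g⁻¹ * x * g ∈ Cfsg.Geo.quadSimilarityGroup Q := by
  classical
  refine finish_q Ψ hΨ x _ hc0 hS φ hφ fun δ hδ => ?_
  let j₀ : κ := Classical.arbitrary κ
  refine ⟨Matrix.toLin' (Matrix.diagonal fun i => if i = j₀ then δ else 1), ?_, ?_⟩
  · show _ ∘ₗ _ = _ ∘ₗ _
    rw [← Matrix.toLin'_mul, ← Matrix.toLin'_mul, Matrix.diagonal_mul_diagonal, Matrix.diagonal_mul_diagonal]
    congr 2
    funext i
    ring
  · rw [LinearMap.det_toLin', Matrix.det_diagonal, Finset.prod_ite_eq' ]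
    simp

/-- An orthogonal basis: the form in diagonal coordinates. -/
theorem exists_diag_form (h2 : (2 : F) ≠ 0) {Q : QuadraticForm F (Fin n → F)} (hN : (polarBilin Q).Nondegenerate) {κ : Type} [Fintype κ] [DecidableEq κ]
    (hκ : Fintype.card κ = n) :
    ∃ (a : κ → F) (Ψ : (κ → F) ≃ₗ[F] (Fin n → F)), (∀ i, a i ≠ 0) ∧ ∀ u, Q (Ψ u) = ∑ i, a i * u i ^ 2 := by
  classical
  haveI : Invertible (2 : F) := invertibleOfNonzero h2
  have hsymm : LinearMap.BilinForm.IsSymm (polarBilin Q) := by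
    refine ⟨fun x y => ?_⟩
    simp only [polarBilin_apply_apply, RingHom.id_apply]
    exact polar_comm _ _ _
  obtain ⟨v₀, hv₀⟩ := LinearMap.BilinForm.exists_orthogonal_basis (LinearMap.BilinForm.isSymm_iff.mp hsymm)
  have hcard : Fintype.card (Fin (finrank F (Fin n → F))) = Fintype.card κ := by
    simp [hκ]
  let v : Basis κ F (Fin n → F) := v₀.reindex (Fintype.equivOfCardEq hcard)
  have hv : ∀ i j, i ≠ j → polarBilin Q (v i) (v j) = 0 := by
    intro i j hij
    simp only [v, Basis.reindex_apply]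
    exact hv₀ (fun h => hij ((Fintype.equivOfCardEq hcard).symm.injective h))
  have hexp : ∀ (s : Finset κ) (u : κ → F), Q (∑ i ∈ s, u i • v i) = ∑ i ∈ s, Q (v i) * u i ^ 2 := by
    intro s u
    induction s using Finset.induction_on with
    | empty => simp
    | insert i s hi ih =>
      rw [Finset.sum_insert hi, Finset.sum_insert hi, QuadraticMap.map_add Q, ih, QuadraticMap.map_smul]
      have h3 : polar Q (u i • v i) (∑ i ∈ s, u i • v i) = 0 := by
        rw [← polarBilin_apply_apply, map_smul, map_sum]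
        simp only [map_smul, LinearMap.smul_apply, smul_eq_mul, LinearMap.sum_apply]
        apply Finset.sum_eq_zero
        intro k hk
        rw [hv i k (fun h => hi (h ▸ hk))]
        simp
      rw [h3, add_zero]
      simp only [smul_eq_mul]
      ring
  refine ⟨fun i => Q (v i), v.equivFun.symm, fun i h0 => ?_, fun u => ?_⟩
  · have h3 : v i = 0 := by
      apply hN.1
      intro y
      rw [← v.sum_repr y, map_sum]
      apply Finset.sum_eq_zero
      intro k _
      rw [map_smul, smul_eq_zero]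
      right
      by_cases hk : i = k
      · subst hk
        simp only [polarBilin_apply_apply]
        have h0' : Q (v i) = 0 := h0
        rw [show polar Q (v i) (v i) = 2 * Q (v i) from ?_, h0', mul_zero]
        simp only [polar]
        rw [show v i + v i = (2 : F) • v i from (two_smul F _).symm, QuadraticMap.map_smul]
        simp only [smul_eq_mul]
        ring
      · exact hv i k hk
    exact v.ne_zero i h3
  · rw [Basis.equivFun_symm_apply, hexp]

theorem block_apply {κ : Type} [Fintype κ] [DecidableEq κ] (M : κ → Matrix (Fin 2) (Fin 2) F) (u : Fin 2 × κ → F) (k : Fin 2) (t : κ) :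
    (Matrix.blockDiagonal M *ᵥ u) (k, t) = M t k 0 * u (0, t) + M t k 1 * u (1, t) := by
  simp only [Matrix.mulVec, dotProduct, Fintype.sum_prod_type_right, Fin.sum_univ_two, Matrix.blockDiagonal_apply]
  rw [Finset.sum_eq_single t]
  · simp
  · intro b _ hb
    simp [Ne.symm hb]
  · simp

/-- The involutions of `PSL_n(q)`. -/
theorem case_two {Q : QuadraticForm F (Fin n → F)} {q : ℕ} (hF : Fintype.card F = q) (hodd : Odd q) (hN : (polarBilin Q).Nondegenerate) (hn : 3 ≤ n)
    (x : GL (Fin n) F) (hx : x ∈ Cfsg.Geo.specialLinear (Fin n) F) {z : F}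
    (hxz : ((x ^ 2 : GL (Fin n) F) : Matrix (Fin n) (Fin n) F) = z • (1 : Matrix (Fin n) (Fin n) F))
    (hns : ∀ y : F, (x : Matrix (Fin n) (Fin n) F) ≠ y • (1 : Matrix (Fin n) (Fin n) F)) :
    ∃ g ∈ Cfsg.Geo.specialLinear (Fin n) F, g⁻¹ * x * g ∈ Cfsg.Geo.quadSimilarityGroup (⇑Q) := by
  classical
  have h2 : (2 : F) ≠ 0 := Cfsg.Agent.Lib.Classical.Asch.Forms.two_ne_zero_of_odd (by rwa [hF])
  have hn0 : 0 < n := by omega
  set T : Module.End F (Fin n → F) := Matrix.toLin' (x : Matrix (Fin n) (Fin n) F) with hTdef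
  have hTz : T ^ 2 = z • 1 := by
    rw [hTdef, ← Matrix.toLin'_pow, ← Units.val_pow_eq_pow_val, hxz, map_smul, Matrix.toLin'_one]
    rfl
  have hdet : LinearMap.det T = 1 := by
    rw [hTdef, LinearMap.det_toLin']
    have : Matrix.GeneralLinearGroup.det x = 1 := hx
    have h1 := congrArg Units.val this
    exact h1
  have hzn : z ^ n = 1 := by
    have h1 := congrArg LinearMap.det hTz
    rw [map_pow, hdet, one_pow, LinearMap.det_smul, Module.finrank_fintype_fun_eq_card, Fintype.card_fin, map_one, mul_one] at h1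
    exact h1.symm
  have hz0 : z ≠ 0 := by
    intro h
    rw [h, zero_pow hn0.ne'] at hzn
    exact zero_ne_one hzn
  by_cases hs : ∃ w : F, w ^ 2 = z
  · obtain ⟨w, hw⟩ := hs
    have hw0 : w ≠ 0 := by
      intro h
      rw [h] at hw
      apply hz0
      rw [← hw]
      ring
    let T' : Module.End F (Fin n → F) := w⁻¹ • T
    have hTT' : ∀ v, T v = w • T' v := by
      intro v
      simp only [T', LinearMap.smul_apply, smul_smul, mul_inv_cancel₀ hw0, one_smul]
    have hT' : T' ^ 2 = 1 := by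
      simp only [T']
      rw [_root_.smul_pow, hTz, ← hw, smul_smul, inv_pow, inv_mul_cancel₀ (pow_ne_zero _ hw0), one_smul]
    have hprim : IsPrimitiveRoot (-1 : F) 2 := by
      apply IsPrimitiveRoot.mk_of_lt (-1 : F) (by norm_num) (by norm_num)
      intro l hl0 hl2
      have : l = 1 := by omega
      subst this
      intro h
      apply h2
      rw [pow_one] at h
      linear_combination -h
    have hsum := sum_eig (by norm_num) hprim hT'
    rw [Module.finrank_fintype_fun_eq_card, Fintype.card_fin, Fin.sum_univ_two] at hsum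
    simp only [Fin.val_zero, pow_zero, Fin.val_one, pow_one] at hsum
    set a := Eig T' (-1) with ha
    have hne : (1 : F) ≠ -1 := by
      intro h
      apply h2
      linear_combination h
    let e : (Fin a ⊕ Fin (n - a)) ⊕ Fin 0 ≃ Fin n := Fintype.equivFinOfCardEq (by simp; omega)
    let ε : Fin n → F := blockW e (-1) 1 1
    have hε : ∀ i, ε i ^ 2 = 1 := by
      intro i
      simp only [ε, blockW]
      rcases e.symm i with (k | k) | k <;> simp
    have hS₀ : (Matrix.toLin' (Matrix.diagonal ε)) ^ 2 = (1 : Module.End F (Fin n → F)) := by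
      rw [← Matrix.toLin'_pow, Matrix.diagonal_pow]
      have : (ε ^ 2) = 1 := by
        funext i
        exact hε i
      rw [this, show (Matrix.diagonal (1 : Fin n → F)) = 1 from Matrix.diagonal_one, Matrix.toLin'_one]
      rfl
    have hE1 : Eig (Matrix.toLin' (Matrix.diagonal ε)) 1 = n - a := by
      rw [cnt_eig]
      have h3 := cnt_block e (-1 : F) 1 1 1
      rw [if_neg (Ne.symm hne), if_pos rfl, if_pos rfl] at h3
      simp only [add_zero, zero_add] at h3
      rw [← h3]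
    have hE2 : Eig (Matrix.toLin' (Matrix.diagonal ε)) (-1) = a := by
      rw [cnt_eig]
      have h3 := cnt_block e (-1 : F) 1 1 (-1)
      rw [if_pos rfl, if_neg hne, if_neg hne] at h3
      simp only [add_zero, zero_add] at h3
      rw [← h3]
    obtain ⟨φ, hφ⟩ := conj_of_pow (by norm_num) hprim hT' hS₀ (by
      intro t
      fin_cases t
      · simp only [Fin.zero_eta, Fin.val_zero, pow_zero, hE1]
        omega
      · simp only [Fin.mk_one, Fin.val_one, pow_one, hE2]
        exact ha.symm)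
    obtain ⟨A, Ψ, hA, hΨ⟩ := exists_diag_form h2 hN (κ := Fin n) (by simp)
    haveI : Nonempty (Fin n) := ⟨⟨0, hn0⟩⟩
    refine finish_diagq Ψ (d := 1) (j := fun u => ∑ i, A i * u i ^ 2) (fun u => by rw [hΨ, one_mul]) x (fun i => w * ε i) (c := w ^ 2) (pow_ne_zero _ hw0) ?_ φ ?_
    · intro u
      simp only [Matrix.toLin'_apply, Matrix.mulVec_diagonal, Finset.mul_sum]
      refine Finset.sum_congr rfl fun i _ => ?_
      have h3 := hε i
      rw [mul_pow, mul_pow]
      linear_combination (A i * w ^ 2 * u i ^ 2) * h3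
    · intro v
      show φ (T v) = _
      rw [hTT', map_smul, hφ]
      funext i
      simp [Matrix.mulVec_diagonal, mul_assoc]
  · push Not at hs
    have hirr : Irreducible (X ^ 2 - C z : F[X]) := X_pow_sub_C_irreducible_of_prime Nat.prime_two hs
    have hdvd : 2 ∣ finrank F (⊤ : Submodule F (Fin n → F)) := by
      refine Cfsg.Agent.Lib.Classical.Elusive.PslMain.dvd_of_irr (by norm_num) hTz hirr.ne_zero ?_ (isInv_top T)
      intro d hd hdd
      have h1 : Associated d (X ^ 2 - C z : F[X]) := hd.associated_of_dvd hirr hdd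
      rw [Polynomial.natDegree_eq_of_degree_eq (Polynomial.degree_eq_degree_of_associated h1), natDegree_X_pow_sub_C]
    rw [finrank_top, Module.finrank_fintype_fun_eq_card, Fintype.card_fin] at hdvd
    obtain ⟨b, hb⟩ := hdvd
    have hb0 : 0 < b := by omega
    obtain ⟨Φ, hΦ⟩ := Cfsg.Agent.Lib.Classical.Elusive.TensorConj.exists_form_nonsq T hTz hirr hb
    obtain ⟨A, Ψ, hA, hΨ⟩ := exists_diag_form h2 hN (κ := Fin 2 × Fin b) (by simp [hb])
    -- the blocks
    have hblock : ∀ t : Fin b, ∃ α β γ : F, A (1, t) * γ = A (0, t) * β ∧ A (1, t) * α ^ 2 + A (0, t) * β ^ 2 = A (1, t) * z := by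
      intro t
      have hν : - (A (0, t) / A (1, t)) ≠ 0 := neg_ne_zero.2 (div_ne_zero (hA _) (hA _))
      obtain ⟨s, τ, hst⟩ := Cfsg.Agent.Lib.Classical.Elusive.SpHerm.exists_norm h2 hν z
      refine ⟨s, τ, A (0, t) / A (1, t) * τ, ?_, ?_⟩
      · have := hA (1, t)
        field_simp
      · rw [← hst]
        have := hA (1, t)
        field_simp
        ring
    choose α β γ hγ hαβ using hblock
    have hrel : ∀ t, α t ^ 2 + β t * γ t = z := by
      intro t
      apply mul_left_cancel₀ (hA (1, t))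
      have h3 := hγ t
      have h4 := hαβ t
      linear_combination h4 + β t * h3
    have hγ0 : ∀ t, γ t ≠ 0 := by
      intro t h0
      apply hs (α t)
      have := hrel t
      rw [h0, mul_zero, add_zero] at this
      exact this
    let M : Fin b → Matrix (Fin 2) (Fin 2) F := fun t => !![α t, β t; γ t, - α t]
    let P : Fin b → Matrix (Fin 2) (Fin 2) F := fun t => !![1, α t; 0, γ t]
    let X₀ : Matrix (Fin 2) (Fin 2) F := !![0, z; 1, 0]
    have hMP : ∀ t, M t * P t = P t * X₀ := by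
      intro t
      have h3 := hrel t
      ext i j
      fin_cases i <;> fin_cases j <;> simp [M, P, X₀, Matrix.mul_apply, Fin.sum_univ_two]
      · linear_combination h3
      · ring
    have hK : (!![0, z; 1, 0] ⊗ₖ Matrix.diagonal (fun _ : Fin b => (1 : F))) = Matrix.blockDiagonal (fun _ : Fin b => X₀) := by
      ext ⟨k, t⟩ ⟨k', t'⟩
      simp only [Matrix.kroneckerMap_apply, Matrix.diagonal_apply, Matrix.blockDiagonal_apply]
      split_ifs with h
      · simp [X₀]
      · simp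
    have hPdet : (Matrix.blockDiagonal P).det ≠ 0 := by
      rw [Matrix.det_blockDiagonal]
      apply Finset.prod_ne_zero_iff.2
      intro t _
      simp only [P, Matrix.det_fin_two_of]
      simpa using hγ0 t
    let PG : GL (Fin 2 × Fin b) F := Matrix.GeneralLinearGroup.mkOfDetNeZero _ hPdet
    have hPG : (PG : Matrix (Fin 2 × Fin b) (Fin 2 × Fin b) F) = Matrix.blockDiagonal P := rfl
    let S : Module.End F (Fin 2 × Fin b → F) := Matrix.toLin' (Matrix.blockDiagonal M)
    let φ : (Fin n → F) ≃ₗ[F] (Fin 2 × Fin b → F) := Φ.symm.trans (equivOfGL PG)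
    have hφ : ∀ v, φ (Matrix.toLin' (x : Matrix (Fin n) (Fin n) F) v) = S (φ v) := by
      intro v
      obtain ⟨c, rfl⟩ := Φ.surjective v
      show φ (T (Φ c)) = _
      rw [hΦ]
      simp only [φ, LinearEquiv.trans_apply, LinearEquiv.symm_apply_apply, equivOfGL_apply, S, Matrix.toLin'_apply, Matrix.mulVec_mulVec, hPG]
      rw [hK, ← Matrix.blockDiagonal_mul, ← Matrix.blockDiagonal_mul]
      congr 2
      funext t
      exact (hMP t).symm
    refine finish_q Ψ (d := 1) (j := fun u => ∑ i, A i * u i ^ 2) (fun u => by rw [hΨ, one_mul]) x S (c := z) hz0 ?_ φ hφ ?_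
    · intro u
      simp only [S, Matrix.toLin'_apply, Fintype.sum_prod_type_right, Fin.sum_univ_two, block_apply, Finset.mul_sum]
      refine Finset.sum_congr rfl fun t _ => ?_
      simp only [M, Matrix.of_apply, Matrix.cons_val', Matrix.cons_val_zero, Matrix.cons_val_one, Matrix.cons_val_fin_one]
      apply mul_left_cancel₀ (hA (1, t))
      have h3 := hγ t
      have h4 := hαβ t
      linear_combination ((A (1, t) * γ t + A (0, t) * β t) * u (0, t) ^ 2 - 2 * A (1, t) * α t * u (0, t) * u (1, t)) * h3 +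
        (A (0, t) * u (0, t) ^ 2 + A (1, t) * u (1, t) ^ 2) * h4
    · intro δ hδ
      obtain ⟨s, τ, hst⟩ := Cfsg.Agent.Lib.Classical.Elusive.SpHerm.exists_norm h2 hz0 δ
      let t₀ : Fin b := ⟨0, hb0⟩
      let D₂ : Matrix (Fin 2) (Fin 2) F := !![s + τ * α t₀, τ * β t₀; τ * γ t₀, s - τ * α t₀]
      have hD₂ : D₂ * M t₀ = M t₀ * D₂ := by
        ext i j
        fin_cases i <;> fin_cases j <;> simp [D₂, M, Matrix.mul_apply, Fin.sum_univ_two] <;> ring
      have hD₂det : D₂.det = δ := by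
        rw [Matrix.det_fin_two_of, ← hst, ← hrel t₀]
        ring
      refine ⟨Matrix.toLin' (Matrix.blockDiagonal fun t => if t = t₀ then D₂ else 1), ?_, ?_⟩
      · show _ ∘ₗ _ = _ ∘ₗ _
        simp only [S]
        rw [← Matrix.toLin'_mul, ← Matrix.toLin'_mul, ← Matrix.blockDiagonal_mul, ← Matrix.blockDiagonal_mul]
        congr 2
        funext t
        by_cases h : t = t₀
        · subst h
          simp only [if_true]
          exact hD₂
        · simp [h]
      · rw [LinearMap.det_toLin', Matrix.det_blockDiagonal, Finset.prod_eq_single t₀]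
        · simp [hD₂det]
        · intro t _ ht
          simp [ht]
        · simp

/-! ### The exceptional elements -/

/-- The index type of the odd-dimensional model. -/
abbrev Kp (m : ℕ) : Type := Unit ⊕ (Fin m ⊕ Fin m)

/-- The combinatorial property behind the exceptions. -/
def GoodK (m r : ℕ) : Prop :=
  ∀ c : Fin r → ℕ, (∑ t, c t = r) → (r ∣ ∑ t : Fin r, t.val * c t) → (∀ t, c t ≠ r) →
    ∃ (E : Kp m → Fin r) (a : ℕ), ((2 * (E (.inl ())).val) % r = (2 * a) % r) ∧
      (∀ k, ((E (.inr (.inl k))).val + (E (.inr (.inr k))).val) % r = (2 * a) % r) ∧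
      ∀ t, (∑ x, if E x = t then 1 else 0) = c t

/-- The exponents for `r = 5`. -/
def E5 (A₀ A₁ a : Fin 5) : Kp 2 → Fin 5 :=
  Sum.elim (fun _ => a) (Sum.elim ![A₀, A₁] ![2 * a - A₀, 2 * a - A₁])

/-- The exponents for `r = 3`. -/
def E3 (A₀ a : Fin 3) : Kp 1 → Fin 3 :=
  Sum.elim (fun _ => a) (Sum.elim ![A₀] ![2 * a - A₀])

theorem E5_sum : ∀ (A₀ A₁ a k : Fin 5), (((E5 A₀ A₁ a) (.inr (.inl 0))).val + ((E5 A₀ A₁ a) (.inr (.inr 0))).val) % 5 = (2 * a.val) % 5 ∧
    (((E5 A₀ A₁ a) (.inr (.inl 1))).val + ((E5 A₀ A₁ a) (.inr (.inr 1))).val) % 5 = (2 * a.val) % 5 := by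
  decide +kernel

theorem E3_sum : ∀ (A₀ a : Fin 3), (((E3 A₀ a) (.inr (.inl 0))).val + ((E3 A₀ a) (.inr (.inr 0))).val) % 3 = (2 * a.val) % 3 := by
  decide +kernel

theorem E5_cnt : ∀ (A₀ A₁ a t : Fin 5), (∑ x, if E5 A₀ A₁ a x = t then 1 else 0) =
    (∑ i : Fin 5, if (![A₀, A₁, a, 2 * a - A₁, 2 * a - A₀] : Fin 5 → Fin 5) i = t then 1 else 0) := by
  decide +kernel

theorem E3_cnt : ∀ (A₀ a t : Fin 3), (∑ x, if E3 A₀ a x = t then 1 else 0) =
    (∑ i : Fin 3, if (![A₀, a, 2 * a - A₀] : Fin 3 → Fin 3) i = t then 1 else 0) := by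
  decide +kernel

theorem good5 : GoodK 2 5 := by
  intro c hc hd hne
  have hle : ∀ t, c t < 6 := by
    intro t
    have := Finset.single_le_sum (fun i _ => Nat.zero_le (c i)) (Finset.mem_univ t)
    omega
  rw [Fin.sum_univ_five] at hc
  rw [Fin.sum_univ_five] at hd
  obtain ⟨A₀, A₁, a, h⟩ := Cfsg.Agent.Lib.Classical.Elusive.SlUConj.dec5 ⟨c 0, hle 0⟩ ⟨c 1, hle 1⟩ ⟨c 2, hle 2⟩ ⟨c 3, hle 3⟩ ⟨c 4, hle 4⟩ hc
    (by simpa using hd) (hne 0) (hne 1) (hne 2) (hne 3) (hne 4)
  refine ⟨E5 A₀ A₁ a, a.val, rfl, ?_, fun t => ?_⟩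
  · intro k
    obtain ⟨h1, h2⟩ := E5_sum A₀ A₁ a 0
    fin_cases k
    · exact h1
    · exact h2
  · rw [E5_cnt, h t]
    fin_cases t <;> rfl

theorem good3 : GoodK 1 3 := by
  intro c hc hd hne
  have hle : ∀ t, c t < 4 := by
    intro t
    have := Finset.single_le_sum (fun i _ => Nat.zero_le (c i)) (Finset.mem_univ t)
    omega
  rw [Fin.sum_univ_three] at hc
  rw [Fin.sum_univ_three] at hd
  obtain ⟨A₀, a, h⟩ := Cfsg.Agent.Lib.Classical.Elusive.SlUConj.dec3 ⟨c 0, hle 0⟩ ⟨c 1, hle 1⟩ ⟨c 2, hle 2⟩ hc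
    (by simpa using hd) (hne 0) (hne 1) (hne 2)
  refine ⟨E3 A₀ a, a.val, rfl, ?_, fun t => ?_⟩
  · intro k
    fin_cases k
    exact E3_sum A₀ a
  · rw [E3_cnt, h t]
    fin_cases t <;> rfl

open _root_.Classical in
theorem case_exc {Q : QuadraticForm F (Fin n → F)} {q : ℕ} (hF : Fintype.card F = q) (hN : (polarBilin Q).Nondegenerate) {m : ℕ}
    (hr : n.Prime) (hr2 : n ≠ 2) (hrm : n = 2 * m + 1) (hG : GoodK m n)
    (hv : padicValNat n (q - 1) = 1) (x : GL (Fin n) F) (hx : x ∈ Cfsg.Geo.specialLinear (Fin n) F) {z : F}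
    (hxz : ((x ^ n : GL (Fin n) F) : Matrix (Fin n) (Fin n) F) = z • (1 : Matrix (Fin n) (Fin n) F))
    (hns : ∀ y : F, (x : Matrix (Fin n) (Fin n) F) ≠ y • (1 : Matrix (Fin n) (Fin n) F)) :
    ∃ g ∈ Cfsg.Geo.specialLinear (Fin n) F, g⁻¹ * x * g ∈ Cfsg.Geo.quadSimilarityGroup (⇑Q) := by
  haveI : Fact n.Prime := ⟨hr⟩
  have hq : 2 ≤ q := by
    rw [← hF]
    exact Fintype.one_lt_card
  have hq1 : q - 1 ≠ 0 := by omega
  have hn0 : 0 < n := hr.pos
  set T : Module.End F (Fin n → F) := Matrix.toLin' (x : Matrix (Fin n) (Fin n) F) with hTdef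
  have hTz : T ^ n = z • 1 := by
    rw [hTdef, ← Matrix.toLin'_pow, ← Units.val_pow_eq_pow_val, hxz, map_smul, Matrix.toLin'_one]
    rfl
  have hdet : LinearMap.det T = 1 := by
    rw [hTdef, LinearMap.det_toLin']
    have : Matrix.GeneralLinearGroup.det x = 1 := hx
    have h1 := congrArg Units.val this
    exact h1
  have hzr : z ^ n = 1 := by
    have h1 := congrArg LinearMap.det hTz
    rw [map_pow, hdet, one_pow, LinearMap.det_smul, Module.finrank_fintype_fun_eq_card, Fintype.card_fin, map_one, mul_one] at h1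
    exact h1.symm
  have hrq1 : n ∣ q - 1 := by
    have : n ^ 1 ∣ q - 1 := by
      rw [padicValNat_dvd_iff_le hq1]
      omega
    simpa using this
  have hrq4 : ¬ n ^ 2 ∣ q - 1 := by
    rw [padicValNat_dvd_iff_le hq1]
    omega
  -- the scalar is one
  have hz1 : z = 1 := by
    by_cases hs : ∃ y : F, y ^ n = z
    · obtain ⟨y, rfl⟩ := hs
      have hy0 : y ≠ 0 := by
        intro h
        rw [h, zero_pow hr.pos.ne', zero_pow hr.pos.ne'] at hzr
        exact zero_ne_one hzr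
      have h1 : y ^ (q - 1) = 1 := by
        rw [← hF]
        exact FiniteField.pow_card_sub_one_eq_one y hy0
      have h2 : y ^ (n ^ 2) = 1 := by
        rw [_root_.sq, pow_mul]
        exact hzr
      have h3 : y ^ Nat.gcd (n ^ 2) (q - 1) = 1 := pow_gcd_eq_one.2 ⟨h2, h1⟩
      obtain ⟨k, hk, hke⟩ := (Nat.dvd_prime_pow hr).1 (Nat.gcd_dvd_left (n ^ 2) (q - 1))
      have hk2 : k ≠ 2 := by
        rintro rfl
        apply hrq4
        rw [← hke]
        exact Nat.gcd_dvd_right _ _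
      have hkr : Nat.gcd (n ^ 2) (q - 1) ∣ n := by
        rw [hke]
        have : k ≤ 1 := by omega
        calc n ^ k ∣ n ^ 1 := pow_dvd_pow _ this
          _ = n := pow_one n
      obtain ⟨d, hd⟩ := hkr
      conv_lhs => rw [hd, pow_mul, h3, one_pow]
    · push Not at hs
      have h1 := det_of_irr rfl hr hr2 hTz hs
      rw [hdet] at h1
      exact h1.symm
  subst hz1
  have hT : T ^ n = 1 := by
    rw [hTz, one_smul]
  obtain ⟨ζ, hζ0, hζo⟩ := exists_order (F := F) (d := n) (by rwa [hF]) hr.pos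
  have hζ : IsPrimitiveRoot ζ n := by
    rw [← hζo]
    exact IsPrimitiveRoot.orderOf ζ
  have hζr : ζ ^ n = 1 := hζ.pow_eq_one
  have hsum := sum_eig hr.pos hζ hT
  rw [Module.finrank_fintype_fun_eq_card, Fintype.card_fin] at hsum
  have hdvd : n ∣ ∑ t : Fin n, t.val * Eig T (ζ ^ (t : ℕ)) := by
    have h1 := det_eig hr.pos hζ hT
    rw [hdet] at h1
    have h2 : ∏ t : Fin n, (ζ ^ (t : ℕ)) ^ Eig T (ζ ^ (t : ℕ)) = ζ ^ (∑ t : Fin n, t.val * Eig T (ζ ^ (t : ℕ))) := by
      rw [← Finset.prod_pow_eq_pow_sum]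
      refine Finset.prod_congr rfl fun t _ => ?_
      rw [pow_mul]
    rw [h2] at h1
    exact (hζ.pow_eq_one_iff_dvd _).1 h1.symm
  have hconc : ∀ t : Fin n, Eig T (ζ ^ (t : ℕ)) ≠ n := by
    intro t ht
    have h1 : LinearMap.ker (T - ζ ^ (t : ℕ) • (1 : Module.End F (Fin n → F))) = ⊤ := by
      apply Submodule.eq_top_of_finrank_eq
      rw [Module.finrank_fintype_fun_eq_card, Fintype.card_fin]
      exact ht
    apply hns (ζ ^ (t : ℕ))
    apply Matrix.toLin'.injective
    rw [map_smul, Matrix.toLin'_one]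
    show T = ζ ^ (t : ℕ) • _
    apply LinearMap.ext
    intro v
    have h2 : v ∈ LinearMap.ker (T - ζ ^ (t : ℕ) • (1 : Module.End F (Fin n → F))) := by
      rw [h1]
      exact Submodule.mem_top
    have h3 := LinearMap.mem_ker.1 h2
    rw [LinearMap.sub_apply, sub_eq_zero] at h3
    exact h3
  obtain ⟨E, a, hE₀, hE₁, hEc⟩ := hG _ hsum hdvd hconc
  -- the diagonal model
  let w : Kp m → F := fun i => ζ ^ (E i : ℕ)
  have hS : (Matrix.toLin' (Matrix.diagonal w)) ^ n = (1 : Module.End F (Kp m → F)) := by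
    rw [← Matrix.toLin'_pow, Matrix.diagonal_pow]
    have : (w ^ n) = 1 := by
      funext i
      simp only [w, Pi.pow_apply, Pi.one_apply]
      rw [← pow_mul, mul_comm, pow_mul, hζr, one_pow]
    rw [this, show (Matrix.diagonal (1 : Kp m → F)) = 1 from Matrix.diagonal_one, Matrix.toLin'_one]
    rfl
  have hE : ∀ t : Fin n, Eig T (ζ ^ (t : ℕ)) = Eig (Matrix.toLin' (Matrix.diagonal w)) (ζ ^ (t : ℕ)) := by
    intro t
    rw [← hEc t]
    unfold Eig
    rw [Cfsg.Agent.Lib.Classical.Elusive.TensorSpMain.cnt_eig']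
    refine Finset.sum_congr rfl fun i _ => ?_
    by_cases h : E i = t
    · rw [if_pos h, if_pos]
      simp only [w]
      rw [h]
    · rw [if_neg h, if_neg]
      intro h'
      exact h (Fin.ext (hζ.pow_inj (E i).2 t.2 h'))
  obtain ⟨φ, hφ⟩ := conj_of_pow₂ hr.pos hζ hT hS hE
  -- the form
  have hdim : finrank F (Fin n → F) = finrank F (Kp m → F) := by
    simp [Module.finrank_fintype_fun_eq_card]
    omega
  let e : (Fin n → F) ≃ₗ[F] (Kp m → F) := LinearEquiv.ofFinrankEq _ _ hdim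
  let Q₁ : QuadraticForm F (Kp m → F) := Q.comp (e.symm : (Kp m → F) →ₗ[F] (Fin n → F))
  have hQ₁ : ∀ x, Q₁ x = Q (e.symm x) := fun x => rfl
  have hnd : (polarBilin Q₁).Nondegenerate := by
    apply nondeg_of_polarNondeg
    intro x hx
    have h3 : e.symm x = 0 := by
      apply polarNondeg_of_nondeg Q hN
      intro y
      have h4 := hx (e y)
      simp only [polar, hQ₁, map_add, LinearEquiv.symm_apply_apply] at h4
      exact h4
    simpa using h3
  obtain ⟨g, d, hd, hg⟩ := Cfsg.Agent.Lib.Classical.OrthAut.FldOdd.exists_match m Q₁ hnd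
  have hΨ : ∀ u, Q ((g.symm.trans e.symm) u) = d⁻¹ * Cfsg.quadFormOdd m F u := by
    intro u
    have h1 := hg (g.symm u)
    rw [LinearEquiv.apply_symm_apply, Cfsg.Agent.Lib.Classical.Orth.Models.coe_oddForm_apply, hQ₁] at h1
    rw [h1, ← mul_assoc, inv_mul_cancel₀ hd, one_mul]
    rfl
  haveI : Nonempty (Kp m) := ⟨.inl ()⟩
  refine finish_diagq (g.symm.trans e.symm) hΨ x w (c := ζ ^ (2 * a)) (pow_ne_zero _ hζ0) ?_ φ hφ
  intro u
  simp only [Cfsg.quadFormOdd, Matrix.toLin'_apply, Matrix.mulVec_diagonal, mul_add, Finset.mul_sum]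
  congr 1
  · have h1 : ζ ^ (2 * (E (.inl ())).val) = ζ ^ (2 * a) := pow_congr_mod hζr hE₀
    simp only [w]
    rw [← h1, mul_pow, ← pow_mul, mul_comm (E (.inl ())).val 2]
  · refine Finset.sum_congr rfl fun k _ => ?_
    have h1 : ζ ^ ((E (.inr (.inl k))).val + (E (.inr (.inr k))).val) = ζ ^ (2 * a) := pow_congr_mod hζr (hE₁ k)
    simp only [w]
    rw [← h1, pow_add]
    ring

theorem main {p : ℕ} [Fact p.Prime] [CharP F p] {q : ℕ} (hq : Fintype.card F = q)
    (hodd : Odd q) (n : ℕ) (hn : 3 ≤ n) (Q : (Fin n → F) → F) (hQ : Cfsg.Geo.IsNondegenerateQuadraticForm Q)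
    (r : ℕ) [Fact r.Prime] (hgap : ¬ (n = 6 ∧ r = 3))
    (hΩ : r ∣ (Cfsg.Geo.quadSimilarityGroup Q).relIndex (Cfsg.Geo.specialLinear (Fin n) F)) :
    (∀ x ∈ Cfsg.Geo.specialLinear (Fin n) F, (∃ z : F, ((x ^ r : GL (Fin n) F) : Matrix (Fin n) (Fin n) F) = z • (1 : Matrix (Fin n) (Fin n) F)) →
      (∀ z : F, (x : Matrix (Fin n) (Fin n) F) ≠ z • (1 : Matrix (Fin n) (Fin n) F)) →
      ∃ g ∈ Cfsg.Geo.specialLinear (Fin n) F, g⁻¹ * x * g ∈ Cfsg.Geo.quadSimilarityGroup Q) ↔
    (r = 2 ∨ ((r = 3 ∨ r = 5) ∧ n = r ∧ padicValNat r (q - 1) = 1)) := by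
  obtain ⟨Q', rfl, hN⟩ := Cfsg.Agent.Lib.Classical.Geo.OPts.exists_quadraticForm hQ
  have h2 : (2 : F) ≠ 0 := Cfsg.Agent.Lib.Classical.Asch.Forms.two_ne_zero_of_odd (by rwa [hq])
  constructor
  · intro H
    by_cases r2 : r = 2
    · exact Or.inl r2
    · right
      by_cases rp : r = p
      · subst rp
        exact (bad_p hN h2 hn H).elim
      · by_cases hs : r ∣ q - 1
        · have := split_case hN hn r2 hgap (by rwa [hq]) H
          rwa [hq] at this
        · exact (nonsplit_case hq hodd hN hn r2 rp hs hΩ H).elim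
  · rintro (rfl | ⟨h35, hnr, hv⟩)
    · rintro x hx ⟨z, hxz⟩ hns
      exact case_two hq hodd hN hn x hx hxz hns
    · subst hnr
      rintro x hx ⟨z, hxz⟩ hns
      rcases h35 with rfl | rfl
      · exact case_exc hq hN (m := 1) (by norm_num) (by norm_num) (by norm_num) good3 hv x hx hxz hns
      · exact case_exc hq hN (m := 2) (by norm_num) (by norm_num) (by norm_num) good5 hv x hx hxz hns

end Cfsg.Agent.Lib.Classical.Elusive.SlOConj
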