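import Mathlib
import Cfsg.Agent.Lib.Classical.Elusive.SpFieldAbs
import Cfsg.Agent.Lib.Classical.Elusive.SpHermU

/-!
# Field subalgebras of the symplectic matrix algebra: model, normalizer, embedding of the `K`-linear symplectic group
-/

set_option autoImplicit false
set_option linter.unusedSectionVars false
set_option linter.unusedSimpArgs false
set_option linter.unusedVariables false
set_option linter.style.haveILetI false

namespace Cfsg.Agent.Lib.Classical.Elusive.SpFieldEmb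

open Module Matrix
open Cfsg.Agent.Lib.Classical.Elusive.SpFieldAbs
open Cfsg.Agent.Lib.Classical.Symp.Basic Cfsg.Agent.Lib.Classical.Symp.SpGL Cfsg.Agent.Lib.Linalg.Bridge

universe u

section Model

variable {F : Type u} [Field F] [Fintype F] {d : ℕ}

/-- `K` as an abstract field. -/
theorem exists_fieldModel {k : ℕ} {K : Subalgebra F (Matrix (Fin d ⊕ Fin d) (Fin d ⊕ Fin d) F)}
    (hK : Cfsg.Geo.IsFieldSubalgebra k K) (hd : 0 < d) :
    ∃ (L : Type u) (_ : Field L) (_ : Algebra F L) (_ : Fintype L) (ρ : L →ₐ[F] Matrix (Fin d ⊕ Fin d) (Fin d ⊕ Fin d) F),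
      (∀ m, m ∈ K ↔ ∃ a, ρ a = m) ∧ finrank F L = k := by
  classical
  have hne : (1 : Matrix (Fin d ⊕ Fin d) (Fin d ⊕ Fin d) F) ≠ 0 := by
    intro h10
    have h13 := congrFun (congrFun h10 (Sum.inl ⟨0, hd⟩)) (Sum.inl ⟨0, hd⟩)
    simp at h13
  have hf : IsField K :=
    { exists_pair_ne := ⟨0, 1, fun h => hne (congrArg Subtype.val h).symm⟩
      mul_comm := fun x y => Subtype.ext (hK.comm x.1 x.2 y.1 y.2)
      mul_inv_cancel := by
        intro a ha
        obtain ⟨b, hb, hab⟩ := hK.inv a.1 a.2 (fun h => ha (Subtype.ext h))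
        exact ⟨⟨b, hb⟩, Subtype.ext hab⟩ }
  refine ⟨K, hf.toField, inferInstance, Fintype.ofFinite _, K.val, ?_, hK.finrank_eq⟩
  intro m
  constructor
  · intro hm
    exact ⟨⟨m, hm⟩, rfl⟩
  · rintro ⟨a, rfl⟩
    exact a.2

variable {L : Type u} [Field L] [Algebra F L]

/-- The action on vectors. -/
noncomputable def rhoE (ρ : L →ₐ[F] Matrix (Fin d ⊕ Fin d) (Fin d ⊕ Fin d) F) : L →ₐ[F] Module.End F (Fin d ⊕ Fin d → F) :=
  (Matrix.toLinAlgEquiv' (R := F) (n := Fin d ⊕ Fin d)).toAlgHom.comp ρ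

@[simp] theorem rhoE_apply (ρ : L →ₐ[F] Matrix (Fin d ⊕ Fin d) (Fin d ⊕ Fin d) F) (a : L) (v : Fin d ⊕ Fin d → F) :
    rhoE ρ a v = ρ a *ᵥ v := rfl

theorem rho_inj (hd : 0 < d) (ρ : L →ₐ[F] Matrix (Fin d ⊕ Fin d) (Fin d ⊕ Fin d) F) : Function.Injective ρ := by
  haveI : Nonempty (Fin d) := ⟨⟨0, hd⟩⟩
  exact ρ.toRingHom.injective

variable {K : Subalgebra F (Matrix (Fin d ⊕ Fin d) (Fin d ⊕ Fin d) F)} {ρ : L →ₐ[F] Matrix (Fin d ⊕ Fin d) (Fin d ⊕ Fin d) F}

/-- Semilinear maps normalize. -/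
theorem mem_normalizer_of (hmem : ∀ m, m ∈ K ↔ ∃ a, ρ a = m) (T : GL (Fin d ⊕ Fin d) F) (σ : L ≃ₐ[F] L)
    (h : ∀ a, (T : Matrix (Fin d ⊕ Fin d) (Fin d ⊕ Fin d) F) * ρ a = ρ (σ a) * (T : Matrix (Fin d ⊕ Fin d) (Fin d ⊕ Fin d) F)) :
    T ∈ Cfsg.Geo.subalgebraNormalizer K := by
  set G : Matrix (Fin d ⊕ Fin d) (Fin d ⊕ Fin d) F := (T : Matrix (Fin d ⊕ Fin d) (Fin d ⊕ Fin d) F) with hG
  set Gi : Matrix (Fin d ⊕ Fin d) (Fin d ⊕ Fin d) F := ((T⁻¹ : GL (Fin d ⊕ Fin d) F) : Matrix (Fin d ⊕ Fin d) (Fin d ⊕ Fin d) F) with hGi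
  have h1 : G * Gi = 1 := by
    rw [hG, hGi, ← Units.val_mul, mul_inv_cancel, Units.val_one]
  have h3 : Gi * G = 1 := by
    rw [hG, hGi, ← Units.val_mul, inv_mul_cancel, Units.val_one]
  intro k
  constructor
  · intro hk
    obtain ⟨a, rfl⟩ := (hmem k).1 hk
    refine (hmem _).2 ⟨σ a, ?_⟩
    show _ = G * ρ a * Gi
    rw [h a, mul_assoc, h1, mul_one]
  · intro hk
    obtain ⟨b, hb⟩ := (hmem _).1 hk
    refine (hmem _).2 ⟨σ.symm b, ?_⟩
    have h5 := h (σ.symm b)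
    rw [AlgEquiv.apply_symm_apply] at h5
    have hb' : ρ b = G * k * Gi := hb
    rw [hb'] at h5
    have h6 : G * ρ (σ.symm b) = G * k := by
      rw [h5, mul_assoc, mul_assoc, h3, mul_one]
    calc ρ (σ.symm b) = (Gi * G) * ρ (σ.symm b) := by rw [h3, one_mul]
      _ = Gi * (G * ρ (σ.symm b)) := by rw [mul_assoc]
      _ = Gi * (G * k) := by rw [h6]
      _ = (Gi * G) * k := by rw [mul_assoc]
      _ = k := by rw [h3, one_mul]

variable [FiniteDimensional F L]

/-- The automorphism induced by an element of the normalizer. -/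
theorem exists_phi (hd : 0 < d) (hmem : ∀ m, m ∈ K ↔ ∃ a, ρ a = m) {T : GL (Fin d ⊕ Fin d) F} (hT : T ∈ Cfsg.Geo.subalgebraNormalizer K) :
    ∃ φ : L ≃ₐ[F] L, ∀ a, (T : Matrix (Fin d ⊕ Fin d) (Fin d ⊕ Fin d) F) * ρ a = ρ (φ a) * (T : Matrix (Fin d ⊕ Fin d) (Fin d ⊕ Fin d) F) := by
  set G : Matrix (Fin d ⊕ Fin d) (Fin d ⊕ Fin d) F := (T : Matrix (Fin d ⊕ Fin d) (Fin d ⊕ Fin d) F) with hG
  set Gi : Matrix (Fin d ⊕ Fin d) (Fin d ⊕ Fin d) F := ((T⁻¹ : GL (Fin d ⊕ Fin d) F) : Matrix (Fin d ⊕ Fin d) (Fin d ⊕ Fin d) F) with hGi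
  have h1 : G * Gi = 1 := by
    rw [hG, hGi, ← Units.val_mul, mul_inv_cancel, Units.val_one]
  have h3 : Gi * G = 1 := by
    rw [hG, hGi, ← Units.val_mul, inv_mul_cancel, Units.val_one]
  have hex : ∀ a : L, ∃ b : L, ρ b = G * ρ a * Gi := fun a => (hmem _).1 ((hT (ρ a)).1 ((hmem _).2 ⟨a, rfl⟩))
  choose f hf using hex
  have hinj := rho_inj hd ρ
  let φ₀ : L →ₐ[F] L :=
    { toFun := f
      map_one' := by
        apply hinj
        rw [hf, map_one, mul_one, h1]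
      map_mul' := by
        intro x y
        apply hinj
        rw [hf, map_mul, map_mul, hf, hf]
        rw [show G * ρ x * Gi * (G * ρ y * Gi) = G * ρ x * (Gi * G) * ρ y * Gi by simp only [mul_assoc], h3, mul_one]
        simp only [mul_assoc]
      map_zero' := by
        apply hinj
        rw [hf, map_zero, mul_zero, zero_mul]
      map_add' := by
        intro x y
        apply hinj
        rw [hf, map_add, map_add, hf, hf, mul_add, add_mul]
      commutes' := by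
        intro c
        apply hinj
        rw [hf, AlgHom.commutes, Algebra.algebraMap_eq_smul_one, mul_smul_comm, smul_mul_assoc, mul_one, h1] }
  refine ⟨AlgEquiv.ofBijective φ₀ φ₀.bijective, fun a => ?_⟩
  show G * ρ a = ρ (f a) * G
  rw [hf, mul_assoc, h3, mul_one]

theorem phi_pow {T : Matrix (Fin d ⊕ Fin d) (Fin d ⊕ Fin d) F} {φ : L ≃ₐ[F] L}
    (h : ∀ a, T * ρ a = ρ (φ a) * T) (n : ℕ) (a : L) : T ^ n * ρ a = ρ ((φ ^ n) a) * T ^ n := by
  induction n generalizing a with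
  | zero => simp
  | succ n ih =>
    rw [pow_succ, mul_assoc, h, ← mul_assoc, ih, mul_assoc, pow_succ]
    rfl

theorem phi_pow_eq_one (hd : 0 < d) {T : Matrix (Fin d ⊕ Fin d) (Fin d ⊕ Fin d) F} {φ : L ≃ₐ[F] L}
    (h : ∀ a, T * ρ a = ρ (φ a) * T) {n : ℕ} (hn : T ^ n = 1) : φ ^ n = 1 := by
  ext a
  have h1 := phi_pow h n a
  rw [hn, one_mul, mul_one] at h1
  exact (rho_inj hd ρ h1).symm

end Model

section Gal

variable {F : Type u} [Field F] [Fintype F] {L : Type u} [Field L] [Algebra F L] [Fintype L] 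

theorem galois_dvd {n : ℕ} (hn : n.Prime) {φ : L ≃ₐ[F] L} (h1 : φ ^ n = 1) (h2 : φ ≠ 1) : n ∣ finrank F L := by
  haveI : Fact n.Prime := ⟨hn⟩
  have h3 : orderOf φ = n := orderOf_eq_prime h1 h2
  haveI : FiniteDimensional F L := Module.Finite.of_finite
  have h4 := orderOf_dvd_natCard φ
  rw [h3, IsGalois.card_aut_eq_finrank] at h4
  exact h4

end Gal

section Emb

variable {F : Type u} [Field F] {d d' : ℕ} {L : Type u} [Field L] [Algebra F L]

variable (X : (Fin d ⊕ Fin d → F) ≃ₗ[F] (Fin d' ⊕ Fin d' → L))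

/-- The action of a matrix over the extension. -/
noncomputable def eG (g : GL (Fin d' ⊕ Fin d') L) : (Fin d' ⊕ Fin d' → L) ≃ₗ[F] (Fin d' ⊕ Fin d' → L) :=
  (equivOfGL g).restrictScalars F

@[simp] theorem eG_apply (g : GL (Fin d' ⊕ Fin d') L) (v : Fin d' ⊕ Fin d' → L) :
    eG (F := F) g v = (g : Matrix (Fin d' ⊕ Fin d') (Fin d' ⊕ Fin d') L) *ᵥ v := rfl

/-- The transported matrix. -/
noncomputable def psi (g : GL (Fin d' ⊕ Fin d') L) : GL (Fin d ⊕ Fin d) F :=
  glOfEquiv ((X.trans (eG g)).trans X.symm)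

theorem psi_mulVec (g : GL (Fin d' ⊕ Fin d') L) (v : Fin d ⊕ Fin d → F) :
    (psi X g : Matrix (Fin d ⊕ Fin d) (Fin d ⊕ Fin d) F) *ᵥ v = X.symm ((g : Matrix (Fin d' ⊕ Fin d') (Fin d' ⊕ Fin d') L) *ᵥ X v) := by
  exact glOfEquiv_mulVec _ v

/-- The transport homomorphism. -/
noncomputable def psiHom : GL (Fin d' ⊕ Fin d') L →* GL (Fin d ⊕ Fin d) F :=
  MonoidHom.mk' (psi X) (by
    intro g h
    apply Units.ext
    apply matrix_eq_of_mulVec_eq
    intro v
    rw [Units.val_mul, ← Matrix.mulVec_mulVec, psi_mulVec, psi_mulVec, psi_mulVec]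
    simp only [Units.val_mul, Matrix.mulVec_mulVec, LinearEquiv.apply_symm_apply])

theorem psiHom_apply_mulVec (g : GL (Fin d' ⊕ Fin d') L) (v : Fin d ⊕ Fin d → F) :
    (psiHom X g : Matrix (Fin d ⊕ Fin d) (Fin d ⊕ Fin d) F) *ᵥ v = X.symm ((g : Matrix (Fin d' ⊕ Fin d') (Fin d' ⊕ Fin d') L) *ᵥ X v) :=
  psi_mulVec X g v

theorem psiHom_inj : Function.Injective (psiHom (L := L) X) := by
  intro g h hgh
  apply Units.ext
  apply matrix_eq_of_mulVec_eq
  intro w
  obtain ⟨v, rfl⟩ := X.surjective w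
  have h1 := psiHom_apply_mulVec X g v
  rw [hgh, psiHom_apply_mulVec] at h1
  exact (X.symm.injective h1).symm

theorem psi_mem_sp [FiniteDimensional F L] (hB : ∀ u v, Cfsg.sympForm d F u v = Algebra.trace F L (Cfsg.sympForm d' L (X u) (X v)))
    {g : GL (Fin d' ⊕ Fin d') L} (hg : g ∈ Cfsg.spGL d' L) : psiHom X g ∈ Cfsg.spGL d F := by
  rw [mem_spGL_iff]
  intro u v
  rw [psiHom_apply_mulVec, psiHom_apply_mulVec, hB, hB, LinearEquiv.apply_symm_apply, LinearEquiv.apply_symm_apply,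
    (mem_spGL_iff g).mp hg]

theorem psi_comm {ρ : L →ₐ[F] Matrix (Fin d ⊕ Fin d) (Fin d ⊕ Fin d) F} (hX : ∀ (a : L) v, X (ρ a *ᵥ v) = a • X v)
    (g : GL (Fin d' ⊕ Fin d') L) (a : L) :
    (psiHom X g : Matrix (Fin d ⊕ Fin d) (Fin d ⊕ Fin d) F) * ρ a = ρ a * (psiHom X g : Matrix (Fin d ⊕ Fin d) (Fin d ⊕ Fin d) F) := by
  apply matrix_eq_of_mulVec_eq
  intro v
  rw [← Matrix.mulVec_mulVec, ← Matrix.mulVec_mulVec, psiHom_apply_mulVec, psiHom_apply_mulVec, hX, Matrix.mulVec_smul]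
  apply X.injective
  rw [LinearEquiv.apply_symm_apply, hX, LinearEquiv.apply_symm_apply]

end Emb

section Arith

theorem prod_split (q k d' : ℕ) (hk : 0 < k) :
    ∏ i ∈ Finset.range (k * d'), (q ^ (2 * (i + 1)) - 1) =
      (∏ i ∈ Finset.range d', ((q ^ k) ^ (2 * (i + 1)) - 1)) *
        ∏ i ∈ (Finset.range (k * d')).filter (fun i => ¬ k ∣ i + 1), (q ^ (2 * (i + 1)) - 1) := by
  classical
  rw [← Finset.prod_filter_mul_prod_filter_not (Finset.range (k * d')) (fun i => k ∣ i + 1)]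
  congr 1
  symm
  apply Finset.prod_bij (fun j _ => k * (j + 1) - 1)
  · intro j hj
    have hj' := Finset.mem_range.mp hj
    have h1 : 0 < k * (j + 1) := by positivity
    have h2 : k * (j + 1) ≤ k * d' := Nat.mul_le_mul_left _ hj'
    rw [Finset.mem_filter, Finset.mem_range]
    refine ⟨by omega, ?_⟩
    rw [Nat.sub_add_cancel h1]
    exact dvd_mul_right _ _
  · intro a _ b _ hab
    have h1 : 0 < k * (a + 1) := by positivity
    have h2 : 0 < k * (b + 1) := by positivity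
    have h3 : k * (a + 1) = k * (b + 1) := by
      have : k * (a + 1) - 1 = k * (b + 1) - 1 := hab
      omega
    have := Nat.eq_of_mul_eq_mul_left hk h3
    omega
  · intro i hi
    rw [Finset.mem_filter, Finset.mem_range] at hi
    obtain ⟨hi1, m, hm⟩ := hi
    have hm0 : 0 < m := by
      rcases Nat.eq_zero_or_pos m with rfl | h
      · simp at hm
      · exact h
    refine ⟨m - 1, ?_, ?_⟩
    · rw [Finset.mem_range]
      have h3 : k * m ≤ k * d' := by
        rw [← hm]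
        omega
      have h4 := Nat.le_of_mul_le_mul_left h3 hk
      omega
    · show k * (m - 1 + 1) - 1 = i
      rw [Nat.sub_add_cancel hm0, ← hm]
      omega
  · intro j hj
    have h1 : 0 < k * (j + 1) := by positivity
    rw [Nat.sub_add_cancel h1, ← pow_mul]
    congr 2
    ring

end Arith

section Dvd

variable {F : Type u} [Field F] [Fintype F] {d : ℕ} {L : Type u} [Field L] [Algebra F L] [Fintype L]

/-- The arithmetic consequence of the embedding of the `K`-linear symplectic group. -/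
theorem dvd_main {q k : ℕ} (hq : Fintype.card F = q) (hd : 0 < d) {K : Subalgebra F (Matrix (Fin d ⊕ Fin d) (Fin d ⊕ Fin d) F)}
    {ρ : L →ₐ[F] Matrix (Fin d ⊕ Fin d) (Fin d ⊕ Fin d) F} (hmem : ∀ m, m ∈ K ↔ ∃ a, ρ a = m)
    (D : Data (sympBilin d F) (rhoE ρ)) (hk : finrank F L = k) {r : ℕ} (hr : r.Prime)
    (hΩ : r ∣ (Cfsg.Geo.subalgebraNormalizer K).relIndex (Cfsg.spGL d F)) :
    r ∣ q ∨ ∃ j ∈ Finset.range d, ¬ k ∣ j + 1 ∧ r ∣ q ^ (2 * (j + 1)) - 1 := by
  classical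
  haveI : FiniteDimensional F L := Module.Finite.of_finite
  obtain ⟨d', X, hdim, hX, hB⟩ := exists_frame_rho D sympBilin_nondegenerate
  have hkpos : 0 < k := by
    rw [← hk]
    exact Module.finrank_pos
  have hdimV : finrank F (Fin d ⊕ Fin d → F) = 2 * d := by
    rw [Module.finrank_fintype_fun_eq_card, Fintype.card_sum, Fintype.card_fin]
    ring
  have hdd : d = k * d' := by
    rw [hdimV, hk] at hdim
    nlinarith
  subst hdd
  have hq2 : 2 ≤ q := by
    rw [← hq]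
    exact Fintype.one_lt_card
  have hL : Fintype.card L = q ^ k := by
    rw [← hq, ← hk]
    exact Module.card_eq_pow_finrank
  set H := Cfsg.Geo.subalgebraNormalizer K with hH
  set S := H ⊓ Cfsg.spGL (k * d') F with hS
  have hfH : ∀ g ∈ Cfsg.spGL d' L, psiHom X g ∈ S := by
    intro g hg
    refine ⟨mem_normalizer_of hmem _ AlgEquiv.refl (fun a => ?_), psi_mem_sp X (fun u v => hB u v) hg⟩
    exact psi_comm X (fun a v => hX a v) g a
  have h1 : Nat.card (Cfsg.spGL d' L) ∣ Nat.card S := by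
    refine Subgroup.card_dvd_of_injective (((psiHom X).comp (Cfsg.spGL d' L).subtype).codRestrict S (fun g => hfH g.1 g.2)) ?_
    intro a b hab
    apply Subtype.ext
    apply psiHom_inj X
    exact congrArg Subtype.val hab
  have h2 : S.relIndex (Cfsg.spGL (k * d') F) = H.relIndex (Cfsg.spGL (k * d') F) := Subgroup.inf_relIndex_right _ _
  have h3 : Nat.card S * H.relIndex (Cfsg.spGL (k * d') F) = Nat.card (Cfsg.spGL (k * d') F) := by
    rw [← h2]
    have := Subgroup.relIndex_mul_relIndex (⊥ : Subgroup (GL (Fin (k * d') ⊕ Fin (k * d')) F)) S (Cfsg.spGL (k * d') F) bot_le inf_le_right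
    rw [Subgroup.relIndex_bot_left, Subgroup.relIndex_bot_left] at this
    exact this
  rw [SpHermU.card_spGL hq, prod_split q k d' hkpos] at h3
  rw [SpHermU.card_spGL hL] at h1
  obtain ⟨c, hc⟩ := h1
  set P₁ := ∏ i ∈ Finset.range d', ((q ^ k) ^ (2 * (i + 1)) - 1) with hP₁
  set P₂ := ∏ i ∈ (Finset.range (k * d')).filter (fun i => ¬ k ∣ i + 1), (q ^ (2 * (i + 1)) - 1) with hP₂
  have hP₁pos : 0 < P₁ := by
    apply Finset.prod_pos
    intro i _
    have h4 : 1 < q ^ k := Nat.one_lt_pow (by omega) (by omega)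
    have h5 : 1 < (q ^ k) ^ (2 * (i + 1)) := Nat.one_lt_pow (by omega) h4
    omega
  have h4 : (q ^ k) ^ d' ^ 2 * c * H.relIndex (Cfsg.spGL (k * d') F) = q ^ ((k * d') ^ 2) * P₂ := by
    apply Nat.eq_of_mul_eq_mul_left hP₁pos
    rw [hc] at h3
    linear_combination h3
  have h5 : r ∣ q ^ ((k * d') ^ 2) * P₂ := by
    rw [← h4]
    exact Dvd.dvd.mul_left hΩ _
  rcases (Nat.Prime.dvd_mul hr).mp h5 with h6 | h6
  · exact Or.inl (hr.dvd_of_dvd_pow h6)
  · right
    obtain ⟨j, hj, hj2⟩ := (Prime.dvd_finsetProd_iff (Nat.Prime.prime hr) _).mp h6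
    rw [Finset.mem_filter] at hj
    exact ⟨j, hj.1, hj.2, hj2⟩

end Dvd

end Cfsg.Agent.Lib.Classical.Elusive.SpFieldEmb
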