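import Mathlib
import Cfsg.Agent.Lib.Classical.Elusive.SpModel
import Cfsg.Agent.Lib.Classical.Elusive.TiBlock

/-!
# Symplectic elements of odd prime order with prescribed multiplicities of the irreducible factors
-/

set_option autoImplicit false
set_option linter.unusedSectionVars false
set_option linter.unusedSimpArgs false
set_option linter.unusedVariables false
set_option linter.style.haveILetI false

namespace Cfsg.Agent.Lib.Classical.Elusive.TiModel

open Polynomial Module Matrix
open Cfsg.Agent.Lib.Classical.Elusive.Inv Cfsg.Agent.Lib.Classical.Elusive.PslNum Cfsg.Agent.Lib.Classical.Elusive.SpModel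

universe u

attribute [local instance] _root_.Classical.propDecidable

section Prod

variable {F : Type u} [Field F]

theorem aeval_prodMap {V₁ V₂ : Type u} [AddCommGroup V₁] [Module F V₁] [AddCommGroup V₂] [Module F V₂]
    (T₁ : Module.End F V₁) (T₂ : Module.End F V₂) (g : F[X]) :
    Polynomial.aeval (LinearMap.prodMap T₁ T₂ : Module.End F (V₁ × V₂)) g = LinearMap.prodMap (Polynomial.aeval T₁ g) (Polynomial.aeval T₂ g) := by
  induction g using Polynomial.induction_on' with
  | add p q hp hq =>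
    rw [map_add, map_add, map_add, hp, hq]
    apply LinearMap.ext
    intro x
    rfl
  | monomial n a =>
    rw [aeval_monomial, aeval_monomial, aeval_monomial, prodMap_pow_apply]
    apply LinearMap.ext
    intro x
    rfl

theorem finrank_ker_prodMap {V₁ V₂ : Type u} [AddCommGroup V₁] [Module F V₁] [FiniteDimensional F V₁]
    [AddCommGroup V₂] [Module F V₂] [FiniteDimensional F V₂] (T₁ : Module.End F V₁) (T₂ : Module.End F V₂) :
    finrank F (LinearMap.ker (LinearMap.prodMap T₁ T₂ : Module.End F (V₁ × V₂))) = finrank F (LinearMap.ker T₁) + finrank F (LinearMap.ker T₂) := by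
  let φ : (LinearMap.ker T₁ × LinearMap.ker T₂) →ₗ[F] LinearMap.ker (LinearMap.prodMap T₁ T₂ : Module.End F (V₁ × V₂)) :=
    LinearMap.codRestrict _ (LinearMap.prodMap (LinearMap.ker T₁).subtype (LinearMap.ker T₂).subtype) (by
      rintro ⟨⟨a, ha⟩, ⟨b, hb⟩⟩
      rw [LinearMap.mem_ker]
      apply Prod.ext
      · exact LinearMap.mem_ker.1 ha
      · exact LinearMap.mem_ker.1 hb)
  have hb : Function.Bijective φ := by
    constructor
    · rintro ⟨⟨a, ha⟩, ⟨b, hb⟩⟩ ⟨⟨a', ha'⟩, ⟨b', hb'⟩⟩ h
      have h1 := congrArg Subtype.val h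
      have h2 : (a, b) = (a', b') := h1
      simp only [Prod.mk.injEq] at h2
      obtain ⟨rfl, rfl⟩ := h2
      rfl
    · rintro ⟨⟨a, b⟩, h⟩
      have h1 := LinearMap.mem_ker.1 h
      have h2 : T₁ a = 0 := congrArg Prod.fst h1
      have h3 : T₂ b = 0 := congrArg Prod.snd h1
      exact ⟨⟨⟨a, LinearMap.mem_ker.2 h2⟩, ⟨b, LinearMap.mem_ker.2 h3⟩⟩, rfl⟩
  rw [← (LinearEquiv.ofBijective φ hb).finrank_eq, Module.finrank_prod]

/-- An abstract symplectic space with an isometry `T`, with prescribed fixed space and multiplicities. -/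
def RealiL (F : Type u) [Field F] (r i : ℕ) (L : Multiset F[X]) (e : ℕ) : Prop :=
  ∃ (V : Type u) (_ : AddCommGroup V) (_ : Module F V) (_ : FiniteDimensional F V)
    (B : LinearMap.BilinForm F V) (T : Module.End F V),
    B.IsAlt ∧ B.Nondegenerate ∧ finrank F V = i * Multiset.card L + 2 * e ∧ (∀ u v, B (T u) (T v) = B u v) ∧ T ^ r = 1 ∧
      finrank F (Fix T) = 2 * e ∧
      ∀ g : F[X], g.Monic → Irreducible g → g ∣ Phi F r → finrank F (LinearMap.ker (Polynomial.aeval T g)) = i * L.count g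

theorem RealiL.add {r i e₁ e₂ : ℕ} {L₁ L₂ : Multiset F[X]} (h₁ : RealiL F r i L₁ e₁) (h₂ : RealiL F r i L₂ e₂) :
    RealiL F r i (L₁ + L₂) (e₁ + e₂) := by
  obtain ⟨V₁, i1, i2, i3, B₁, T₁, hA₁, hN₁, hd₁, hI₁, hP₁, hK₁, hG₁⟩ := h₁
  obtain ⟨V₂, j1, j2, j3, B₂, T₂, hA₂, hN₂, hd₂, hI₂, hP₂, hK₂, hG₂⟩ := h₂
  let B : LinearMap.BilinForm F (V₁ × V₂) :=
    B₁.comp (LinearMap.fst F V₁ V₂) (LinearMap.fst F V₁ V₂) + B₂.comp (LinearMap.snd F V₁ V₂) (LinearMap.snd F V₁ V₂)
  have hB : ∀ u v, B u v = B₁ u.1 v.1 + B₂ u.2 v.2 := fun u v => rfl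
  refine ⟨V₁ × V₂, inferInstance, inferInstance, inferInstance, B, LinearMap.prodMap T₁ T₂, ?_, ?_, ?_, ?_, ?_, ?_, ?_⟩
  · intro u
    rw [hB, hA₁, hA₂, add_zero]
  · have key : ∀ x : V₁ × V₂, (∀ y, B x y = 0) → x = 0 := by
      rintro ⟨a, b⟩ hx
      apply Prod.ext
      · apply hN₁.1 a
        intro y
        have := hx (y, 0)
        simpa [hB] using this
      · apply hN₂.1 b
        intro y
        have := hx (0, y)
        simpa [hB] using this
    have key' : ∀ x : V₁ × V₂, (∀ y, B y x = 0) → x = 0 := by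
      rintro ⟨a, b⟩ hx
      apply Prod.ext
      · apply hN₁.2 a
        intro y
        have := hx (y, 0)
        simpa [hB] using this
      · apply hN₂.2 b
        intro y
        have := hx (0, y)
        simpa [hB] using this
    exact ⟨fun x hx => key x hx, fun x hx => key' x hx⟩
  · rw [Module.finrank_prod, hd₁, hd₂, Multiset.card_add]
    ring
  · intro u v
    rw [hB, hB]
    simp [hI₁, hI₂]
  · rw [prodMap_pow_apply, hP₁, hP₂]
    apply LinearMap.ext
    intro x
    rfl
  · rw [finrank_Fix_prod, hK₁, hK₂]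
    ring
  · intro g h1 h2 h3
    rw [aeval_prodMap, finrank_ker_prodMap, hG₁ g h1 h2 h3, hG₂ g h1 h2 h3, Multiset.count_add]
    ring

theorem reali_triv_L {r i : ℕ} (hr : (r : F) ≠ 0) (e : ℕ) : RealiL F r i 0 e := by
  refine ⟨Fin e ⊕ Fin e → F, inferInstance, inferInstance, inferInstance, Cfsg.Agent.Lib.Classical.Symp.Basic.sympBilin e F, 1,
    Cfsg.Agent.Lib.Classical.Symp.Basic.sympBilin_isAlt, Cfsg.Agent.Lib.Classical.Symp.Basic.sympBilin_nondegenerate, ?_, ?_, one_pow _, ?_, ?_⟩
  · rw [Module.finrank_fintype_fun_eq_card, Fintype.card_sum, Fintype.card_fin]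
    simp
    ring
  · intro u v
    rfl
  · have h1 : Fix (1 : Module.End F (Fin e ⊕ Fin e → F)) = ⊤ := by
      ext v
      simp [mem_Fix]
    rw [h1, finrank_top, Module.finrank_fintype_fun_eq_card, Fintype.card_sum, Fintype.card_fin]
    ring
  · intro g h1 h2 h3
    have h4 : g.eval 1 ≠ 0 := by
      intro h5
      have h6 : (Phi F r).eval 1 = 0 := by
        obtain ⟨c, hc⟩ := h3
        rw [hc, eval_mul, h5, zero_mul]
      rw [Phi_eval_one] at h6
      exact hr h6
    have h5 : LinearMap.ker (Polynomial.aeval (1 : Module.End F (Fin e ⊕ Fin e → F)) g) = ⊥ := by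
      rw [eq_bot_iff]
      intro v hv
      have h6 : (1 : Module.End F (Fin e ⊕ Fin e → F)) = algebraMap F _ 1 := by
        rw [map_one]
      rw [LinearMap.mem_ker, h6, aeval_algebraMap_apply, Module.algebraMap_end_apply] at hv
      rw [Submodule.mem_bot]
      refine (smul_eq_zero.1 hv).resolve_left ?_
      rwa [coe_aeval_eq_eval]
    rw [h5, finrank_bot]
    simp

variable [Fintype F] {p : ℕ} [Fact p.Prime] [CharP F p]

open Cfsg.Agent.Lib.Classical.Herm in
/-- One block. -/
theorem reali_block {q r b : ℕ} (hF : Fintype.card F = q) (hr : r.Prime) (hrp : r ≠ p)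
    (hb0 : 0 < b) (hr1 : r ∣ q ^ b + 1) {g : F[X]} (hg1 : g.Monic) (hg2 : Irreducible g) (hgP : g ∣ Phi F r) (hdeg : g.natDegree = 2 * b) : RealiL F r (2 * b) {g} 0 := by
  have hr0 : (r : F) ≠ 0 := cast_ne_zero_of_ne hr hrp
  have hrev : g.reverse = g := reverse_eq hF hr hrp hg1 hg2 hgP (by omega) hr1
  have hpal : Palin.IsPal b g := ⟨hg1, hdeg, hrev⟩
  obtain ⟨u, -, hu⟩ := SpReal.exists_sp_of_isPal (p := p) hpal
  let T : Module.End F (Fin b ⊕ Fin b → F) := Matrix.toLin' (u : Matrix (Fin b ⊕ Fin b) (Fin b ⊕ Fin b) F)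
  have hTg : aeval T g = 0 := by
    have h1 := LinearMap.aeval_self_charpoly T
    have h2 : T.charpoly = g := by
      show (Matrix.toLin' (u : Matrix (Fin b ⊕ Fin b) (Fin b ⊕ Fin b) F)).charpoly = g
      rw [Matrix.charpoly_toLin', hu]
    rwa [h2] at h1
  have hTP : aeval T (Phi F r) = 0 := by
    obtain ⟨e, he⟩ := hgP
    rw [he, map_mul, hTg, zero_mul]
  have hTr : T ^ r = 1 := by
    have h2 := congrArg (aeval T) (Phi_mul F r)
    rw [map_mul, hTP, zero_mul, map_sub, map_pow, aeval_X, map_one] at h2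
    exact (sub_eq_zero.1 h2.symm)
  have hdimV : finrank F (Fin b ⊕ Fin b → F) = 2 * b := by
    rw [Module.finrank_fintype_fun_eq_card, Fintype.card_sum, Fintype.card_fin]
    ring
  refine ⟨Fin b ⊕ Fin b → F, inferInstance, inferInstance, inferInstance, Cfsg.Agent.Lib.Classical.Symp.Basic.sympBilin b F, T,
    Cfsg.Agent.Lib.Classical.Symp.Basic.sympBilin_isAlt, Cfsg.Agent.Lib.Classical.Symp.Basic.sympBilin_nondegenerate, ?_, ?_, hTr, ?_, ?_⟩
  · rw [hdimV]
    simp
  · intro x y
    simp only [Cfsg.Agent.Lib.Classical.Symp.Basic.sympBilin_apply]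
    exact Cfsg.Agent.Lib.Classical.Symp.Basic.mem_symplecticGroup_iff_forall.1 u.2 x y
  · have h1 : Fix T = ⊥ := by
      rw [eq_bot_iff]
      intro v hv
      have h2 := aeval_Phi_of_fixed (F := F) (mem_Fix.1 hv) r
      have h3 : aeval T (Phi F r) v = 0 := by
        rw [hTP]
        rfl
      rw [h3] at h2
      rw [Submodule.mem_bot]
      exact (smul_eq_zero.1 h2.symm).resolve_left hr0
    rw [h1, finrank_bot]
  · intro g' h1 h2 h3
    by_cases hgg : g' = g
    · subst hgg
      have h4 : LinearMap.ker (Polynomial.aeval T g') = ⊤ := by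
        rw [hTg]
        exact LinearMap.ker_zero
      rw [h4, finrank_top, hdimV, Multiset.count_singleton_self, mul_one]
    · have h4 : ¬ g' ∣ g := by
        intro h5
        have h6 := h2.associated_of_dvd hg2 h5
        exact hgg (eq_of_monic_of_associated h1 hg1 h6)
      obtain ⟨a, c, hac⟩ := (h2.coprime_iff_not_dvd).2 h4
      have h5 : LinearMap.ker (Polynomial.aeval T g') = ⊥ := by
        rw [eq_bot_iff]
        intro v hv
        have h6 := congrArg (fun P => Polynomial.aeval T P v) hac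
        simp only [map_add, map_mul, LinearMap.add_apply, Module.End.mul_apply, map_one, Module.End.one_apply, hTg,
          LinearMap.zero_apply, map_zero, LinearMap.mem_ker.1 hv, add_zero] at h6
        rw [Submodule.mem_bot]
        exact h6.symm
      rw [h5, finrank_bot, Multiset.count_singleton, if_neg hgg, mul_zero]

/-- Models for multisets of factors. -/
theorem reali_multiset {q r b : ℕ} (hF : Fintype.card F = q) (hr : r.Prime) (hrp : r ≠ p) (hb0 : 0 < b) (hr1 : r ∣ q ^ b + 1)
    (e : ℕ) (L : Multiset F[X]) : (∀ g ∈ L, g.Monic ∧ Irreducible g ∧ g ∣ Phi F r ∧ g.natDegree = 2 * b) → RealiL F r (2 * b) L e := by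
  have hr0 : (r : F) ≠ 0 := cast_ne_zero_of_ne hr hrp
  induction L using Multiset.induction_on with
  | empty =>
    intro _
    exact reali_triv_L hr0 e
  | cons g L ih =>
    intro h
    have h1 := ih (fun g' hg' => h g' (Multiset.mem_cons_of_mem hg'))
    obtain ⟨h2, h3, h4, h5⟩ := h g (Multiset.mem_cons_self g L)
    have h6 := reali_block (p := p) hF hr hrp hb0 hr1 h2 h3 h4 h5
    have h7 := h6.add h1
    rw [zero_add, Multiset.singleton_add] at h7
    exact h7

end Prod

section ToSp

variable {F : Type u} [Field F]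

open Cfsg.Agent.Lib.Classical.Symp in
/-- Conjugating to a symplectic matrix. -/
theorem exists_sp_conj {V : Type u} [AddCommGroup V] [Module F V] [FiniteDimensional F V] (B : LinearMap.BilinForm F V) (T : Module.End F V)
    (hA : B.IsAlt) (hN : B.Nondegenerate) {n : ℕ} (hd : finrank F V = 2 * n) (hI : ∀ u v, B (T u) (T v) = B u v) :
    ∃ (y : symplecticGroup (Fin n) F) (e : V ≃ₗ[F] (Fin n ⊕ Fin n → F)),
      ∀ v, Matrix.toLin' (y : Matrix (Fin n ⊕ Fin n) (Fin n ⊕ Fin n) F) (e v) = e (T v) := by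
  obtain ⟨e, he⟩ := Cfsg.Agent.Lib.Classical.Symp.SympBasis.exists_sympEquiv B hA hN hd
  let S : Module.End F (Fin n ⊕ Fin n → F) := e.conj T
  have hS : ∀ v, S v = e (T (e.symm v)) := fun v => rfl
  let M : Matrix (Fin n ⊕ Fin n) (Fin n ⊕ Fin n) F := LinearMap.toMatrix' S
  have hM : Matrix.toLin' M = S := Matrix.toLin'_toMatrix' S
  have hMv : ∀ v, M *ᵥ v = S v := fun v => by
    rw [← Matrix.toLin'_apply, hM]
  have hMem : M ∈ symplecticGroup (Fin n) F := by
    rw [Cfsg.Agent.Lib.Classical.Symp.Basic.mem_symplecticGroup_iff_forall]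
    intro u v
    rw [hMv, hMv, hS, hS, he, hI, ← he, LinearEquiv.apply_symm_apply, LinearEquiv.apply_symm_apply]
  refine ⟨⟨M, hMem⟩, e, fun v => ?_⟩
  show Matrix.toLin' M (e v) = _
  rw [hM, hS, LinearEquiv.symm_apply_apply]

variable {V W : Type*} [AddCommGroup V] [Module F V] [FiniteDimensional F V] [AddCommGroup W] [Module F W] [FiniteDimensional F W]

theorem aeval_conj {S : Module.End F W} {T : Module.End F V} (e : V ≃ₗ[F] W) (h : ∀ v, S (e v) = e (T v)) (g : F[X]) (v : V) :
    Polynomial.aeval S g (e v) = e (Polynomial.aeval T g v) := by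
  have h1 : ∀ (n : ℕ) (v : V), (S ^ n) (e v) = e ((T ^ n) v) := by
    intro n
    induction n with
    | zero => intro v; simp
    | succ n ih =>
      intro v
      rw [pow_succ, Module.End.mul_apply, h, ih, pow_succ, Module.End.mul_apply]
  induction g using Polynomial.induction_on' with
  | add p q hp hq =>
    simp only [map_add, LinearMap.add_apply, hp, hq]
  | monomial n a =>
    rw [aeval_monomial, aeval_monomial, Module.End.mul_apply, Module.End.mul_apply, Module.algebraMap_end_apply, Module.algebraMap_end_apply,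
      h1, map_smul]

theorem finrank_ker_conj {S : Module.End F W} {T : Module.End F V} (e : V ≃ₗ[F] W) (h : ∀ v, S (e v) = e (T v)) (g : F[X]) :
    finrank F (LinearMap.ker (Polynomial.aeval S g)) = finrank F (LinearMap.ker (Polynomial.aeval T g)) := by
  have h1 : LinearMap.ker (Polynomial.aeval S g) = (LinearMap.ker (Polynomial.aeval T g)).map (e : V →ₗ[F] W) := by
    ext w
    constructor
    · intro hw
      refine ⟨e.symm w, ?_, by simp⟩
      rw [SetLike.mem_coe, LinearMap.mem_ker]
      apply e.injective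
      rw [← aeval_conj e h, LinearEquiv.apply_symm_apply, map_zero]
      exact LinearMap.mem_ker.1 hw
    · rintro ⟨v, hv, rfl⟩
      rw [LinearMap.mem_ker]
      show Polynomial.aeval S g (e v) = 0
      rw [aeval_conj e h, LinearMap.mem_ker.1 hv, map_zero]
  rw [h1, LinearEquiv.finrank_map_eq]

theorem finrank_Fix_conj {S : Module.End F W} {T : Module.End F V} (e : V ≃ₗ[F] W) (h : ∀ v, S (e v) = e (T v)) :
    finrank F (Fix S) = finrank F (Fix T) := by
  have h1 : Fix S = (Fix T).map (e : V →ₗ[F] W) := by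
    ext w
    constructor
    · intro hw
      refine ⟨e.symm w, ?_, by simp⟩
      rw [SetLike.mem_coe, mem_Fix]
      apply e.injective
      rw [← h, LinearEquiv.apply_symm_apply]
      exact mem_Fix.1 hw
    · rintro ⟨v, hv, rfl⟩
      rw [mem_Fix]
      show S (e v) = e v
      rw [h, mem_Fix.1 hv]
  rw [h1, LinearEquiv.finrank_map_eq]

theorem pow_conj {S : Module.End F W} {T : Module.End F V} (e : V ≃ₗ[F] W) (h : ∀ v, S (e v) = e (T v)) {r : ℕ} (hT : T ^ r = 1) : S ^ r = 1 := by
  have h1 : ∀ (n : ℕ) (v : V), (S ^ n) (e v) = e ((T ^ n) v) := by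
    intro n
    induction n with
    | zero => intro v; simp
    | succ n ih =>
      intro v
      rw [pow_succ, Module.End.mul_apply, h, ih, pow_succ, Module.End.mul_apply]
  apply LinearMap.ext
  intro w
  obtain ⟨v, rfl⟩ := e.surjective w
  rw [h1, hT]
  rfl

/-- Passing from the abstract model to a symplectic matrix. -/
theorem RealiL.toSp {r i n e : ℕ} {L : Multiset F[X]} (h : RealiL F r i L e) (hn : i * Multiset.card L + 2 * e = 2 * n) :
    ∃ y : symplecticGroup (Fin n) F, (y : Matrix (Fin n ⊕ Fin n) (Fin n ⊕ Fin n) F) ^ r = 1 ∧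
      finrank F (Fix (Matrix.toLin' (y : Matrix (Fin n ⊕ Fin n) (Fin n ⊕ Fin n) F))) = 2 * e ∧
      ∀ g : F[X], g.Monic → Irreducible g → g ∣ Phi F r →
        finrank F (LinearMap.ker (Polynomial.aeval (Matrix.toLin' (y : Matrix (Fin n ⊕ Fin n) (Fin n ⊕ Fin n) F)) g)) = i * L.count g := by
  obtain ⟨V, i1, i2, i3, B, T, hA, hN, hd, hI, hP, hK, hG⟩ := h
  obtain ⟨y, e', he'⟩ := exists_sp_conj B T hA hN (hd.trans hn) hI
  refine ⟨y, ?_, ?_, ?_⟩
  · apply Matrix.toLin'.injective
    rw [Matrix.toLin'_pow, Matrix.toLin'_one]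
    exact pow_conj e' he' hP
  · rw [finrank_Fix_conj e' he', hK]
  · intro g h1 h2 h3
    rw [finrank_ker_conj e' he', hG g h1 h2 h3]

end ToSp

end Cfsg.Agent.Lib.Classical.Elusive.TiModel
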