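import Mathlib
import Cfsg.Agent.Lib.Classical.Elusive.SpFieldEmb
import Cfsg.Agent.Lib.Classical.Elusive.SpHermMain
import Cfsg.Agent.Lib.Classical.Elusive.TiModel

/-!
# Elements of prime order outside the normalizers of trace-type field subalgebras
-/

set_option autoImplicit false
set_option linter.unusedSectionVars false
set_option linter.unusedSimpArgs false
set_option linter.unusedVariables false
set_option linter.style.haveILetI false

namespace Cfsg.Agent.Lib.Classical.Elusive.SpFieldNo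

open Polynomial Module Matrix
open Cfsg.Agent.Lib.Classical.Elusive.Inv Cfsg.Agent.Lib.Classical.Elusive.SpCore Cfsg.Agent.Lib.Classical.Elusive.SpFieldAbs
  Cfsg.Agent.Lib.Classical.Elusive.SpFieldEmb Cfsg.Agent.Lib.Classical.Elusive.SpHermNo
  Cfsg.Agent.Lib.Classical.Elusive.TiModel
open Cfsg.Agent.Lib.Classical.Symp.Basic Cfsg.Agent.Lib.Classical.Symp.SpGL Cfsg.Agent.Lib.Linalg.Bridge

universe u

section Main

variable {F : Type u} [Field F] [Fintype F] {d : ℕ} {L : Type u} [Field L] [Algebra F L] [Fintype L]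
  {K : Subalgebra F (Matrix (Fin d ⊕ Fin d) (Fin d ⊕ Fin d) F)}
  {ρ : L →ₐ[F] Matrix (Fin d ⊕ Fin d) (Fin d ⊕ Fin d) F}

theorem rho_mul_inv (hd : 0 < d) {a : L} (ha : a ≠ 0) (v : Fin d ⊕ Fin d → F) : ρ a⁻¹ *ᵥ (ρ a *ᵥ v) = v := by
  rw [Matrix.mulVec_mulVec, ← map_mul, inv_mul_cancel₀ ha, map_one, Matrix.one_mulVec]

theorem rho_inj_vec (hd : 0 < d) {a : L} (ha : a ≠ 0) {u v : Fin d ⊕ Fin d → F} (h : ρ a *ᵥ u = ρ a *ᵥ v) : u = v := by
  rw [← rho_mul_inv hd ha u, h, rho_mul_inv hd ha v]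

/-- No transvection normalizes a field subalgebra. -/
theorem no_gt (hd : 2 ≤ d) (hmem : ∀ m, m ∈ K ↔ ∃ a, ρ a = m) (hk : 2 ≤ finrank F L)
    {w : Fin d ⊕ Fin d → F} (hw : w ≠ 0) : gt w (1 : F) ∉ Cfsg.Geo.subalgebraNormalizer K := by
  classical
  intro hN
  have hd0 : 0 < d := by omega
  haveI : FiniteDimensional F L := Module.Finite.of_finite
  obtain ⟨φ, hφ⟩ := exists_phi hd0 hmem hN
  have hdimV : finrank F (Fin d ⊕ Fin d → F) = 2 * d := by
    rw [Module.finrank_fintype_fun_eq_card, Fintype.card_sum, Fintype.card_fin]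
    ring
  have hvec : ∀ (a : L) v, ρ a *ᵥ v + Cfsg.sympForm d F (ρ a *ᵥ v) w • w = ρ (φ a) *ᵥ (v + Cfsg.sympForm d F v w • w) := by
    intro a v
    have h1 := congrArg (fun M => M *ᵥ v) (hφ a)
    simp only [← Matrix.mulVec_mulVec, gt_mulVec, one_mul] at h1
    exact h1
  have hfix : ∀ a, φ a = a := by
    intro a
    by_contra hne
    have hc : φ a - a ≠ 0 := sub_ne_zero.mpr hne
    let ℓ : (Fin d ⊕ Fin d → F) →ₗ[F] F := (sympBilin d F).flip w
    have hℓ : ∀ v, ℓ v = Cfsg.sympForm d F v w := fun v => rfl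
    have h1 : LinearMap.ker ℓ ≤ Submodule.span F {ρ (φ a - a)⁻¹ *ᵥ w} := by
      intro v hv
      have hv0 : Cfsg.sympForm d F v w = 0 := hv
      have h2 := hvec a v
      rw [hv0, zero_smul, add_zero] at h2
      have h3 : ρ (φ a - a) *ᵥ v = Cfsg.sympForm d F (ρ a *ᵥ v) w • w := by
        rw [map_sub, Matrix.sub_mulVec, ← h2]
        abel
      have h4 := rho_mul_inv (ρ := ρ) hd0 hc v
      rw [h3, Matrix.mulVec_smul] at h4
      rw [← h4]
      exact Submodule.smul_mem _ _ (Submodule.mem_span_singleton_self _)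
    have h2 := Submodule.finrank_mono h1
    have h3 : finrank F (Submodule.span F {ρ (φ a - a)⁻¹ *ᵥ w}) ≤ 1 := (finrank_span_le_card _).trans (by simp)
    have h4 := LinearMap.finrank_range_add_finrank_ker ℓ
    have h5 : finrank F (LinearMap.range ℓ) ≤ 1 := by
      have := Submodule.finrank_le (LinearMap.range ℓ)
      simpa using this
    rw [hdimV] at h4
    omega
  obtain ⟨v₀, hv₀⟩ := exists_sympForm_ne hw
  have hscal : ∀ a : L, ∃ c : F, c • (1 : L) = a := by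
    intro a
    have h1 := hvec a v₀
    rw [hfix, Matrix.mulVec_add, Matrix.mulVec_smul, add_right_inj] at h1
    set s := Cfsg.sympForm d F (ρ a *ᵥ v₀) w
    set t := Cfsg.sympForm d F v₀ w
    refine ⟨s / t, ?_⟩
    by_contra hne
    have hne' : a - (s / t) • (1 : L) ≠ 0 := fun h => hne (sub_eq_zero.mp h).symm
    apply hw
    have h5 : ρ (a - (s / t) • (1 : L)) *ᵥ w = 0 := by
      rw [map_sub, map_smul, map_one, Matrix.sub_mulVec, Matrix.smul_mulVec, Matrix.one_mulVec]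
      have h6 : ρ a *ᵥ w = t⁻¹ • (s • w) := by
        rw [h1, smul_smul, inv_mul_cancel₀ hv₀, one_smul]
      rw [h6, smul_smul, div_eq_inv_mul, sub_self]
    rw [← rho_mul_inv (ρ := ρ) hd0 hne' w, h5, Matrix.mulVec_zero]
  have := finrank_le_one (R := F) (1 : L) hscal
  omega

/-- The main dichotomy for elements of the normalizer with a given fixed space. -/
theorem core (hd : 0 < d) (hmem : ∀ m, m ∈ K ↔ ∃ a, ρ a = m) (D : Data (sympBilin d F) (rhoE ρ))
    {y : GL (Fin d ⊕ Fin d) F} (hyN : y ∈ Cfsg.Geo.subalgebraNormalizer K) (hyS : y ∈ Cfsg.spGL d F)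
    {r : ℕ} (hr : r.Prime) (hr0 : (r : F) ≠ 0) (hyr : (y : Matrix (Fin d ⊕ Fin d) (Fin d ⊕ Fin d) F) ^ r = 1) {b : ℕ}
    (hfix : finrank F (Fix (Matrix.toLin' (y : Matrix (Fin d ⊕ Fin d) (Fin d ⊕ Fin d) F))) + 2 * b = 2 * d) :
    (∃ m, b = finrank F L * m) ∨ (r ∣ finrank F L ∧ d ≤ 2 * b) := by
  classical
  haveI : FiniteDimensional F L := Module.Finite.of_finite
  obtain ⟨φ, hφ⟩ := exists_phi hd hmem hyN
  have hφ1 := phi_pow_eq_one hd hφ hyr
  have hdimV : finrank F (Fin d ⊕ Fin d → F) = 2 * d := by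
    rw [Module.finrank_fintype_fun_eq_card, Fintype.card_sum, Fintype.card_fin]
    ring
  set T : Module.End F (Fin d ⊕ Fin d → F) := Matrix.toLin' (y : Matrix (Fin d ⊕ Fin d) (Fin d ⊕ Fin d) F) with hT
  have hTv : ∀ v, T v = (y : Matrix (Fin d ⊕ Fin d) (Fin d ⊕ Fin d) F) *ᵥ v := fun v => rfl
  have hTr : T ^ r = 1 := by
    rw [hT, ← Matrix.toLin'_pow, hyr, Matrix.toLin'_one]
    rfl
  have hI : ∀ u v, sympBilin d F (T u) (T v) = sympBilin d F u v := fun u v => (mem_spGL_iff y).mp hyS u v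
  have hA : (sympBilin d F).IsAlt := sympBilin_isAlt
  have hN : (sympBilin d F).Nondegenerate := sympBilin_nondegenerate
  have hsum := finrank_Fix_add hr0 hTr
  rw [hdimV] at hsum
  by_cases h1 : φ = 1
  · left
    have hst : ∀ a : L, ∀ u ∈ Ker T r, rhoE ρ a u ∈ Ker T r := by
      intro a u hu
      have hc : ∀ v, T (rhoE ρ a v) = rhoE ρ a (T v) := by
        intro v
        rw [hTv, hTv, rhoE_apply, rhoE_apply, Matrix.mulVec_mulVec, hφ, h1]
        simp [Matrix.mulVec_mulVec]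
      exact ker_inv_of_comm hc u hu
    obtain ⟨m, hm⟩ := even_of_stable D (Ker T r) hst (fun u hu hu0 => ker_nondeg hA hN hI hr0 hTr hu hu0)
    refine ⟨m, ?_⟩
    have h2 : 2 * b = 2 * (finrank F L * m) := by
      rw [← mul_assoc, mul_comm 2, mul_assoc]
      nlinarith
    omega
  · right
    refine ⟨galois_dvd hr hφ1 h1, ?_⟩
    obtain ⟨a, ha⟩ : ∃ a, φ a ≠ a := by
      by_contra hcon
      push Not at hcon
      exact h1 (AlgEquiv.ext hcon)
    have hc : φ a - a ≠ 0 := sub_ne_zero.mpr ha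
    have hmap : (Fix T).map (rhoE ρ (φ a - a) : (Fin d ⊕ Fin d → F) →ₗ[F] (Fin d ⊕ Fin d → F)) ≤ LinearMap.range (T - 1) := by
      rintro _ ⟨v, hv, rfl⟩
      refine ⟨rhoE ρ a v, ?_⟩
      have hv' : T v = v := mem_Fix.1 hv
      have h5 : T (rhoE ρ a v) = rhoE ρ (φ a) v := by
        rw [hTv, rhoE_apply, rhoE_apply, Matrix.mulVec_mulVec, hφ, ← Matrix.mulVec_mulVec, ← hTv, hv']
      show T (rhoE ρ a v) - rhoE ρ a v = _
      rw [h5, map_sub]
      rfl
    have hinj : Function.Injective (rhoE ρ (φ a - a) : (Fin d ⊕ Fin d → F) →ₗ[F] (Fin d ⊕ Fin d → F)) := by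
      intro u v huv
      exact rho_inj_vec (ρ := ρ) hd hc huv
    have h6 := Submodule.finrank_mono hmap
    rw [← (Submodule.equivMapOfInjective _ hinj (Fix T)).finrank_eq] at h6
    have h7 := LinearMap.finrank_range_add_finrank_ker (T - 1)
    have h8 : LinearMap.ker (T - 1) = Fix T := rfl
    rw [h8, hdimV] at h7
    omega

end Main

section Arith

theorem exists_b {q r j : ℕ} (hr : r.Prime) (hr2 : r ≠ 2) (hrq : ¬ r ∣ q) (hq1 : 1 ≤ q) (h : r ∣ q ^ (2 * (j + 1)) - 1) :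
    ∃ b, 0 < b ∧ b ∣ j + 1 ∧ 2 * b ≤ r - 1 ∧ (orderOf (q : ZMod r) = 2 * b ∨ (orderOf (q : ZMod r) = b)) := by
  haveI : Fact r.Prime := ⟨hr⟩
  have hi := (PslNum.pow_eq_one_iff' (r := r) (j := 2 * (j + 1)) hq1).mpr h
  have hq0 : (q : ZMod r) ≠ 0 := by
    intro h0
    exact hrq ((ZMod.natCast_eq_zero_iff q r).mp h0)
  have hir : orderOf (q : ZMod r) ∣ r - 1 := ZMod.orderOf_dvd_card_sub_one hq0
  have hr3 : 2 < r := by
    have := hr.two_le
    omega
  have hrpos : 0 < r - 1 := by omega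
  have hrodd : Even (r - 1) := by
    have := hr.odd_of_ne_two hr2
    exact Nat.Odd.sub_odd this odd_one
  rcases Nat.even_or_odd (orderOf (q : ZMod r)) with he | ho
  · obtain ⟨b, hb⟩ := he
    have hb2 : orderOf (q : ZMod r) = 2 * b := by omega
    have hb0 : 0 < b := by
      have := Nat.pos_of_dvd_of_pos hir hrpos
      omega
    refine ⟨b, hb0, ?_, ?_, Or.inl hb2⟩
    · rw [hb2] at hi
      exact Nat.dvd_of_mul_dvd_mul_left (by norm_num) hi
    · rw [← hb2]
      exact Nat.le_of_dvd hrpos hir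
  · have hc : Nat.Coprime (orderOf (q : ZMod r)) 2 := Nat.Coprime.symm ((Nat.coprime_two_left).mpr ho)
    have h0 : 0 < orderOf (q : ZMod r) := Nat.pos_of_dvd_of_pos hir hrpos
    refine ⟨_, h0, hc.dvd_of_dvd_mul_left hi, ?_, Or.inr rfl⟩
    apply Nat.le_of_dvd hrpos
    exact (Nat.Coprime.mul_dvd_of_dvd_of_dvd hc.symm (even_iff_two_dvd.mp hrodd) hir)

end Arith

section Forward

variable {F : Type u} [Field F]

theorem reali_two (h2 : (2 : F) ≠ 0) : SpModel.Reali F 2 1 (2 * 1) := by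
  refine ⟨Fin 1 ⊕ Fin 1 → F, inferInstance, inferInstance, inferInstance, sympBilin 1 F, -1, sympBilin_isAlt, sympBilin_nondegenerate, ?_, ?_, ?_, ?_⟩
  · rw [Module.finrank_fintype_fun_eq_card, Fintype.card_sum, Fintype.card_fin]
  · intro u v
    show sympBilin 1 F (-u) (-v) = _
    simp only [map_neg, LinearMap.neg_apply, neg_neg]
  · simp
  · have h3 : Fix (-1 : Module.End F (Fin 1 ⊕ Fin 1 → F)) = ⊥ := by
      rw [eq_bot_iff]
      intro v hv
      have h4 := mem_Fix.1 hv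
      have h5 : (2 : F) • v = 0 := by
        rw [two_smul]
        nth_rw 1 [← h4]
        simp
      rw [Submodule.mem_bot]
      exact (smul_eq_zero.1 h5).resolve_left h2
    rw [h3, finrank_bot]

theorem exists_block {d r b : ℕ} (hR : SpModel.Reali F r b (2 * b)) (hb : b ≤ d) :
    ∃ y : symplecticGroup (Fin d) F, (y : Matrix (Fin d ⊕ Fin d) (Fin d ⊕ Fin d) F) ^ r = 1 ∧
      finrank F (Fix (Matrix.toLin' (y : Matrix (Fin d ⊕ Fin d) (Fin d ⊕ Fin d) F))) + 2 * b = 2 * d := by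
  have hReal := hR.nsmul (d - b) 1
  have hdb : b * 1 + (d - b) = d := by omega
  rw [hdb, mul_one] at hReal
  exact hReal.toSp

variable [Fintype F]

theorem forward {p : ℕ} [Fact p.Prime] [CharP F p] {q : ℕ} (hq : Fintype.card F = q)
    (d : ℕ) (hd : 2 ≤ d) (k : ℕ) (hk : k.Prime)
    (K : Subalgebra F (Matrix (Fin d ⊕ Fin d) (Fin d ⊕ Fin d) F)) (hK : Cfsg.Geo.IsFieldSubalgebra k K)
    (hKf : Cfsg.Geo.IsSelfAdjointFor (Cfsg.sympForm d F) K) (hKalt : ∀ a ∈ K, ∀ v : Fin d ⊕ Fin d → F, Cfsg.sympForm d F (a *ᵥ v) v = 0)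
    (r : ℕ) [Fact r.Prime]
    (hΩ : r ∣ (Cfsg.Geo.subalgebraNormalizer K).relIndex (Cfsg.spGL d F))
    (H : ∀ x ∈ Cfsg.spGL d F, (∃ z : F, ((x ^ r : GL (Fin d ⊕ Fin d) F) : Matrix (Fin d ⊕ Fin d) (Fin d ⊕ Fin d) F) = z • (1 : Matrix (Fin d ⊕ Fin d) (Fin d ⊕ Fin d) F)) →
      (∀ z : F, (x : Matrix (Fin d ⊕ Fin d) (Fin d ⊕ Fin d) F) ≠ z • (1 : Matrix (Fin d ⊕ Fin d) (Fin d ⊕ Fin d) F)) →
      ∃ g ∈ Cfsg.spGL d F, g⁻¹ * x * g ∈ Cfsg.Geo.subalgebraNormalizer K) :
    r = 2 ∧ d = 2 ∧ k = 2 ∧ Odd q := by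
  classical
  subst hq
  have hr : r.Prime := Fact.out
  have hd0 : 0 < d := by omega
  obtain ⟨L, _, _, _, ρ, hmem, hLk⟩ := exists_fieldModel hK hd0
  subst hLk
  haveI : FiniteDimensional F L := Module.Finite.of_finite
  have D : Data (sympBilin d F) (rhoE ρ) :=
    { selfadj := fun a u v => hKf (ρ a) ((hmem _).2 ⟨a, rfl⟩) u v
      alt := fun a v => hKalt (ρ a) ((hmem _).2 ⟨a, rfl⟩) v }
  have hA : (sympBilin d F).IsAlt := sympBilin_isAlt
  have hN : (sympBilin d F).Nondegenerate := sympBilin_nondegenerate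
  have hdimV : finrank F (Fin d ⊕ Fin d → F) = 2 * d := by
    rw [Module.finrank_fintype_fun_eq_card, Fintype.card_sum, Fintype.card_fin]
    ring
  by_cases hrp : r = p
  · -- transvections
    exfalso
    subst hrp
    let i₀ : Fin d := ⟨0, hd0⟩
    let w : Fin d ⊕ Fin d → F := Pi.single (Sum.inl i₀) 1
    have hw : w ≠ 0 := by
      intro h
      have := congrFun h (Sum.inl i₀)
      simp [w] at this
    have hpow : ∀ n : ℕ, (gt w (1 : F)) ^ n = gt w (n : F) := by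
      intro n
      induction n with
      | zero => simp [gt_zero_right]
      | succ n ih => rw [pow_succ, ih, gt_mul]; push_cast; rfl
    have hx1 : ((gt w (1 : F) ^ r : GL (Fin d ⊕ Fin d) F) : Matrix (Fin d ⊕ Fin d) (Fin d ⊕ Fin d) F) = (1 : F) • 1 := by
      rw [hpow, CharP.cast_eq_zero, gt_zero_right, one_smul]
      rfl
    obtain ⟨v, hv⟩ := exists_sympForm_ne hw
    have hns : ∀ z : F, ((gt w (1 : F) : GL (Fin d ⊕ Fin d) F) : Matrix (Fin d ⊕ Fin d) (Fin d ⊕ Fin d) F) ≠ z • (1 : Matrix (Fin d ⊕ Fin d) (Fin d ⊕ Fin d) F) := by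
      intro z hz
      have h1 : ((gt w (1 : F) : GL (Fin d ⊕ Fin d) F) : Matrix (Fin d ⊕ Fin d) (Fin d ⊕ Fin d) F) *ᵥ w = z • w := by
        rw [hz, Matrix.smul_mulVec, Matrix.one_mulVec]
      have h3 : ((gt w (1 : F) : GL (Fin d ⊕ Fin d) F) : Matrix (Fin d ⊕ Fin d) (Fin d ⊕ Fin d) F) *ᵥ v = z • v := by
        rw [hz, Matrix.smul_mulVec, Matrix.one_mulVec]
      rw [gt_mulVec, show Cfsg.sympForm d F w w = 0 from hA w, mul_zero, zero_smul, add_zero] at h1
      have hz1 : z = 1 := by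
        have : (z - 1) • w = 0 := by rw [sub_smul, ← h1, one_smul, sub_self]
        rcases smul_eq_zero.mp this with h | h
        · exact sub_eq_zero.mp h
        · exact absurd h hw
      rw [hz1, one_smul, gt_mulVec, add_eq_left, smul_eq_zero, one_mul] at h3
      rcases h3 with h | h
      · exact hv h
      · exact hw h
    obtain ⟨g, hg, hgN⟩ := H _ (gt_mem w 1) ⟨1, hx1⟩ hns
    have h1 := conj_gt ((Cfsg.spGL d F).inv_mem hg) w (1 : F)
    rw [inv_inv] at h1
    rw [h1] at hgN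
    have hw' : ((g⁻¹ : GL (Fin d ⊕ Fin d) F) : Matrix (Fin d ⊕ Fin d) (Fin d ⊕ Fin d) F) *ᵥ w ≠ 0 := by
      intro h0
      apply hw
      have h2 := congrArg (fun u => (g : Matrix (Fin d ⊕ Fin d) (Fin d ⊕ Fin d) F) *ᵥ u) h0
      simpa [Matrix.mulVec_mulVec] using h2
    have hk2 : 2 ≤ finrank F L := hk.two_le
    exact no_gt hd hmem hk2 hw' hgN
  have hr0 : (r : F) ≠ 0 := PslNum.cast_ne_zero_of_ne hr hrp
  have key : ∀ (b : ℕ) (y : symplecticGroup (Fin d) F), (y : Matrix (Fin d ⊕ Fin d) (Fin d ⊕ Fin d) F) ^ r = 1 →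
      finrank F (Fix (Matrix.toLin' (y : Matrix (Fin d ⊕ Fin d) (Fin d ⊕ Fin d) F))) + 2 * b = 2 * d →
      (∀ z : F, (y : Matrix (Fin d ⊕ Fin d) (Fin d ⊕ Fin d) F) ≠ z • (1 : Matrix (Fin d ⊕ Fin d) (Fin d ⊕ Fin d) F)) →
      (∃ m, b = finrank F L * m) ∨ (r ∣ finrank F L ∧ d ≤ 2 * b) := by
    intro b y hyr hyF hns
    have hval := SpHermMain.toGL_val y
    have hxr : SpHermMain.toGL y ^ r = 1 := by
      apply Units.ext
      rw [Units.val_pow_eq_pow_val, hval, hyr]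
      rfl
    obtain ⟨g, hg, hgN⟩ := H (SpHermMain.toGL y) (SpHermMain.toGL_mem y) ⟨1, by
      rw [hxr, one_smul]
      rfl⟩ (by
      intro z
      rw [hval]
      exact hns z)
    have hS : g⁻¹ * SpHermMain.toGL y * g ∈ Cfsg.spGL d F :=
      (Cfsg.spGL d F).mul_mem ((Cfsg.spGL d F).mul_mem ((Cfsg.spGL d F).inv_mem hg) (SpHermMain.toGL_mem y)) hg
    have hpow : ((g⁻¹ * SpHermMain.toGL y * g : GL (Fin d ⊕ Fin d) F) : Matrix (Fin d ⊕ Fin d) (Fin d ⊕ Fin d) F) ^ r = 1 := by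
      rw [← Units.val_pow_eq_pow_val]
      have h1 : (g⁻¹ * SpHermMain.toGL y * g) ^ r = g⁻¹ * (SpHermMain.toGL y) ^ r * g := by
        have := conj_pow (a := g⁻¹) (b := SpHermMain.toGL y) (i := r)
        rwa [inv_inv] at this
      rw [h1, hxr]
      simp
    refine core hd0 hmem D hgN hS hr hr0 hpow (b := b) ?_
    rw [← hyF]
    congr 1
    rw [← hval]
    apply finrank_Fix_conj (equivOfGL g⁻¹)
    intro v
    have hE : ((g⁻¹ * SpHermMain.toGL y * g : GL (Fin d ⊕ Fin d) F) : Matrix (Fin d ⊕ Fin d) (Fin d ⊕ Fin d) F) * ((g⁻¹ : GL (Fin d ⊕ Fin d) F) : Matrix (Fin d ⊕ Fin d) (Fin d ⊕ Fin d) F) =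
        ((g⁻¹ : GL (Fin d ⊕ Fin d) F) : Matrix (Fin d ⊕ Fin d) (Fin d ⊕ Fin d) F) * (SpHermMain.toGL y : Matrix (Fin d ⊕ Fin d) (Fin d ⊕ Fin d) F) := by
      rw [← Units.val_mul, ← Units.val_mul]
      congr 1
      group
    simp only [equivOfGL_apply, Matrix.toLin'_apply, Matrix.mulVec_mulVec]
    rw [hE]
  by_cases hr2 : r = 2
  · subst hr2
    have h2 : (2 : F) ≠ 0 := by exact_mod_cast hr0
    obtain ⟨y, hyr, hyF⟩ := exists_block (d := d) (reali_two h2) (by omega)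
    have hodd : Odd (Fintype.card F) := by
      have := SpHerm.odd_card_of_two (F := F) h2
      exact Nat.odd_iff.mpr this
    have hns : ∀ z : F, (y : Matrix (Fin d ⊕ Fin d) (Fin d ⊕ Fin d) F) ≠ z • (1 : Matrix (Fin d ⊕ Fin d) (Fin d ⊕ Fin d) F) := by
      intro z hz
      have hTz : ∀ v, Matrix.toLin' (y : Matrix (Fin d ⊕ Fin d) (Fin d ⊕ Fin d) F) v = z • v := by
        intro v
        rw [Matrix.toLin'_apply, hz, Matrix.smul_mulVec, Matrix.one_mulVec]
      by_cases hz1 : z = 1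
      · have h3 : Fix (Matrix.toLin' (y : Matrix (Fin d ⊕ Fin d) (Fin d ⊕ Fin d) F)) = ⊤ := by
          rw [eq_top_iff]
          intro v _
          rw [mem_Fix, hTz, hz1, one_smul]
        rw [h3, finrank_top, hdimV] at hyF
        omega
      · have h3 : Fix (Matrix.toLin' (y : Matrix (Fin d ⊕ Fin d) (Fin d ⊕ Fin d) F)) = ⊥ := by
          rw [eq_bot_iff]
          intro v hv
          have h4 := mem_Fix.1 hv
          rw [hTz] at h4
          have h5 : (z - 1) • v = 0 := by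
            rw [sub_smul, h4, one_smul, sub_self]
          rw [Submodule.mem_bot]
          exact (smul_eq_zero.1 h5).resolve_left (sub_ne_zero.mpr hz1)
        rw [h3, finrank_bot] at hyF
        omega
    rcases key 1 y hyr hyF hns with ⟨m, hm⟩ | ⟨h3, h4⟩
    · exfalso
      have h5 := hk.two_le
      have h6 : m ≠ 0 := by
        rintro rfl
        omega
      nlinarith [Nat.pos_of_ne_zero h6]
    · have h5 : 2 = finrank F L := (Nat.prime_dvd_prime_iff_eq Nat.prime_two hk).mp h3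
      exact ⟨rfl, by omega, h5.symm, hodd⟩
  · exfalso
    have hrodd : Odd r := hr.odd_of_ne_two hr2
    have hq1 : 1 ≤ Fintype.card F := Fintype.card_pos
    have hrq : ¬ r ∣ Fintype.card F := by
      obtain ⟨n, hp, hn⟩ := FiniteField.card F p
      rw [hn]
      intro h3
      have h4 := hr.dvd_of_dvd_pow h3
      exact hrp ((Nat.prime_dvd_prime_iff_eq hr hp).1 h4)
    rcases dvd_main rfl hd0 hmem D rfl hr hΩ with h3 | ⟨j, hj, hjk, hjr⟩
    · exact hrq h3
    obtain ⟨b, hb0, hbj, hbr, hbi⟩ := exists_b hr hr2 hrq hq1 hjr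
    have hjlt := Finset.mem_range.mp hj
    have hbd : b ≤ d := (Nat.le_of_dvd (by omega) hbj).trans (by omega)
    have hR : SpModel.Reali F r b (2 * b) := by
      rcases hbi with h4 | h4
      · exact SpModel.reali_half (p := p) rfl hr hrp h4 hb0 (SpImprimMain.dvd_pow_add_one hr2 h4 hb0)
      · rw [← h4]
        exact SpModel.reali_full (p := p) rfl hr hrp
    obtain ⟨y, hyr, hyF⟩ := exists_block (d := d) hR hbd
    have hns : ∀ z : F, (y : Matrix (Fin d ⊕ Fin d) (Fin d ⊕ Fin d) F) ≠ z • (1 : Matrix (Fin d ⊕ Fin d) (Fin d ⊕ Fin d) F) :=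
      fun z => SpImprimMain.nonscalar_of_K hrodd hd0 y hyr (by omega) hyF z
    rcases key b y hyr hyF hns with ⟨m, hm⟩ | ⟨h3, h4⟩
    · apply hjk
      exact (Dvd.intro m hm.symm).trans hbj
    · have h5 : r = finrank F L := (Nat.prime_dvd_prime_iff_eq hr hk).mp h3
      obtain ⟨d', X, hdim, -, -⟩ := exists_frame_rho D hN
      rw [hdimV] at hdim
      have h6 : d = d' * finrank F L := by nlinarith
      have h7 : finrank F L ≤ d := by
        rw [h6]
        apply Nat.le_mul_of_pos_left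
        rcases Nat.eq_zero_or_pos d' with h8 | h8
        · rw [h8, zero_mul] at h6
          omega
        · exact h8
      have := hr.two_le
      omega

end Forward

end Cfsg.Agent.Lib.Classical.Elusive.SpFieldNo
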