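import Mathlib
import Cfsg.Agent.Lib.Classical.Elusive.SpFieldNo
import Cfsg.Agent.Lib.Classical.Elusive.TiAbs
import Cfsg.Agent.Lib.Classical.Herm.SpSemis

/-!
# `PSp_4(q)`, `q` odd: the involutions normalize a conjugate of a trace-type quadratic subalgebra
-/

set_option autoImplicit false
set_option linter.unusedSectionVars false
set_option linter.unusedSimpArgs false
set_option linter.unusedVariables false
set_option linter.style.haveILetI false

namespace Cfsg.Agent.Lib.Classical.Elusive.SpFieldInv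

open Polynomial Module Matrix
open Cfsg.Agent.Lib.Classical.Elusive.Inv Cfsg.Agent.Lib.Classical.Elusive.SpCore Cfsg.Agent.Lib.Classical.Elusive.SpFieldAbs
  Cfsg.Agent.Lib.Classical.Elusive.SpFieldEmb Cfsg.Agent.Lib.Classical.Elusive.SpFieldNo
open Cfsg.Agent.Lib.Classical.Symp.Basic Cfsg.Agent.Lib.Classical.Symp.SpGL Cfsg.Agent.Lib.Linalg.Bridge

universe u

section Split

variable {F : Type u} [Field F] {V : Type u} [AddCommGroup V] [Module F V] [FiniteDimensional F V]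

theorem mem_Ker_two {x : Module.End F V} {v : V} : v ∈ Ker x 2 ↔ x v = -v := by
  rw [mem_Ker]
  simp only [Phi, Finset.sum_range_succ, Finset.sum_range_zero, zero_add, pow_zero, pow_one, map_add, map_one, aeval_X,
    LinearMap.add_apply, Module.End.one_apply]
  constructor
  · intro h
    exact eq_neg_of_add_eq_zero_right h
  · intro h
    rw [h, add_neg_cancel]

theorem exists_equiv_split (h2 : ((2 : ℕ) : F) ≠ 0) {x y : Module.End F V} (hx : x ^ 2 = 1) (hy : y ^ 2 = 1)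
    (hf : finrank F (Fix x) = finrank F (Fix y)) : ∃ e : V ≃ₗ[F] V, ∀ v, e (x v) = y (e v) := by
  have hcx : IsCompl (Fix x) (Ker x 2) := ⟨disjoint_iff.mpr (Fix_inf_Ker h2), codisjoint_iff.mpr (sup_Fix_Ker h2 hx)⟩
  have hcy : IsCompl (Fix y) (Ker y 2) := ⟨disjoint_iff.mpr (Fix_inf_Ker h2), codisjoint_iff.mpr (sup_Fix_Ker h2 hy)⟩
  have hk : finrank F (Ker x 2) = finrank F (Ker y 2) := by
    have h3 := finrank_Fix_add h2 hx
    have h4 := finrank_Fix_add h2 hy
    omega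
  let e₁ := LinearEquiv.ofFinrankEq (Fix x) (Fix y) hf
  let e₂ := LinearEquiv.ofFinrankEq (Ker x 2) (Ker y 2) hk
  let px := Submodule.prodEquivOfIsCompl _ _ hcx
  let py := Submodule.prodEquivOfIsCompl _ _ hcy
  let e : V ≃ₗ[F] V := px.symm.trans ((e₁.prodCongr e₂).trans py)
  have he : ∀ a b, e (px (a, b)) = py (e₁ a, e₂ b) := by
    intro a b
    show py ((e₁.prodCongr e₂) (px.symm (px (a, b)))) = _
    rw [LinearEquiv.symm_apply_apply]
    rfl
  have hpx : ∀ a b, px (a, b) = (a : V) + (b : V) := fun a b => rfl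
  have hpy : ∀ a b, py (a, b) = (a : V) + (b : V) := fun a b => rfl
  refine ⟨e, fun v => ?_⟩
  obtain ⟨⟨a, b⟩, rfl⟩ := px.surjective v
  have h5 : x (px (a, b)) = px (a, -b) := by
    rw [hpx, hpx, map_add, mem_Fix.1 a.2, mem_Ker_two.1 b.2]
    rfl
  rw [h5, he, he, map_neg, hpy, hpy, map_add, mem_Fix.1 (e₁ a).2, mem_Ker_two.1 (e₂ b).2]
  rfl

end Split

section Conj

variable {F : Type u} [Field F] [Fintype F] {d : ℕ}

/-- Matrix conjugacy gives symplectic conjugacy. -/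
theorem conj_of_equiv {p : ℕ} [Fact p.Prime] [CharP F p] (hp : p ≠ 2) {x y : GL (Fin d ⊕ Fin d) F} (hx : x ∈ Cfsg.spGL d F) (hy : y ∈ Cfsg.spGL d F)
    (h4 : (x : Matrix (Fin d ⊕ Fin d) (Fin d ⊕ Fin d) F) ^ 4 = 1) (e : (Fin d ⊕ Fin d → F) ≃ₗ[F] (Fin d ⊕ Fin d → F))
    (he : ∀ v, e ((x : Matrix (Fin d ⊕ Fin d) (Fin d ⊕ Fin d) F) *ᵥ v) = (y : Matrix (Fin d ⊕ Fin d) (Fin d ⊕ Fin d) F) *ᵥ (e v)) :
    ∃ c ∈ Cfsg.spGL d F, c * x = y * c := by
  classical
  let A : symplecticGroup (Fin d) F := ⟨(x : Matrix (Fin d ⊕ Fin d) (Fin d ⊕ Fin d) F), coe_mem_symplecticGroup hx⟩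
  let B : symplecticGroup (Fin d) F := ⟨(y : Matrix (Fin d ⊕ Fin d) (Fin d ⊕ Fin d) F), coe_mem_symplecticGroup hy⟩
  have hA4 : A ^ 4 = 1 := by
    apply Subtype.ext
    exact h4
  have hco : (orderOf A).Coprime p := by
    have h5 : orderOf A ∣ 2 ^ 2 := orderOf_dvd_of_pow_eq_one (by simpa using hA4)
    apply Nat.Coprime.coprime_dvd_left h5
    exact Nat.Coprime.pow_left 2 ((Nat.coprime_primes Nat.prime_two Fact.out).2 (Ne.symm hp))
  have hconj : IsConj (A : Matrix (Fin d ⊕ Fin d) (Fin d ⊕ Fin d) F) (B : Matrix (Fin d ⊕ Fin d) (Fin d ⊕ Fin d) F) := by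
    refine ⟨glOfEquiv e, ?_⟩
    show (glOfEquiv e : Matrix (Fin d ⊕ Fin d) (Fin d ⊕ Fin d) F) * (x : Matrix (Fin d ⊕ Fin d) (Fin d ⊕ Fin d) F) = (y : Matrix (Fin d ⊕ Fin d) (Fin d ⊕ Fin d) F) * (glOfEquiv e : Matrix (Fin d ⊕ Fin d) (Fin d ⊕ Fin d) F)
    apply matrix_eq_of_mulVec_eq
    intro v
    rw [← Matrix.mulVec_mulVec, ← Matrix.mulVec_mulVec, glOfEquiv_mulVec, glOfEquiv_mulVec, he]
  have h5 := Cfsg.Agent.Lib.Classical.Herm.SpSemis.isConj_of_isConj A B hco hconj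
  obtain ⟨c, hc⟩ := isConj_iff.mp h5
  refine ⟨SpHermMain.toGL c, SpHermMain.toGL_mem c, ?_⟩
  apply Units.ext
  rw [Units.val_mul, Units.val_mul, SpHermMain.toGL_val]
  have h6 : c * A = B * c := by
    rw [← hc]
    group
  exact congrArg Subtype.val h6

variable {L : Type u} [Field L] [Algebra F L] [Fintype L]
  {K : Subalgebra F (Matrix (Fin d ⊕ Fin d) (Fin d ⊕ Fin d) F)}
  {ρ : L →ₐ[F] Matrix (Fin d ⊕ Fin d) (Fin d ⊕ Fin d) F}

theorem sympForm_sig (σ : L ≃ₐ[F] L) {d' : ℕ} (u v : Fin d' ⊕ Fin d' → L) :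
    Cfsg.sympForm d' L (fun i => σ (u i)) (fun i => σ (v i)) = σ (Cfsg.sympForm d' L u v) := by
  simp only [sympForm_apply, map_sum, map_sub, map_mul]

/-- The model of an involution with eigenspaces of equal dimensions. -/
theorem exists_y1 (h2 : ((2 : ℕ) : F) ≠ 0) (hd : 0 < d) (hk : finrank F L = 2) (hmem : ∀ m, m ∈ K ↔ ∃ a, ρ a = m)
    (D : Data (sympBilin d F) (rhoE ρ)) :
    ∃ y : GL (Fin d ⊕ Fin d) F, y ∈ Cfsg.spGL d F ∧ y ∈ Cfsg.Geo.subalgebraNormalizer K ∧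
      (y : Matrix (Fin d ⊕ Fin d) (Fin d ⊕ Fin d) F) ^ 2 = 1 ∧
      finrank F (Fix (Matrix.toLin' (y : Matrix (Fin d ⊕ Fin d) (Fin d ⊕ Fin d) F))) = d := by
  classical
  haveI : FiniteDimensional F L := Module.Finite.of_finite
  obtain ⟨d', X, hdim, hX, hB⟩ := exists_frame_rho D sympBilin_nondegenerate
  have hcard : Nat.card (L ≃ₐ[F] L) = 2 := by
    rw [IsGalois.card_aut_eq_finrank, hk]
  haveI : Nontrivial (L ≃ₐ[F] L) := by
    apply Finite.one_lt_card_iff_nontrivial.mp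
    omega
  obtain ⟨σ, hσ⟩ := exists_ne (1 : L ≃ₐ[F] L)
  have hσ2 : σ ^ 2 = 1 := by
    have := pow_card_eq_one' (x := σ)
    rwa [hcard] at this
  have hσσ : ∀ a, σ (σ a) = a := by
    intro a
    have := congrArg (fun τ : L ≃ₐ[F] L => τ a) hσ2
    simpa [pow_two] using this
  let sig : (Fin d' ⊕ Fin d' → L) ≃ₗ[F] (Fin d' ⊕ Fin d' → L) := LinearEquiv.piCongrRight (fun _ => σ.toLinearEquiv)
  have hsig : ∀ v i, sig v i = σ (v i) := fun v i => rfl
  let E : (Fin d ⊕ Fin d → F) ≃ₗ[F] (Fin d ⊕ Fin d → F) := X.trans (sig.trans X.symm)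
  have hE : ∀ v, E v = X.symm (sig (X v)) := fun v => rfl
  let y : GL (Fin d ⊕ Fin d) F := glOfEquiv E
  have hy : ∀ v, (y : Matrix (Fin d ⊕ Fin d) (Fin d ⊕ Fin d) F) *ᵥ v = X.symm (sig (X v)) := fun v => glOfEquiv_mulVec E v
  have hyS : y ∈ Cfsg.spGL d F := by
    rw [mem_spGL_iff]
    intro u v
    rw [hy, hy]
    have hBB : ∀ u v, Cfsg.sympForm d F u v = Algebra.trace F L (Cfsg.sympForm d' L (X u) (X v)) := hB
    rw [hBB, hBB u v, LinearEquiv.apply_symm_apply, LinearEquiv.apply_symm_apply]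
    have h3 : Cfsg.sympForm d' L (sig (X u)) (sig (X v)) = σ (Cfsg.sympForm d' L (X u) (X v)) := sympForm_sig σ (X u) (X v)
    rw [h3, Algebra.trace_eq_of_algEquiv]
  have hX' : ∀ (a : L) v, X (ρ a *ᵥ v) = a • X v := hX
  have hyρ : ∀ a, (y : Matrix (Fin d ⊕ Fin d) (Fin d ⊕ Fin d) F) * ρ a = ρ (σ a) * (y : Matrix (Fin d ⊕ Fin d) (Fin d ⊕ Fin d) F) := by
    intro a
    apply matrix_eq_of_mulVec_eq
    intro v
    rw [← Matrix.mulVec_mulVec, ← Matrix.mulVec_mulVec, hy, hy, hX']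
    apply X.injective
    rw [LinearEquiv.apply_symm_apply, hX', LinearEquiv.apply_symm_apply]
    funext i
    simp only [hsig, Pi.smul_apply, smul_eq_mul, map_mul]
  have hyN : y ∈ Cfsg.Geo.subalgebraNormalizer K := mem_normalizer_of hmem y σ hyρ
  have hy2 : (y : Matrix (Fin d ⊕ Fin d) (Fin d ⊕ Fin d) F) ^ 2 = 1 := by
    rw [pow_two]
    apply matrix_eq_of_mulVec_eq
    intro v
    rw [← Matrix.mulVec_mulVec, hy, hy, Matrix.one_mulVec, LinearEquiv.apply_symm_apply]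
    apply X.injective
    rw [LinearEquiv.apply_symm_apply]
    funext i
    simp only [hsig, hσσ]
  refine ⟨y, hyS, hyN, hy2, ?_⟩
  set T : Module.End F (Fin d ⊕ Fin d → F) := Matrix.toLin' (y : Matrix (Fin d ⊕ Fin d) (Fin d ⊕ Fin d) F) with hT
  have hTv : ∀ v, T v = (y : Matrix (Fin d ⊕ Fin d) (Fin d ⊕ Fin d) F) *ᵥ v := fun v => rfl
  have hT2 : T ^ 2 = 1 := by
    rw [hT, ← Matrix.toLin'_pow, hy2, Matrix.toLin'_one]
    rfl
  obtain ⟨a, ha⟩ : ∃ a, σ a ≠ a := by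
    by_contra hcon
    push Not at hcon
    exact hσ (AlgEquiv.ext hcon)
  have hc : σ a - a ≠ 0 := sub_ne_zero.mpr ha
  have hσc : σ (σ a - a) = -(σ a - a) := by
    rw [map_sub, hσσ]
    ring
  have hTc : ∀ v, T (ρ (σ a - a) *ᵥ v) = - (ρ (σ a - a) *ᵥ T v) := by
    intro v
    rw [hTv, hTv, Matrix.mulVec_mulVec, hyρ, hσc, map_neg, Matrix.neg_mul, Matrix.neg_mulVec, ← Matrix.mulVec_mulVec]
  have hinj : Function.Injective (rhoE ρ (σ a - a) : (Fin d ⊕ Fin d → F) →ₗ[F] (Fin d ⊕ Fin d → F)) := by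
    intro u v huv
    exact rho_inj_vec (ρ := ρ) hd hc huv
  have hm1 : (Fix T).map (rhoE ρ (σ a - a) : (Fin d ⊕ Fin d → F) →ₗ[F] (Fin d ⊕ Fin d → F)) ≤ Ker T 2 := by
    rintro _ ⟨v, hv, rfl⟩
    rw [mem_Ker_two]
    show T (ρ (σ a - a) *ᵥ v) = - (ρ (σ a - a) *ᵥ v)
    rw [hTc, mem_Fix.1 hv]
  have hm2 : (Ker T 2).map (rhoE ρ (σ a - a) : (Fin d ⊕ Fin d → F) →ₗ[F] (Fin d ⊕ Fin d → F)) ≤ Fix T := by
    rintro _ ⟨v, hv, rfl⟩
    rw [mem_Fix]
    show T (ρ (σ a - a) *ᵥ v) = ρ (σ a - a) *ᵥ v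
    rw [hTc, mem_Ker_two.1 hv, Matrix.mulVec_neg, neg_neg]
  have h6 := Submodule.finrank_mono hm1
  have h7 := Submodule.finrank_mono hm2
  rw [← (Submodule.equivMapOfInjective _ hinj _).finrank_eq] at h6 h7
  have h8 := finrank_Fix_add h2 hT2
  have hdimV : finrank F (Fin d ⊕ Fin d → F) = 2 * d := by
    rw [Module.finrank_fintype_fun_eq_card, Fintype.card_sum, Fintype.card_fin]
    ring
  rw [hdimV] at h8
  omega

/-- The model of a `K`-linear element of square `-1`. -/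
theorem exists_y2 (hmem : ∀ m, m ∈ K ↔ ∃ a, ρ a = m) (D : Data (sympBilin d F) (rhoE ρ)) :
    ∃ y : GL (Fin d ⊕ Fin d) F, y ∈ Cfsg.spGL d F ∧ y ∈ Cfsg.Geo.subalgebraNormalizer K ∧
      (y : Matrix (Fin d ⊕ Fin d) (Fin d ⊕ Fin d) F) ^ 2 = (-1 : F) • 1 := by
  classical
  haveI : FiniteDimensional F L := Module.Finite.of_finite
  obtain ⟨d', X, hdim, hX, hB⟩ := exists_frame_rho D sympBilin_nondegenerate
  let A₀ : symplecticGroup (Fin d') L := ⟨Matrix.J (Fin d') L, SymplecticGroup.J_mem (Fin d') L⟩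
  let A := SpHermMain.toGL A₀
  have hA : (A : Matrix (Fin d' ⊕ Fin d') (Fin d' ⊕ Fin d') L) = Matrix.J (Fin d') L := SpHermMain.toGL_val A₀
  refine ⟨psiHom X A, psi_mem_sp X (fun u v => hB u v) (SpHermMain.toGL_mem A₀), ?_, ?_⟩
  · exact mem_normalizer_of hmem _ AlgEquiv.refl (fun a => psi_comm X (fun a v => hX a v) A a)
  · rw [pow_two]
    apply matrix_eq_of_mulVec_eq
    intro v
    rw [← Matrix.mulVec_mulVec, psiHom_apply_mulVec, psiHom_apply_mulVec, LinearEquiv.apply_symm_apply, Matrix.mulVec_mulVec, hA,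
      Matrix.J_squared, Matrix.smul_mulVec, Matrix.one_mulVec, neg_one_smul, Matrix.neg_mulVec, Matrix.one_mulVec, map_neg,
      LinearEquiv.symm_apply_apply]

end Conj

section Neg

variable {F : Type u} [Field F] {V : Type u} [AddCommGroup V] [Module F V] [FiniteDimensional F V]

theorem sq_tilde {T : Module.End F V} (hT2 : T ^ 2 = (-1 : F) • 1) {w : F} (hw : w * w = -1) : (w⁻¹ • T) ^ 2 = 1 := by
  have hw0 : w ≠ 0 := by
    rintro rfl
    have h := hw
    rw [zero_mul] at h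
    have h1 : (1 : F) = 0 := by
      have := neg_eq_zero.mp h.symm
      exact this
    exact one_ne_zero h1
  rw [_root_.smul_pow, hT2, smul_smul, pow_two]
  have h3 : w⁻¹ * w⁻¹ * (-1 : F) = 1 := by
    rw [← hw]
    field_simp
  rw [h3, one_smul]

theorem finrank_fix_neg {B : LinearMap.BilinForm F V} (hA : B.IsAlt) (hN : B.Nondegenerate) {T : Module.End F V}
    (hI : ∀ u v, B (T u) (T v) = B u v) (hT2 : T ^ 2 = (-1 : F) • 1) {w : F} (hw : w * w = -1) (h2 : ((2 : ℕ) : F) ≠ 0)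
    (hdim : finrank F V = 4) : finrank F (Fix (w⁻¹ • T)) = 2 := by
  have hw0 : w ≠ 0 := by
    rintro rfl
    have h := hw
    rw [zero_mul] at h
    have h1 : (1 : F) = 0 := neg_eq_zero.mp h.symm
    exact one_ne_zero h1
  have h22 : (2 : F) ≠ 0 := by exact_mod_cast h2
  have hsq := sq_tilde hT2 hw
  have hsum := finrank_Fix_add h2 hsq
  have key : ∀ ε : F, ε * ε = 1 → ∀ u v : V, T u = ε • w • u → T v = ε • w • v → B u v = 0 := by
    intro ε hε u v hu hv
    have h3 := hI u v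
    rw [hu, hv] at h3
    simp only [map_smul, LinearMap.smul_apply, smul_eq_mul] at h3
    have h4 : (2 : F) * B u v = 0 := by
      have h5 : ε * (w * (ε * (w * B u v))) = (ε * ε) * (w * w) * B u v := by ring
      rw [h5, hε, hw] at h3
      linear_combination -h3
    exact (mul_eq_zero.1 h4).resolve_left h22
  have hFix : Cfsg.Agent.Lib.Classical.Elusive.TiBlock.TI B (Fix (w⁻¹ • T)) := by
    intro u hu v hv
    apply key 1 (by ring) u v
    · have h4 : w⁻¹ • T u = u := mem_Fix.1 hu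
      calc T u = w • (w⁻¹ • T u) := by rw [smul_smul, mul_inv_cancel₀ hw0, one_smul]
        _ = (1 : F) • w • u := by rw [h4, one_smul]
    · have h4 : w⁻¹ • T v = v := mem_Fix.1 hv
      calc T v = w • (w⁻¹ • T v) := by rw [smul_smul, mul_inv_cancel₀ hw0, one_smul]
        _ = (1 : F) • w • v := by rw [h4, one_smul]
  have hKer : Cfsg.Agent.Lib.Classical.Elusive.TiBlock.TI B (Ker (w⁻¹ • T) 2) := by
    intro u hu v hv
    apply key (-1) (by ring) u v
    · have h3 := mem_Ker_two.1 hu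
      have h4 : w⁻¹ • T u = -u := h3
      have h5 : T u = w • (-u) := by
        rw [← h4, smul_smul, mul_inv_cancel₀ hw0, one_smul]
      rw [h5]
      simp
    · have h3 := mem_Ker_two.1 hv
      have h4 : w⁻¹ • T v = -v := h3
      have h5 : T v = w • (-v) := by
        rw [← h4, smul_smul, mul_inv_cancel₀ hw0, one_smul]
      rw [h5]
      simp
  have h5 := Cfsg.Agent.Lib.Classical.Elusive.TiAbs.two_ti_le hA (Cfsg.Agent.Lib.Classical.Elusive.TiAbs.Nd_top hN) le_top hFix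
  have h6 := Cfsg.Agent.Lib.Classical.Elusive.TiAbs.two_ti_le hA (Cfsg.Agent.Lib.Classical.Elusive.TiAbs.Nd_top hN) le_top hKer
  rw [finrank_top] at h5 h6
  omega

theorem even_fix {B : LinearMap.BilinForm F V} (hA : B.IsAlt) (W : Submodule F V)
    (hW : ∀ u ∈ W, u ≠ 0 → ∃ v ∈ W, B u v ≠ 0) [Finite F] : ∃ m, finrank F W = 2 * m := by
  refine Cfsg.Agent.Lib.Classical.Elusive.SpFieldAbs.exists_even (F := F) (L := F) B (fun a u v => ?_) (fun a v => ?_) W hW
  · simp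
  · rw [map_smul, LinearMap.smul_apply, hA v, smul_zero]

end Neg

section Backward

variable {F : Type u} [Field F] [Fintype F]

theorem backward {p : ℕ} [Fact p.Prime] [CharP F p] {q : ℕ} (hq : Fintype.card F = q) (hodd : Odd q) {d : ℕ} (hd2 : d = 2)
    (K : Subalgebra F (Matrix (Fin d ⊕ Fin d) (Fin d ⊕ Fin d) F)) (hK : Cfsg.Geo.IsFieldSubalgebra 2 K)
    (hKf : Cfsg.Geo.IsSelfAdjointFor (Cfsg.sympForm d F) K) (hKalt : ∀ a ∈ K, ∀ v : Fin d ⊕ Fin d → F, Cfsg.sympForm d F (a *ᵥ v) v = 0)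
    (x : GL (Fin d ⊕ Fin d) F) (hx : x ∈ Cfsg.spGL d F)
    (hz : ∃ z : F, ((x ^ 2 : GL (Fin d ⊕ Fin d) F) : Matrix (Fin d ⊕ Fin d) (Fin d ⊕ Fin d) F) = z • (1 : Matrix (Fin d ⊕ Fin d) (Fin d ⊕ Fin d) F))
    (hns : ∀ z : F, (x : Matrix (Fin d ⊕ Fin d) (Fin d ⊕ Fin d) F) ≠ z • (1 : Matrix (Fin d ⊕ Fin d) (Fin d ⊕ Fin d) F)) :
    ∃ g ∈ Cfsg.spGL d F, g⁻¹ * x * g ∈ Cfsg.Geo.subalgebraNormalizer K := by
  classical
  subst hq
  have h2 : (2 : F) ≠ 0 := by
    intro h0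
    have hp2 : p ∣ 2 := (CharP.cast_eq_zero_iff F p 2).mp (by exact_mod_cast h0)
    have hp : p = 2 := (Nat.prime_dvd_prime_iff_eq Fact.out Nat.prime_two).mp hp2
    obtain ⟨n, hpp, hn⟩ := FiniteField.card F p
    rw [hn, hp] at hodd
    exact (Nat.not_even_iff_odd.mpr hodd) ((even_two.pow_of_ne_zero n.ne_zero))
  have hp2 : p ≠ 2 := by
    intro hp
    apply h2
    have := CharP.cast_eq_zero F p
    rw [hp] at this
    exact_mod_cast this
  have h2' : ((2 : ℕ) : F) ≠ 0 := by exact_mod_cast h2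
  have hd0 : 0 < d := by omega
  obtain ⟨L, _, _, _, ρ, hmem, hLk⟩ := exists_fieldModel hK hd0
  haveI : FiniteDimensional F L := Module.Finite.of_finite
  have D : Data (sympBilin d F) (rhoE ρ) :=
    { selfadj := fun a u v => hKf (ρ a) ((hmem _).2 ⟨a, rfl⟩) u v
      alt := fun a v => hKalt (ρ a) ((hmem _).2 ⟨a, rfl⟩) v }
  have hA : (sympBilin d F).IsAlt := sympBilin_isAlt
  have hN : (sympBilin d F).Nondegenerate := sympBilin_nondegenerate
  have hdimV : finrank F (Fin d ⊕ Fin d → F) = 4 := by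
    rw [Module.finrank_fintype_fun_eq_card, Fintype.card_sum, Fintype.card_fin]
    omega
  have hfin : ∀ y ∈ Cfsg.Geo.subalgebraNormalizer K, (∃ c ∈ Cfsg.spGL d F, c * x = y * c) → ∃ g ∈ Cfsg.spGL d F, g⁻¹ * x * g ∈ Cfsg.Geo.subalgebraNormalizer K := by
    rintro y hy ⟨c, hc, hcx⟩
    refine ⟨c⁻¹, (Cfsg.spGL d F).inv_mem hc, ?_⟩
    rw [inv_inv, hcx, mul_inv_cancel_right]
    exact hy
  obtain ⟨z, hz⟩ := hz
  rw [Units.val_pow_eq_pow_val] at hz
  set T : Module.End F (Fin d ⊕ Fin d → F) := Matrix.toLin' (x : Matrix (Fin d ⊕ Fin d) (Fin d ⊕ Fin d) F) with hT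
  have hTv : ∀ v, T v = (x : Matrix (Fin d ⊕ Fin d) (Fin d ⊕ Fin d) F) *ᵥ v := fun v => rfl
  have hI : ∀ u v, sympBilin d F (T u) (T v) = sympBilin d F u v := fun u v => (mem_spGL_iff x).mp hx u v
  have hTT : ∀ v, T (T v) = z • v := by
    intro v
    rw [hTv, hTv, Matrix.mulVec_mulVec, ← pow_two, hz, Matrix.smul_mulVec, Matrix.one_mulVec]
  have hT2 : T ^ 2 = z • 1 := by
    apply LinearMap.ext
    intro v
    rw [pow_two]
    exact hTT v
  have hzz : z * z = 1 := by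
    let i₀ : Fin d := ⟨0, hd0⟩
    let w : Fin d ⊕ Fin d → F := Pi.single (Sum.inl i₀) 1
    have hw : w ≠ 0 := by
      intro h
      have := congrFun h (Sum.inl i₀)
      simp [w] at this
    obtain ⟨v, hv⟩ := exists_sympForm_ne hw
    have h3 : sympBilin d F (T (T v)) (T (T w)) = sympBilin d F v w := by rw [hI, hI]
    rw [hTT, hTT] at h3
    simp only [map_smul, LinearMap.smul_apply, smul_eq_mul] at h3
    have hv' : sympBilin d F v w ≠ 0 := hv
    have h4 : (z * z - 1) * sympBilin d F v w = 0 := by linear_combination h3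
    exact sub_eq_zero.mp ((mul_eq_zero.1 h4).resolve_right hv')
  have hz12 : z = 1 ∨ z = -1 := by
    have h4 : (z - 1) * (z + 1) = 0 := by linear_combination hzz
    rcases mul_eq_zero.1 h4 with h5 | h5
    · exact Or.inl (sub_eq_zero.mp h5)
    · exact Or.inr (eq_neg_of_add_eq_zero_left h5)
  have hx4 : (x : Matrix (Fin d ⊕ Fin d) (Fin d ⊕ Fin d) F) ^ 4 = 1 := by
    rw [show 4 = 2 * 2 by norm_num, pow_mul, hz, _root_.smul_pow, one_pow, pow_two, hzz, one_smul]
  rcases hz12 with rfl | rfl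
  · -- involutions
    obtain ⟨y, hyS, hyN, hy2, hyF⟩ := exists_y1 h2' hd0 hLk hmem D
    apply hfin y hyN
    have hT2' : T ^ 2 = 1 := by
      rw [hT2, one_smul]
    have hY2 : (Matrix.toLin' (y : Matrix (Fin d ⊕ Fin d) (Fin d ⊕ Fin d) F)) ^ 2 = 1 := by
      rw [← Matrix.toLin'_pow, hy2, Matrix.toLin'_one]
      rfl
    obtain ⟨m, hm⟩ := even_fix hA (Fix T) (fun u hu hu0 => fix_nondeg hA hN hI h2' hT2' hu hu0)
    have hsum := finrank_Fix_add h2' hT2'
    rw [hdimV] at hsum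
    have hFT : finrank F (Fix T) = 2 := by
      have hne0 : finrank F (Fix T) ≠ 0 := by
        intro h0
        have h5 : Fix T = ⊥ := Submodule.finrank_eq_zero.mp h0
        have h6 := sup_Fix_Ker h2' hT2'
        rw [h5, bot_sup_eq] at h6
        apply hns (-1)
        apply matrix_eq_of_mulVec_eq
        intro v
        have h7 : v ∈ Ker T 2 := by
          rw [h6]
          trivial
        rw [Matrix.smul_mulVec, Matrix.one_mulVec, neg_one_smul]
        exact mem_Ker_two.1 h7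
      have hne4 : finrank F (Fix T) ≠ 4 := by
        intro h0
        have h5 : Fix T = ⊤ := Submodule.eq_top_of_finrank_eq (by rw [h0, hdimV])
        apply hns 1
        apply matrix_eq_of_mulVec_eq
        intro v
        have h7 : v ∈ Fix T := by
          rw [h5]
          trivial
        rw [Matrix.smul_mulVec, Matrix.one_mulVec, one_smul]
        exact mem_Fix.1 h7
      omega
    obtain ⟨e, he⟩ := exists_equiv_split h2' hT2' hY2 (by rw [hFT, hyF, hd2])
    exact conj_of_equiv hp2 hx hyS hx4 e he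
  · -- square minus one
    obtain ⟨y, hyS, hyN, hy2⟩ := exists_y2 hmem D
    apply hfin y hyN
    set Y : Module.End F (Fin d ⊕ Fin d → F) := Matrix.toLin' (y : Matrix (Fin d ⊕ Fin d) (Fin d ⊕ Fin d) F) with hY
    have hYv : ∀ v, Y v = (y : Matrix (Fin d ⊕ Fin d) (Fin d ⊕ Fin d) F) *ᵥ v := fun v => rfl
    have hIy : ∀ u v, sympBilin d F (Y u) (Y v) = sympBilin d F u v := fun u v => (mem_spGL_iff y).mp hyS u v
    have hYY : ∀ v, Y (Y v) = (-1 : F) • v := by
      intro v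
      rw [hYv, hYv, Matrix.mulVec_mulVec, ← pow_two, hy2, Matrix.smul_mulVec, Matrix.one_mulVec]
    have hY2 : Y ^ 2 = (-1 : F) • 1 := by
      apply LinearMap.ext
      intro v
      rw [pow_two]
      exact hYY v
    by_cases hs : IsSquare (-1 : F)
    · obtain ⟨w, hw⟩ := hs
      have hw' : w * w = -1 := hw.symm
      have hw0 : w ≠ 0 := by
        rintro rfl
        rw [zero_mul] at hw'
        have h1 : (1 : F) = 0 := neg_eq_zero.mp hw'.symm
        exact one_ne_zero h1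
      have h5 := finrank_fix_neg hA hN hI hT2 hw' h2' hdimV
      have h6 := finrank_fix_neg hA hN hIy hY2 hw' h2' hdimV
      obtain ⟨e, he⟩ := exists_equiv_split h2' (sq_tilde hT2 hw') (sq_tilde hY2 hw') (by rw [h5, h6])
      refine conj_of_equiv hp2 hx hyS hx4 e (fun v => ?_)
      have h7 := he v
      simp only [LinearMap.smul_apply, map_smul] at h7
      have h8 := congrArg (fun u => w • u) h7
      simp only [smul_smul, mul_inv_cancel₀ hw0, one_smul] at h8
      exact h8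
    · -- the hermitian structures
      have hstr : ∀ {S : Module.End F (Fin d ⊕ Fin d → F)}, (∀ u v, sympBilin d F (S u) (S v) = sympBilin d F u v) →
          (∀ v, S (S v) = (-1 : F) • v) → SpHerm.IsStr (sympBilin d F) (-1) S := by
        intro S hS hSS
        refine ⟨hSS, fun u v => ?_⟩
        have h3 := hS (S u) v
        rw [hSS] at h3
        simp only [map_smul, LinearMap.smul_apply, smul_eq_mul, neg_mul, one_mul] at h3
        exact h3.symm ▸ (by simp) 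
      obtain ⟨c, hc, hcc⟩ := SpHerm.exists_conj h2 hs (hstr hI hTT) (hstr hIy hYY)
      refine ⟨c, hc, ?_⟩
      apply Units.ext
      apply matrix_eq_of_mulVec_eq
      intro v
      rw [Units.val_mul, Units.val_mul, ← Matrix.mulVec_mulVec, ← Matrix.mulVec_mulVec]
      exact hcc v

end Backward

end Cfsg.Agent.Lib.Classical.Elusive.SpFieldInv
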