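import Mathlib

/-!
# Endomorphisms whose square is a scalar

Normal form over a finite field: the space splits into `X`-invariant planes on each of which `X`
has the same determinant; and there are commuting endomorphisms of every determinant.
-/

set_option autoImplicit false

namespace Cfsg.Agent.Lib.Classical.Elusive.SqScalar

open Module Matrix

variable {F V : Type*} [Field F] [AddCommGroup V] [Module F V]

/-- The endomorphism `X` acts on the planes `b (0, t), b (1, t)` through the matrices `B t`. -/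
def IsBlock {T : Type*} (X : V →ₗ[F] V) (b : Basis (Fin 2 × T) F V)
    (B : T → Matrix (Fin 2) (Fin 2) F) : Prop :=
  ∀ l t, X (b (l, t)) = B t 0 l • b (0, t) + B t 1 l • b (1, t)

section Blocks

variable {T : Type*} [Fintype T] [DecidableEq T]

theorem IsBlock.eq_toLin {X : V →ₗ[F] V} {b : Basis (Fin 2 × T) F V}
    {B : T → Matrix (Fin 2) (Fin 2) F} (h : IsBlock X b B) :
    X = toLin b b (blockDiagonal B) := by
  apply b.ext
  rintro ⟨l, t⟩
  rw [h l t, toLin_self, Fintype.sum_prod_type, Fin.sum_univ_two]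
  have h1 : ∀ (k : Fin 2), ∑ y : T, blockDiagonal B (k, y) (l, t) • b (k, y) = B t k l • b (k, t) := by
    intro k
    rw [Finset.sum_eq_single t]
    · simp [blockDiagonal_apply]
    · intro y _ hy
      simp [blockDiagonal_apply, hy]
    · simp
  rw [h1, h1]

/-- Changing one block by a commuting matrix gives a commuting endomorphism of prescribed
determinant. -/
theorem IsBlock.exists_commuting_det {X : V →ₗ[F] V} {b : Basis (Fin 2 × T) F V}
    {B : T → Matrix (Fin 2) (Fin 2) F} (h : IsBlock X b B) (t₀ : T)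
    (A : Matrix (Fin 2) (Fin 2) F) (hA : A * B t₀ = B t₀ * A) :
    ∃ D : V →ₗ[F] V, (∀ v, D (X v) = X (D v)) ∧ LinearMap.det D = A.det := by
  let C : T → Matrix (Fin 2) (Fin 2) F := fun t => if t = t₀ then A else 1
  refine ⟨toLin b b (blockDiagonal C), ?_, ?_⟩
  · have hcomm : blockDiagonal C * blockDiagonal B = blockDiagonal B * blockDiagonal C := by
      rw [← blockDiagonal_mul, ← blockDiagonal_mul]
      congr 1
      funext t
      by_cases ht : t = t₀
      · subst ht; simp [C, hA]
      · simp [C, ht]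
    intro v
    have h1 := congrArg (fun M => toLin b b M v) hcomm
    simp only [toLin_mul b b b] at h1
    rw [h.eq_toLin]
    exact h1
  · rw [LinearMap.det_toLin, det_blockDiagonal, Finset.prod_eq_single t₀]
    · simp [C]
    · intro t _ ht
      simp [C, ht]
    · simp

end Blocks

/-- A basis from a spanning family of the right size, for families indexed by `Fin 2 × T`. -/
theorem exists_basis_of_span [FiniteDimensional F V] {T : Type*} [Fintype T] (g : Fin 2 × T → V)
    (hg : ⊤ ≤ Submodule.span F (Set.range g)) (hc : 2 * Fintype.card T = finrank F V) :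
    ∃ b : Basis (Fin 2 × T) F V, ∀ i, b i = g i := by
  classical
  refine ⟨basisOfTopLeSpanOfCardEqFinrank g hg (by simpa using hc), fun i => ?_⟩
  rw [coe_basisOfTopLeSpanOfCardEqFinrank]

/-- A spanning family of a subspace indexed by a type of the right size. -/
theorem exists_family [FiniteDimensional F V] {ι : Type*} [Fintype ι] (U : Submodule F V)
    (h : finrank F U = Fintype.card ι) :
    ∃ v : ι → V, (∀ i, v i ∈ U) ∧ Submodule.span F (Set.range v) = U := by
  classical
  let b := (Module.finBasisOfFinrankEq F U (n := Fintype.card ι) h).reindex (Fintype.equivFin ι).symm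
  refine ⟨fun i => (b i : V), fun i => (b i).2, ?_⟩
  have : Set.range (fun i => (b i : V)) = (U.subtype) '' (Set.range b) := by
    rw [← Set.range_comp]; rfl
  rw [this, ← Submodule.map_span, b.span_eq, Submodule.map_top, Submodule.range_subtype]

/-- The package of data produced for an endomorphism whose square is a scalar. -/
def Good (X : V →ₗ[F] V) (c₀ : F) : Prop :=
  ∃ (T : Type) (_ : Fintype T) (_ : DecidableEq T) (b : Basis (Fin 2 × T) F V)
    (B : T → Matrix (Fin 2) (Fin 2) F),
    IsBlock X b B ∧ (∀ t, (B t).det = c₀) ∧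
      ∀ d : F, ∃ (t : T) (A : Matrix (Fin 2) (Fin 2) F), A * B t = B t * A ∧ A.det = d

section Glue

variable [FiniteDimensional F V] {T₁ T₂ : Type*} [Fintype T₁] [Fintype T₂]

theorem exists_basis_glue (g₁ : Fin 2 × T₁ → V) (g₂ : Fin 2 × T₂ → V)
    (hg : ⊤ ≤ Submodule.span F (Set.range g₁) ⊔ Submodule.span F (Set.range g₂))
    (hc : 2 * (Fintype.card T₁ + Fintype.card T₂) = finrank F V) :
    ∃ b : Basis (Fin 2 × (T₁ ⊕ T₂)) F V, (∀ l i, b (l, .inl i) = g₁ (l, i)) ∧
      (∀ l j, b (l, .inr j) = g₂ (l, j)) := by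
  let g : Fin 2 × (T₁ ⊕ T₂) → V := fun p => Sum.elim (fun i => g₁ (p.1, i)) (fun j => g₂ (p.1, j)) p.2
  obtain ⟨b, hb⟩ := exists_basis_of_span g (by
    refine hg.trans (sup_le ?_ ?_)
    · apply Submodule.span_mono
      rintro _ ⟨⟨l, i⟩, rfl⟩
      exact ⟨(l, .inl i), rfl⟩
    · apply Submodule.span_mono
      rintro _ ⟨⟨l, j⟩, rfl⟩
      exact ⟨(l, .inr j), rfl⟩) (by simpa using hc)
  exact ⟨b, fun l i => hb _, fun l j => hb _⟩

end Glue

section Char2

variable [FiniteDimensional F V]

/-- Characteristic two: the square of `X - s` vanishes. -/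
theorem good_char2 (h2 : (2 : F) = 0) (hsq : ∀ a : F, IsSquare a) {X : V →ₗ[F] V} {s : F}
    (hX : ∀ v, X (X v) = (s ^ 2) • v) (hn : Even (finrank F V)) (hn0 : 0 < finrank F V) :
    Good X (s ^ 2) := by
  classical
  let N : V →ₗ[F] V := X - s • LinearMap.id
  have hN : ∀ v, N v = X v - s • v := fun v => rfl
  have hXN : ∀ v, X v = s • v + N v := fun v => by rw [hN]; abel
  have hNN : ∀ v, N (N v) = 0 := by
    intro v
    have h22 : ∀ w : V, w + w = 0 := fun w => by rw [← two_smul F, h2, zero_smul]
    show X (N v) - s • N v = 0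
    rw [hN, map_sub, hX, map_smul, smul_sub, smul_smul]
    have : (s ^ 2) • v - s • X v - (s • X v - (s * s) • v)
        = ((s ^ 2) • v + (s ^ 2) • v) - (s • X v + s • X v) := by
      rw [← sq]; abel
    rw [this, h22, h22, sub_zero]
  set R := LinearMap.range N with hR
  set K := LinearMap.ker N with hK
  have hRK : R ≤ K := by
    rintro _ ⟨v, rfl⟩
    exact hNN v
  obtain ⟨C, hC⟩ := Submodule.exists_isCompl K
  obtain ⟨D₀, hD₀⟩ := Submodule.exists_isCompl R
  let D := D₀ ⊓ K
  have hRD : R ⊔ D = K := by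
    rw [← sup_inf_assoc_of_le _ hRK, hD₀.sup_eq_top, top_inf_eq]
  have hRD' : R ⊓ D = ⊥ := by
    rw [eq_bot_iff, ← hD₀.inf_eq_bot]
    exact inf_le_inf_left _ inf_le_left
  have h1 : finrank F C + finrank F K = finrank F V := by
    rw [add_comm]; exact Submodule.finrank_add_eq_of_isCompl hC
  have h2' : finrank F R + finrank F K = finrank F V := LinearMap.finrank_range_add_finrank_ker N
  have h3 : finrank F (R ⊔ D : Submodule F V) + finrank F (R ⊓ D : Submodule F V)
      = finrank F R + finrank F D := Submodule.finrank_sup_add_finrank_inf_eq R D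
  rw [hRD, hRD', finrank_bot, add_zero] at h3
  obtain ⟨m, hm⟩ := hn
  have h4 : ∃ t, finrank F D = 2 * t := ⟨m - finrank F R, by omega⟩
  obtain ⟨t, ht⟩ := h4
  obtain ⟨v, hv, hvC⟩ := exists_family (ι := Fin (finrank F R)) C (by simp; omega)
  obtain ⟨d, hd, hdD⟩ := exists_family (ι := Fin 2 × Fin t) D (by simpa using ht)
  let g₁ : Fin 2 × Fin (finrank F R) → V := fun p => if p.1 = 0 then v p.2 else N (v p.2)
  have hC' : C ≤ Submodule.span F (Set.range g₁) := by
    rw [← hvC]
    apply Submodule.span_mono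
    rintro _ ⟨i, rfl⟩
    exact ⟨(0, i), by simp [g₁]⟩
  have hR' : R ≤ Submodule.span F (Set.range g₁) := by
    have h5 : ∀ y ∈ C, N y ∈ Submodule.span F (Set.range g₁) := by
      intro y hy
      rw [← hvC] at hy
      induction hy using Submodule.span_induction with
      | mem y hy =>
        obtain ⟨i, rfl⟩ := hy
        exact Submodule.subset_span ⟨(1, i), by simp [g₁]⟩
      | zero => simp
      | add a b _ _ ha hb => rw [map_add]; exact add_mem ha hb
      | smul c a _ ha => rw [map_smul]; exact Submodule.smul_mem _ _ ha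
    rintro _ ⟨y, rfl⟩
    have hy : y ∈ K ⊔ C := by rw [hC.sup_eq_top]; trivial
    obtain ⟨k, hk, c, hc, rfl⟩ := Submodule.mem_sup.1 hy
    rw [map_add, LinearMap.mem_ker.1 hk, zero_add]
    exact h5 c hc
  obtain ⟨b, hb1, hb2⟩ := exists_basis_glue g₁ d (by
    rw [hdD, ← hC.sup_eq_top]
    refine sup_le ?_ (le_sup_of_le_left hC')
    rw [← hRD]
    exact sup_le_sup_right hR' _) (by simp; omega)
  have hnon : Nonempty (Fin (finrank F R) ⊕ Fin t) := by
    rw [← Fintype.card_pos_iff]; simp; omega
  obtain ⟨t₀⟩ := hnon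
  refine ⟨Fin (finrank F R) ⊕ Fin t, inferInstance, inferInstance, b,
    Sum.elim (fun _ => !![s, 0; 1, s]) (fun _ => !![s, 0; 0, s]), ?_, ?_, ?_⟩
  · intro l u
    rcases u with i | j
    · rw [hb1, hb1, hb1]
      fin_cases l
      · simp [g₁, hXN]
      · simp [g₁]
        rw [hXN, hNN, add_zero]
    · rw [hb2, hb2, hb2]
      have h6 : ∀ l, X (d (l, j)) = s • d (l, j) := fun l => by
        have : d (l, j) ∈ K := (hd _).2
        rw [hXN, LinearMap.mem_ker.1 this, add_zero]
      rw [h6]
      fin_cases l <;> simp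
  · rintro (i | j) <;> simp [det_fin_two, sq]
  · intro e
    obtain ⟨r, hr⟩ := hsq e
    refine ⟨t₀, r • 1, ?_, ?_⟩
    · simp
    · simp [hr, sq]

end Char2

section Split

variable [FiniteDimensional F V]

/-- The two eigenspaces of an endomorphism whose square is the scalar `s ^ 2`. -/
theorem isCompl_eigen (h2 : (2 : F) ≠ 0) {X : V →ₗ[F] V} {s : F} (hs : s ≠ 0)
    (hX : ∀ v, X (X v) = (s ^ 2) • v) :
    IsCompl (LinearMap.ker (X - s • LinearMap.id)) (LinearMap.ker (X + s • LinearMap.id)) := by
  have h2s : (2 * s : F) ≠ 0 := mul_ne_zero h2 hs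
  constructor
  · rw [Submodule.disjoint_def]
    intro v hv hv'
    have h1 : X v - s • v = 0 := hv
    have h3 : X v + s • v = 0 := hv'
    have h4 : (2 * s) • v = 0 := by
      have : (2 * s) • v = (X v + s • v) - (X v - s • v) := by
        rw [mul_smul, two_smul]; abel
      rw [this, h1, h3, sub_zero]
    exact (smul_eq_zero.1 h4).resolve_left h2s
  · rw [codisjoint_iff, eq_top_iff]
    intro v _
    have hP : X v + s • v ∈ LinearMap.ker (X - s • LinearMap.id) := by
      show X (X v + s • v) - s • (X v + s • v) = 0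
      rw [map_add, hX, map_smul, smul_add, smul_smul, ← sq]
      abel
    have hM : X v - s • v ∈ LinearMap.ker (X + s • LinearMap.id) := by
      show X (X v - s • v) + s • (X v - s • v) = 0
      rw [map_sub, hX, map_smul, smul_sub, smul_smul, ← sq]
      abel
    have hv : v = (2 * s)⁻¹ • (X v + s • v) + (-(2 * s)⁻¹) • (X v - s • v) := by
      have h4 : (2 * s)⁻¹ • (X v + s • v) + (-(2 * s)⁻¹) • (X v - s • v)
          = (2 * s)⁻¹ • ((2 * s) • v) := by
        rw [neg_smul, ← sub_eq_add_neg, ← smul_sub, mul_smul, two_smul]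
        congr 1
        abel
      rw [h4, smul_smul, inv_mul_cancel₀ h2s, one_smul]
    rw [hv]
    exact Submodule.add_mem _ (Submodule.mem_sup_left (Submodule.smul_mem _ _ hP))
      (Submodule.mem_sup_right (Submodule.smul_mem _ _ hM))

theorem det_eigen (h2 : (2 : F) ≠ 0) {X : V →ₗ[F] V} {s : F} (hs : s ≠ 0)
    (hX : ∀ v, X (X v) = (s ^ 2) • v) :
    LinearMap.det X = s ^ finrank F (LinearMap.ker (X - s • LinearMap.id))
      * (-s) ^ finrank F (LinearMap.ker (X + s • LinearMap.id)) := by
  classical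
  have hc := isCompl_eigen h2 hs hX
  set P := LinearMap.ker (X - s • LinearMap.id) with hP
  set M := LinearMap.ker (X + s • LinearMap.id) with hM
  have hdim := Submodule.finrank_add_eq_of_isCompl hc
  obtain ⟨v, hv, hvP⟩ := exists_family (ι := Fin (finrank F P)) P (by simp)
  obtain ⟨w, hw, hwM⟩ := exists_family (ι := Fin (finrank F M)) M (by simp)
  let g : Fin (finrank F P) ⊕ Fin (finrank F M) → V := Sum.elim v w
  have hg : ⊤ ≤ Submodule.span F (Set.range g) := by
    rw [← hc.sup_eq_top, Set.Sum.elim_range, Submodule.span_union, hvP, hwM]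
  let b := basisOfTopLeSpanOfCardEqFinrank g hg (by simpa using hdim)
  have hb : ∀ i, b i = g i := fun i => by
    rw [coe_basisOfTopLeSpanOfCardEqFinrank]
  let e : Fin (finrank F P) ⊕ Fin (finrank F M) → F := Sum.elim (fun _ => s) (fun _ => -s)
  have hbe : ∀ i, X (b i) = e i • b i := by
    rintro (i | j)
    · rw [hb]
      have : X (v i) - s • v i = 0 := hv i
      simpa [g, e, sub_eq_zero] using this
    · rw [hb]
      have : X (w j) + s • w j = 0 := hw j
      simpa [g, e, eq_neg_iff_add_eq_zero] using this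
  have hXe : X = toLin b b (diagonal e) := by
    apply b.ext
    intro i
    rw [hbe, toLin_self, Finset.sum_eq_single i]
    · simp
    · intro j _ hj
      simp [hj]
    · simp
  rw [hXe, LinearMap.det_toLin, det_diagonal, Fintype.prod_sum_type]
  simp [e]

/-- Over a field of odd characteristic, with both eigenspaces of even dimension. -/
theorem good_split (h2 : (2 : F) ≠ 0) {X : V →ₗ[F] V} {s : F} (hs : s ≠ 0)
    (hX : ∀ v, X (X v) = (s ^ 2) • v)
    (ha : Even (finrank F (LinearMap.ker (X - s • LinearMap.id))))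
    (hb : Even (finrank F (LinearMap.ker (X + s • LinearMap.id)))) (hn0 : 0 < finrank F V) :
    Good X (s ^ 2) := by
  classical
  have hc := isCompl_eigen h2 hs hX
  set P := LinearMap.ker (X - s • LinearMap.id) with hP
  set M := LinearMap.ker (X + s • LinearMap.id) with hM
  have hdim := Submodule.finrank_add_eq_of_isCompl hc
  obtain ⟨a', ha'⟩ := ha
  obtain ⟨b', hb'⟩ := hb
  obtain ⟨v, hv, hvP⟩ := exists_family (ι := Fin 2 × Fin a') P (by simp; omega)
  obtain ⟨w, hw, hwM⟩ := exists_family (ι := Fin 2 × Fin b') M (by simp; omega)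
  obtain ⟨b, hb1, hb2⟩ := exists_basis_glue v w (by rw [hvP, hwM, hc.sup_eq_top]) (by simp; omega)
  have hnon : Nonempty (Fin a' ⊕ Fin b') := by
    rw [← Fintype.card_pos_iff]; simp; omega
  obtain ⟨t₀⟩ := hnon
  have hvX : ∀ p, X (v p) = s • v p := fun p => by
    have : X (v p) - s • v p = 0 := hv p
    rwa [sub_eq_zero] at this
  have hwX : ∀ p, X (w p) = (-s) • w p := fun p => by
    have : X (w p) + s • w p = 0 := hw p
    rw [neg_smul]
    exact eq_neg_of_add_eq_zero_left this
  refine ⟨Fin a' ⊕ Fin b', inferInstance, inferInstance, b,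
    Sum.elim (fun _ => !![s, 0; 0, s]) (fun _ => !![-s, 0; 0, -s]), ?_, ?_, ?_⟩
  · intro l u
    rcases u with i | j
    · rw [hb1, hb1, hb1, hvX]
      fin_cases l <;> simp
    · rw [hb2, hb2, hb2, hwX]
      fin_cases l <;> simp
  · rintro (i | j) <;> simp [det_fin_two, sq]
  · intro e
    refine ⟨t₀, !![e, 0; 0, 1], ?_, ?_⟩
    · rcases t₀ with i | j
      · ext p q; fin_cases p <;> fin_cases q <;> simp [mul_comm]
      · ext p q; fin_cases p <;> fin_cases q <;> simp [mul_comm]
    · simp [det_fin_two]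

end Split

section Nonsquare

variable [FiniteDimensional F V]

theorem indep_of_nonsq {X : V →ₗ[F] V} {z : F} (hz : ¬ IsSquare z)
    (hX : ∀ v, X (X v) = z • v) {W : Submodule F V} (hW : ∀ w ∈ W, X w ∈ W) {u : V} (hu : u ∉ W)
    {α β : F} (h : α • u + β • X u ∈ W) : α = 0 ∧ β = 0 := by
  have h1 : X (α • u + β • X u) ∈ W := hW _ h
  have h2 : α • (α • u + β • X u) - β • X (α • u + β • X u) = (α ^ 2 - β ^ 2 * z) • u := by
    rw [map_add, map_smul, map_smul, hX]
    module
  have h3 : (α ^ 2 - β ^ 2 * z) • u ∈ W := by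
    rw [← h2]
    exact W.sub_mem (W.smul_mem _ h) (W.smul_mem _ h1)
  have h4 : α ^ 2 - β ^ 2 * z = 0 := by
    by_contra hne
    exact hu ((W.smul_mem_iff hne).1 h3)
  have h5 : β = 0 := by
    by_contra hβ
    apply hz
    refine ⟨α / β, ?_⟩
    field_simp
    linear_combination -h4
  subst h5
  refine ⟨?_, rfl⟩
  simpa using h4

theorem finrank_step {X : V →ₗ[F] V} {z : F} (hz : ¬ IsSquare z)
    (hX : ∀ v, X (X v) = z • v) {W : Submodule F V} (hW : ∀ w ∈ W, X w ∈ W) {u : V} (hu : u ∉ W) :
    finrank F (W ⊔ Submodule.span F {u, X u} : Submodule F V) = finrank F W + 2 := by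
  have hli : LinearIndependent F ![u, X u] := by
    rw [LinearIndependent.pair_iff]
    intro α β h
    exact indep_of_nonsq hz hX hW hu (by rw [h]; exact W.zero_mem)
  have h1 : finrank F (Submodule.span F {u, X u}) = 2 := by
    have := finrank_span_eq_card hli
    rw [Matrix.range_cons, Matrix.range_cons, Matrix.range_empty, Set.union_empty,
      Set.singleton_union] at this
    simpa using this
  have h2 : W ⊓ Submodule.span F {u, X u} = ⊥ := by
    rw [eq_bot_iff]
    rintro y ⟨hy, hy'⟩
    obtain ⟨α, β, rfl⟩ := Submodule.mem_span_pair.1 hy'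
    obtain ⟨rfl, rfl⟩ := indep_of_nonsq hz hX hW hu hy
    simp
  have h3 := Submodule.finrank_sup_add_finrank_inf_eq W (Submodule.span F {u, X u})
  rw [h2, finrank_bot, add_zero, h1] at h3
  exact h3

theorem exists_free_family {X : V →ₗ[F] V} {z : F} (hz : ¬ IsSquare z)
    (hX : ∀ v, X (X v) = z • v) (k : ℕ) : ∀ W : Submodule F V, (∀ w ∈ W, X w ∈ W) →
      finrank F W + k = finrank F V →
      ∃ (r : ℕ) (v : Fin r → V),
        W ⊔ Submodule.span F (Set.range v ∪ Set.range (X ∘ v)) = ⊤ ∧ 2 * r = k := by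
  induction k using Nat.strong_induction_on with
  | _ k ih =>
  intro W hW hk
  by_cases htop : W = ⊤
  · subst htop
    rw [finrank_top] at hk
    exact ⟨0, Fin.elim0, top_sup_eq _, by omega⟩
  · obtain ⟨u, hu⟩ : ∃ u, u ∉ W := by
      by_contra hall
      push Not at hall
      exact htop (eq_top_iff.2 fun x _ => hall x)
    have hstep := finrank_step hz hX hW hu
    have hle : finrank F (W ⊔ Submodule.span F {u, X u} : Submodule F V) ≤ finrank F V :=
      Submodule.finrank_le _
    have hW' : ∀ w ∈ W ⊔ Submodule.span F {u, X u}, X w ∈ W ⊔ Submodule.span F {u, X u} := by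
      intro w hw
      obtain ⟨a, ha, c, hc, rfl⟩ := Submodule.mem_sup.1 hw
      obtain ⟨α, β, rfl⟩ := Submodule.mem_span_pair.1 hc
      rw [map_add, map_add, map_smul, map_smul, hX]
      refine Submodule.add_mem _ (Submodule.mem_sup_left (hW a ha)) (Submodule.mem_sup_right ?_)
      refine Submodule.add_mem _ (Submodule.smul_mem _ _ (Submodule.subset_span (by simp)))
        (Submodule.smul_mem _ _ (Submodule.smul_mem _ _ (Submodule.subset_span (by simp))))
    obtain ⟨r, v, hv, hr⟩ := ih (k - 2) (by omega) _ hW' (by omega)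
    refine ⟨r + 1, Fin.cons u v, ?_, by omega⟩
    rw [eq_top_iff, ← hv]
    refine sup_le (sup_le le_sup_left (le_sup_of_le_right ?_)) (le_sup_of_le_right ?_)
    · rw [Submodule.span_le]
      rintro y (rfl | hy)
      · exact Submodule.subset_span (Or.inl ⟨0, rfl⟩)
      · rw [Set.mem_singleton_iff] at hy
        subst hy
        exact Submodule.subset_span (Or.inr ⟨0, rfl⟩)
    · apply Submodule.span_mono
      rintro y (⟨i, rfl⟩ | ⟨i, rfl⟩)
      · exact Or.inl ⟨i.succ, rfl⟩
      · exact Or.inr ⟨i.succ, rfl⟩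

theorem good_nonsq [Fintype F] {X : V →ₗ[F] V} {z : F} (hz : ¬ IsSquare z)
    (hX : ∀ v, X (X v) = z • v) (hn0 : 0 < finrank F V) (hodd : Fintype.card F % 2 = 1) :
    Good X (-z) := by
  classical
  have hz0 : z ≠ 0 := fun h => hz (h ▸ IsSquare.zero)
  obtain ⟨r, v, hv, hr⟩ := exists_free_family hz hX (finrank F V) ⊥ (by simp) (by simp)
  let g : Fin 2 × Fin r → V := fun p => if p.1 = 0 then v p.2 else X (v p.2)
  obtain ⟨b, hb⟩ := exists_basis_of_span g (by
    rw [bot_sup_eq] at hv
    rw [← hv]
    apply Submodule.span_mono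
    rintro y (⟨i, rfl⟩ | ⟨i, rfl⟩)
    · exact ⟨(0, i), by simp [g]⟩
    · exact ⟨(1, i), by simp [g]⟩) (by simpa using hr)
  have hnon : Nonempty (Fin r) := by
    rw [← Fintype.card_pos_iff]; simp; omega
  obtain ⟨t₀⟩ := hnon
  refine ⟨Fin r, inferInstance, inferInstance, b, fun _ => !![0, z; 1, 0], ?_, ?_, ?_⟩
  · intro l t
    rw [hb, hb, hb]
    fin_cases l
    · simp [g]
    · simp [g, hX]
  · intro t
    simp [det_fin_two]
  · intro d
    obtain ⟨a, β, h⟩ := FiniteField.exists_root_sum_quadratic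
      (f := Polynomial.X ^ 2 - Polynomial.C d) (g := Polynomial.C (-z) * Polynomial.X ^ 2)
      (Polynomial.degree_X_pow_sub_C (by decide) d)
      (Polynomial.degree_C_mul_X_pow 2 (neg_ne_zero.2 hz0)) hodd
    simp at h
    refine ⟨t₀, !![a, β * z; β, a], ?_, ?_⟩
    · ext p q; fin_cases p <;> fin_cases q <;> simp [mul_comm]
    · simp [det_fin_two]
      linear_combination h

end Nonsquare

section Arith

variable [Fintype F]

/-- A power of a nonzero element cannot be `-1` when `(q - 1)_2 ≤ n_2`. -/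
theorem pow_ne_neg_one (h2 : (2 : F) ≠ 0) {s : F} (hs : s ≠ 0) {n : ℕ} (hn : n ≠ 0)
    (hv : padicValNat 2 (Fintype.card F - 1) ≤ padicValNat 2 n) : s ^ n ≠ -1 := by
  intro h
  haveI : Fact (Nat.Prime 2) := ⟨Nat.prime_two⟩
  have hq : Fintype.card F - 1 ≠ 0 := by
    have := Fintype.one_lt_card (α := F)
    omega
  obtain ⟨e, w, hw, hew⟩ := Nat.exists_eq_two_pow_mul_odd hq
  have hep : padicValNat 2 (Fintype.card F - 1) = e := by
    rw [hew, padicValNat.mul (by positivity) hw.pos.ne', padicValNat.prime_pow,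
      padicValNat.eq_zero_of_not_dvd (by rwa [← even_iff_two_dvd, Nat.not_even_iff_odd]), add_zero]
  rw [hep] at hv
  obtain ⟨n', hn'⟩ := (padicValNat_dvd_iff_le (p := 2) hn).2 hv
  have h1 : s ^ (2 ^ e * w) = 1 := by
    rw [← hew]
    exact FiniteField.pow_card_sub_one_eq_one s hs
  have h3 : (s ^ n) ^ w = 1 := by
    rw [hn', ← pow_mul, show 2 ^ e * n' * w = (2 ^ e * w) * n' by ring, pow_mul, h1, one_pow]
  rw [h, hw.neg_one_pow] at h3
  apply h2
  have : (1 : F) + 1 = 0 := by
    nth_rewrite 1 [← h3]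
    simp
  rw [← one_add_one_eq_two]
  exact this

/-- Conversely a power can be `-1` when `n_2 < (q - 1)_2`. -/
theorem exists_pow_eq_neg_one {n : ℕ} (hn : n ≠ 0)
    (hv : padicValNat 2 n < padicValNat 2 (Fintype.card F - 1)) : ∃ s : F, s ≠ 0 ∧ s ^ n = -1 := by
  classical
  haveI : Fact (Nat.Prime 2) := ⟨Nat.prime_two⟩
  have hq : Fintype.card F - 1 ≠ 0 := by
    have := Fintype.one_lt_card (α := F)
    omega
  obtain ⟨a, n', hn'odd, han⟩ := Nat.exists_eq_two_pow_mul_odd hn
  have hap : padicValNat 2 n = a := by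
    rw [han, padicValNat.mul (by positivity) hn'odd.pos.ne', padicValNat.prime_pow,
      padicValNat.eq_zero_of_not_dvd (by rwa [← even_iff_two_dvd, Nat.not_even_iff_odd]), add_zero]
  rw [hap] at hv
  obtain ⟨w, hw⟩ := (padicValNat_dvd_iff_le (p := 2) hq).2 (Nat.succ_le_of_lt hv)
  obtain ⟨g, hg⟩ := IsCyclic.exists_generator (α := Fˣ)
  have hord : orderOf g = Fintype.card F - 1 := by
    rw [orderOf_eq_card_of_forall_mem_zpowers hg, Nat.card_eq_fintype_card, Fintype.card_units]
  have hw0 : 0 < w := by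
    rcases Nat.eq_zero_or_pos w with h | h
    · subst h; omega
    · exact h
  let h := g ^ (2 ^ a * w)
  have hsq : h * h = 1 := by
    rw [← pow_two, ← pow_mul]
    have : 2 ^ a * w * 2 = orderOf g := by rw [hord, hw, pow_succ]; ring
    rw [this, pow_orderOf_eq_one]
  have hne : h ≠ 1 := by
    intro h1
    have := orderOf_dvd_of_pow_eq_one h1
    rw [hord, hw] at this
    have hle := Nat.le_of_dvd (by positivity) this
    have : 2 ^ (a + 1) * w = 2 * (2 ^ a * w) := by rw [pow_succ]; ring
    have hp : 0 < 2 ^ a * w := by positivity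
    rw [this] at hle
    omega
  have hval : (h : F) = -1 := by
    have h3 : (h : F) * h = 1 := by
      rw [← Units.val_mul, hsq, Units.val_one]
    rcases mul_self_eq_one_iff.1 h3 with h4 | h4
    · exact (hne (Units.ext (by simpa using h4))).elim
    · exact h4
  refine ⟨((g ^ w : Fˣ) : F), Units.ne_zero _, ?_⟩
  rw [han, ← Units.val_pow_eq_pow_val, ← pow_mul, show w * (2 ^ a * n') = (2 ^ a * w) * n' by ring,
    pow_mul, Units.val_pow_eq_pow_val]
  change (h : F) ^ n' = -1
  rw [hval, hn'odd.neg_one_pow]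

/-- The structure theorem in the shape needed for the symplectic statement. -/
theorem good_of_sq [FiniteDimensional F V] {X : V →ₗ[F] V} {z : F} (hX : ∀ v, X (X v) = z • v)
    (hdet : LinearMap.det X = 1) (hn : Even (finrank F V)) (hn0 : 0 < finrank F V)
    (hv : padicValNat 2 (Fintype.card F - 1) ≤ padicValNat 2 (finrank F V)) :
    ∃ c₀ : F, c₀ ≠ 0 ∧ Good X c₀ := by
  have hz : z ≠ 0 := by
    rintro rfl
    have h1 : X * X = (0 : F) • LinearMap.id := by
      ext v
      simpa using hX v
    have h3 := congrArg LinearMap.det h1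
    rw [map_mul, hdet, LinearMap.det_smul, zero_pow hn0.ne'] at h3
    simp at h3
  by_cases h2 : (2 : F) = 0
  · have hchar : ringChar F = 2 := CharP.ringChar_of_prime_eq_zero Nat.prime_two (by exact_mod_cast h2)
    have hsq : ∀ a : F, IsSquare a := FiniteField.isSquare_of_char_two hchar
    obtain ⟨s, rfl⟩ := hsq z
    have hs : s ≠ 0 := fun h => hz (by simp [h])
    refine ⟨s ^ 2, pow_ne_zero _ hs, ?_⟩
    exact good_char2 h2 hsq (by rw [sq]; exact hX) hn hn0
  · have hchar : ringChar F ≠ 2 := fun h => h2 (by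
      have := ringChar.Nat.cast_ringChar (R := F)
      rw [h] at this
      exact_mod_cast this)
    by_cases hzs : IsSquare z
    · obtain ⟨s, rfl⟩ := hzs
      have hs : s ≠ 0 := fun h => hz (by simp [h])
      have hX' : ∀ v, X (X v) = (s ^ 2) • v := by rw [sq]; exact hX
      refine ⟨s ^ 2, pow_ne_zero _ hs, ?_⟩
      have hdim := Submodule.finrank_add_eq_of_isCompl (isCompl_eigen h2 hs hX')
      have hd := det_eigen h2 hs hX'
      rw [hdet] at hd
      have hbe : Even (finrank F (LinearMap.ker (X + s • LinearMap.id))) := by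
        by_contra hodd
        rw [Nat.not_even_iff_odd] at hodd
        rw [Odd.neg_pow hodd, mul_neg, ← pow_add, hdim] at hd
        exact pow_ne_neg_one h2 hs hn0.ne' hv (by linear_combination hd)
      have hae : Even (finrank F (LinearMap.ker (X - s • LinearMap.id))) := by
        rw [← hdim] at hn
        exact (Nat.even_add.1 hn).2 hbe
      exact good_split h2 hs hX' hae hbe hn0
    · exact ⟨-z, neg_ne_zero.2 hz, good_nonsq hzs hX hn0 (FiniteField.odd_card_of_char_ne_two hchar)⟩

end Arith

end Cfsg.Agent.Lib.Classical.Elusive.SqScalar
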