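import Mathlib

/-!
# The number of totally isotropic subspaces of a symplectic space
-/

set_option autoImplicit false
set_option linter.unusedSectionVars false
set_option linter.unusedSimpArgs false
set_option linter.unusedVariables false
set_option linter.style.haveILetI false

namespace Cfsg.Agent.Lib.Classical.Elusive.TiCount

open Module

variable {F V : Type*} [Field F] [Fintype F] [AddCommGroup V] [Module F V] [FiniteDimensional F V]

/-- Linearly independent isotropic tuples. -/
def Tup (B : LinearMap.BilinForm F V) (k : ℕ) : Type _ :=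
  {v : Fin k → V // LinearIndependent F v ∧ ∀ a b, B (v a) (v b) = 0}

/-- Totally isotropic subspaces. -/
def Ti (B : LinearMap.BilinForm F V) (m : ℕ) : Type _ :=
  {W : Submodule F V // finrank F W = m ∧ ∀ u ∈ W, ∀ v ∈ W, B u v = 0}

theorem card_diff {P S : Submodule F V} (h : S ≤ P) :
    Nat.card {w : V // w ∈ P ∧ w ∉ S} = Fintype.card F ^ finrank F P - Fintype.card F ^ finrank F S := by
  haveI : Finite V := Module.finite_of_finite F
  have h1 : Nat.card {w : V // w ∈ P ∧ w ∉ S} = Nat.card ↥((P : Set V) \ (S : Set V)) := rfl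
  rw [h1, Nat.card_coe_set_eq, Set.ncard_sdiff (fun x hx => h hx)]
  have h2 : ∀ U : Submodule F V, (U : Set V).ncard = Fintype.card F ^ finrank F U := by
    intro U
    rw [← Nat.card_coe_set_eq]
    have h3 := Module.natCard_eq_pow_finrank (K := F) (V := ↥U)
    rw [Nat.card_eq_fintype_card (α := F)] at h3
    exact h3
  rw [h2, h2]

theorem mem_orth_span {B : LinearMap.BilinForm F V} {k : ℕ} (v : Fin k → V) (w : V) :
    w ∈ B.orthogonal (Submodule.span F (Set.range v)) ↔ ∀ a, B (v a) w = 0 := by
  rw [LinearMap.BilinForm.mem_orthogonal_iff]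
  constructor
  · intro h a
    exact h _ (Submodule.subset_span ⟨a, rfl⟩)
  · intro h n hn
    induction hn using Submodule.span_induction with
    | mem x hx =>
      obtain ⟨a, rfl⟩ := hx
      exact h a
    | zero => simp
    | add x y _ _ hx hy => simp [hx, hy]
    | smul c x _ hx => simp [hx]

section

variable {B : LinearMap.BilinForm F V}

theorem swap0 (hA : B.IsAlt) {u v : V} (h : B u v = 0) : B v u = 0 := by
  rw [← LinearMap.BilinForm.IsAlt.neg_eq hA u v, h, neg_zero]

/-- The step map. -/
def stepMap (hA : B.IsAlt) (k : ℕ) :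
    (Σ v : Tup B k, {w : V // w ∈ B.orthogonal (Submodule.span F (Set.range v.1)) ∧ w ∉ Submodule.span F (Set.range v.1)}) → Tup B (k + 1) :=
  fun x => ⟨Fin.snoc x.1.1 x.2.1, by
    refine ⟨linearIndependent_finSnoc.2 ⟨x.1.2.1, x.2.2.2⟩, ?_⟩
    have h1 := (mem_orth_span x.1.1 x.2.1).1 x.2.2.1
    have h2 := x.1.2.2
    intro a b
    refine Fin.lastCases ?_ (fun a => ?_) a
    · refine Fin.lastCases ?_ (fun b => ?_) b
      · simp only [Fin.snoc_last]
        exact hA _
      · simp only [Fin.snoc_last, Fin.snoc_castSucc]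
        exact swap0 hA (h1 b)
    · refine Fin.lastCases ?_ (fun b => ?_) b
      · simp only [Fin.snoc_last, Fin.snoc_castSucc]
        exact h1 a
      · simp only [Fin.snoc_castSucc]
        exact h2 a b⟩

theorem stepMap_bij (hA : B.IsAlt) (k : ℕ) : Function.Bijective (stepMap (B := B) hA k) := by
  constructor
  · rintro ⟨⟨v, hv⟩, ⟨w, hw⟩⟩ ⟨⟨v', hv'⟩, ⟨w', hw'⟩⟩ h
    have h1 : (Fin.snoc v w : Fin (k + 1) → V) = Fin.snoc v' w' := congrArg Subtype.val h
    have h2 : v = v' := by
      have := congrArg Fin.init h1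
      simpa using this
    subst h2
    have h3 : w = w' := by
      have := congrFun h1 (Fin.last k)
      simpa using this
    subst h3
    rfl
  · rintro ⟨x, hx⟩
    have hli : LinearIndependent F (Fin.init x) ∧ x (Fin.last k) ∉ Submodule.span F (Set.range (Fin.init x)) := by
      apply linearIndependent_finSnoc.1
      rw [Fin.snoc_init_self]
      exact hx.1
    have hi : ∀ a, (Fin.init x : Fin k → V) a = x a.castSucc := fun a => rfl
    refine ⟨⟨⟨Fin.init x, hli.1, fun a b => hx.2 _ _⟩, ⟨x (Fin.last k), (mem_orth_span _ _).2 (fun a => hx.2 _ _), hli.2⟩⟩, ?_⟩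
    apply Subtype.ext
    exact Fin.snoc_init_self x

theorem card_Tup (hA : B.IsAlt) (hN : B.Nondegenerate) {n : ℕ} (hn : finrank F V = n) (k : ℕ) (hk : 2 * k ≤ n) :
    Nat.card (Tup B k) = ∏ j ∈ Finset.range k, (Fintype.card F ^ (n - j) - Fintype.card F ^ j) := by
  haveI : Finite V := Module.finite_of_finite F
  induction k with
  | zero =>
    have : Unique (Tup B 0) := ⟨⟨⟨Fin.elim0, linearIndependent_empty_type, fun a => a.elim0⟩⟩, fun x => Subtype.ext (funext fun a => a.elim0)⟩
    simp
  | succ k ih =>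
    have h1 := ih (by omega)
    rw [Finset.prod_range_succ, ← h1]
    rw [← Nat.card_congr (Equiv.ofBijective _ (stepMap_bij (B := B) hA k))]
    haveI : Finite (Tup B k) := Subtype.finite
    haveI := Fintype.ofFinite (Tup B k)
    rw [Nat.card_sigma]
    have h2 : ∀ v : Tup B k, Nat.card {w : V // w ∈ B.orthogonal (Submodule.span F (Set.range v.1)) ∧ w ∉ Submodule.span F (Set.range v.1)} =
        Fintype.card F ^ (n - k) - Fintype.card F ^ k := by
      intro v
      have h3 : Submodule.span F (Set.range v.1) ≤ B.orthogonal (Submodule.span F (Set.range v.1)) := by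
        rw [Submodule.span_le]
        rintro _ ⟨a, rfl⟩
        exact (mem_orth_span _ _).2 (fun b => v.2.2 b a)
      rw [card_diff h3]
      have h4 : finrank F ↥(Submodule.span F (Set.range v.1)) = k := by
        have := finrank_span_eq_card v.2.1
        simpa using this
      rw [LinearMap.BilinForm.finrank_orthogonal hN, h4, hn]
    simp only [h2, Finset.sum_const, Finset.card_univ, smul_eq_mul, Nat.card_eq_fintype_card]

/-- The fibre map. -/
def fibMap (m : ℕ) : (Σ W : Ti B m, {s : Fin m → ↥W.1 // LinearIndependent F s}) → Tup B m :=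
  fun x => ⟨fun a => (x.2.1 a : V), by
    refine ⟨x.2.2.map' (Submodule.subtype _) (Submodule.ker_subtype _), fun a b => x.1.2.2 _ (x.2.1 a).2 _ (x.2.1 b).2⟩⟩

theorem span_eq {m : ℕ} (W : Submodule F V) (hW : finrank F W = m) (s : Fin m → ↥W) (hs : LinearIndependent F s) :
    Submodule.span F (Set.range fun a : Fin m => (s a : V)) = W := by
  apply Submodule.eq_of_le_of_finrank_eq
  · rw [Submodule.span_le]
    rintro _ ⟨a, rfl⟩
    exact (s a).2
  · have h1 : LinearIndependent F (fun a : Fin m => (s a : V)) := hs.map' (Submodule.subtype _) (Submodule.ker_subtype _)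
    have := finrank_span_eq_card h1
    rw [this, hW]
    simp

theorem fibMap_bij (m : ℕ) : Function.Bijective (fibMap (B := B) m) := by
  constructor
  · rintro ⟨⟨W, hW⟩, ⟨s, hs⟩⟩ ⟨⟨W', hW'⟩, ⟨s', hs'⟩⟩ h
    have h1 : (fun a : Fin m => (s a : V)) = fun a : Fin m => (s' a : V) := congrArg Subtype.val h
    have h2 : W = W' := by
      rw [← span_eq W hW.1 s hs, ← span_eq W' hW'.1 s' hs', h1]
    subst h2
    have h3 : s = s' := by
      funext a
      exact Subtype.ext (congrFun h1 a)
    subst h3
    rfl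
  · rintro ⟨v, hv⟩
    have hfr : finrank F ↥(Submodule.span F (Set.range v)) = m := by
      have := finrank_span_eq_card hv.1
      simpa using this
    have hti : ∀ x ∈ Submodule.span F (Set.range v), ∀ y ∈ Submodule.span F (Set.range v), B x y = 0 := by
      intro x hx y hy
      have h3 : Submodule.span F (Set.range v) ≤ B.orthogonal (Submodule.span F (Set.range v)) := by
        rw [Submodule.span_le]
        rintro _ ⟨a, rfl⟩
        exact (mem_orth_span _ _).2 (fun b => hv.2 b a)
      exact (LinearMap.BilinForm.mem_orthogonal_iff.1 (h3 hy)) x hx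
    let s : Fin m → ↥(Submodule.span F (Set.range v)) := fun a => ⟨v a, Submodule.subset_span ⟨a, rfl⟩⟩
    have hs : LinearIndependent F s := by
      apply LinearIndependent.of_comp (Submodule.subtype _)
      exact hv.1
    refine ⟨⟨⟨_, hfr, hti⟩, ⟨s, hs⟩⟩, ?_⟩
    apply Subtype.ext
    rfl

theorem card_Tup_eq (m : ℕ) :
    Nat.card (Tup B m) = Nat.card (Ti B m) * ∏ j ∈ Finset.range m, (Fintype.card F ^ m - Fintype.card F ^ j) := by
  haveI : Finite V := Module.finite_of_finite F
  rw [← Nat.card_congr (Equiv.ofBijective _ (fibMap_bij (B := B) m))]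
  haveI : Finite (Ti B m) := Subtype.finite
  haveI := Fintype.ofFinite (Ti B m)
  rw [Nat.card_sigma]
  have h2 : ∀ W : Ti B m, Nat.card {s : Fin m → ↥W.1 // LinearIndependent F s} =
      ∏ j ∈ Finset.range m, (Fintype.card F ^ m - Fintype.card F ^ j) := by
    intro W
    have h3 := card_linearIndependent (K := F) (V := ↥W.1) (k := m) (by rw [W.2.1])
    rw [h3, W.2.1, Finset.prod_range]
  simp only [h2, Finset.sum_const, Finset.card_univ, smul_eq_mul, Nat.card_eq_fintype_card]

/-- The number of totally isotropic subspaces. -/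
theorem card_Ti (hA : B.IsAlt) (hN : B.Nondegenerate) {d q m : ℕ} (hq : Fintype.card F = q) (hn : finrank F V = 2 * d) (hm : m ≤ d) :
    Nat.card (Ti B m) * ∏ j ∈ Finset.range m, (q ^ (m - j) - 1) = ∏ j ∈ Finset.range m, (q ^ (2 * (d - j)) - 1) := by
  have h1 := card_Tup hA hN hn m (by omega)
  rw [card_Tup_eq, hq] at h1
  have hq0 : 0 < q := by
    rw [← hq]
    exact Fintype.card_pos
  have hP : 0 < ∏ j ∈ Finset.range m, q ^ j := Finset.prod_pos fun j _ => by positivity
  have h2 : ∏ j ∈ Finset.range m, (q ^ m - q ^ j) = (∏ j ∈ Finset.range m, q ^ j) * ∏ j ∈ Finset.range m, (q ^ (m - j) - 1) := by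
    rw [← Finset.prod_mul_distrib]
    apply Finset.prod_congr rfl
    intro j hj
    have hj' := Finset.mem_range.1 hj
    rw [Nat.mul_sub, mul_one, ← pow_add]
    congr 2
    omega
  have h3 : ∏ j ∈ Finset.range m, (q ^ (2 * d - j) - q ^ j) = (∏ j ∈ Finset.range m, q ^ j) * ∏ j ∈ Finset.range m, (q ^ (2 * (d - j)) - 1) := by
    rw [← Finset.prod_mul_distrib]
    apply Finset.prod_congr rfl
    intro j hj
    have hj' := Finset.mem_range.1 hj
    rw [Nat.mul_sub, mul_one, ← pow_add]
    congr 2
    omega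
  rw [h2, h3] at h1
  apply Nat.eq_of_mul_eq_mul_left hP
  rw [← h1]
  ring

/-- Primes dividing the number of totally isotropic subspaces. -/
theorem dvd_card_Ti (hA : B.IsAlt) (hN : B.Nondegenerate) {d q m p r : ℕ} (hq : Fintype.card F = q) (hn : finrank F V = 2 * d) (hm : m ≤ d)
    (hp : p.Prime) (hpq : p ∣ q) (hr : r.Prime) (hrN : r ∣ Nat.card (Ti B m)) :
    r ≠ p ∧ ∃ j < m, r ∣ q ^ (2 * (d - j)) - 1 := by
  have h1 := card_Ti hA hN hq hn hm
  have h2 : r ∣ ∏ j ∈ Finset.range m, (q ^ (2 * (d - j)) - 1) := by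
    rw [← h1]
    exact hrN.mul_right _
  obtain ⟨j, hj, hj'⟩ := (hr.prime.dvd_finsetProd_iff _).1 h2
  have hjm := Finset.mem_range.1 hj
  refine ⟨?_, j, hjm, hj'⟩
  rintro rfl
  have hq0 : 0 < q := by
    rw [← hq]
    exact Fintype.card_pos
  have h3 : r ∣ q ^ (2 * (d - j)) := dvd_pow hpq (by omega)
  have h4 : 0 < q ^ (2 * (d - j)) := by positivity
  have h5 : r ∣ q ^ (2 * (d - j)) - (q ^ (2 * (d - j)) - 1) := Nat.dvd_sub h3 hj'
  have h6 : q ^ (2 * (d - j)) - (q ^ (2 * (d - j)) - 1) = 1 := by omega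
  rw [h6] at h5
  exact hr.one_lt.ne' (Nat.dvd_one.1 h5)

end

end Cfsg.Agent.Lib.Classical.Elusive.TiCount
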