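import Mathlib
import Cfsg.Agent.Lib.Classical.Elusive.TiCount
import Cfsg.Agent.Lib.Classical.Elusive.TiAbs
import Cfsg.Agent.Lib.Classical.Elusive.TiModel
import Cfsg.Agent.Lib.Classical.Elusive.SpImprimMain

/-!
# Elements of prime order of `PSp_{2d}(q)` and totally isotropic subspaces
-/

set_option autoImplicit false
set_option linter.unusedSectionVars false
set_option linter.unusedSimpArgs false
set_option linter.unusedVariables false
set_option linter.style.haveILetI false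

namespace Cfsg.Agent.Lib.Classical.Elusive.TiMain

open Polynomial Module Matrix
open Cfsg.Agent.Lib.Classical.Elusive.Inv Cfsg.Agent.Lib.Classical.Elusive.SpCore Cfsg.Agent.Lib.Classical.Elusive.SpAtoms
  Cfsg.Agent.Lib.Classical.Elusive.TiHerm Cfsg.Agent.Lib.Classical.Elusive.TiBlock Cfsg.Agent.Lib.Classical.Elusive.TiAbs
  Cfsg.Agent.Lib.Classical.Elusive.TiModel Cfsg.Agent.Lib.Classical.Elusive.SpImprimMain
open Cfsg.Agent.Lib.Classical.Symp.Basic

universe u

attribute [local instance] _root_.Classical.propDecidable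

variable {F : Type u} [Field F] [Fintype F] {p : ℕ} [Fact p.Prime] [CharP F p] {q : ℕ}

/-- The case `r = 2`. -/
theorem main_two (hq : Fintype.card F = q) (hp2 : p ≠ 2) (d m : ℕ) (hd : 2 ≤ d) (hmd : m ≤ d) :
    (∀ x : ↥(Matrix.symplecticGroup (Fin d) F),
      (∃ z : F, ((x ^ 2 : ↥(Matrix.symplecticGroup (Fin d) F)) : Matrix (Fin d ⊕ Fin d) (Fin d ⊕ Fin d) F) = z • (1 : Matrix (Fin d ⊕ Fin d) (Fin d ⊕ Fin d) F)) →
      (∀ z : F, (x : Matrix (Fin d ⊕ Fin d) (Fin d ⊕ Fin d) F) ≠ z • (1 : Matrix (Fin d ⊕ Fin d) (Fin d ⊕ Fin d) F)) →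
      ∃ W : Submodule F (Fin d ⊕ Fin d → F), Module.finrank F ↥W = m ∧ (∀ u ∈ W, ∀ v ∈ W, Cfsg.sympForm d F u v = 0) ∧
        W.map (Matrix.toLin' (x : Matrix (Fin d ⊕ Fin d) (Fin d ⊕ Fin d) F)) ≤ W) ↔ (Even m ∨ q % 4 = 1) := by
  have hdimV : finrank F (Fin d ⊕ Fin d → F) = 2 * d := by
    rw [Module.finrank_fintype_fun_eq_card, Fintype.card_sum, Fintype.card_fin]
    ring
  have hA : (sympBilin d F).IsAlt := sympBilin_isAlt
  have hN : (sympBilin d F).Nondegenerate := sympBilin_nondegenerate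
  have hp : p.Prime := Fact.out
  have h2F : (2 : F) ≠ 0 := by
    have := PslNum.cast_ne_zero_of_ne (F := F) (p := p) Nat.prime_two hp2.symm
    simpa using this
  have hqodd : q % 2 = 1 := by
    rw [← hq]
    apply FiniteField.odd_card_of_char_ne_two
    rw [ringChar.eq F p]
    exact hp2
  constructor
  · intro H
    by_contra hcon
    push Not at hcon
    obtain ⟨hme, hq1⟩ := hcon
    have hq3 : q % 4 = 3 := by omega
    have hns : ∀ c : F, c ^ 2 ≠ -1 := by
      intro c hc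
      have h1 : IsSquare (-1 : F) := ⟨c, by rw [← hc, pow_two]⟩
      exact (FiniteField.isSquare_neg_one_iff.1 h1) (by rw [hq]; exact hq3)
    let x : ↥(Matrix.symplecticGroup (Fin d) F) := ⟨Matrix.J (Fin d) F, SymplecticGroup.J_mem _ _⟩
    have hxx : ((x ^ 2 : ↥(Matrix.symplecticGroup (Fin d) F)) : Matrix (Fin d ⊕ Fin d) (Fin d ⊕ Fin d) F) = (-1 : F) • (1 : Matrix (Fin d ⊕ Fin d) (Fin d ⊕ Fin d) F) := by
      show (Matrix.J (Fin d) F) ^ 2 = _
      rw [pow_two, Matrix.J_squared]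
      simp
    have hns' : ∀ z : F, (x : Matrix (Fin d ⊕ Fin d) (Fin d ⊕ Fin d) F) ≠ z • (1 : Matrix (Fin d ⊕ Fin d) (Fin d ⊕ Fin d) F) := by
      intro z hz
      have hz' : Matrix.J (Fin d) F = z • (1 : Matrix (Fin d ⊕ Fin d) (Fin d ⊕ Fin d) F) := hz
      have h1 : (z * z) • (1 : Matrix (Fin d ⊕ Fin d) (Fin d ⊕ Fin d) F) = (-1 : F) • (1 : Matrix (Fin d ⊕ Fin d) (Fin d ⊕ Fin d) F) := by
        have h2 := Matrix.J_squared (Fin d) F
        rw [hz'] at h2
        rw [smul_mul_smul_comm, one_mul] at h2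
        rw [h2]
        simp
      let i₀ : Fin d := ⟨0, by omega⟩
      have h3 := congrFun (congrFun h1 (Sum.inl i₀)) (Sum.inl i₀)
      simp at h3
      exact hns z (by rw [pow_two]; exact h3)
    obtain ⟨W, hW, -, hWinv⟩ := H x ⟨-1, hxx⟩ hns'
    have hy : (Matrix.toLin' (x : Matrix (Fin d ⊕ Fin d) (Fin d ⊕ Fin d) F)) ^ 2 = -1 := by
      rw [← Matrix.toLin'_pow]
      have h1 : (x : Matrix (Fin d ⊕ Fin d) (Fin d ⊕ Fin d) F) ^ 2 = -1 := by
        show (Matrix.J (Fin d) F) ^ 2 = _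
        rw [pow_two, Matrix.J_squared]
      rw [h1]
      apply LinearMap.ext
      intro v
      simp [Matrix.toLin'_apply, Matrix.neg_mulVec]
    have hWi : IsInv (Matrix.toLin' (x : Matrix (Fin d ⊕ Fin d) (Fin d ⊕ Fin d) F)) W := fun u hu => hWinv ⟨u, hu, rfl⟩
    have h1 := even_of_inv hy hns hWi
    rw [hW] at h1
    exact hme h1
  · rintro hcond x ⟨z, hz⟩ -
    let T := Matrix.toLin' (x : Matrix (Fin d ⊕ Fin d) (Fin d ⊕ Fin d) F)
    have hI : ∀ u v, sympBilin d F (T u) (T v) = sympBilin d F u v := toLin_isom x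
    have hzm : (x : Matrix (Fin d ⊕ Fin d) (Fin d ⊕ Fin d) F) ^ 2 = z • (1 : Matrix (Fin d ⊕ Fin d) (Fin d ⊕ Fin d) F) := hz
    have hTr : T ^ 2 = z • (1 : Module.End F (Fin d ⊕ Fin d → F)) := by
      show (Matrix.toLin' (x : Matrix (Fin d ⊕ Fin d) (Fin d ⊕ Fin d) F)) ^ 2 = _
      rw [← Matrix.toLin'_pow, hzm]
      apply LinearMap.ext
      intro v
      simp [Matrix.toLin'_apply, Matrix.smul_mulVec]
    have hzz : z * z = 1 := by
      obtain ⟨u, v, huv⟩ := exists_form_ne (F := F) (d := d) (by omega)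
      have h3 : sympBilin d F ((T ^ 2) u) ((T ^ 2) v) = sympBilin d F u v := by
        rw [pow_two, Module.End.mul_apply, Module.End.mul_apply, hI, hI]
      rw [hTr, LinearMap.smul_apply, LinearMap.smul_apply, Module.End.one_apply, Module.End.one_apply, map_smul, map_smul,
        LinearMap.smul_apply, smul_smul, smul_eq_mul] at h3
      have h5 : (z * z - 1) * sympBilin d F u v = 0 := by
        rw [sub_mul, h3, one_mul, sub_self]
      exact sub_eq_zero.1 ((mul_eq_zero.1 h5).resolve_right huv)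
    have key : ∃ W : Submodule F (Fin d ⊕ Fin d → F), finrank F W = m ∧ TI (sympBilin d F) W ∧ IsInv T W := by
      rcases mul_self_eq_one_iff.1 hzz with rfl | rfl
      · rw [one_smul] at hTr
        exact suff_two_one hA hN hI (by simpa using h2F) hTr hdimV hmd
      · have hTr' : T ^ 2 = -1 := by
          apply LinearMap.ext
          intro v
          rw [hTr]
          show (-1 : F) • v = -v
          rw [neg_smul, one_smul]
        by_cases hq1 : q % 4 = 1
        · have h1 : IsSquare (-1 : F) := FiniteField.isSquare_neg_one_iff.2 (by rw [hq]; omega)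
          obtain ⟨ι, hι⟩ := h1
          exact suff_two_neg_sq hA hN hI h2F hTr' hι.symm hdimV hmd
        · have hq3 : q % 4 = 3 := by omega
          have hns : ∀ c : F, c ^ 2 ≠ -1 := by
            intro c hc
            have h1 : IsSquare (-1 : F) := ⟨c, by rw [← hc, pow_two]⟩
            exact (FiniteField.isSquare_neg_one_iff.1 h1) (by rw [hq]; exact hq3)
          have hme := hcond.resolve_right hq1
          refine suff_two_neg_nonsq hA hN hI hTr' hns ?_ hdimV hmd hme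
          rw [hq]
          omega
    obtain ⟨W, h1, h2, h3⟩ := key
    refine ⟨W, h1, fun u hu v hv => h2 u hu v hv, ?_⟩
    rintro _ ⟨u, hu, rfl⟩
    exact h3 u hu

theorem mem_D_dvd {r : ℕ} {D : Finset F[X]} (hr0 : (r : F) ≠ 0) (hD : ∀ d ∈ D, d.Monic ∧ Irreducible d ∧ d ≠ X - 1)
    (hDr : ∀ a : F[X], a.Monic → Irreducible a → ∀ e, 0 < e → (a ^ e ∣ (X ^ r - 1 : F[X]) ↔ e = 1 ∧ (a = X - 1 ∨ a ∈ D)))
    {g : F[X]} (hg : g ∈ D) : g ∣ Phi F r := by
  obtain ⟨h1, h2, h3⟩ := hD g hg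
  have h4 : g ^ 1 ∣ (X ^ r - 1 : F[X]) := (hDr g h1 h2 1 one_pos).2 ⟨rfl, Or.inr hg⟩
  rw [pow_one, ← Phi_mul] at h4
  rcases h2.prime.dvd_or_dvd h4 with h5 | h5
  · exact h5
  · exfalso
    have h6 : Irreducible (X - 1 : F[X]) := by
      have := irreducible_X_sub_C (1 : F)
      simpa using this
    have h7 := h2.associated_of_dvd h6 h5
    have h8 : (X - 1 : F[X]).Monic := by
      have := monic_X_sub_C (1 : F)
      simpa using this
    exact h3 (eq_of_monic_of_associated h1 h8 h7)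

/-- The case of odd `r`, necessity, first model. -/
theorem nec_one (hq : Fintype.card F = q) (d m : ℕ) (hd : 2 ≤ d) (hm : 1 ≤ m) (hmd : m ≤ d)
    (r : ℕ) (hr : r.Prime) (hr2 : r ≠ 2) (hrp : r ≠ p) {i b' j : ℕ} (hi : i = orderOf (q : ZMod r)) (hipos : 0 < i) (hR : SpModel.Reali F r b' (2 * b')) (hb' : 0 < b')
    (hjm : j < m) (hbj : b' ∣ d - j)
    (H : ∀ x : ↥(Matrix.symplecticGroup (Fin d) F),
      (∃ z : F, ((x ^ r : ↥(Matrix.symplecticGroup (Fin d) F)) : Matrix (Fin d ⊕ Fin d) (Fin d ⊕ Fin d) F) = z • (1 : Matrix (Fin d ⊕ Fin d) (Fin d ⊕ Fin d) F)) →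
      (∀ z : F, (x : Matrix (Fin d ⊕ Fin d) (Fin d ⊕ Fin d) F) ≠ z • (1 : Matrix (Fin d ⊕ Fin d) (Fin d ⊕ Fin d) F)) →
      ∃ W : Submodule F (Fin d ⊕ Fin d → F), Module.finrank F ↥W = m ∧ (∀ u ∈ W, ∀ v ∈ W, Cfsg.sympForm d F u v = 0) ∧
        W.map (Matrix.toLin' (x : Matrix (Fin d ⊕ Fin d) (Fin d ⊕ Fin d) F)) ≤ W) :
    i ≤ m ∧ 2 * (m % i) ≤ 2 * (d % b') := by
  have hr0 : (r : F) ≠ 0 := PslNum.cast_ne_zero_of_ne hr hrp
  have hrodd : Odd r := hr.odd_of_ne_two hr2
  have hA : (sympBilin d F).IsAlt := sympBilin_isAlt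
  have hN : (sympBilin d F).Nondegenerate := sympBilin_nondegenerate
  have hle : b' ≤ d - j := Nat.le_of_dvd (by omega) hbj
  have hmod : d % b' ≤ j := by
    have h1 : d = (d - j) + j := by omega
    obtain ⟨k, hk⟩ := hbj
    have h2 : d % b' = j % b' := by
      rw [h1, hk, Nat.mul_add_mod]
    rw [h2]
    exact Nat.mod_le _ _
  have hReal := hR.nsmul (d % b') (d / b')
  rw [Nat.div_add_mod] at hReal
  obtain ⟨y, hyr, hyF⟩ := hReal.toSp
  have hdb1 : 1 ≤ d / b' := (Nat.one_le_div_iff hb').2 (by omega)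
  have hKpos : 0 < 2 * b' * (d / b') := by positivity
  obtain ⟨W, hW, hti, hinv⟩ := H y ⟨1, by
    rw [one_smul]
    exact hyr⟩ (fun z => nonscalar_of_K hrodd (by omega) y hyr hKpos hyF z)
  let T := Matrix.toLin' (y : Matrix (Fin d ⊕ Fin d) (Fin d ⊕ Fin d) F)
  have hI : ∀ u v, sympBilin d F (T u) (T v) = sympBilin d F u v := toLin_isom y
  have hTr : T ^ r = 1 := by
    show (Matrix.toLin' (y : Matrix (Fin d ⊕ Fin d) (Fin d ⊕ Fin d) F)) ^ r = 1
    rw [← Matrix.toLin'_pow, hyr, Matrix.toLin'_one]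
    rfl
  have hWi : IsInv T W := fun u hu => hinv ⟨u, hu, rfl⟩
  have hfac : ∀ d, Irreducible d → d ∣ Phi F r → d.natDegree = i := by
    rw [hi]
    exact PslNum.fac_Phi hq hr hrp
  obtain ⟨K, h1, -, h3⟩ := split_W hA hN hI hr0 hTr hipos hfac hWi (fun u hu v hv => hti u hu v hv)
  have hfix : finrank F (Fix T) = 2 * (d % b') := by
    have h4 : finrank F (Fix T) + 2 * b' * (d / b') = 2 * d := hyF
    have h5 := Nat.div_add_mod d b'
    have h6 : 2 * b' * (d / b') = 2 * (b' * (d / b')) := by ring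
    omega
  rw [hfix] at h3
  obtain ⟨u, hu⟩ : ∃ u, u = finrank F ↥(W ⊓ Fix T) := ⟨_, rfl⟩
  rw [← hu] at h1 h3
  rw [hW] at h1
  constructor
  · have hK0 : K ≠ 0 := by
      rintro rfl
      rw [mul_zero] at h1
      omega
    have h5 : i * 1 ≤ i * K := Nat.mul_le_mul_left _ (Nat.pos_of_ne_zero hK0)
    omega
  · have h5 : m % i = u % i := by
      rw [h1, Nat.add_mul_mod_self_left]
    have h6 := Nat.mod_le u i
    omega

/-- The case of odd `r`, necessity, second family of models. -/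
theorem nec_two (hq : Fintype.card F = q) (d m : ℕ) (hd : 2 ≤ d) (hmd : m ≤ d)
    (r : ℕ) (hr : r.Prime) (hr2 : r ≠ 2) (hrp : r ≠ p) {b : ℕ} (hi : orderOf (q : ZMod r) = 2 * b) (hb : 0 < b) (hrb : r ∣ q ^ b + 1)
    {S : Finset F[X]} {g₀ : F[X]} (hg₀ : g₀ ∈ S) (hS : ∀ g ∈ S, g.Monic ∧ Irreducible g ∧ g ∣ Phi F r ∧ g.natDegree = 2 * b)
    {h j : ℕ} (hj : j ≤ 1) (hn : 2 * h + S.card + j = d / b)
    (H : ∀ x : ↥(Matrix.symplecticGroup (Fin d) F),
      (∃ z : F, ((x ^ r : ↥(Matrix.symplecticGroup (Fin d) F)) : Matrix (Fin d ⊕ Fin d) (Fin d ⊕ Fin d) F) = z • (1 : Matrix (Fin d ⊕ Fin d) (Fin d ⊕ Fin d) F)) →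
      (∀ z : F, (x : Matrix (Fin d ⊕ Fin d) (Fin d ⊕ Fin d) F) ≠ z • (1 : Matrix (Fin d ⊕ Fin d) (Fin d ⊕ Fin d) F)) →
      ∃ W : Submodule F (Fin d ⊕ Fin d → F), Module.finrank F ↥W = m ∧ (∀ u ∈ W, ∀ v ∈ W, Cfsg.sympForm d F u v = 0) ∧
        W.map (Matrix.toLin' (x : Matrix (Fin d ⊕ Fin d) (Fin d ⊕ Fin d) F)) ≤ W) :
    m / (2 * b) ≤ h := by
  have hr0 : (r : F) ≠ 0 := PslNum.cast_ne_zero_of_ne hr hrp
  have hrodd : Odd r := hr.odd_of_ne_two hr2
  have hA : (sympBilin d F).IsAlt := sympBilin_isAlt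
  have hN : (sympBilin d F).Nondegenerate := sympBilin_nondegenerate
  let L : Multiset F[X] := Multiset.replicate (2 * h) g₀ + S.val
  have hL : ∀ g ∈ L, g.Monic ∧ Irreducible g ∧ g ∣ Phi F r ∧ g.natDegree = 2 * b := by
    intro g hg
    rcases Multiset.mem_add.1 hg with h1 | h1
    · rw [Multiset.eq_of_mem_replicate h1]
      exact hS g₀ hg₀
    · exact hS g h1
  have hcard : Multiset.card L = 2 * h + S.card := by
    simp only [L, Multiset.card_add, Multiset.card_replicate, Finset.card_val]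
  have hcount₀ : L.count g₀ = 2 * h + 1 := by
    simp only [L, Multiset.count_add, Multiset.count_replicate_self]
    rw [Multiset.count_eq_one_of_mem S.nodup hg₀]
  have hcount : ∀ g, g ≠ g₀ → L.count g ≤ 1 := by
    intro g hg
    simp only [L, Multiset.count_add]
    rw [Multiset.count_replicate, if_neg (Ne.symm hg), zero_add]
    exact Multiset.nodup_iff_count_le_one.1 S.nodup g
  obtain ⟨e, he⟩ : ∃ e, e = d % b + b * j := ⟨_, rfl⟩
  have hmodlt := Nat.mod_lt d hb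
  have hbj : b * j ≤ b := by
    calc b * j ≤ b * 1 := Nat.mul_le_mul_left _ hj
      _ = b := mul_one b
  have hei : e < 2 * b := by omega
  have hR := reali_multiset (p := p) hq hr hrp hb hrb e L hL
  have hdim : 2 * b * Multiset.card L + 2 * e = 2 * d := by
    rw [hcard, he]
    have h1 := Nat.div_add_mod d b
    rw [← hn] at h1
    have h2 : b * (2 * h + S.card + j) = b * (2 * h + S.card) + b * j := by ring
    have h3 : 2 * b * (2 * h + S.card) = 2 * (b * (2 * h + S.card)) := by ring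
    omega
  obtain ⟨y, hyr, hyF, hyG⟩ := hR.toSp hdim
  have hcardpos : 0 < Multiset.card L := by
    rw [hcard]
    have : 0 < S.card := Finset.card_pos.2 ⟨g₀, hg₀⟩
    omega
  have hKpos : 0 < 2 * b * Multiset.card L := by positivity
  obtain ⟨W, hW, hti, hinv⟩ := H y ⟨1, by
    rw [one_smul]
    exact hyr⟩ (fun z => nonscalar_of_K hrodd (by omega) y hyr hKpos (by rw [hyF]; omega) z)
  let T := Matrix.toLin' (y : Matrix (Fin d ⊕ Fin d) (Fin d ⊕ Fin d) F)
  have hI : ∀ u v, sympBilin d F (T u) (T v) = sympBilin d F u v := toLin_isom y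
  have hTr : T ^ r = 1 := by
    show (Matrix.toLin' (y : Matrix (Fin d ⊕ Fin d) (Fin d ⊕ Fin d) F)) ^ r = 1
    rw [← Matrix.toLin'_pow, hyr, Matrix.toLin'_one]
    rfl
  have hTQ : T ^ (Fintype.card F ^ b + 1) = 1 := by
    obtain ⟨s, hs⟩ := hrb
    rw [hq, hs, pow_mul, hTr, one_pow]
  have hWi : IsInv T W := fun u hu => hinv ⟨u, hu, rfl⟩
  have hfac : ∀ d, Irreducible d → d ∣ Phi F r → d.natDegree = 2 * b := by
    rw [← hi]
    exact PslNum.fac_Phi hq hr hrp
  have hipos : 0 < 2 * b := by omega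
  have hti' : TI (sympBilin d F) W := fun u hu v hv => hti u hu v hv
  obtain ⟨K, h1, h2, h3⟩ := split_W hA hN hI hr0 hTr hipos hfac hWi hti'
  rw [hyF] at h3
  obtain ⟨u, hu⟩ : ∃ u, u = finrank F ↥(W ⊓ Fix T) := ⟨_, rfl⟩
  rw [← hu] at h1 h3
  rw [hW] at h1
  have hKm : m / (2 * b) = K := by
    rw [h1, Nat.add_mul_div_left _ _ hipos, Nat.div_eq_of_lt (by omega), zero_add]
  rw [hKm]
  obtain ⟨hm₀, hirr₀, ⟨c₀, hc₀⟩, hdeg₀⟩ := hS g₀ hg₀
  have hco₀ : IsCoprime g₀ c₀ := by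
    refine (hirr₀.coprime_iff_not_dvd).2 ?_
    rintro ⟨e', rfl⟩
    have h2' : g₀ * g₀ ∣ Phi F r := ⟨e', by rw [hc₀]; ring⟩
    exact hirr₀.not_isUnit ((squarefree_Phi hr0) g₀ h2')
  have hother : ∀ g : F[X], g.Monic → Irreducible g → g ∣ c₀ → finrank F (LinearMap.ker (Polynomial.aeval T g)) ≤ 2 * b := by
    intro g h4 h5 h6
    have h7 : g ≠ g₀ := by
      rintro rfl
      have h8 := hco₀.isUnit_of_dvd' dvd_rfl h6
      exact h5.not_isUnit h8
    have h8 : g ∣ Phi F r := h6.trans ⟨g₀, by rw [hc₀]; ring⟩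
    rw [hyG g h4 h5 h8]
    calc 2 * b * L.count g ≤ 2 * b * 1 := Nat.mul_le_mul_left _ (hcount g h7)
      _ = 2 * b := mul_one _
  have hb2 := two_inf_Ker_le hA hN hI hr0 hTr hTQ hb hfac hc₀ hco₀ hother hWi hti'
  have h5 : finrank F (LinearMap.ker (Polynomial.aeval T g₀)) = 2 * b * (2 * h + 1) := by
    rw [hyG g₀ hm₀ hirr₀ ⟨c₀, hc₀⟩, hcount₀]
  rw [h2, h5] at hb2
  have h6 : 2 * b * (2 * K) ≤ 2 * b * (2 * h + 1) := by
    calc 2 * b * (2 * K) = 2 * (2 * b * K) := by ring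
      _ ≤ _ := hb2
  have h7 := Nat.le_of_mul_le_mul_left h6 hipos
  omega

/-- The case of odd `r`, sufficiency. -/
theorem suff_odd (hq : Fintype.card F = q) (d m : ℕ) (hd : 2 ≤ d) (hmd : m ≤ d)
    (r : ℕ) (hr : r.Prime) (hr2 : r ≠ 2) (hrp : r ≠ p) (i c : ℕ) (hi : i = orderOf (q : ZMod r)) (hc : c = if Even i then i else 2 * i)
    (h2 : 2 * (m % i) ≤ (2 * d) % c) (h3 : Odd i ∨ (r - 1) / i + 2 * (m / i) ≤ (2 * d) / i) (x : ↥(Matrix.symplecticGroup (Fin d) F))
    (hx : ∃ z : F, ((x ^ r : ↥(Matrix.symplecticGroup (Fin d) F)) : Matrix (Fin d ⊕ Fin d) (Fin d ⊕ Fin d) F) = z • (1 : Matrix (Fin d ⊕ Fin d) (Fin d ⊕ Fin d) F)) :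
    ∃ W : Submodule F (Fin d ⊕ Fin d → F), Module.finrank F ↥W = m ∧ (∀ u ∈ W, ∀ v ∈ W, Cfsg.sympForm d F u v = 0) ∧
        W.map (Matrix.toLin' (x : Matrix (Fin d ⊕ Fin d) (Fin d ⊕ Fin d) F)) ≤ W := by
  obtain ⟨z, hz⟩ := hx
  have hr0 : (r : F) ≠ 0 := PslNum.cast_ne_zero_of_ne hr hrp
  have hrodd : Odd r := hr.odd_of_ne_two hr2
  have hA : (sympBilin d F).IsAlt := sympBilin_isAlt
  have hN : (sympBilin d F).Nondegenerate := sympBilin_nondegenerate
  have hdimV : finrank F (Fin d ⊕ Fin d → F) = 2 * d := by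
    rw [Module.finrank_fintype_fun_eq_card, Fintype.card_sum, Fintype.card_fin]
    ring
  have hipos : 0 < i := by
    obtain ⟨g, -, hg2, -, hg4⟩ := SpModel.exists_factor (F := F) (p := p) hq hr hrp
    rw [hi, ← hg4]
    exact hg2.natDegree_pos
  let T := Matrix.toLin' (x : Matrix (Fin d ⊕ Fin d) (Fin d ⊕ Fin d) F)
  have hTv : ∀ v, T v = (x : Matrix (Fin d ⊕ Fin d) (Fin d ⊕ Fin d) F) *ᵥ v := fun v => rfl
  have hI : ∀ u v, sympBilin d F (T u) (T v) = sympBilin d F u v := toLin_isom x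
  have hzm : (x : Matrix (Fin d ⊕ Fin d) (Fin d ⊕ Fin d) F) ^ r = z • (1 : Matrix (Fin d ⊕ Fin d) (Fin d ⊕ Fin d) F) := hz
  have hTr : ∀ v, (T ^ r) v = z • v := by
    intro v
    show (Matrix.toLin' (x : Matrix (Fin d ⊕ Fin d) (Fin d ⊕ Fin d) F) ^ r) v = z • v
    rw [← Matrix.toLin'_pow, hzm, Matrix.toLin'_apply]
    simp [smul_mulVec]
  have hIk : ∀ (k : ℕ) u v, sympBilin d F ((T ^ k) u) ((T ^ k) v) = sympBilin d F u v := by
    intro k
    induction k with
    | zero => intro u v; rfl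
    | succ k ih =>
      intro u v
      rw [pow_succ', Module.End.mul_apply, Module.End.mul_apply, hI, ih]
  have hzz : z * z = 1 := by
    obtain ⟨u, v, huv⟩ := exists_form_ne (F := F) (d := d) (by omega)
    have h3 := hIk r u v
    rw [hTr, hTr, map_smul, map_smul, LinearMap.smul_apply, smul_smul, smul_eq_mul] at h3
    have h5 : (z * z - 1) * sympBilin d F u v = 0 := by
      rw [sub_mul, h3, one_mul, sub_self]
    exact sub_eq_zero.1 ((mul_eq_zero.1 h5).resolve_right huv)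
  let y : Module.End F (Fin d ⊕ Fin d → F) := z • T
  have hyv : ∀ v, y v = z • T v := fun v => rfl
  have hIy : ∀ u v, sympBilin d F (y u) (y v) = sympBilin d F u v := by
    intro u v
    rw [hyv, hyv, map_smul, map_smul, LinearMap.smul_apply, hI, smul_smul, smul_eq_mul, hzz, one_mul]
  have hyr : y ^ r = 1 := by
    apply LinearMap.ext
    intro v
    have h1 : ∀ k : ℕ, y ^ k = z ^ k • T ^ k := fun k => smul_pow z T k
    rw [h1, LinearMap.smul_apply, hTr, smul_smul, ← pow_succ, Module.End.one_apply]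
    obtain ⟨s, hs⟩ := hrodd
    have h2 : r + 1 = 2 * (s + 1) := by omega
    rw [h2, pow_mul, _root_.sq, hzz, one_pow, one_smul]
  have hfac : ∀ d, Irreducible d → d ∣ Phi F r → d.natDegree = i := by
    rw [hi]
    exact PslNum.fac_Phi hq hr hrp
  have hfd := finrank_Fix_add hr0 hyr
  rw [hdimV] at hfd
  obtain ⟨e, he⟩ := (Nd_Fix_top hA hN hIy hr0 hyr).even hA
  have key : ∃ W : Submodule F (Fin d ⊕ Fin d → F), finrank F W = m ∧ TI (sympBilin d F) W ∧ IsInv y W := by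
    by_cases hie : Even i
    · -- even order
      have hci : c = i := by rw [hc, if_pos hie]
      rw [hci] at h2
      obtain ⟨b, hb⟩ := hie
      have hb2 : i = 2 * b := by omega
      have hb0 : 0 < b := by omega
      have h3' : (r - 1) / i + 2 * (m / i) ≤ (2 * d) / i := by
        rcases h3 with h3 | h3
        · exact absurd (hb2 ▸ even_two_mul b) (Nat.not_even_iff_odd.2 h3)
        · exact h3
      have hfac' : ∀ d, Irreducible d → d ∣ Phi F r → d.natDegree = 2 * b := by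
        rw [← hb2]
        exact hfac
      have hrb : r ∣ q ^ b + 1 := by
        haveI : Fact r.Prime := ⟨hr⟩
        exact dvd_pow_add_one hr2 (by rw [← hi]; exact hb2) hb0
      have hyQ : y ^ (Fintype.card F ^ b + 1) = 1 := by
        obtain ⟨s, hs⟩ := hrb
        rw [hq, hs, pow_mul, hyr, one_pow]
      obtain ⟨T₀, hT₀, hT₀le, hT₀ti, hT₀d⟩ := exists_ti_dvd hA hN hIy hr0 hyr hyQ hfac' (Phi F r) dvd_rfl
      rw [natDegree_Phi hr0 hr.pos] at hT₀d
      have hT₀K : T₀ ≤ Ker y r := hT₀le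
      obtain ⟨K₀, hK₀⟩ := dvd_finrank hT₀ (Phi_ne_zero hr0) hipos hfac (fun v hv => hT₀K hv)
      obtain ⟨A, hA'⟩ := dvd_finrank (isInv_Ker y r) (Phi_ne_zero hr0) hipos hfac (fun v hv => hv)
      have hir : i ∣ r - 1 := by
        have hrq : ¬ r ∣ q := by
          obtain ⟨n, hp, hn⟩ := FiniteField.card F p
          rw [← hq, hn]
          intro h3
          have h4 := hr.dvd_of_dvd_pow h3
          exact hrp ((Nat.prime_dvd_prime_iff_eq hr hp).1 h4)
        rw [hi]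
        haveI : Fact r.Prime := ⟨hr⟩
        apply ZMod.orderOf_dvd_card_sub_one
        intro h0
        exact hrq ((ZMod.natCast_eq_zero_iff _ _).1 h0)
      obtain ⟨t, ht⟩ := hir
      have htdiv : (r - 1) / i = t := by
        rw [ht, Nat.mul_div_cancel_left _ hipos]
      rw [htdiv] at h3'
      have hAle : A ≤ 2 * K₀ + t := by
        have h5 : i * A ≤ i * (2 * K₀ + t) := by
          have h6 : i * (2 * K₀ + t) = 2 * (i * K₀) + i * t := by ring
          rw [h6, ← hA', ← hK₀, ← ht]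
          exact hT₀d
        exact Nat.le_of_mul_le_mul_left h5 hipos
      obtain ⟨u, K, hKle, huK, hue⟩ := num_even (e := e) hipos (by rw [← hA']; omega) hAle h2 h3'
      have hiK : i * K ≤ finrank F T₀ := by
        rw [hK₀]
        exact Nat.mul_le_mul_left _ hKle
      obtain ⟨W, h5, h6, h7⟩ := exists_W hA hN hIy hr0 hyr hfac hT₀ hT₀K hT₀ti hiK (u := u) (by omega)
      exact ⟨W, by rw [h5]; exact huK, h6, h7⟩
    · -- odd order
      have hci : c = 2 * i := by rw [hc, if_neg hie]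
      rw [hci, Nat.mul_mod_mul_left] at h2
      have hodd := Nat.not_even_iff_odd.1 hie
      obtain ⟨T₀, hT₀le, hT₀, hT₀ti, hT₀d⟩ := exists_ti_odd hA hIy hr0 hr.pos hyr hipos hfac hodd _ (Ker y r) rfl (isInv_Ker y r) (Nd_Ker_top hA hN hIy hr0 hyr) le_rfl
      have h4 := two_ti_le hA (Nd_Ker_top hA hN hIy hr0 hyr) hT₀le hT₀ti
      obtain ⟨A, hA'⟩ := dvd_finrank hT₀ (Phi_ne_zero hr0) hipos hfac (fun v hv => hT₀le hv)
      obtain ⟨u, K, hKle, huK, hue⟩ := num_odd (e := e) (d := d) (m := m) (A := A) hipos (by omega) (by omega) hmd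
      have hiK : i * K ≤ finrank F T₀ := by
        rw [hA']
        exact Nat.mul_le_mul_left _ hKle
      obtain ⟨W, h5, h6, h7⟩ := exists_W hA hN hIy hr0 hyr hfac hT₀ hT₀le hT₀ti hiK (u := u) (by omega)
      exact ⟨W, by rw [h5]; exact huK, h6, h7⟩
  obtain ⟨W, h1, h5, h6⟩ := key
  refine ⟨W, h1, fun u hu v hv => h5 u hu v hv, ?_⟩
  rintro _ ⟨u, hu, rfl⟩
  have h7 : T u = z • y u := by
    rw [hyv, smul_smul, hzz, one_smul]
  show T u ∈ W
  rw [h7]
  exact W.smul_mem _ (h6 u hu)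

theorem main (hq : Fintype.card F = q)
    (d m : ℕ) (hd : 2 ≤ d) (hm : 1 ≤ m) (hmd : m ≤ d)
    (r : ℕ) [Fact r.Prime]
    (hrΩ : r ∣ Nat.card {W : Submodule F (Fin d ⊕ Fin d → F) // Module.finrank F ↥W = m ∧ (∀ u ∈ W, ∀ v ∈ W, Cfsg.sympForm d F u v = 0)})
    (i c : ℕ) (hi : i = orderOf (q : ZMod r)) (hc : c = if Even i then i else 2 * i) :
    (∀ x : ↥(Matrix.symplecticGroup (Fin d) F),
      (∃ z : F, ((x ^ r : ↥(Matrix.symplecticGroup (Fin d) F)) : Matrix (Fin d ⊕ Fin d) (Fin d ⊕ Fin d) F) = z • (1 : Matrix (Fin d ⊕ Fin d) (Fin d ⊕ Fin d) F)) →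
      (∀ z : F, (x : Matrix (Fin d ⊕ Fin d) (Fin d ⊕ Fin d) F) ≠ z • (1 : Matrix (Fin d ⊕ Fin d) (Fin d ⊕ Fin d) F)) →
      ∃ W : Submodule F (Fin d ⊕ Fin d → F), Module.finrank F ↥W = m ∧ (∀ u ∈ W, ∀ v ∈ W, Cfsg.sympForm d F u v = 0) ∧
        W.map (Matrix.toLin' (x : Matrix (Fin d ⊕ Fin d) (Fin d ⊕ Fin d) F)) ≤ W) ↔
    ((r = 2 ∧ p ≠ 2 ∧ (Even m ∨ q % 4 = 1)) ∨
     (r ≠ p ∧ 2 < r ∧ i ≤ m ∧ 2 * (m % i) ≤ (2 * d) % c ∧ (Odd i ∨ (r - 1) / i + 2 * (m / i) ≤ (2 * d) / i))) := by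
  have hr : r.Prime := Fact.out
  have hp : p.Prime := Fact.out
  have hA : (sympBilin d F).IsAlt := sympBilin_isAlt
  have hN : (sympBilin d F).Nondegenerate := sympBilin_nondegenerate
  have hdimV : finrank F (Fin d ⊕ Fin d → F) = 2 * d := by
    rw [Module.finrank_fintype_fun_eq_card, Fintype.card_sum, Fintype.card_fin]
    ring
  have hpq : p ∣ q := by
    obtain ⟨n, hp', hn⟩ := FiniteField.card F p
    rw [← hq, hn]
    exact dvd_pow_self p n.ne_zero
  have hq1 : 1 ≤ q := by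
    rw [← hq]
    exact Fintype.card_pos
  obtain ⟨hrp, j, hjm, hj⟩ := TiCount.dvd_card_Ti (B := sympBilin d F) hA hN hq hdimV hmd hp hpq hr hrΩ
  by_cases hr2 : r = 2
  · subst hr2
    have h := main_two (F := F) (p := p) hq hrp.symm d m hd hmd
    rw [h]
    constructor
    · intro h1
      exact Or.inl ⟨rfl, hrp.symm, h1⟩
    · rintro (⟨-, -, h1⟩ | ⟨-, h2, -⟩)
      · exact h1
      · omega
  have hgt : 2 < r := by
    have := hr.two_le
    omega
  have hipos : 0 < i := by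
    obtain ⟨g, -, hg2, -, hg4⟩ := SpModel.exists_factor (F := F) (p := p) hq hr hrp
    rw [hi, ← hg4]
    exact hg2.natDegree_pos
  have hidvd : i ∣ 2 * (d - j) := by
    rw [hi]
    exact (PslNum.pow_eq_one_iff' hq1).2 hj
  constructor
  · intro H
    right
    refine ⟨hrp, hgt, ?_⟩
    by_cases hie : Even i
    · have hci : c = i := by rw [hc, if_pos hie]
      obtain ⟨b, hb⟩ := hie
      have hb2 : i = 2 * b := by omega
      have hb0 : 0 < b := by omega
      have hord : orderOf (q : ZMod r) = 2 * b := by rw [← hi]; exact hb2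
      have hrb : r ∣ q ^ b + 1 := dvd_pow_add_one hr2 hord hb0
      have hR : SpModel.Reali F r b (2 * b) := SpModel.reali_half (p := p) hq hr hrp hord hb0 hrb
      have hbj : b ∣ d - j := by
        rw [hb2] at hidvd
        exact Nat.dvd_of_mul_dvd_mul_left (by norm_num) hidvd
      obtain ⟨h1, h2⟩ := nec_one (F := F) (p := p) hq d m hd hm hmd r hr hr2 hrp hi hipos hR hb0 hjm hbj H
      refine ⟨h1, ?_, ?_⟩
      · rw [hci, hb2, Nat.mul_mod_mul_left]
        rw [← hb2]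
        exact h2
      · right
        by_contra hcon
        push Not at hcon
        -- the data of the factors
        obtain ⟨D, hD, hDr, hDcard, -, -⟩ := Cfsg.Agent.Lib.Classical.Herm.CycTuples.exists_cyc_data hq hr hrp
        have hr0 : (r : F) ≠ 0 := PslNum.cast_ne_zero_of_ne hr hrp
        have hDP : ∀ g ∈ D, g ∣ Phi F r := fun g hg => mem_D_dvd hr0 (fun d hd => ⟨(hD d hd).1, (hD d hd).2.1, (hD d hd).2.2.2⟩) hDr hg
        have hDS : ∀ g ∈ D, g.Monic ∧ Irreducible g ∧ g ∣ Phi F r ∧ g.natDegree = 2 * b := by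
          intro g hg
          exact ⟨(hD g hg).1, (hD g hg).2.1, hDP g hg, by rw [(hD g hg).2.2.1, hord]⟩
        have htD : (r - 1) / i = D.card := by
          rw [← hDcard, ← hi, Nat.mul_div_cancel _ hipos]
        rw [htD] at hcon
        have hDcardpos : 0 < D.card := by
          rw [← hi] at hDcard
          by_contra h0
          have h3 : D.card = 0 := by omega
          rw [h3, zero_mul] at hDcard
          omega
        have hn' : (2 * d) / i = d / b := by
          rw [hb2, Nat.mul_div_mul_left _ _ (by norm_num)]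
        rw [hn'] at hcon
        have hbd : 1 ≤ d / b := by
          apply (Nat.one_le_div_iff hb0).2
          have : b ≤ d - j := Nat.le_of_dvd (by omega) hbj
          omega
        have hm1 : 1 ≤ m / i := (Nat.one_le_div_iff hipos).2 h1
        -- choose the model
        have hchoice : ∃ (S : Finset F[X]) (g₀ : F[X]) (h j' : ℕ), g₀ ∈ S ∧ S ⊆ D ∧ j' ≤ 1 ∧ 2 * h + S.card + j' = d / b ∧ h < m / i := by
          by_cases hle : d / b ≤ D.card
          · obtain ⟨S, hSD, hScard⟩ := Finset.exists_subset_card_eq hle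
            have hSne : S.Nonempty := Finset.card_pos.1 (by omega)
            obtain ⟨g₀, hg₀⟩ := hSne
            exact ⟨S, g₀, 0, 0, hg₀, hSD, by norm_num, by omega, by omega⟩
          · push Not at hle
            obtain ⟨g₀, hg₀⟩ := Finset.card_pos.1 hDcardpos
            rcases Nat.even_or_odd (d / b - D.card) with ⟨s, hs⟩ | ⟨s, hs⟩
            · exact ⟨D, g₀, s, 0, hg₀, subset_rfl, by norm_num, by omega, by omega⟩
            · exact ⟨D, g₀, s, 1, hg₀, subset_rfl, le_rfl, by omega, by omega⟩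
        obtain ⟨S, g₀, h, j', hg₀, hSD, hj', hn, hlt⟩ := hchoice
        have h3 := nec_two (F := F) (p := p) hq d m hd hmd r hr hr2 hrp hord hb0 hrb hg₀ (fun g hg => hDS g (hSD hg)) hj' hn H
        rw [← hb2] at h3
        omega
    · have hci : c = 2 * i := by rw [hc, if_neg hie]
      have hodd := Nat.not_even_iff_odd.1 hie
      have hR : SpModel.Reali F r i (2 * i) := by
        rw [hi]
        exact SpModel.reali_full (p := p) hq hr hrp
      have hbj : i ∣ d - j := by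
        have h1 : Nat.Coprime i 2 := (Nat.coprime_two_right).2 hodd
        exact h1.dvd_of_dvd_mul_left hidvd
      obtain ⟨h1, h2⟩ := nec_one (F := F) (p := p) hq d m hd hm hmd r hr hr2 hrp hi hipos hR hipos hjm hbj H
      refine ⟨h1, ?_, Or.inl hodd⟩
      rw [hci, Nat.mul_mod_mul_left]
      exact h2
  · rintro (⟨h1, -⟩ | ⟨-, -, -, h2, h3⟩)
    · exact absurd h1 hr2
    · intro x hx _
      exact suff_odd (F := F) (p := p) hq d m hd hmd r hr hr2 hrp i c hi hc h2 h3 x hx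

end Cfsg.Agent.Lib.Classical.Elusive.TiMain
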