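import Mathlib
import Cfsg.Agent.Lib.Classical.Herm.HermOnb
import Cfsg.Agent.Lib.Classical.Herm.CycGU
import Cfsg.Agent.Lib.Classical.Elusive.TiBlock

/-!
# Hermitian forms on abstract spaces: orthogonal complements and totally isotropic subspaces
-/

set_option autoImplicit false
set_option linter.unusedSectionVars false
set_option linter.unusedSimpArgs false
set_option linter.unusedVariables false
set_option linter.style.haveILetI false

namespace Cfsg.Agent.Lib.Classical.Elusive.UCore

open Polynomial Module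
open Cfsg.Agent.Lib.Classical.Elusive.Inv
open Cfsg.Agent.Lib.Classical.Herm.HermOnb Cfsg.Agent.Lib.Classical.Herm.Basic
open Cfsg.Agent.Lib.Classical.Herm.Wall

variable {F V : Type*} [Field F] [Fintype F] [AddCommGroup V] [Module F V] [FiniteDimensional F V] {q : ℕ} {h : V → V → F}

/-- Nondegeneracy on a subspace. -/
def Nd (h : V → V → F) (Y : Submodule F V) : Prop := ∀ u ∈ Y, u ≠ 0 → ∃ v ∈ Y, h u v ≠ 0

/-- Total isotropy. -/
def TI (h : V → V → F) (T : Submodule F V) : Prop := ∀ u ∈ T, ∀ v ∈ T, h u v = 0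

theorem TI.mono {S T : Submodule F V} (hT : TI h T) (hS : S ≤ T) : TI h S := fun u hu v hv => hT u (hS hu) v (hS hv)

section Forms

variable (hF : Fintype.card F = q ^ 2) (hh : IsHerm q h)
include hF hh

theorem swap0 {u v : V} (e : h u v = 0) : h v u = 0 := by
  rw [hh.herm u v, e, zero_pow (by have := two_le_q hF; omega)]

theorem zero_right (u : V) : h u 0 = 0 := swap0 hF hh (hh.zero_left u)

omit hF hh in
/-- The linear functional given by `h` in the second variable. -/
def hL (hh : IsHerm q h) (v : V) : V →ₗ[F] F where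
  toFun x := h x v
  map_add' x y := hh.add_left x y v
  map_smul' c x := hh.smul_left c x v

omit hF hh in
@[simp] theorem hL_apply (hh : IsHerm q h) (v x : V) : hL hh v x = h x v := rfl

theorem pow_q_q (c : F) : (c ^ q) ^ q = c := by
  rw [← pow_mul, ← pow_two, ← hF, FiniteField.pow_card]

theorem sum_smul_right {ι : Type*} (s : Finset ι) (a : ι → F) (w : ι → V) (u : V) :
    h u (∑ i ∈ s, a i • w i) = ∑ i ∈ s, a i ^ q * h u (w i) := by
  classical
  induction s using Finset.induction_on with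
  | empty => simp [zero_right hF hh]
  | insert i s hi ih =>
    rw [Finset.sum_insert hi, Finset.sum_insert hi, hh.add_right hF, hh.smul_right, ih]

omit hF hh in
/-- The orthogonal complement of `S` inside `Y`. -/
def orthIn (hh : IsHerm q h) (Y S : Submodule F V) : Submodule F V where
  carrier := {x | x ∈ Y ∧ ∀ s ∈ S, h x s = 0}
  add_mem' := fun {a b} ha hb => ⟨Y.add_mem ha.1 hb.1, fun s hs => by rw [hh.add_left, ha.2 s hs, hb.2 s hs, add_zero]⟩
  zero_mem' := ⟨Y.zero_mem, fun s _ => hh.zero_left s⟩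
  smul_mem' := fun c x hx => ⟨Y.smul_mem c hx.1, fun s hs => by rw [hh.smul_left, hx.2 s hs, mul_zero]⟩

omit hF in
theorem mem_orthIn {Y S : Submodule F V} {x : V} : x ∈ orthIn hh Y S ↔ x ∈ Y ∧ ∀ s ∈ S, h x s = 0 := Iff.rfl

theorem finrank_orthIn {Y S : Submodule F V} (hY : Nd h Y) (hS : S ≤ Y) :
    finrank F S + finrank F (orthIn hh Y S) = finrank F Y := by
  classical
  let d := finrank F S
  let e := Module.finBasis F S
  let φ : ↥Y →ₗ[F] (Fin d → F) := LinearMap.pi (fun i => (hL hh (e i : V)).comp Y.subtype)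
  have hφ : ∀ u i, φ u i = h u (e i : V) := fun _ _ => rfl
  have hsurj : LinearMap.range φ = ⊤ := by
    by_contra hne
    obtain ⟨f, hf0, hf⟩ := Submodule.exists_le_ker_of_lt_top _ (lt_top_iff_ne_top.2 hne)
    let c : Fin d → F := fun i => f (Pi.single i 1)
    have hfx : ∀ x, f x = ∑ i, c i * x i := by
      intro x
      conv_lhs => rw [pi_eq_sum_univ' x]
      rw [map_sum]
      refine Finset.sum_congr rfl fun i _ => ?_
      rw [map_smul, smul_eq_mul, mul_comm]
    let v : V := ∑ i, (c i ^ q) • (e i : V)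
    have hvS : v ∈ S := Submodule.sum_mem _ fun i _ => S.smul_mem _ (e i).2
    have horth : ∀ u ∈ Y, h u v = 0 := by
      intro u hu
      rw [sum_smul_right hF hh]
      simp only [pow_q_q hF hh]
      have h1 : φ ⟨u, hu⟩ ∈ LinearMap.ker f := hf ⟨_, rfl⟩
      rw [LinearMap.mem_ker, hfx] at h1
      exact h1
    have hv0 : v = 0 := by
      by_contra hv0
      obtain ⟨w, hw, hw'⟩ := hY v (hS hvS) hv0
      exact hw' (swap0 hF hh (horth w hw))
    have hc0 : ∀ i, c i = 0 := by
      intro i
      have h1 : ∑ i, (c i ^ q) • e i = 0 := by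
        apply Subtype.ext
        rw [Submodule.coe_sum]
        exact hv0
      have h2 := (Fintype.linearIndependent_iff.1 e.linearIndependent) _ h1 i
      exact pow_eq_zero_iff (by have := two_le_q hF; omega) |>.1 h2
    apply hf0
    apply LinearMap.ext
    intro x
    rw [hfx]
    simp [hc0]
  have h1 := LinearMap.finrank_range_add_finrank_ker φ
  rw [hsurj, finrank_top, Module.finrank_fin_fun] at h1
  have h2 : (LinearMap.ker φ).map Y.subtype = orthIn hh Y S := by
    ext x
    rw [Submodule.mem_map]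
    constructor
    · rintro ⟨u, hu, rfl⟩
      refine ⟨u.2, fun s hs => ?_⟩
      have h3 : s = ∑ i, (e.repr ⟨s, hs⟩ i) • (e i : V) := by
        have h4 := e.sum_repr ⟨s, hs⟩
        have h5 := congrArg Subtype.val h4
        rw [Submodule.coe_sum] at h5
        exact h5.symm
      rw [h3, sum_smul_right hF hh]
      apply Finset.sum_eq_zero
      intro i _
      have h6 : φ u i = 0 := by
        rw [LinearMap.mem_ker.1 hu]
        rfl
      rw [hφ] at h6
      change (h (u : V) (e i : V)) = 0 at h6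
      rw [show (Y.subtype u) = (u : V) from rfl, h6, mul_zero]
    · rintro ⟨hx, hxS⟩
      refine ⟨⟨x, hx⟩, ?_, rfl⟩
      rw [LinearMap.mem_ker]
      funext i
      rw [hφ]
      exact hxS _ (e i).2
  have h3 := Submodule.finrank_map_subtype_eq Y (LinearMap.ker φ)
  rw [h2] at h3
  omega

theorem two_ti_le {Y W : Submodule F V} (hY : Nd h Y) (hWY : W ≤ Y) (hW : TI h W) : 2 * finrank F W ≤ finrank F Y := by
  have h1 := finrank_orthIn hF hh hY hWY
  have h2 : W ≤ orthIn hh Y W := fun x hx => ⟨hWY hx, fun s hs => hW x hx s hs⟩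
  have h3 := Submodule.finrank_mono h2
  omega

omit hF in
theorem Nd_top : Nd h ⊤ := by
  intro u _ hu0
  by_contra hc
  push Not at hc
  exact hu0 (hh.nondeg u (fun v => hc v trivial))

omit hF in
theorem inf_orthIn {Y S : Submodule F V} (hS : Nd h S) : S ⊓ orthIn hh Y S = ⊥ := by
  rw [eq_bot_iff]
  intro x hx
  by_contra h0
  obtain ⟨v, hv, hv'⟩ := hS x hx.1 h0
  exact hv' (hx.2.2 v hv)

theorem sup_orthIn {Y S : Submodule F V} (hY : Nd h Y) (hSY : S ≤ Y) (hS : Nd h S) : S ⊔ orthIn hh Y S = Y := by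
  apply Submodule.eq_of_le_of_finrank_eq (sup_le hSY (fun x (hx : x ∈ orthIn hh Y S) => hx.1))
  have h1 := finrank_orthIn hF hh hY hSY
  have h2 := Submodule.finrank_sup_add_finrank_inf_eq S (orthIn hh Y S)
  rw [inf_orthIn hh hS, finrank_bot, add_zero] at h2
  omega

theorem Nd_orthIn {Y S : Submodule F V} (hSY : S ≤ Y) (hS : Nd h S) (hY : Nd h Y) : Nd h (orthIn hh Y S) := by
  intro u hu hu0
  obtain ⟨v, hv, hv'⟩ := hY u hu.1 hu0
  rw [← sup_orthIn hF hh hY hSY hS] at hv
  obtain ⟨s, hs, w, hw, rfl⟩ := Submodule.mem_sup.1 hv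
  refine ⟨w, hw, ?_⟩
  rw [hh.add_right hF, hu.2 s hs, zero_add] at hv'
  exact hv'

theorem Nd_sup {S T : Submodule F V} (hS : Nd h S) (hT : Nd h T) (hST : ∀ u ∈ S, ∀ v ∈ T, h u v = 0) : Nd h (S ⊔ T) := by
  intro u hu hu0
  obtain ⟨s, hs, t, ht, rfl⟩ := Submodule.mem_sup.1 hu
  by_cases hs0 : s = 0
  · subst hs0
    rw [zero_add] at hu0 ⊢
    obtain ⟨v, hv, hv'⟩ := hT t ht hu0
    exact ⟨v, Submodule.mem_sup_right hv, hv'⟩
  · obtain ⟨v, hv, hv'⟩ := hS s hs hs0
    refine ⟨v, Submodule.mem_sup_left hv, ?_⟩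
    rw [hh.add_left, swap0 hF hh (hST v hv t ht), add_zero]
    exact hv'

theorem inf_eq_bot_of_orth {S T : Submodule F V} (hS : Nd h S) (hST : ∀ u ∈ S, ∀ v ∈ T, h u v = 0) : S ⊓ T = ⊥ := by
  rw [eq_bot_iff]
  intro x hx
  by_contra h0
  obtain ⟨v, hv, hv'⟩ := hS x hx.1 h0
  exact hv' (swap0 hF hh (hST v hv x hx.2))

theorem TI_sup {S T : Submodule F V} (hS : TI h S) (hT : TI h T) (hST : ∀ u ∈ S, ∀ v ∈ T, h u v = 0) : TI h (S ⊔ T) := by
  intro u hu v hv
  obtain ⟨a, ha, b, hb, rfl⟩ := Submodule.mem_sup.1 hu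
  obtain ⟨c, hc, d, hd, rfl⟩ := Submodule.mem_sup.1 hv
  rw [hh.add_left, hh.add_right hF, hh.add_right hF, hS a ha c hc, hST a ha d hd, swap0 hF hh (hST c hc b hb), hT b hb d hd]
  simp

omit hF in
theorem isHerm_sub {Y : Submodule F V} (hY : Nd h Y) : IsHerm q (fun x y : ↥Y => h (x : V) (y : V)) := by
  refine ⟨fun x y z => hh.add_left _ _ _, fun c x y => hh.smul_left _ _ _, fun x y => hh.herm _ _, ?_⟩
  intro x hx
  by_contra h0
  have h0' : (x : V) ≠ 0 := fun h' => h0 (Subtype.ext h')
  obtain ⟨v, hv, hv'⟩ := hY x x.2 h0'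
  exact hv' (hx ⟨v, hv⟩)

theorem TI_span {s : Set V} (hs : ∀ x ∈ s, ∀ y ∈ s, h x y = 0) : TI h (Submodule.span F s) := by
  have h1 : ∀ x ∈ s, ∀ v ∈ Submodule.span F s, h v x = 0 := by
    intro x hx v hv
    have h2 : Submodule.span F s ≤ LinearMap.ker (hL hh x) := by
      rw [Submodule.span_le]
      intro z hz
      exact hs z hz x hx
    exact h2 hv
  intro u hu v hv
  have h2 : Submodule.span F s ≤ LinearMap.ker (hL hh v) := by
    rw [Submodule.span_le]
    intro z hz
    exact swap0 hF hh (h1 z hz v hv)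
  exact h2 hu

/-- Totally isotropic subspaces of a nondegenerate space. -/
theorem exists_ti_sub (u : ℕ) {Y : Submodule F V} (hY : Nd h Y) (hu : 2 * u ≤ finrank F Y) :
    ∃ W, W ≤ Y ∧ finrank F W = u ∧ TI h W := by
  classical
  obtain ⟨b, hb⟩ := exists_onb hF (finrank F Y) (↥Y) _ (isHerm_sub hh hY) rfl
  obtain ⟨c, hc⟩ := exists_norm_eq hF (-1 : F) (neg_ne_zero.2 one_ne_zero) (by
    have := map_neg (sigma hF) (1 : F)
    rw [sigma_apply, map_one] at this
    rw [this])
  have hcq : c ^ q * c = -1 := by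
    rw [← pow_succ]
    exact hc
  let f : ℕ → V := fun i => if hi : i < finrank F Y then (b ⟨i, hi⟩ : V) else 0
  have hfY : ∀ i, f i ∈ Y := by
    intro i
    by_cases hi : i < finrank F Y
    · simp only [f, dif_pos hi]
      exact (b _).2
    · simp only [f, dif_neg hi]
      exact Y.zero_mem
  have hf : ∀ i j, i < finrank F Y → j < finrank F Y → h (f i) (f j) = if i = j then 1 else 0 := by
    intro i j hi hj
    simp only [f, dif_pos hi, dif_pos hj]
    have := hb ⟨i, hi⟩ ⟨j, hj⟩
    simpa [Fin.ext_iff] using this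
  let t : Fin u → V := fun j => f (2 * j) + c • f (2 * j + 1)
  have hlt : ∀ j : Fin u, 2 * (j : ℕ) + 1 < finrank F Y := fun j => by
    have := j.2
    omega
  have htt : ∀ i j : Fin u, h (t i) (f (2 * j)) = if i = j then 1 else 0 := by
    intro i j
    simp only [t]
    rw [hh.add_left, hh.smul_left, hf _ _ (by have := hlt i; omega) (by have := hlt j; omega), hf _ _ (hlt i) (by have := hlt j; omega)]
    have h1 : (2 * (i : ℕ) + 1 = 2 * j) = False := by
      apply eq_false
      omega
    have h2 : (2 * (i : ℕ) = 2 * j) ↔ i = j := by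
      rw [Fin.ext_iff]
      omega
    simp [h1, h2]
  have hindep : LinearIndependent F t := by
    rw [Fintype.linearIndependent_iff]
    intro a ha j
    have h1 := congrArg (fun z => hL hh (f (2 * j)) z) ha
    simp only [map_sum, map_smul, map_zero, smul_eq_mul, hL_apply, htt] at h1
    simpa using h1
  refine ⟨Submodule.span F (Set.range t), ?_, ?_, ?_⟩
  · rw [Submodule.span_le]
    rintro _ ⟨j, rfl⟩
    exact Y.add_mem (hfY _) (Y.smul_mem _ (hfY _))
  · rw [finrank_span_eq_card hindep, Fintype.card_fin]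
  · apply TI_span hF hh
    rintro _ ⟨i, rfl⟩ _ ⟨j, rfl⟩
    simp only [t]
    rw [hh.add_right hF, hh.smul_right, hh.add_left, hh.add_left, hh.smul_left, hh.smul_left,
      hf _ _ (by have := hlt i; omega) (by have := hlt j; omega),
      hf _ _ (by have := hlt i; omega) (hlt j), hf _ _ (hlt i) (by have := hlt j; omega), hf _ _ (hlt i) (hlt j)]
    have h1 : (2 * (i : ℕ) + 1 = 2 * j) = False := by
      apply eq_false
      omega
    have h2 : (2 * (i : ℕ) = 2 * j + 1) = False := by
      apply eq_false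
      omega
    have h3 : (2 * (i : ℕ) = 2 * j) ↔ i = j := by
      rw [Fin.ext_iff]
      omega
    have h4 : (2 * (i : ℕ) + 1 = 2 * j + 1) ↔ i = j := by
      rw [Fin.ext_iff]
      omega
    simp only [h1, h2, h3, h4, if_false, mul_zero, add_zero, zero_add]
    by_cases hij : i = j
    · simp only [hij, if_true]
      linear_combination (c : F) * 0 + hcq
    · simp [hij]

end Forms

section Isometry

variable (hF : Fintype.card F = q ^ 2) (hh : IsHerm q h) {y : Module.End F V} (hI : ∀ u v, h (y u) (y v) = h u v)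
include hF hh hI

omit hF in
theorem h_pow (k : ℕ) (u v : V) : h ((y ^ k) u) ((y ^ k) v) = h u v := by
  induction k with
  | zero => simp
  | succ k ih =>
    rw [pow_succ', Module.End.mul_apply, Module.End.mul_apply, hI, ih]

omit hF in
theorem isInv_orthIn {r : ℕ} (hr0 : 0 < r) (hy : y ^ r = 1) {Y S : Submodule F V} (hY : IsInv y Y) (hS : IsInv y S) :
    IsInv y (orthIn hh Y S) := by
  intro x hx
  refine ⟨hY x hx.1, fun s hs => ?_⟩
  have h1 : s = y ((y ^ (r - 1)) s) := by
    rw [← Module.End.mul_apply, ← pow_succ']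
    rw [show r - 1 + 1 = r by omega, hy]
    rfl
  rw [h1, hI]
  exact hx.2 _ (hS.pow _ hs)

/-- The fixed space and the kernel of `Φ_r` are orthogonal. -/
theorem orth_Ker_Fix {r : ℕ} (hr : (r : F) ≠ 0) {u v : V} (hu : u ∈ Fix y) (hv : v ∈ Ker y r) : h v u = 0 := by
  have hu' : y u = u := mem_Fix.1 hu
  have h1 : ∀ k : ℕ, h ((y ^ k) v) u = h v u := by
    intro k
    induction k with
    | zero => simp
    | succ k ih =>
      rw [pow_succ', Module.End.mul_apply]
      nth_rw 1 [← hu']
      rw [hI, ih]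
  have h2 : hL hh u (Polynomial.aeval y (Phi F r) v) = (r : F) * h v u := by
    unfold Phi
    rw [map_sum, LinearMap.sum_apply, map_sum]
    simp only [map_pow, aeval_X, hL_apply, h1]
    simp
  have hv' : Polynomial.aeval y (Phi F r) v = 0 := hv
  rw [hv', map_zero] at h2
  exact (mul_eq_zero.1 h2.symm).resolve_left hr

theorem orth_Fix_Ker {r : ℕ} (hr : (r : F) ≠ 0) {u v : V} (hu : u ∈ Fix y) (hv : v ∈ Ker y r) : h u v = 0 :=
  swap0 hF hh (orth_Ker_Fix hF hh hI hr hu hv)

theorem Nd_Ker_top {r : ℕ} (hr : (r : F) ≠ 0) (hy : y ^ r = 1) : Nd h (Ker y r) := by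
  intro u hu hu0
  by_contra hcon
  push Not at hcon
  apply hu0
  apply hh.nondeg u
  intro w
  have hw : w ∈ Fix y ⊔ Ker y r := by
    rw [SpCore.sup_Fix_Ker hr hy]
    trivial
  obtain ⟨a, ha, b, hb, rfl⟩ := Submodule.mem_sup.1 hw
  rw [hh.add_right hF, orth_Ker_Fix hF hh hI hr ha hu, hcon b hb, add_zero]

theorem Nd_Fix_top {r : ℕ} (hr : (r : F) ≠ 0) (hy : y ^ r = 1) : Nd h (Fix y) := by
  intro u hu hu0
  by_contra hcon
  push Not at hcon
  apply hu0
  apply hh.nondeg u
  intro w
  have hw : w ∈ Fix y ⊔ Ker y r := by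
    rw [SpCore.sup_Fix_Ker hr hy]
    trivial
  obtain ⟨a, ha, b, hb, rfl⟩ := Submodule.mem_sup.1 hw
  rw [hh.add_right hF, orth_Fix_Ker hF hh hI hr hu hb, hcon a ha, zero_add]

/-- The adjoint of a polynomial in `y` against the conjugate reciprocal polynomial. -/
theorem h_dual_zero (g : F[X]) {u : V} (hu : Polynomial.aeval y g u = 0) (w : V) :
    h u (Polynomial.aeval y (dualP hF g) w) = 0 := by
  classical
  set f := g.map (sigma hF) with hf
  have hD : f.natDegree = g.natDegree := natDegree_map_sigma hF g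
  obtain ⟨D, hDdef⟩ : ∃ D, D = g.natDegree := ⟨_, rfl⟩
  have h1 : ∑ k ∈ Finset.range (D + 1), g.coeff k * h u ((y ^ (D - k)) w) = 0 := by
    have h2 : hL hh ((y ^ D) w) (Polynomial.aeval y g u) = 0 := by
      rw [hu, map_zero]
    rw [Polynomial.aeval_eq_sum_range' (n := D + 1) (by omega), LinearMap.sum_apply, map_sum] at h2
    rw [← h2]
    refine Finset.sum_congr rfl fun k hk => ?_
    have hk' : k ≤ D := by
      have := Finset.mem_range.1 hk
      omega
    rw [LinearMap.smul_apply, map_smul, smul_eq_mul, hL_apply]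
    congr 1
    have h3 : (y ^ D) w = (y ^ k) ((y ^ (D - k)) w) := by
      rw [← Module.End.mul_apply, ← pow_add]
      congr 2
      omega
    rw [h3, h_pow hh hI]
  have h2 : Polynomial.aeval y f.reverse w = ∑ j ∈ Finset.range (D + 1), (f.reverse.coeff j) • ((y ^ j) w) := by
    rw [Polynomial.aeval_eq_sum_range' (n := D + 1) (by
      have := Polynomial.reverse_natDegree_le f
      omega), LinearMap.sum_apply]
    rfl
  have h3 : h u (Polynomial.aeval y f.reverse w) = 0 := by
    rw [h2, sum_smul_right hF hh, ← h1, ← Finset.sum_range_reflect]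
    refine Finset.sum_congr rfl fun j hj => ?_
    have hj' : j ≤ D := by
      have := Finset.mem_range.1 hj
      omega
    have h4 : D + 1 - 1 - j = D - j := by omega
    rw [h4, Polynomial.coeff_reverse, hD, ← hDdef, Polynomial.revAt_le (by omega), hf, coeff_map, sigma_apply, pow_q_q hF hh]
    have h5 : D - (D - j) = j := by omega
    rw [h5]
  rw [dualP, map_mul, Module.End.mul_apply, aeval_C, Module.algebraMap_end_apply, hh.smul_right, h3, mul_zero]

/-- Kernels of `g` and `f` are orthogonal if the dual of `g` is coprime to `f`. -/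
theorem orth_dual {g f : F[X]} (hco : IsCoprime (dualP hF g) f) {u v : V} (hu : Polynomial.aeval y g u = 0)
    (hv : Polynomial.aeval y f v = 0) : h u v = 0 := by
  obtain ⟨a, c, hac⟩ := hco
  have h1 := congrArg (fun p => Polynomial.aeval y p v) hac
  simp only [map_add, map_mul, LinearMap.add_apply, Module.End.mul_apply, map_one, Module.End.one_apply, hv, map_zero, add_zero] at h1
  rw [← h1]
  have h2 : Polynomial.aeval y a (Polynomial.aeval y (dualP hF g) v) = Polynomial.aeval y (dualP hF g) (Polynomial.aeval y a v) := by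
    rw [← Module.End.mul_apply, ← map_mul, mul_comm, map_mul, Module.End.mul_apply]
  rw [h2]
  exact h_dual_zero hF hh hI g hu _

end Isometry

end Cfsg.Agent.Lib.Classical.Elusive.UCore
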