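import Mathlib
import Cfsg.Agent.Lib.Classical.Elusive.UCore
import Cfsg.Agent.Lib.Classical.Herm.TIFrame
import Cfsg.Agent.Lib.Classical.Herm.SU3Witness

/-!
# The number of totally isotropic subspaces of a Hermitian space
-/

set_option autoImplicit false
set_option linter.unusedSectionVars false
set_option linter.unusedSimpArgs false
set_option linter.unusedVariables false
set_option linter.style.haveILetI false

namespace Cfsg.Agent.Lib.Classical.Elusive.UCount

open Module
open Cfsg.Agent.Lib.Classical.Herm.TIFrame Cfsg.Agent.Lib.Classical.Herm.TI2 Cfsg.Agent.Lib.Classical.Herm.HermOnb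

variable {F : Type*} [Field F] [Fintype F] {q : ℕ} {n : ℕ}

/-- Totally isotropic subspaces. -/
abbrev Ti (F : Type*) [Field F] [Fintype F] (q n m : ℕ) : Type _ :=
  {W : Submodule F (Fin n → F) // finrank F W = m ∧ ∀ u ∈ W, ∀ v ∈ W, Cfsg.hermForm n F q u v = 0}

/-- The fibre map. -/
def fibMap (m : ℕ) : (Σ W : Ti F q n m, {s : Fin m → ↥W.1 // LinearIndependent F s}) → TF F q n m :=
  fun x => ⟨fun a => (x.2.1 a : Fin n → F), by
    refine ⟨x.2.2.map' (Submodule.subtype _) (Submodule.ker_subtype _), fun a b => x.1.2.2 _ (x.2.1 a).2 _ (x.2.1 b).2⟩⟩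

theorem span_eq {m : ℕ} (W : Submodule F (Fin n → F)) (hW : finrank F W = m) (s : Fin m → ↥W) (hs : LinearIndependent F s) :
    Submodule.span F (Set.range fun a : Fin m => (s a : Fin n → F)) = W := by
  apply Submodule.eq_of_le_of_finrank_eq
  · rw [Submodule.span_le]
    rintro _ ⟨a, rfl⟩
    exact (s a).2
  · have h1 : LinearIndependent F (fun a : Fin m => (s a : Fin n → F)) := hs.map' (Submodule.subtype _) (Submodule.ker_subtype _)
    have := finrank_span_eq_card h1
    rw [this, hW]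
    simp

theorem fibMap_bij (hF : Fintype.card F = q ^ 2) (m : ℕ) : Function.Bijective (fibMap (F := F) (q := q) (n := n) m) := by
  constructor
  · rintro ⟨⟨W, hW⟩, ⟨s, hs⟩⟩ ⟨⟨W', hW'⟩, ⟨s', hs'⟩⟩ h
    have h1 : (fun a : Fin m => (s a : Fin n → F)) = fun a : Fin m => (s' a : Fin n → F) := congrArg Subtype.val h
    have h2 : W = W' := by
      rw [← span_eq W hW.1 s hs, ← span_eq W' hW'.1 s' hs', h1]
    subst h2
    have h3 : s = s' := by
      funext a
      exact Subtype.ext (congrFun h1 a)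
    subst h3
    rfl
  · rintro ⟨v, hv⟩
    have hfr : finrank F ↥(Submodule.span F (Set.range v)) = m := by
      have := finrank_span_eq_card hv.1
      simpa using this
    have hh := Cfsg.Agent.Lib.Classical.Herm.SU3Witness.isHerm_hermForm hF n
    have hti : ∀ x ∈ Submodule.span F (Set.range v), ∀ y ∈ Submodule.span F (Set.range v), Cfsg.hermForm n F q x y = 0 :=
      UCore.TI_span hF hh (by
        rintro _ ⟨a, rfl⟩ _ ⟨b, rfl⟩
        exact hv.2 a b)
    let s : Fin m → ↥(Submodule.span F (Set.range v)) := fun a => ⟨v a, Submodule.subset_span ⟨a, rfl⟩⟩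
    have hs : LinearIndependent F s := by
      apply LinearIndependent.of_comp (Submodule.subtype _)
      exact hv.1
    refine ⟨⟨⟨_, hfr, hti⟩, ⟨s, hs⟩⟩, ?_⟩
    apply Subtype.ext
    rfl

theorem card_TF_eq (hF : Fintype.card F = q ^ 2) (m : ℕ) :
    Nat.card (TF F q n m) = Nat.card (Ti F q n m) * ∏ j ∈ Finset.range m, ((q ^ 2) ^ m - (q ^ 2) ^ j) := by
  rw [← Nat.card_congr (Equiv.ofBijective _ (fibMap_bij (F := F) (q := q) (n := n) hF m))]
  haveI : Finite (Ti F q n m) := Subtype.finite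
  haveI := Fintype.ofFinite (Ti F q n m)
  rw [Nat.card_sigma]
  have h2 : ∀ W : Ti F q n m, Nat.card {s : Fin m → ↥W.1 // LinearIndependent F s} =
      ∏ j ∈ Finset.range m, ((q ^ 2) ^ m - (q ^ 2) ^ j) := by
    intro W
    have h3 := card_linearIndependent (K := F) (V := ↥W.1) (k := m) (by rw [W.2.1])
    rw [h3, W.2.1, Finset.prod_range, hF]
  simp only [h2, Finset.sum_const, Finset.card_univ, smul_eq_mul, Nat.card_eq_fintype_card]

theorem card_TF_prod (hF : Fintype.card F = q ^ 2) (m : ℕ) (hm : 2 * m ≤ n) :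
    Nat.card (TF F q n m) = ∏ k ∈ Finset.range m, ((q ^ 2) ^ k * Nat.card (IsoVec F q (n - 2 * k))) := by
  induction m with
  | zero =>
    rw [card_TF_zero]
    simp
  | succ m ih =>
    rw [Finset.prod_range_succ, ← ih (by omega), card_TF_succ hF (m := n - 2 * m) (by omega)]

/-- The counting identity. -/
theorem card_Ti_mul (hF : Fintype.card F = q ^ 2) (m : ℕ) (hm : 2 * m ≤ n) :
    Nat.card (Ti F q n m) * ∏ j ∈ Finset.range m, ((q ^ 2) ^ (m - j) - 1) = ∏ k ∈ Finset.range m, Nat.card (IsoVec F q (n - 2 * k)) := by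
  have h1 := card_TF_prod (F := F) hF m hm
  rw [card_TF_eq hF] at h1
  have hq2 : 2 ≤ q := Cfsg.Agent.Lib.Classical.Herm.Basic.two_le_q hF
  have hP : 0 < ∏ j ∈ Finset.range m, (q ^ 2) ^ j := Finset.prod_pos fun j _ => by positivity
  have h2 : ∏ j ∈ Finset.range m, ((q ^ 2) ^ m - (q ^ 2) ^ j) = (∏ j ∈ Finset.range m, (q ^ 2) ^ j) * ∏ j ∈ Finset.range m, ((q ^ 2) ^ (m - j) - 1) := by
    rw [← Finset.prod_mul_distrib]
    apply Finset.prod_congr rfl
    intro j hj
    have hj' := Finset.mem_range.1 hj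
    rw [Nat.mul_sub, mul_one, ← pow_add]
    congr 2
    omega
  rw [h2, Finset.prod_mul_distrib] at h1
  apply Nat.eq_of_mul_eq_mul_left hP
  rw [← h1]
  ring

/-- Primes dividing the number of totally isotropic subspaces. -/
theorem dvd_card_Ti (hF : Fintype.card F = q ^ 2) {m r : ℕ} (hm : 2 * m ≤ n) (hm1 : 1 ≤ m) [Fact r.Prime]
    (hrN : r ∣ Nat.card (Ti F q n m)) :
    ∃ t, n < t + 2 * m ∧ t ≤ n ∧ 1 ≤ t ∧ (-(q : ZMod r)) ^ t = 1 := by
  have hr : r.Prime := Fact.out
  have h1 := card_Ti_mul (F := F) (n := n) hF m hm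
  have h2 : r ∣ ∏ k ∈ Finset.range m, Nat.card (IsoVec F q (n - 2 * k)) := by
    rw [← h1]
    exact hrN.mul_right _
  obtain ⟨k, hk, hk'⟩ := (hr.prime.dvd_finsetProd_iff _).1 h2
  have hkm := Finset.mem_range.1 hk
  rw [card_isoVec_eq hF] at hk'
  have hq2 : 2 ≤ q := Cfsg.Agent.Lib.Classical.Herm.Basic.two_le_q hF
  have hne : 2 ≤ n - 2 * k := by omega
  have hpos : ∀ s, 1 ≤ q ^ s := fun s => Nat.one_le_pow _ _ (by omega)
  have hcast : ∀ s, r ∣ q ^ s - 1 → (q : ZMod r) ^ s = 1 := by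
    intro s hs
    have h3 : ((q ^ s - 1 : ℕ) : ZMod r) = 0 := (ZMod.natCast_eq_zero_iff _ _).2 hs
    rw [Nat.cast_sub (hpos s)] at h3
    push_cast at h3
    exact sub_eq_zero.1 h3
  have hcast' : ∀ s, r ∣ q ^ s + 1 → (q : ZMod r) ^ s = -1 := by
    intro s hs
    have h3 : ((q ^ s + 1 : ℕ) : ZMod r) = 0 := (ZMod.natCast_eq_zero_iff _ _).2 hs
    push_cast at h3
    exact eq_neg_of_add_eq_zero_left h3
  by_cases he : Even (n - 2 * k)
  · rw [if_pos he] at hk'
    rcases (hr.dvd_mul).1 hk' with h3 | h3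
    · refine ⟨n - 2 * k, by omega, by omega, by omega, ?_⟩
      rw [he.neg_pow, hcast _ h3]
    · have hodd : Odd (n - 2 * k - 1) := by
        obtain ⟨s, hs⟩ := he
        exact ⟨s - 1, by omega⟩
      refine ⟨n - 2 * k - 1, by omega, by omega, by omega, ?_⟩
      rw [hodd.neg_pow, hcast' _ h3, neg_neg]
  · rw [if_neg he] at hk'
    have hodd' : Odd (n - 2 * k) := Nat.not_even_iff_odd.1 he
    rcases (hr.dvd_mul).1 hk' with h3 | h3
    · refine ⟨n - 2 * k, by omega, by omega, by omega, ?_⟩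
      rw [hodd'.neg_pow, hcast' _ h3, neg_neg]
    · have heven : Even (n - 2 * k - 1) := by
        obtain ⟨s, hs⟩ := hodd'
        exact ⟨s, by omega⟩
      refine ⟨n - 2 * k - 1, by omega, by omega, by omega, ?_⟩
      rw [heven.neg_pow, hcast _ h3]

/-- The order of `-q`. -/
theorem orderOf_neg {r i c : ℕ} [Fact r.Prime] (hr2 : r ≠ 2) (hq0 : (q : ZMod r) ≠ 0) (hi : i = orderOf (q : ZMod r))
    (hc : c = if i % 4 = 0 then i else if i % 4 = 2 then i / 2 else 2 * i) : orderOf (-(q : ZMod r)) = c := by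
  have hr : r.Prime := Fact.out
  obtain ⟨Q, hQ⟩ : ∃ Q : ZMod r, Q = (q : ZMod r) := ⟨_, rfl⟩
  rw [← hQ] at hq0 hi ⊢
  have hi0 : 0 < i := by
    rw [hi]
    have : IsOfFinOrder Q := by
      rw [isOfFinOrder_iff_pow_eq_one]
      exact ⟨r - 1, by have := hr.two_le; omega, ZMod.pow_card_sub_one_eq_one hq0⟩
    exact this.orderOf_pos
  have hQi : Q ^ i = 1 := by
    rw [hi]
    exact pow_orderOf_eq_one Q
  have hdvd : ∀ s, Q ^ s = 1 → i ∣ s := by
    intro s hs
    rw [hi]
    exact orderOf_dvd_of_pow_eq_one hs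
  have hne1 : (-1 : ZMod r) ≠ 1 := by
    haveI : Fact (2 < r) := ⟨by have := hr.two_le; omega⟩
    exact ZMod.neg_one_ne_one
  set o := orderOf (-Q) with ho
  have hoQ : (-Q) ^ o = 1 := pow_orderOf_eq_one _
  have ho2 : i ∣ 2 * o := by
    apply hdvd
    rw [← (even_two_mul o).neg_pow, mul_comm, pow_mul, hoQ, one_pow]
  have hhalf : ∀ b, i = 2 * b → Q ^ b = -1 := by
    intro b hb
    have h1 : (Q ^ b) ^ 2 = 1 := by
      rw [← pow_mul, mul_comm, ← hb, hQi]
    have h2 : Q ^ b ≠ 1 := by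
      intro h3
      have h4 := hdvd b h3
      have hb0 : 0 < b := by omega
      have h5 := Nat.le_of_dvd hb0 h4
      omega
    have h1' : Q ^ b * Q ^ b = 1 := by rw [← pow_two]; exact h1
    rcases mul_self_eq_one_iff.1 h1' with h3 | h3
    · exact absurd h3 h2
    · exact h3
  by_cases h4 : i % 4 = 0
  · rw [if_pos h4] at hc
    obtain ⟨b, hb⟩ : ∃ b, i = 2 * b := ⟨i / 2, by omega⟩
    have hbe : Even b := ⟨b / 2, by omega⟩
    have hb1 := hhalf b hb
    have ho1 : o ∣ i := by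
      apply orderOf_dvd_of_pow_eq_one
      have : Even i := ⟨b, by omega⟩
      rw [this.neg_pow, hQi]
    have hbo : b ∣ o := by
      rw [hb] at ho2
      exact Nat.dvd_of_mul_dvd_mul_left (by norm_num) ho2
    obtain ⟨e, he⟩ := hbo
    rw [hb] at ho1
    rw [he] at ho1
    have hb0 : 0 < b := by omega
    have he2 : e ∣ 2 := by
      have h5 : b * e ∣ b * 2 := by
        rw [mul_comm b 2]
        exact ho1
      exact Nat.dvd_of_mul_dvd_mul_left hb0 h5
    have he' : e = 1 ∨ e = 2 := (Nat.dvd_prime Nat.prime_two).1 he2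
    rcases he' with rfl | rfl
    · exfalso
      rw [he, mul_one, hbe.neg_pow, hb1] at hoQ
      exact hne1 hoQ
    · rw [hc, he, hb]
      ring
  by_cases h2 : i % 4 = 2
  · rw [if_neg h4, if_pos h2] at hc
    obtain ⟨b, hb⟩ : ∃ b, i = 2 * b := ⟨i / 2, by omega⟩
    have hbo' : Odd b := ⟨b / 2, by omega⟩
    have hb1 := hhalf b hb
    have hcb : c = b := by omega
    rw [hcb]
    apply Nat.dvd_antisymm
    · apply orderOf_dvd_of_pow_eq_one
      rw [hbo'.neg_pow, hb1, neg_neg]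
    · rw [hb] at ho2
      exact Nat.dvd_of_mul_dvd_mul_left (by norm_num) ho2
  · rw [if_neg h4, if_neg h2] at hc
    have hio : Odd i := ⟨i / 2, by omega⟩
    have hio2 : Nat.Coprime i 2 := (Nat.coprime_two_right).2 hio
    have h1 : i ∣ o := hio2.dvd_of_dvd_mul_left ho2
    have h3 : o ∣ 2 * i := by
      apply orderOf_dvd_of_pow_eq_one
      rw [(even_two_mul i).neg_pow, mul_comm, pow_mul, hQi, one_pow]
    have h5 : Even o := by
      by_contra h6
      have h7 := Nat.not_even_iff_odd.1 h6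
      rw [h7.neg_pow] at hoQ
      obtain ⟨e, he⟩ := h1
      rw [he, pow_mul, hQi, one_pow] at hoQ
      exact hne1 hoQ
    have h6 : 2 * i ∣ o := by
      have : Nat.Coprime 2 i := hio2.symm
      exact this.mul_dvd_of_dvd_of_dvd h5.two_dvd h1
    rw [hc]
    exact Nat.dvd_antisymm h3 h6

end Cfsg.Agent.Lib.Classical.Elusive.UCount
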