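import Mathlib
import Cfsg.Agent.Lib.Classical.Elusive.UCore

/-!
# Self-dual blocks: the field action and the half-dimensional totally isotropic subspace
-/

set_option autoImplicit false
set_option linter.unusedSectionVars false
set_option linter.unusedSimpArgs false
set_option linter.unusedVariables false
set_option linter.style.haveILetI false

namespace Cfsg.Agent.Lib.Classical.Elusive.USelfDual

open Polynomial Module
open Cfsg.Agent.Lib.Classical.Elusive.Inv Cfsg.Agent.Lib.Classical.Elusive.UCore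
open Cfsg.Agent.Lib.Classical.Herm.HermOnb Cfsg.Agent.Lib.Classical.Herm.Basic
open Cfsg.Agent.Lib.Classical.Herm.Wall

section Two

variable {F K Y : Type*} [Field F] [Fintype F] [Field K] [Algebra F K] [Fintype K] [FiniteDimensional F K] [AddCommGroup Y] [Module F Y] {q : ℕ}

/-- Two vectors, abstractly. -/
theorem herm_two (hF : Fintype.card F = q ^ 2) (h₀ : Y → Y → F) (hadd : ∀ x y z, h₀ (x + y) z = h₀ x z + h₀ y z)
    (hsmul : ∀ (c : F) x y, h₀ (c • x) y = c * h₀ x y) (hherm : ∀ x y, h₀ y x = h₀ x y ^ q)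
    (ρ : K →ₐ[F] Module.End F Y) {Q : ℕ} (hQ : Fintype.card K = Q ^ 2)
    (σ : K →+* K) (hσ : ∀ a, σ a = a ^ Q) (hadj : ∀ a u v, h₀ (ρ a u) v = h₀ u (ρ (σ a) v))
    (v₁ v₂ : Y) (h12 : ∀ a, h₀ (ρ a v₁) v₂ = 0) (h2 : ∃ a, h₀ (ρ a v₂) v₂ ≠ 0) :
    ∃ θ : K, ∀ a, h₀ (ρ a (v₁ + ρ θ v₂)) (v₁ + ρ θ v₂) = 0 := by
  classical
  have hρ : ∀ (a b : K) (u : Y), ρ a (ρ b u) = ρ (a * b) u := by
    intro a b u
    rw [map_mul, Module.End.mul_apply]
  have hss : ∀ a, σ (σ a) = a := by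
    intro a
    rw [hσ, hσ, ← pow_mul, ← pow_two, ← hQ, FiniteField.pow_card]
  have hadd' : ∀ x y z, h₀ z (x + y) = h₀ z x + h₀ z y := by
    intro x y z
    rw [hherm (x + y) z, hadd, pow_q_add hF, ← hherm, ← hherm]
  have hq2 : ∀ c : F, (c ^ q) ^ q = c := by
    intro c
    rw [← pow_mul, ← pow_two, ← hF, FiniteField.pow_card]
  have hq0 : q ≠ 0 := by
    have := two_le_q hF
    omega
  let fn : Y → K →ₗ[F] F := fun v =>
    { toFun := fun a => h₀ (ρ a v) v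
      map_add' := fun a b => by rw [map_add, LinearMap.add_apply, hadd]
      map_smul' := fun c a => by rw [map_smul, LinearMap.smul_apply, hsmul, RingHom.id_apply, smul_eq_mul] }
  have hfn : ∀ v a, fn v a = h₀ (ρ a v) v := fun _ _ => rfl
  have hsig : ∀ (v : Y) (a : K), fn v (σ a) = (fn v a) ^ q := by
    intro v a
    rw [hfn, hfn, hadj, hss, ← hherm]
  let Ψ : K →ₗ[F] Module.Dual F K := LinearMap.mk₂ F (fun c a => fn v₂ (c * a))
    (by intro a b c; rw [add_mul, map_add])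
    (by intro c a b; rw [smul_mul_assoc, map_smul])
    (by intro a b c; rw [mul_add, map_add])
    (by intro c a b; rw [mul_smul_comm, map_smul])
  have hΨ : ∀ c a, Ψ c a = fn v₂ (c * a) := fun c a => rfl
  have hinj : Function.Injective Ψ := by
    rw [injective_iff_map_eq_zero]
    intro c hc
    by_contra h0
    obtain ⟨a, ha⟩ := h2
    apply ha
    have h3 := LinearMap.congr_fun hc (c⁻¹ * a)
    rw [hΨ, ← mul_assoc, mul_inv_cancel₀ h0, one_mul] at h3
    exact h3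
  have hsurj : Function.Surjective Ψ :=
    (LinearMap.injective_iff_surjective_of_finrank_eq_finrank (Subspace.dual_finrank_eq).symm).1 hinj
  obtain ⟨c, hc⟩ := hsurj (fn v₁)
  have hc' : ∀ a, fn v₂ (c * a) = fn v₁ a := fun a => LinearMap.congr_fun hc a
  have hcσ : σ c = c := by
    apply hinj
    apply LinearMap.ext
    intro a
    rw [hΨ, hΨ, hc']
    have h7 : σ (c * σ a) = σ c * a := by rw [map_mul, hss]
    rw [← h7, hsig, hc', hsig, hq2]
  have hnc : (-c) ^ Q = -c := by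
    rw [← hσ, map_neg, hcσ]
  obtain ⟨θ, hθ⟩ := TiHerm.exists_norm hQ hnc
  refine ⟨θ, fun a => ?_⟩
  have hσθ : σ θ * θ = -c := by
    rw [hσ, ← pow_succ, hθ]
  have hrt : ∀ (b : K) (u w : Y), h₀ u (ρ b w) = h₀ (ρ (σ b) u) w := by
    intro b u w
    rw [hadj, hss]
  have h3 : h₀ (ρ a (ρ θ v₂)) (ρ θ v₂) = - fn v₁ a := by
    rw [hrt, hρ, hρ, ← hc', hfn]
    have h4 : σ θ * a * θ = (-c) * a := by
      rw [← hσθ]
      ring
    show fn v₂ (σ θ * a * θ) = - fn v₂ (c * a)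
    rw [h4, neg_mul, map_neg]
  have h4 : h₀ (ρ a v₁) (ρ θ v₂) = 0 := by
    rw [hrt, hρ]
    exact h12 _
  have h5 : h₀ (ρ a (ρ θ v₂)) v₁ = 0 := by
    rw [hρ, hherm v₁ _, hrt, h12, zero_pow hq0]
  rw [map_add, hadd, hadd', hadd', h3, h4, h5, ← hfn]
  ring

end Two

section Vec

variable {F V : Type*} [Field F] [Fintype F] [AddCommGroup V] [Module F V] [FiniteDimensional F V] {q : ℕ} {h : V → V → F}
  (hF : Fintype.card F = q ^ 2) (hh : IsHerm q h) {y : Module.End F V} (hI : ∀ u v, h (y u) (y v) = h u v)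
include hF hh hI

/-- Adjoints of polynomials in `y`. -/
theorem adj_right {m : ℕ} (hm : y ^ (m + 1) = 1) (R : F[X]) :
    ∃ R' : F[X], ∀ u v, h u (Polynomial.aeval y R v) = h (Polynomial.aeval y R' u) v := by
  induction R using Polynomial.induction_on' with
  | add P₁ P₂ h1 h2 =>
    obtain ⟨R₁, h1⟩ := h1
    obtain ⟨R₂, h2⟩ := h2
    refine ⟨R₁ + R₂, fun u v => ?_⟩
    simp only [map_add, LinearMap.add_apply]
    rw [hh.add_right hF, hh.add_left, h1, h2]
  | monomial n a =>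
    refine ⟨monomial (m * n) (a ^ q), fun u v => ?_⟩
    rw [aeval_monomial, aeval_monomial, Module.End.mul_apply, Module.End.mul_apply, Module.algebraMap_end_apply, Module.algebraMap_end_apply,
      hh.smul_right, hh.smul_left]
    congr 1
    have h1 : u = (y ^ n) ((y ^ (m * n)) u) := by
      rw [← Module.End.mul_apply, ← pow_add]
      have h2 : n + m * n = (m + 1) * n := by ring
      rw [h2, pow_mul, hm, one_pow]
      rfl
    nth_rw 1 [h1]
    rw [h_pow hh hI]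

/-- The Hermitian two vector lemma. -/
theorem two_vec {g : F[X]} (hg : Irreducible g) {d : ℕ} (hdeg : g.natDegree = d) (hodd : Odd d)
    (hy : y ^ (q ^ d + 1) = 1) {v₁ v₂ : V} (h1 : Polynomial.aeval y g v₁ = 0) (h2 : Polynomial.aeval y g v₂ = 0)
    (h12 : ∀ P : F[X], h (Polynomial.aeval y P v₁) v₂ = 0) (h22 : ∃ P : F[X], h (Polynomial.aeval y P v₂) v₂ ≠ 0) :
    ∃ Θ : F[X], ∀ P : F[X], h (Polynomial.aeval y P (v₁ + Polynomial.aeval y Θ v₂)) (v₁ + Polynomial.aeval y Θ v₂) = 0 := by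
  classical
  haveI : Fact (Irreducible g) := ⟨hg⟩
  let Y₀ : Submodule F V := LinearMap.ker (Polynomial.aeval y g)
  have hY₀ : IsInv y Y₀ := isInv_ker_aeval y g
  let y₀ : Module.End F ↥Y₀ := y.restrict hY₀
  have hcoe : ∀ (P : F[X]) (u : ↥Y₀), ((Polynomial.aeval y₀ P u : ↥Y₀) : V) = Polynomial.aeval y P (u : V) := TiHerm.coe_aeval_restrict hY₀
  have hy₀g : Polynomial.aeval y₀ g = 0 := by
    apply LinearMap.ext
    intro u
    apply Subtype.ext
    rw [hcoe]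
    exact u.2
  let h₀ : ↥Y₀ → ↥Y₀ → F := fun u v => h (u : V) (v : V)
  have hadd₀ : ∀ x y z : ↥Y₀, h₀ (x + y) z = h₀ x z + h₀ y z := fun x y z => hh.add_left _ _ _
  have hsmul₀ : ∀ (c : F) (x y : ↥Y₀), h₀ (c • x) y = c * h₀ x y := fun c x y => hh.smul_left _ _ _
  have hherm₀ : ∀ x y : ↥Y₀, h₀ y x = h₀ x y ^ q := fun x y => hh.herm _ _
  set Q := q ^ d with hQdef
  have hy₀ : ∀ u v : ↥Y₀, h₀ (y₀ u) v = h₀ u ((y₀ ^ Q) v) := by
    intro u v
    have h3 := hcoe (X ^ Q) v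
    simp only [map_pow, aeval_X] at h3
    show h (y (u : V)) (v : V) = h (u : V) (((y₀ ^ Q) v : ↥Y₀) : V)
    rw [h3, ← hI (u : V), ← Module.End.mul_apply, ← pow_succ', hy]
    rfl
  let K := AdjoinRoot g
  haveI : Module.Finite F K := (AdjoinRoot.powerBasis hg.ne_zero).finite
  haveI : Finite K := Module.finite_of_finite F
  haveI : Fintype K := Fintype.ofFinite K
  have hQ : Fintype.card K = Q ^ 2 := by
    rw [TiHerm.card_adjoin F hg, hdeg, hF, hQdef, ← pow_mul, ← pow_mul, mul_comm]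
  let ρ : K →ₐ[F] Module.End F ↥Y₀ := Ideal.Quotient.liftₐ (Ideal.span {g}) (Polynomial.aeval y₀) (by
    intro a ha
    obtain ⟨c, rfl⟩ := Ideal.mem_span_singleton.1 ha
    rw [map_mul, hy₀g, zero_mul])
  have hρ : ∀ P : F[X], ρ (AdjoinRoot.mk g P) = Polynomial.aeval y₀ P := fun P => rfl
  let σ : K →+* K := sigma hQ
  have hσ : ∀ a, σ a = a ^ Q := fun a => rfl
  have hadj : ∀ a u v, h₀ (ρ a u) v = h₀ u (ρ (σ a) v) := by
    have hscal : ∀ c : F, (c ^ Q) ^ q = c := by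
      intro c
      obtain ⟨s, hs⟩ := hodd
      have h3 : Q * q = (q ^ 2) ^ (s + 1) := by
        rw [hQdef, hs, ← pow_succ, ← pow_mul]
        congr 1
      rw [← pow_mul, h3, ← hF, FiniteField.pow_card_pow]
    have hone : ∀ c : F, ∀ u v, h₀ (ρ (algebraMap F K c) u) v = h₀ u (ρ (σ (algebraMap F K c)) v) := by
      intro c u v
      have h3 : σ (algebraMap F K c) = algebraMap F K (c ^ Q) := by
        rw [hσ, map_pow]
      rw [h3, AlgHom.commutes, AlgHom.commutes, Module.algebraMap_end_apply, Module.algebraMap_end_apply, hsmul₀]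
      show _ = h (u : V) (c ^ Q • (v : V))
      rw [hh.smul_right, hscal]
    have hrt : ∀ u v, h₀ (ρ (AdjoinRoot.root g) u) v = h₀ u (ρ (σ (AdjoinRoot.root g)) v) := by
      intro u v
      have h3 : ρ (AdjoinRoot.root g) = y₀ := by
        have h4 := hρ X
        rw [AdjoinRoot.mk_X, aeval_X] at h4
        exact h4
      rw [hσ, map_pow, h3]
      exact hy₀ u v
    have hmul : ∀ a b : K, (∀ u v, h₀ (ρ a u) v = h₀ u (ρ (σ a) v)) → (∀ u v, h₀ (ρ b u) v = h₀ u (ρ (σ b) v)) →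
        ∀ u v, h₀ (ρ (a * b) u) v = h₀ u (ρ (σ (a * b)) v) := by
      intro a b ha hb u v
      rw [map_mul, Module.End.mul_apply, ha, hb, map_mul σ, mul_comm (σ a), map_mul ρ, Module.End.mul_apply]
    have hpow : ∀ n : ℕ, ∀ u v, h₀ (ρ ((AdjoinRoot.root g) ^ n) u) v = h₀ u (ρ (σ ((AdjoinRoot.root g) ^ n)) v) := by
      intro n
      induction n with
      | zero =>
        have := hone 1
        simpa using this
      | succ n ih =>
        rw [pow_succ]
        exact hmul _ _ ih hrt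
    intro a
    obtain ⟨P, rfl⟩ := AdjoinRoot.mk_surjective a
    induction P using Polynomial.induction_on' with
    | add P₁ P₂ h1 h2 =>
      intro u v
      rw [map_add, map_add, LinearMap.add_apply, hadd₀, h1, h2, map_add, map_add, LinearMap.add_apply]
      show _ = h (u : V) (((ρ (σ (AdjoinRoot.mk g P₁))) v + (ρ (σ (AdjoinRoot.mk g P₂))) v : ↥Y₀) : V)
      rw [Submodule.coe_add, hh.add_right hF]
    | monomial n c =>
      have h3 : AdjoinRoot.mk g (monomial n c) = algebraMap F K c * (AdjoinRoot.root g) ^ n := by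
        rw [← C_mul_X_pow_eq_monomial, map_mul, map_pow, AdjoinRoot.mk_X]
        rfl
      rw [h3]
      exact hmul _ _ (hone c) (hpow n)
  obtain ⟨θ, hθ⟩ := herm_two hF h₀ hadd₀ hsmul₀ hherm₀ ρ hQ σ hσ hadj (⟨v₁, h1⟩ : ↥Y₀) ⟨v₂, h2⟩
    (by
      intro a
      obtain ⟨P, rfl⟩ := AdjoinRoot.mk_surjective a
      rw [hρ]
      show h ((Polynomial.aeval y₀ P ⟨v₁, h1⟩ : ↥Y₀) : V) v₂ = 0
      rw [hcoe]
      exact h12 P)
    (by
      obtain ⟨P, hP⟩ := h22
      refine ⟨AdjoinRoot.mk g P, ?_⟩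
      rw [hρ]
      show h ((Polynomial.aeval y₀ P ⟨v₂, h2⟩ : ↥Y₀) : V) v₂ ≠ 0
      rw [hcoe]
      exact hP)
  obtain ⟨Θ, rfl⟩ := AdjoinRoot.mk_surjective θ
  refine ⟨Θ, fun P => ?_⟩
  have h3 := hθ (AdjoinRoot.mk g P)
  rw [hρ, hρ] at h3
  obtain ⟨w₀, hw₀⟩ : ∃ w₀ : ↥Y₀, w₀ = ⟨v₁, h1⟩ + Polynomial.aeval y₀ Θ ⟨v₂, h2⟩ := ⟨_, rfl⟩
  rw [← hw₀] at h3
  have hw : (w₀ : V) = v₁ + Polynomial.aeval y Θ v₂ := by
    rw [hw₀]
    show v₁ + ((Polynomial.aeval y₀ Θ ⟨v₂, h2⟩ : ↥Y₀) : V) = _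
    rw [hcoe]
  have h4 : h (Polynomial.aeval y P (w₀ : V)) (w₀ : V) = 0 := by
    rw [← hcoe]
    exact h3
  rwa [hw] at h4

/-- An atom containing an anisotropic vector is nondegenerate. -/
theorem atom_Nd {g : F[X]} (hg : Irreducible g) {m : ℕ} (hy : y ^ (m + 1) = 1)
    {T : Submodule F V} (hT : IsInv y T) (hTg : T ≤ LinearMap.ker (Polynomial.aeval y g)) (hTd : finrank F T = g.natDegree)
    {u : V} (hu : u ∈ T) (huu : h u u ≠ 0) : Nd h T := by
  have hfac : ∀ d, Irreducible d → d ∣ g → d.natDegree = g.natDegree := by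
    intro d hd hdg
    obtain ⟨c, rfl⟩ := hdg
    have := (hg.isUnit_or_isUnit rfl).resolve_left hd.not_isUnit
    rw [natDegree_mul hd.ne_zero this.ne_zero, natDegree_eq_zero_of_isUnit this, add_zero]
  have hW := isInv_orthIn hh hI (Nat.succ_pos m) hy hT hT
  have hdeg := hg.natDegree_pos
  have h1 : g.natDegree ∣ finrank F ↥(orthIn hh T T) :=
    dvd_finrank hW hg.ne_zero hdeg hfac (fun v hv => hTg hv.1)
  have h2 : orthIn hh T T ≤ T := fun x hx => hx.1
  have h3 := Submodule.finrank_mono h2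
  rw [hTd] at h3
  by_cases h4 : finrank F ↥(orthIn hh T T) = 0
  · have h5 := Submodule.finrank_eq_zero.1 h4
    intro v hv hv0
    by_contra hc
    push Not at hc
    have h6 : v ∈ orthIn hh T T := ⟨hv, hc⟩
    rw [h5] at h6
    exact hv0 ((Submodule.mem_bot F).1 h6)
  · exfalso
    have h5 := Nat.le_of_dvd (Nat.pos_of_ne_zero h4) h1
    have h6 : orthIn hh T T = T := Submodule.eq_of_le_of_finrank_eq h2 (by omega)
    rw [← h6] at hu
    exact huu (hu.2 u hu.1)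

/-- The key construction: half of the dimension is realised, up to one block. -/
theorem exists_ti_half {g : F[X]} (hg : Irreducible g) {d : ℕ} (hdeg : g.natDegree = d) (hodd : Odd d)
    (hy : y ^ (q ^ d + 1) = 1) : ∀ (n : ℕ) (Y : Submodule F V), finrank F Y = n → IsInv y Y → Nd h Y →
      Y ≤ LinearMap.ker (Polynomial.aeval y g) → ∃ T, T ≤ Y ∧ IsInv y T ∧ TI h T ∧ finrank F Y ≤ 2 * finrank F T + g.natDegree := by
  intro n
  induction n using Nat.strong_induction_on with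
  | _ n ih =>
    intro Y hn hY hNd hYg
    by_cases h0 : Y = ⊥
    · subst h0
      exact ⟨⊥, le_rfl, hY, fun u hu v _ => by rw [(Submodule.mem_bot F).1 hu]; exact hh.zero_left v, by simp⟩
    -- first atom
    have atom : ∀ Z : Submodule F V, IsInv y Z → Nd h Z → Z ≤ LinearMap.ker (Polynomial.aeval y g) → Z ≠ ⊥ →
        ∃ u ∈ Z, u ≠ 0 ∧ h u u ≠ 0 ∧ ∃ N, N ≤ Z ∧ IsInv y N ∧ Nd h N ∧ finrank F N = g.natDegree ∧ u ∈ N ∧
          ∀ W, IsInv y W → u ∈ W → N ≤ W := by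
      intro Z hZ hZNd hZg hZ0
      haveI : Nontrivial ↥Z := Submodule.nontrivial_iff_ne_bot.2 hZ0
      obtain ⟨u', hu'⟩ := (isHerm_sub hh hZNd).exists_self_ne_zero hF
      have hu0 : (u' : V) ≠ 0 := by
        intro h2
        apply hu'
        rw [h2]
        exact hh.zero_left _
      obtain ⟨N, hN, huN, hNd', hmin, -⟩ := TiBlock.exists_cyc hg hu0 (LinearMap.mem_ker.1 (hZg u'.2))
      have hNZ : N ≤ Z := hmin Z hZ u'.2
      refine ⟨u', u'.2, hu0, hu', N, hNZ, hN, ?_, hNd', huN, hmin⟩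
      exact atom_Nd hF hh hI hg hy hN (hNZ.trans hZg) hNd' huN hu'
    obtain ⟨u₁, hu₁, hu₁0, -, N₁, hN₁Y, hN₁, hN₁Nd, hN₁d, hu₁N, hN₁min⟩ := atom Y hY hNd hYg h0
    have hfr1 := finrank_orthIn hF hh hNd hN₁Y
    have hr0 : 0 < q ^ d + 1 := Nat.succ_pos _
    have hY₁ := isInv_orthIn hh hI hr0 hy hY hN₁
    have hY₁Nd := Nd_orthIn hF hh hN₁Y hN₁Nd hNd
    have hbotTI : TI h (⊥ : Submodule F V) := fun u hu v _ => by rw [(Submodule.mem_bot F).1 hu]; exact hh.zero_left v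
    by_cases h1 : orthIn hh Y N₁ = ⊥
    · rw [h1, finrank_bot, add_zero, hN₁d] at hfr1
      refine ⟨⊥, bot_le, isInv_bot y, hbotTI, ?_⟩
      rw [finrank_bot]
      omega
    have hO₁ : orthIn hh Y N₁ ≤ Y := fun x hx => hx.1
    obtain ⟨u₂, hu₂, hu₂0, hP₂, N₂, hN₂Y, hN₂, hN₂Nd, hN₂d, hu₂N, hN₂min⟩ := atom _ hY₁ hY₁Nd (hO₁.trans hYg) h1
    have horth12 : ∀ a ∈ N₁, ∀ c ∈ N₂, h a c = 0 := by
      intro a ha c hc
      exact swap0 hF hh ((hN₂Y hc).2 a ha)
    obtain ⟨Θ, hΘ⟩ := two_vec hF hh hI hg hdeg hodd hy (LinearMap.mem_ker.1 (hN₁Y.trans hYg hu₁N)) (LinearMap.mem_ker.1 ((hN₂Y.trans hO₁).trans hYg hu₂N))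
      (fun P => horth12 _ (hN₁.aeval P hu₁N) _ hu₂N) ⟨1, by
        rw [map_one]
        exact hP₂⟩
    set w := u₁ + Polynomial.aeval y Θ u₂ with hw
    have hN₁₂inv : IsInv y (N₁ ⊔ N₂) := hN₁.sup hN₂
    have hwN : w ∈ N₁ ⊔ N₂ := Submodule.add_mem_sup hu₁N (hN₂.aeval Θ hu₂N)
    have hw0 : w ≠ 0 := by
      intro h2
      have h2' : u₁ = - Polynomial.aeval y Θ u₂ := eq_neg_of_add_eq_zero_left h2
      have h3 : u₁ ∈ N₂ := by
        rw [h2']
        exact N₂.neg_mem (hN₂.aeval Θ hu₂N)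
      have h4 : u₁ ∈ N₁ ⊓ orthIn hh Y N₁ := ⟨hu₁N, hN₂Y h3⟩
      rw [inf_orthIn hh hN₁Nd] at h4
      exact hu₁0 ((Submodule.mem_bot F).1 h4)
    have hN₁₂Y : N₁ ⊔ N₂ ≤ Y := sup_le hN₁Y (hN₂Y.trans hO₁)
    have hgw : Polynomial.aeval y g w = 0 := LinearMap.mem_ker.1 (hYg (hN₁₂Y hwN))
    obtain ⟨T₀, hT₀, hwT, hT₀d, hT₀min, hT₀mem⟩ := TiBlock.exists_cyc hg hw0 hgw
    have hT₀le : T₀ ≤ N₁ ⊔ N₂ := hT₀min _ hN₁₂inv hwN
    have hT₀ti : TI h T₀ := by
      intro a ha c hc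
      obtain ⟨P, rfl⟩ := hT₀mem a ha
      obtain ⟨R, rfl⟩ := hT₀mem c hc
      obtain ⟨R', hR'⟩ := adj_right hF hh hI hy R
      rw [hR', ← Module.End.mul_apply, ← map_mul]
      exact hΘ _
    have hN₁₂Nd : Nd h (N₁ ⊔ N₂) := Nd_sup hF hh hN₁Nd hN₂Nd horth12
    have hfr12 : finrank F ↥(N₁ ⊔ N₂) = 2 * g.natDegree := by
      have h2 := Submodule.finrank_sup_add_finrank_inf_eq N₁ N₂
      rw [inf_eq_bot_of_orth hF hh hN₁Nd horth12, finrank_bot, add_zero, hN₁d, hN₂d] at h2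
      omega
    have hfr2 := finrank_orthIn hF hh hNd hN₁₂Y
    rw [hfr12] at hfr2
    have hdegpos := hg.natDegree_pos
    have hO₂ : orthIn hh Y (N₁ ⊔ N₂) ≤ Y := fun x hx => hx.1
    obtain ⟨T', hT'le, hT', hT'ti, hT'd⟩ := ih (finrank F ↥(orthIn hh Y (N₁ ⊔ N₂))) (by omega) _ rfl
      (isInv_orthIn hh hI hr0 hy hY hN₁₂inv) (Nd_orthIn hF hh hN₁₂Y hN₁₂Nd hNd) (hO₂.trans hYg)
    have horth : ∀ a ∈ T₀, ∀ c ∈ T', h a c = 0 := by
      intro a ha c hc
      exact swap0 hF hh ((hT'le hc).2 a (hT₀le ha))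
    refine ⟨T₀ ⊔ T', sup_le (hT₀le.trans hN₁₂Y) (hT'le.trans hO₂), hT₀.sup hT', TI_sup hF hh hT₀ti hT'ti horth, ?_⟩
    have h3 := Submodule.finrank_sup_add_finrank_inf_eq T₀ T'
    have h4 : T₀ ⊓ T' = ⊥ := by
      rw [eq_bot_iff]
      rintro x ⟨hx1, hx2⟩
      have h5 : x ∈ (N₁ ⊔ N₂) ⊓ orthIn hh Y (N₁ ⊔ N₂) := ⟨hT₀le hx1, hT'le hx2⟩
      rw [inf_orthIn hh hN₁₂Nd] at h5
      exact h5
    rw [h4, finrank_bot, add_zero, hT₀d] at h3
    omega


/-- Kernels of self-dual irreducible factors are nondegenerate. -/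
theorem Nd_ker_factor {r : ℕ} (hr : (r : F) ≠ 0) (hy : y ^ r = 1) {g k : F[X]} (hgh : Phi F r = g * k) (hco : IsCoprime (dualP hF g) k)
    (hco' : IsCoprime g k) : Nd h (LinearMap.ker (Polynomial.aeval y g)) := by
  intro u hu hu0
  have huK : u ∈ Ker y r := by
    rw [mem_Ker, hgh, mul_comm, map_mul, Module.End.mul_apply, LinearMap.mem_ker.1 hu, map_zero]
  obtain ⟨w, hw, hw'⟩ := Nd_Ker_top hF hh hI hr hy u huK hu0
  have h1 : w ∈ LinearMap.ker (Polynomial.aeval y g) ⊔ LinearMap.ker (Polynomial.aeval y k) := by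
    rw [Polynomial.sup_ker_aeval_eq_ker_aeval_mul_of_coprime y hco', ← hgh]
    exact hw
  obtain ⟨a, ha, b, hb, rfl⟩ := Submodule.mem_sup.1 h1
  refine ⟨a, ha, ?_⟩
  rw [hh.add_right hF, orth_dual hF hh hI hco (LinearMap.mem_ker.1 hu) (LinearMap.mem_ker.1 hb), add_zero] at hw'
  exact hw'

omit hF hh hI in
theorem isCoprime_of_assoc {a b c : F[X]} (hab : Associated a b) (hbc : IsCoprime b c) : IsCoprime a c := by
  obtain ⟨u, rfl⟩ := hab
  obtain ⟨x, z, hxz⟩ := hbc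
  exact ⟨x * u, z, by rw [← hxz]; ring⟩

/-- Self-dual case: half of the kernel of any divisor of `Φ_r`. -/
theorem exists_ti_dvd {r b : ℕ} (hr : (r : F) ≠ 0) (hy : y ^ r = 1) (hb : Odd b)
    (hyQ : y ^ (q ^ b + 1) = 1) (hfac : ∀ d, Irreducible d → d ∣ Phi F r → d.natDegree = b)
    (hsd : ∀ d, Irreducible d → d ∣ Phi F r → Associated (dualP hF d) d) (P : F[X]) :
    P ∣ Phi F r → ∃ T, IsInv y T ∧ T ≤ LinearMap.ker (Polynomial.aeval y P) ∧ TI h T ∧
      finrank F ↥(LinearMap.ker (Polynomial.aeval y P)) ≤ 2 * finrank F T + P.natDegree := by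
  have hbotTI : TI h (⊥ : Submodule F V) := fun u hu v _ => by rw [(Submodule.mem_bot F).1 hu]; exact hh.zero_left v
  induction P using WfDvdMonoid.induction_on_irreducible with
  | zero =>
    intro h'
    exact absurd (zero_dvd_iff.1 h') (Phi_ne_zero hr)
  | unit a ha =>
    intro _
    refine ⟨⊥, isInv_bot y, bot_le, hbotTI, ?_⟩
    have h1 : LinearMap.ker (Polynomial.aeval y a) = ⊥ := by
      rw [eq_bot_iff]
      intro u hu
      obtain ⟨c, hc⟩ := isUnit_iff_exists_inv.1 ha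
      rw [mul_comm] at hc
      have h3 := congrArg (fun p => Polynomial.aeval y p u) hc
      simp only [map_mul, Module.End.mul_apply, map_one, Module.End.one_apply, LinearMap.mem_ker.1 hu, map_zero] at h3
      rw [Submodule.mem_bot]
      exact h3.symm
    rw [h1, finrank_bot]
    omega
  | mul a g ha hg ih =>
    intro hdvd
    obtain ⟨T', hT', hT'le, hT'ti, hT'd⟩ := ih (dvd_of_mul_left_dvd hdvd)
    have hco : IsCoprime g a := by
      refine (hg.coprime_iff_not_dvd).2 ?_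
      rintro ⟨e, rfl⟩
      have h2 : g * g ∣ Phi F r := by
        refine dvd_trans ?_ hdvd
        exact ⟨e, by ring⟩
      exact hg.not_isUnit ((SpAtoms.squarefree_Phi hr) g h2)
    obtain ⟨k, hk⟩ : g ∣ Phi F r := (dvd_mul_right g a).trans hdvd
    have hco' : IsCoprime g k := by
      refine (hg.coprime_iff_not_dvd).2 ?_
      rintro ⟨e, rfl⟩
      have h2 : g * g ∣ Phi F r := ⟨e, by rw [hk]; ring⟩
      exact hg.not_isUnit ((SpAtoms.squarefree_Phi hr) g h2)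
    have hsdg := hsd g hg ⟨k, hk⟩
    have hNd := Nd_ker_factor hF hh hI hr hy hk (isCoprime_of_assoc hsdg hco') hco'
    have hdeg := hfac g hg ⟨k, hk⟩
    obtain ⟨T₀, hT₀le, hT₀, hT₀ti, hT₀d⟩ := exists_ti_half hF hh hI hg hdeg hb hyQ _ _ rfl (isInv_ker_aeval y g) hNd le_rfl
    have horth : ∀ u ∈ T₀, ∀ v ∈ T', h u v = 0 := fun u hu v hv =>
      orth_dual hF hh hI (isCoprime_of_assoc hsdg hco) (LinearMap.mem_ker.1 (hT₀le hu)) (LinearMap.mem_ker.1 (hT'le hv))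
    have hsup := Polynomial.sup_ker_aeval_eq_ker_aeval_mul_of_coprime y hco
    have hdis := Polynomial.disjoint_ker_aeval_of_isCoprime y hco
    refine ⟨T₀ ⊔ T', hT₀.sup hT', ?_, TI_sup hF hh hT₀ti hT'ti horth, ?_⟩
    · rw [← hsup]
      exact sup_le_sup hT₀le hT'le
    · have h1 := Submodule.finrank_sup_add_finrank_inf_eq (LinearMap.ker (Polynomial.aeval y g)) (LinearMap.ker (Polynomial.aeval y a))
      rw [hsup, hdis.eq_bot, finrank_bot, add_zero] at h1
      have h2 := Submodule.finrank_sup_add_finrank_inf_eq T₀ T'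
      have h3 : T₀ ⊓ T' = ⊥ := by
        rw [eq_bot_iff, ← hdis.eq_bot]
        exact inf_le_inf hT₀le hT'le
      rw [h3, finrank_bot, add_zero] at h2
      rw [h1, h2, natDegree_mul hg.ne_zero ha]
      omega

/-- Assembling an invariant totally isotropic subspace. -/
theorem exists_W {r i : ℕ} (hr : (r : F) ≠ 0) (hy : y ^ r = 1)
    (hfac : ∀ d, Irreducible d → d ∣ Phi F r → d.natDegree = i) {T₀ : Submodule F V} (hT₀ : IsInv y T₀) (hT₀K : T₀ ≤ Ker y r) (hT₀ti : TI h T₀)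
    {u K : ℕ} (hK : i * K ≤ finrank F T₀) (hu : 2 * u ≤ finrank F (Fix y)) :
    ∃ W : Submodule F V, finrank F W = u + i * K ∧ TI h W ∧ IsInv y W := by
  obtain ⟨T, hT, -, hTle, hTd⟩ := chain_exists hT₀ (Phi_ne_zero hr) hfac (fun v hv => hT₀K hv) (isInv_bot y) bot_le K
    (by rw [finrank_bot, zero_add]; exact hK)
  rw [finrank_bot, zero_add] at hTd
  obtain ⟨U, hUle, hUd, hUti⟩ := exists_ti_sub hF hh u (Nd_Fix_top hF hh hI hr hy) hu
  have hUinv : IsInv y U := by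
    intro v hv
    rw [mem_Fix.1 (hUle hv)]
    exact hv
  refine ⟨U ⊔ T, ?_, TI_sup hF hh hUti (hT₀ti.mono hTle) ?_, hUinv.sup hT⟩
  · rw [finrank_sup_of_le hr hUle (hTle.trans hT₀K), hUd, hTd]
  · intro a ha c hc
    exact orth_Fix_Ker hF hh hI hr (hUle ha) (hT₀K (hTle hc))

theorem split_W {r i : ℕ} (hr : (r : F) ≠ 0) (hy : y ^ r = 1) (hi : 0 < i)
    (hfac : ∀ d, Irreducible d → d ∣ Phi F r → d.natDegree = i) {W : Submodule F V} (hW : IsInv y W) (hti : TI h W) :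
    ∃ K, finrank F W = finrank F ↥(W ⊓ Fix y) + i * K ∧ finrank F ↥(W ⊓ Ker y r) = i * K ∧ 2 * finrank F ↥(W ⊓ Fix y) ≤ finrank F (Fix y) := by
  obtain ⟨K, hK⟩ := dvd_finrank (hW.inf (isInv_Ker y r)) (Phi_ne_zero hr) hi hfac (fun v hv => hv.2)
  refine ⟨K, ?_, hK, two_ti_le hF hh (Nd_Fix_top hF hh hI hr hy) inf_le_right (hti.mono inf_le_left)⟩
  rw [finrank_split hr hy hW, hK]

/-- If all factors but one occur at most once then invariant totally isotropic subspaces of `Ker` lie in the kernel of the remaining factor. -/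
theorem inf_Ker_le {r b : ℕ} (hr : (r : F) ≠ 0) (hy : y ^ r = 1) (hb : 0 < b) (hfac : ∀ d, Irreducible d → d ∣ Phi F r → d.natDegree = b)
    (hsd : ∀ d, Irreducible d → d ∣ Phi F r → Associated (dualP hF d) d)
    {g₀ k : F[X]} (hk : Phi F r = g₀ * k) (hco : IsCoprime g₀ k)
    (hother : ∀ g : F[X], g.Monic → Irreducible g → g ∣ k → finrank F (LinearMap.ker (Polynomial.aeval y g)) ≤ b)
    {W : Submodule F V} (hW : IsInv y W) (hti : TI h W) : W ⊓ Ker y r ≤ LinearMap.ker (Polynomial.aeval y g₀) := by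
  rintro u ⟨huW, huK⟩
  have hu0 := mem_Ker.1 huK
  obtain ⟨a, c, hac⟩ := hco
  have hu : Polynomial.aeval y (a * g₀) u + Polynomial.aeval y (c * k) u = u := by
    have h3 := congrArg (fun p => Polynomial.aeval y p u) hac
    simpa only [map_add, LinearMap.add_apply, map_one, Module.End.one_apply] using h3
  have hkill : Polynomial.aeval y k (Polynomial.aeval y (a * g₀) u) = 0 := by
    rw [← Module.End.mul_apply, ← map_mul]
    have h5 : k * (a * g₀) = a * Phi F r := by rw [hk]; ring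
    rw [h5, map_mul, Module.End.mul_apply, hu0, map_zero]
  have hh0 : k ≠ 0 := by
    rintro rfl
    rw [mul_zero] at hk
    exact Phi_ne_zero hr hk
  have hu2 : Polynomial.aeval y (a * g₀) u = 0 := by
    by_contra hne
    obtain ⟨g', hg', hg'h, f, hf, hgf⟩ := SpAtoms.exists_irr_kill (y := y) k hh0 _ hne hkill
    obtain ⟨g'', hm, hg'', h1, h2, hdeg⟩ := Cfsg.Agent.Lib.Classical.Elusive.PslNum.exists_monic_assoc hg'
    set w := Polynomial.aeval y f (Polynomial.aeval y (a * g₀) u) with hw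
    have hwW : w ∈ W := hW.aeval f (hW.aeval _ huW)
    have hg''w : Polynomial.aeval y g'' w = 0 := by
      obtain ⟨e, he⟩ := h2
      rw [he, mul_comm, map_mul, Module.End.mul_apply, hgf, map_zero]
    have hg''h : g'' ∣ k := h1.trans hg'h
    have hg''P : g'' ∣ Phi F r := hg''h.trans ⟨g₀, by rw [hk]; ring⟩
    obtain ⟨T, hT, hwT, hTd, hmin, -⟩ := TiBlock.exists_cyc hg'' hf hg''w
    have hTW : T ≤ W := hmin W hW hwW
    have hTk : T ≤ LinearMap.ker (Polynomial.aeval y g'') := hmin _ (isInv_ker_aeval y g'') hg''w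
    obtain ⟨e, he⟩ := hg''P
    have hco' : IsCoprime g'' e := by
      refine (hg''.coprime_iff_not_dvd).2 ?_
      rintro ⟨e', rfl⟩
      have h2' : g'' * g'' ∣ Phi F r := ⟨e', by rw [he]; ring⟩
      exact hg''.not_isUnit ((SpAtoms.squarefree_Phi hr) g'' h2')
    have hNd := Nd_ker_factor hF hh hI hr hy he (isCoprime_of_assoc (hsd g'' hg'' ⟨e, he⟩) hco') hco'
    have h3 := two_ti_le hF hh hNd hTk (hti.mono hTW)
    have h4 := hother g'' hm hg'' hg''h
    have h5 := hfac g'' hg'' ⟨e, he⟩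
    rw [hTd, h5] at h3
    omega
  rw [hu2, zero_add] at hu
  rw [LinearMap.mem_ker, ← hu, ← Module.End.mul_apply, ← map_mul]
  have h5 : g₀ * (c * k) = c * Phi F r := by rw [hk]; ring
  rw [h5, map_mul, Module.End.mul_apply, hu0, map_zero]

/-- The bound. -/
theorem two_inf_Ker_le {r b : ℕ} (hr : (r : F) ≠ 0) (hy : y ^ r = 1) (hb : 0 < b) (hfac : ∀ d, Irreducible d → d ∣ Phi F r → d.natDegree = b)
    (hsd : ∀ d, Irreducible d → d ∣ Phi F r → Associated (dualP hF d) d)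
    {g₀ k : F[X]} (hg₀ : Irreducible g₀) (hk : Phi F r = g₀ * k) (hco : IsCoprime g₀ k)
    (hother : ∀ g : F[X], g.Monic → Irreducible g → g ∣ k → finrank F (LinearMap.ker (Polynomial.aeval y g)) ≤ b)
    {W : Submodule F V} (hW : IsInv y W) (hti : TI h W) :
    2 * finrank F ↥(W ⊓ Ker y r) ≤ finrank F (LinearMap.ker (Polynomial.aeval y g₀)) :=
  two_ti_le hF hh (Nd_ker_factor hF hh hI hr hy hk (isCoprime_of_assoc (hsd g₀ hg₀ ⟨k, hk⟩) hco) hco) (inf_Ker_le hF hh hI hr hy hb hfac hsd hk hco hother hW hti) (hti.mono inf_le_left)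

end Vec

end Cfsg.Agent.Lib.Classical.Elusive.USelfDual
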