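import Mathlib
import Cfsg.Agent.Lib.Classical.Elusive.USelfDual

/-!
# Non-self-dual blocks and the existence of invariant totally isotropic subspaces
-/

set_option autoImplicit false
set_option linter.unusedSectionVars false
set_option linter.unusedSimpArgs false
set_option linter.unusedVariables false
set_option linter.style.haveILetI false

namespace Cfsg.Agent.Lib.Classical.Elusive.USuff

open Polynomial Module
open Cfsg.Agent.Lib.Classical.Elusive.Inv Cfsg.Agent.Lib.Classical.Elusive.UCore Cfsg.Agent.Lib.Classical.Elusive.USelfDual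
open Cfsg.Agent.Lib.Classical.Herm.HermOnb Cfsg.Agent.Lib.Classical.Herm.Basic
open Cfsg.Agent.Lib.Classical.Herm.Wall

section Poly

variable {F : Type*} [Field F] [Fintype F] {q : ℕ} (hF : Fintype.card F = q ^ 2)
include hF

theorem dualP_Phi {r : ℕ} (hr0 : 0 < r) : dualP hF (Phi F r) = Phi F r := by
  have h1 := congrArg (dualP hF) (Phi_mul (F := F) (r := r))
  rw [dualP_mul, dualP_X_sub_one, Cfsg.Agent.Lib.Classical.Herm.CycGU.dualP_X_pow_sub_one hF hr0, ← Phi_mul] at h1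
  have h3 : (X - 1 : F[X]) ≠ 0 := by
    intro h2
    exact X_sub_C_ne_zero (1 : F) (by simpa using h2)
  exact mul_right_cancel₀ h3 h1

theorem Phi_monic {r : ℕ} (hr0 : 0 < r) : (Phi F r).Monic := by
  have h1 : (X ^ r - 1 : F[X]).Monic := by
    have := monic_X_pow_sub_C (1 : F) hr0.ne'
    simpa using this
  rw [← Phi_mul] at h1
  have h2 : (X - 1 : F[X]).Monic := by
    have := monic_X_sub_C (1 : F)
    simpa using this
  exact Monic.of_mul_monic_right h2 h1

theorem coeff_zero_of_dvd {a b : F[X]} (hab : a ∣ b) (h0 : b.coeff 0 ≠ 0) : a.coeff 0 ≠ 0 := by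
  obtain ⟨c, rfl⟩ := hab
  rw [mul_coeff_zero] at h0
  exact left_ne_zero_of_mul h0

theorem Phi_coeff_zero {r : ℕ} (hr0 : 0 < r) : (Phi F r).coeff 0 ≠ 0 := by
  refine coeff_zero_of_dvd hF (a := Phi F r) (b := X ^ r - 1) ⟨X - 1, (Phi_mul (F := F) (r := r)).symm⟩ ?_
  rw [coeff_sub, coeff_X_pow, if_neg (by omega), coeff_one_zero]
  simp

/-- Without self-dual factors a self-dual polynomial is a product `P₁ P₁*`. -/
theorem exists_split : ∀ (n : ℕ) (P : F[X]), P.natDegree = n → P.Monic → Squarefree P → P.coeff 0 ≠ 0 → dualP hF P = P →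
    (∀ g : F[X], g.Monic → Irreducible g → g ∣ P → dualP hF g ≠ g) → ∃ P₁ : F[X], P₁.Monic ∧ P = P₁ * dualP hF P₁ := by
  intro n
  induction n using Nat.strong_induction_on with
  | _ n ih =>
    intro P hn hm hsq h0 hd hne
    by_cases hn0 : P.natDegree = 0
    · refine ⟨1, monic_one, ?_⟩
      rw [dualP_one, mul_one]
      exact Polynomial.eq_one_of_monic_natDegree_zero hm hn0
    have hnu : ¬ IsUnit P := by
      intro hu
      exact hn0 (natDegree_eq_zero_of_isUnit hu)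
    obtain ⟨g₁, hg₁, hdvd⟩ := WfDvdMonoid.exists_irreducible_factor hnu hm.ne_zero
    obtain ⟨g, hgm, hg, h1, h2, hdeg⟩ := Cfsg.Agent.Lib.Classical.Elusive.PslNum.exists_monic_assoc hg₁
    have hgP : g ∣ P := h1.trans hdvd
    have h0g : g.coeff 0 ≠ 0 := coeff_zero_of_dvd hF hgP h0
    have hg'm := dualP_monic hF hgm h0g
    have hg'i := irreducible_dualP hF hgm h0g hg
    have hg'P : dualP hF g ∣ P := by
      obtain ⟨c, hc⟩ := hgP
      refine ⟨dualP hF c, ?_⟩
      rw [← dualP_mul, ← hc, hd]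
    have hngg := hne g hgm hg hgP
    have hco : IsCoprime g (dualP hF g) := by
      refine (hg.coprime_iff_not_dvd).2 ?_
      intro h3
      exact hngg (eq_of_monic_of_associated hg'm hgm (hg.associated_of_dvd hg'i h3).symm)
    obtain ⟨P', hP'⟩ := hco.mul_dvd hgP hg'P
    have hggm : (g * dualP hF g).Monic := hgm.mul hg'm
    have hP'm : P'.Monic := Monic.of_mul_monic_left hggm (by rw [← hP']; exact hm)
    have hdegP : P.natDegree = g.natDegree + (dualP hF g).natDegree + P'.natDegree := by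
      rw [hP', hggm.natDegree_mul hP'm, hgm.natDegree_mul hg'm]
    have hgdeg := hg.natDegree_pos
    have hP'sq : Squarefree P' := hsq.squarefree_of_dvd ⟨g * dualP hF g, by rw [hP']; ring⟩
    have hP'0 : P'.coeff 0 ≠ 0 := coeff_zero_of_dvd hF ⟨g * dualP hF g, by rw [hP']; ring⟩ h0
    have hP'd : dualP hF P' = P' := by
      have h3 := hd
      rw [hP', dualP_mul, dualP_mul, dualP_dualP hF hgm h0g] at h3
      have h4 : (g * dualP hF g) * dualP hF P' = (g * dualP hF g) * P' := by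
        rw [← h3]
        ring
      exact mul_left_cancel₀ hggm.ne_zero h4
    obtain ⟨P₁, hP₁m, hP₁⟩ := ih P'.natDegree (by omega) P' rfl hP'm hP'sq hP'0 hP'd
      (fun c hcm hci hcd => hne c hcm hci (hcd.trans ⟨g * dualP hF g, by rw [hP']; ring⟩))
    refine ⟨g * P₁, hgm.mul hP₁m, ?_⟩
    rw [dualP_mul, hP', hP₁]
    ring

end Poly

section Num

theorem num_nsd {b n m e A : ℕ} (hb : 0 < b) (h1 : e + 2 * b * A = n) (h2 : 2 * (m % b) ≤ n % (2 * b)) (h3 : 2 * m ≤ n) :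
    ∃ u K, K ≤ A ∧ u + b * K = m ∧ 2 * u ≤ e := by
  by_cases hc : m / b ≤ A
  · refine ⟨m % b, m / b, hc, by rw [add_comm]; exact Nat.div_add_mod _ _, ?_⟩
    have h4 : n % (2 * b) = e % (2 * b) := by
      rw [← h1, Nat.add_mul_mod_self_left]
    have h5 := Nat.mod_le e (2 * b)
    omega
  · push Not at hc
    have h4 : b * A ≤ b * (m / b) := Nat.mul_le_mul_left _ hc.le
    have h5 := Nat.mul_div_le m b
    have h6 : 2 * b * A = 2 * (b * A) := by ring
    refine ⟨m - b * A, A, le_rfl, by omega, by omega⟩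

theorem num_sd {b n m e A K₀ s : ℕ} (hb : 0 < b) (h1 : e + b * A = n) (h2 : A ≤ 2 * K₀ + s)
    (h3 : 2 * (m % b) ≤ n % b) (h4 : s + 2 * (m / b) ≤ n / b) : ∃ u K, K ≤ K₀ ∧ u + b * K = m ∧ 2 * u ≤ e := by
  obtain ⟨n', hn'⟩ : ∃ n', n' = n / b := ⟨_, rfl⟩
  obtain ⟨k, hk⟩ : ∃ k, k = n % b := ⟨_, rfl⟩
  obtain ⟨l, hl⟩ : ∃ l, l = m % b := ⟨_, rfl⟩
  obtain ⟨m', hm'⟩ : ∃ m', m' = m / b := ⟨_, rfl⟩
  have hd1 : b * n' + k = n := by
    rw [hn', hk]
    exact Nat.div_add_mod _ _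
  have hk1 : k < b := by
    rw [hk]
    exact Nat.mod_lt _ hb
  have hm1 : b * m' + l = m := by
    rw [hm', hl]
    exact Nat.div_add_mod _ _
  rw [← hk, ← hl] at h3
  rw [← hn', ← hm'] at h4
  have hAn : A ≤ n' := by
    by_contra hc
    push Not at hc
    have h5 : b * (n' + 1) ≤ b * A := Nat.mul_le_mul_left _ hc
    have h6 : b * (n' + 1) = b * n' + b := by ring
    omega
  obtain ⟨j, rfl⟩ : ∃ j, n' = A + j := ⟨n' - A, by omega⟩
  have h7 : b * (A + j) = b * A + b * j := by ring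
  have h8 : e = b * j + k := by omega
  by_cases hc : m' ≤ K₀
  · refine ⟨l, m', hc, by omega, by omega⟩
  · push Not at hc
    obtain ⟨s', rfl⟩ : ∃ s', m' = K₀ + s' := ⟨m' - K₀, by omega⟩
    have h9 : b * (K₀ + s') = b * K₀ + b * s' := by ring
    have h10 : 2 * s' ≤ j := by omega
    have h11 : b * (2 * s') ≤ b * j := Nat.mul_le_mul_left _ h10
    have h12 : b * (2 * s') = 2 * (b * s') := by ring
    refine ⟨l + b * s', K₀, le_rfl, by omega, by omega⟩

end Num

section Vec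

variable {F V : Type*} [Field F] [Fintype F] [AddCommGroup V] [Module F V] [FiniteDimensional F V] {q : ℕ} {h : V → V → F}
  (hF : Fintype.card F = q ^ 2) (hh : IsHerm q h) {y : Module.End F V} (hI : ∀ u v, h (y u) (y v) = h u v)
include hF hh hI

/-- No self-dual factor: the kernel of `Φ_r` is twice a totally isotropic subspace. -/
theorem exists_half_nsd {r : ℕ} (hr : (r : F) ≠ 0) (hr0 : 0 < r) (hy : y ^ r = 1)
    (hne : ∀ g : F[X], g.Monic → Irreducible g → g ∣ Phi F r → dualP hF g ≠ g) :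
    ∃ T, IsInv y T ∧ T ≤ Ker y r ∧ TI h T ∧ finrank F (Ker y r) = 2 * finrank F T := by
  obtain ⟨P₁, hP₁m, hP₁⟩ := exists_split hF _ (Phi F r) rfl (Phi_monic hF hr0) (SpAtoms.squarefree_Phi hr) (Phi_coeff_zero hF hr0) (dualP_Phi hF hr0) hne
  have h0P₁ : P₁.coeff 0 ≠ 0 := coeff_zero_of_dvd hF ⟨_, hP₁⟩ (Phi_coeff_zero hF hr0)
  set P₂ := dualP hF P₁ with hP₂
  have hP₂₂ : dualP hF P₂ = P₁ := dualP_dualP hF hP₁m h0P₁
  have hsq := SpAtoms.squarefree_Phi (F := F) hr
  rw [hP₁] at hsq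
  have hco : IsCoprime P₁ P₂ := (squarefree_mul_iff.1 hsq).1.isCoprime
  let T := LinearMap.ker (Polynomial.aeval y P₁)
  let T' := LinearMap.ker (Polynomial.aeval y P₂)
  have hsup : T ⊔ T' = Ker y r := by
    show LinearMap.ker (Polynomial.aeval y P₁) ⊔ LinearMap.ker (Polynomial.aeval y P₂) = LinearMap.ker (Polynomial.aeval y (Phi F r))
    rw [Polynomial.sup_ker_aeval_eq_ker_aeval_mul_of_coprime y hco, ← hP₁]
  have hTle : T ≤ Ker y r := by
    rw [← hsup]
    exact le_sup_left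
  have hTti : TI h T := fun u hu v hv =>
    orth_dual hF hh hI hco.symm (LinearMap.mem_ker.1 hu) (LinearMap.mem_ker.1 hv)
  have hT'ti : TI h T' := fun u hu v hv =>
    orth_dual hF hh hI (by rw [hP₂₂]; exact hco) (LinearMap.mem_ker.1 hu) (LinearMap.mem_ker.1 hv)
  have hNd := Nd_Ker_top hF hh hI hr hy
  refine ⟨T, isInv_ker_aeval y P₁, hTle, hTti, ?_⟩
  have h1 := finrank_orthIn hF hh hNd hTle
  have h2 : orthIn hh (Ker y r) T = T := by
    apply le_antisymm
    · intro u hu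
      have h3 : u ∈ T ⊔ T' := by
        rw [hsup]
        exact hu.1
      obtain ⟨a, ha, b, hb, rfl⟩ := Submodule.mem_sup.1 h3
      have hb0 : b = 0 := by
        by_contra hb0
        obtain ⟨w, hw, hw'⟩ := hNd b (by
          have : T' ≤ Ker y r := by
            rw [← hsup]
            exact le_sup_right
          exact this hb) hb0
        rw [← hsup] at hw
        obtain ⟨c, hc, d, hd, rfl⟩ := Submodule.mem_sup.1 hw
        have h4 : h b c = 0 := by
          have h5 := hu.2 c hc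
          rw [hh.add_left, hTti a ha c hc, zero_add] at h5
          exact h5
        rw [hh.add_right hF, h4, hT'ti b hb d hd, add_zero] at hw'
        exact hw' rfl
      rw [hb0, add_zero]
      exact ha
    · intro u hu
      exact ⟨hTle hu, fun s hs => hTti u hu s hs⟩
  rw [h2] at h1
  omega

/-- Sufficiency in the non-self-dual case, with `y ^ r = 1`. -/
theorem suff_nsd {r b n m : ℕ} (hr : (r : F) ≠ 0) (hr0 : 0 < r) (hy : y ^ r = 1) (hb : 0 < b)
    (hfac : ∀ d, Irreducible d → d ∣ Phi F r → d.natDegree = b)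
    (hne : ∀ g : F[X], g.Monic → Irreducible g → g ∣ Phi F r → dualP hF g ≠ g)
    (hdim : finrank F V = n) (hnum : 2 * (m % b) ≤ n % (2 * b)) (hmn : 2 * m ≤ n) :
    ∃ W : Submodule F V, finrank F W = m ∧ TI h W ∧ IsInv y W := by
  obtain ⟨T₀, hT₀, hT₀K, hT₀ti, hT₀d⟩ := exists_half_nsd hF hh hI hr hr0 hy hne
  obtain ⟨A, hA⟩ := dvd_finrank hT₀ (Phi_ne_zero hr) hb hfac (fun v hv => hT₀K hv)
  have hfd := SpCore.finrank_Fix_add hr hy
  rw [hdim, hT₀d, hA] at hfd
  obtain ⟨u, K, hKA, huK, hu⟩ := num_nsd (e := finrank F (Fix y)) (A := A) hb (by rw [← hfd]; ring) hnum hmn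
  obtain ⟨W, h1, h2, h3⟩ := exists_W hF hh hI hr hy hfac hT₀ hT₀K hT₀ti (u := u) (K := K)
    (by rw [hA]; exact Nat.mul_le_mul_left _ hKA) hu
  exact ⟨W, by rw [h1, huK], h2, h3⟩

/-- Sufficiency in the self-dual case, with `y ^ r = 1`. -/
theorem suff_sd {r b s n m : ℕ} (hr : (r : F) ≠ 0) (hr0 : 0 < r) (hy : y ^ r = 1) (hb : Odd b) (hyQ : y ^ (q ^ b + 1) = 1)
    (hfac : ∀ d, Irreducible d → d ∣ Phi F r → d.natDegree = b)
    (hsd : ∀ d, Irreducible d → d ∣ Phi F r → Associated (dualP hF d) d) (hrs : r - 1 = b * s)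
    (hdim : finrank F V = n) (hnum : 2 * (m % b) ≤ n % b) (hs : s + 2 * (m / b) ≤ n / b) :
    ∃ W : Submodule F V, finrank F W = m ∧ TI h W ∧ IsInv y W := by
  have hb0 : 0 < b := hb.pos
  obtain ⟨T₀, hT₀, hT₀le, hT₀ti, hT₀d⟩ := exists_ti_dvd hF hh hI hr hy hb hyQ hfac hsd (Phi F r) dvd_rfl
  have hT₀K : T₀ ≤ Ker y r := hT₀le
  have hdeg : (Phi F r).natDegree = r - 1 := TiBlock.natDegree_Phi hr hr0
  obtain ⟨K₀, hK₀⟩ := dvd_finrank hT₀ (Phi_ne_zero hr) hb0 hfac (fun v hv => hT₀K hv)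
  obtain ⟨A, hA⟩ := dvd_finrank (isInv_Ker y r) (Phi_ne_zero hr) hb0 hfac (fun v hv => hv)
  have hT₀d' : finrank F (Ker y r) ≤ 2 * finrank F T₀ + (r - 1) := by
    rw [← hdeg]
    exact hT₀d
  rw [hA, hK₀, hrs] at hT₀d'
  have hAle : A ≤ 2 * K₀ + s := by
    have h1 : b * A ≤ b * (2 * K₀ + s) := by
      calc b * A ≤ 2 * (b * K₀) + b * s := hT₀d'
        _ = b * (2 * K₀ + s) := by ring
    exact Nat.le_of_mul_le_mul_left h1 hb0
  have hfd := SpCore.finrank_Fix_add hr hy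
  rw [hdim, hA] at hfd
  obtain ⟨u, K, hKA, huK, hu⟩ := num_sd hb0 hfd hAle hnum hs
  obtain ⟨W, h1, h2, h3⟩ := exists_W hF hh hI hr hy hfac hT₀ hT₀K hT₀ti (u := u) (K := K)
    (by rw [hK₀]; exact Nat.mul_le_mul_left _ hKA) hu
  exact ⟨W, by rw [h1, huK], h2, h3⟩

/-- Sufficiency when the polynomial `g` of odd degree kills `y`. -/
theorem suff_irr {g : F[X]} (hg : Irreducible g) {d n m : ℕ} (hdeg : g.natDegree = d) (hd : Odd d) (hyQ : y ^ (q ^ d + 1) = 1)
    (hgy : Polynomial.aeval y g = 0) (hdim : finrank F V = n) (hdm : d ∣ m) (hmn : 2 * m ≤ n) :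
    ∃ W : Submodule F V, finrank F W = m ∧ TI h W ∧ IsInv y W := by
  have hd0 : 0 < d := hd.pos
  have hker : LinearMap.ker (Polynomial.aeval y g) = ⊤ := by
    rw [hgy]
    exact LinearMap.ker_zero
  obtain ⟨T₀, hT₀le, hT₀, hT₀ti, hT₀d⟩ := exists_ti_half hF hh hI hg hdeg hd hyQ _ ⊤ rfl (isInv_top y) (Nd_top hh) (le_top.trans_eq hker.symm)
  rw [finrank_top, hdim, hdeg] at hT₀d
  have hfac : ∀ d', Irreducible d' → d' ∣ g → d'.natDegree = d := by
    intro d' hd' hdvd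
    obtain ⟨c, hc⟩ := hdvd
    have h5 := (hg.isUnit_or_isUnit hc).resolve_left hd'.not_isUnit
    have h6 : g.natDegree = d'.natDegree := by
      rw [hc, natDegree_mul hd'.ne_zero h5.ne_zero, natDegree_eq_zero_of_isUnit h5, add_zero]
    omega
  have hdv : ∀ v : V, Polynomial.aeval y g v = 0 := fun v => by rw [hgy]; rfl
  obtain ⟨a, ha⟩ := dvd_finrank hT₀ hg.ne_zero hd0 hfac (fun v _ => hdv v)
  obtain ⟨n', hn'⟩ := dvd_finrank (isInv_top y) hg.ne_zero hd0 hfac (fun v _ => hdv v)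
  rw [finrank_top, hdim] at hn'
  obtain ⟨m', hm'⟩ := hdm
  have hle : m' ≤ a := by
    rw [ha, hn'] at hT₀d
    rw [hm', hn'] at hmn
    have h1 : d * n' ≤ d * (2 * a + 1) := by
      calc d * n' ≤ 2 * (d * a) + d := hT₀d
        _ = d * (2 * a + 1) := by ring
    have h2 := Nat.le_of_mul_le_mul_left h1 hd0
    have h3 : d * (2 * m') ≤ d * n' := by
      calc d * (2 * m') = 2 * (d * m') := by ring
        _ ≤ d * n' := hmn
    have h4 := Nat.le_of_mul_le_mul_left h3 hd0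
    omega
  obtain ⟨T, hT, -, hTle, hTd⟩ := chain_exists hT₀ hg.ne_zero hfac (fun v _ => hdv v) (isInv_bot y) bot_le m'
    (by rw [finrank_bot, zero_add, ha]; exact Nat.mul_le_mul_left _ hle)
  rw [finrank_bot, zero_add] at hTd
  exact ⟨T, by rw [hTd, hm'], hT₀ti.mono hTle, hT⟩

end Vec

end Cfsg.Agent.Lib.Classical.Elusive.USuff
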