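import Mathlib
import Cfsg.Agent.Lib.Classical.Elusive.USuff
import Cfsg.Agent.Lib.Classical.Elusive.UCount
import Cfsg.Agent.Lib.Classical.Herm.SU

/-!
# Models of semisimple elements of the unitary group
-/

set_option autoImplicit false
set_option linter.unusedSectionVars false
set_option linter.unusedSimpArgs false
set_option linter.unusedVariables false
set_option linter.style.haveILetI false

namespace Cfsg.Agent.Lib.Classical.Elusive.UModel

open Polynomial Module Matrix
open Cfsg.Agent.Lib.Classical.Elusive.Inv Cfsg.Agent.Lib.Classical.Elusive.UCore Cfsg.Agent.Lib.Classical.Elusive.USelfDual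
  Cfsg.Agent.Lib.Classical.Elusive.USuff
open Cfsg.Agent.Lib.Classical.Herm.HermOnb Cfsg.Agent.Lib.Classical.Herm.Basic
open Cfsg.Agent.Lib.Classical.Herm.Wall Cfsg.Agent.Lib.Classical.Herm.GU Cfsg.Agent.Lib.Classical.Herm.SU
open Cfsg.Agent.Lib.Linalg.RCF Cfsg.Agent.Lib.Linalg.RCFType

attribute [local instance] _root_.Classical.propDecidable

variable {F : Type*} [Field F] [Fintype F] {q n : ℕ}

theorem sum_count (L : Multiset F[X]) (p : F[X]) :
    (L.map fun g => if g = p then p.natDegree * (1 - 1) else g.natDegree * 1).sum + p.natDegree * L.count p =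
      (L.map fun g => 1 * g.natDegree).sum := by
  induction L using Multiset.induction_on with
  | empty => simp
  | cons a L ih =>
    simp only [Multiset.map_cons, Multiset.sum_cons, Multiset.count_cons]
    by_cases h : a = p
    · subst h
      simp only [if_true, Nat.sub_self, mul_zero, zero_add, one_mul, mul_add, mul_one] at ih ⊢
      omega
    · simp only [if_neg h, if_neg (Ne.symm h)]
      simp only [mul_one, one_mul, add_zero] at ih ⊢
      omega

theorem finrank_ker_of_type {M : Matrix (Fin n) (Fin n) F} {L : Multiset F[X]} (hM : matType M = L.map (fun g => (g, 1)))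
    {p : F[X]} (hpm : p.Monic) (hpi : Irreducible p) :
    finrank F (LinearMap.ker (aeval (Matrix.toLin' M) p)) = p.natDegree * L.count p := by
  have h1 := finrank_range_aeval_type (Matrix.toLin' M) hpm hpi 1
  rw [pow_one] at h1
  have h2 : typeOf (Matrix.toLin' M) = L.map (fun g => (g, 1)) := hM
  rw [h2, Multiset.map_map] at h1
  have h3 := sum_matType M
  rw [hM, Multiset.map_map, Fintype.card_fin] at h3
  have h4 := LinearMap.finrank_range_add_finrank_ker (aeval (Matrix.toLin' M) p)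
  rw [Module.finrank_fintype_fun_eq_card, Fintype.card_fin] at h4
  have h5 := sum_count L p
  have h6 : (L.map (fun x => 1 * x.natDegree)).sum = n := h3
  have h7 : finrank F (LinearMap.range (aeval (Matrix.toLin' M) p)) = (L.map fun g => if g = p then p.natDegree * (1 - 1) else g.natDegree * 1).sum := by
    rw [h1]
    rfl
  omega

theorem aeval_of_type {M : Matrix (Fin n) (Fin n) F} {L : Multiset F[X]} (hM : matType M = L.map (fun g => (g, 1)))
    {f : F[X]} (hf : ∀ g ∈ L, g ∣ f) : aeval M f = 0 := by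
  rw [aeval_matrix_eq_zero_iff, hM]
  intro a ha
  obtain ⟨g, hg, rfl⟩ := Multiset.mem_map.1 ha
  simpa using hf g hg

theorem exists_model (hF : Fintype.card F = q ^ 2) (L : Multiset F[X]) (hL : ∀ g ∈ L, g.Monic ∧ Irreducible g ∧ g ≠ X)
    (hn : (L.map natDegree).sum = n) (hd : L.map (dualP hF) = L) :
    ∃ M : Matrix (Fin n) (Fin n) F, Preserves q M ∧ M.charpoly = L.prod ∧ matType M = L.map (fun g => (g, 1)) := by
  have hτ : IsGLType (Fin n) F (L.map (fun g => (g, 1))) := by
    constructor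
    · intro a ha
      obtain ⟨g, hg, rfl⟩ := Multiset.mem_map.1 ha
      exact ⟨⟨(hL g hg).1, (hL g hg).2.1, one_pos⟩, (hL g hg).2.2⟩
    · rw [Multiset.map_map, Fintype.card_fin, ← hn]
      simp
  have hdual : dualT hF (L.map (fun g => (g, 1))) = L.map (fun g => (g, 1)) := by
    rw [dualT, Multiset.map_map]
    conv_rhs => rw [← hd, Multiset.map_map]
    rfl
  obtain ⟨g, hg⟩ := exists_GU_of_type hF hτ hdual
  refine ⟨((g : GL (Fin n) F) : Matrix (Fin n) (Fin n) F), g.2, ?_, hg⟩
  rw [charpoly_eq_prod_matType, hg, Multiset.map_map]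
  simp

/-- The left-hand side of the statement. -/
def LHS (F : Type*) [Field F] (q n m r : ℕ) : Prop :=
  ∀ x : Matrix.SpecialLinearGroup (Fin n) F, x ∈ Cfsg.SU n F q →
      (∃ z : F, ((x ^ r : Matrix.SpecialLinearGroup (Fin n) F) : Matrix (Fin n) (Fin n) F) = z • (1 : Matrix (Fin n) (Fin n) F)) →
      (∀ z : F, (x : Matrix (Fin n) (Fin n) F) ≠ z • (1 : Matrix (Fin n) (Fin n) F)) →
      ∃ W : Submodule F (Fin n → F), Module.finrank F ↥W = m ∧ (∀ u ∈ W, ∀ v ∈ W, Cfsg.hermForm n F q u v = 0) ∧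
        W.map (Matrix.toLin' (x : Matrix (Fin n) (Fin n) F)) ≤ W

theorem apply_H {m r : ℕ} (H : LHS F q n m r) {M : Matrix (Fin n) (Fin n) F} (hP : Preserves q M) (hdet : M.det = 1) {z : F}
    (hz : M ^ r = z • (1 : Matrix (Fin n) (Fin n) F)) (hns : ∀ c : F, M ≠ c • (1 : Matrix (Fin n) (Fin n) F)) :
    ∃ W : Submodule F (Fin n → F), finrank F W = m ∧ TI (Cfsg.hermForm n F q) W ∧ IsInv (Matrix.toLin' M) W := by
  let x : Matrix.SpecialLinearGroup (Fin n) F := ⟨M, hdet⟩
  obtain ⟨W, h1, h2, h3⟩ := H x hP ⟨z, by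
    rw [Matrix.SpecialLinearGroup.coe_pow]
    exact hz⟩ hns
  exact ⟨W, h1, h2, fun u hu => h3 ⟨u, hu, rfl⟩⟩

theorem toLin_pow_scalar {M : Matrix (Fin n) (Fin n) F} {r : ℕ} {z : F} (hz : M ^ r = z • (1 : Matrix (Fin n) (Fin n) F)) :
    (Matrix.toLin' M) ^ r = z • (1 : Module.End F (Fin n → F)) := by
  rw [← Matrix.toLin'_pow, hz]
  apply LinearMap.ext
  intro v
  simp [Matrix.toLin'_apply, Matrix.smul_mulVec]

theorem pow_scalar_of_aeval {M : Matrix (Fin n) (Fin n) F} {r : ℕ} {z : F} (h : aeval M (X ^ r - C z : F[X]) = 0) :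
    M ^ r = z • (1 : Matrix (Fin n) (Fin n) F) := by
  rw [map_sub, map_pow, aeval_X, aeval_C, sub_eq_zero] at h
  rw [h, Matrix.algebraMap_eq_diagonal]
  ext i j
  simp [Matrix.one_apply, Matrix.diagonal_apply]

/-- A scalar matrix has only one irreducible factor. -/
theorem eq_of_scalar {M : Matrix (Fin n) (Fin n) F} {c : F} (hM : M = c • (1 : Matrix (Fin n) (Fin n) F)) {g : F[X]} (hgm : g.Monic)
    (hg : Irreducible g) (hk : finrank F (LinearMap.ker (aeval (Matrix.toLin' M) g)) ≠ 0) : g = X - C c := by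
  have h1 : Matrix.toLin' M = algebraMap F (Module.End F (Fin n → F)) c := by
    apply LinearMap.ext
    intro v
    rw [hM]
    simp [Matrix.toLin'_apply, Matrix.smul_mulVec, Module.algebraMap_end_apply]
  rw [h1, aeval_algebraMap_apply_eq_algebraMap_eval] at hk
  have h2 : g.eval c = 0 := by
    by_contra h3
    apply hk
    rw [Submodule.finrank_eq_zero, eq_bot_iff]
    intro v hv
    rw [LinearMap.mem_ker, Module.algebraMap_end_apply] at hv
    exact (smul_eq_zero.1 hv).resolve_left h3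
  have h3 : (X - C c) ∣ g := Polynomial.dvd_iff_isRoot.2 h2
  exact (eq_of_monic_of_associated (monic_X_sub_C c) hgm ((irreducible_X_sub_C c).associated_of_dvd hg h3)).symm

/-- Application of the hypothesis to a model. -/
theorem model_W {m r : ℕ} (hF : Fintype.card F = q ^ 2) (H : LHS F q n m r) (L : Multiset F[X]) (hL : ∀ g ∈ L, g.Monic ∧ Irreducible g ∧ g ≠ X)
    (hn : (L.map natDegree).sum = n) (hd : L.map (dualP hF) = L) {z : F} (hLz : ∀ g ∈ L, g ∣ (X ^ r - C z : F[X]))
    (hdet : ∀ M : Matrix (Fin n) (Fin n) F, Preserves q M → M.charpoly = L.prod → M ^ r = z • (1 : Matrix (Fin n) (Fin n) F) → M.det = 1)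
    (hns : (∃ g ∈ L, 2 ≤ g.natDegree) ∨ ∃ g₁ ∈ L, ∃ g₂ ∈ L, g₁ ≠ g₂) :
    ∃ y : Module.End F (Fin n → F), (∀ u v, Cfsg.hermForm n F q (y u) (y v) = Cfsg.hermForm n F q u v) ∧ y ^ r = z • (1 : Module.End F (Fin n → F)) ∧
      (∀ p : F[X], p.Monic → Irreducible p → finrank F (LinearMap.ker (aeval y p)) = p.natDegree * L.count p) ∧
      ∃ W : Submodule F (Fin n → F), finrank F W = m ∧ TI (Cfsg.hermForm n F q) W ∧ IsInv y W := by
  obtain ⟨M, hP, hch, hτ⟩ := exists_model (n := n) hF L hL hn hd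
  have hz : M ^ r = z • (1 : Matrix (Fin n) (Fin n) F) := pow_scalar_of_aeval (aeval_of_type hτ hLz)
  have hker : ∀ p : F[X], p.Monic → Irreducible p → finrank F (LinearMap.ker (aeval (Matrix.toLin' M) p)) = p.natDegree * L.count p :=
    fun p hpm hpi => finrank_ker_of_type hτ hpm hpi
  have hns' : ∀ c : F, M ≠ c • (1 : Matrix (Fin n) (Fin n) F) := by
    intro c hc
    have hall : ∀ g ∈ L, g = X - C c := by
      intro g hg
      refine eq_of_scalar hc (hL g hg).1 (hL g hg).2.1 ?_
      rw [hker g (hL g hg).1 (hL g hg).2.1]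
      have h1 := (hL g hg).2.1.natDegree_pos
      have h2 : 0 < L.count g := Multiset.count_pos.2 hg
      positivity
    rcases hns with ⟨g, hg, hg2⟩ | ⟨g₁, hg₁, g₂, hg₂, hne⟩
    · rw [hall g hg, natDegree_X_sub_C] at hg2
      omega
    · exact hne ((hall g₁ hg₁).trans (hall g₂ hg₂).symm)
  obtain ⟨W, h1, h2, h3⟩ := apply_H H hP (hdet M hP hch hz) hz hns'
  refine ⟨Matrix.toLin' M, fun u v => hP u v, toLin_pow_scalar hz, hker, W, h1, h2, h3⟩

end Cfsg.Agent.Lib.Classical.Elusive.UModel
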