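import Mathlib
import Cfsg.Agent.Lib.Classical.Elusive.UModel
import Cfsg.Agent.Lib.Classical.Elusive.SpImprimMain

/-!
# Factors of `Φ_r` and arithmetic for the unitary statement
-/

set_option autoImplicit false
set_option linter.unusedSectionVars false
set_option linter.unusedSimpArgs false
set_option linter.unusedVariables false
set_option linter.style.haveILetI false

namespace Cfsg.Agent.Lib.Classical.Elusive.UFac

open Polynomial Module Matrix
open Cfsg.Agent.Lib.Classical.Elusive.Inv Cfsg.Agent.Lib.Classical.Elusive.UCore Cfsg.Agent.Lib.Classical.Elusive.USelfDual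
  Cfsg.Agent.Lib.Classical.Elusive.USuff Cfsg.Agent.Lib.Classical.Elusive.UModel
open Cfsg.Agent.Lib.Classical.Herm.HermOnb Cfsg.Agent.Lib.Classical.Herm.Basic
open Cfsg.Agent.Lib.Classical.Herm.Wall Cfsg.Agent.Lib.Classical.Herm.GU Cfsg.Agent.Lib.Classical.Herm.SU
open Cfsg.Agent.Lib.Linalg.RCF Cfsg.Agent.Lib.Linalg.RCFType

variable {F : Type*} [Field F] [Fintype F] {q n : ℕ}

section Poly

variable (hF : Fintype.card F = q ^ 2)
include hF

theorem dualP_C {u : F} (hu : u ≠ 0) : dualP hF (C u) = 1 := by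
  rw [dualP, Polynomial.map_C, reverse_C, coeff_C_zero, ← C_mul, inv_mul_cancel₀, C_1]
  rw [sigma_apply]
  exact pow_ne_zero _ hu

theorem dualP_of_assoc {a d : F[X]} (h : Associated a d) : dualP hF d = dualP hF a := by
  obtain ⟨w, rfl⟩ := h
  obtain ⟨u, hu, hw⟩ := Polynomial.isUnit_iff.1 w.isUnit
  rw [dualP_mul, ← hw, dualP_C hF hu.ne_zero, mul_one]

theorem dualP_binom {r : ℕ} (hr : 0 < r) {z : F} (hz : z ^ (q + 1) = 1) : dualP hF (X ^ r - C z) = X ^ r - C z := by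
  have hz0 : z ≠ 0 := by
    rintro rfl
    rw [zero_pow (Nat.succ_ne_zero q)] at hz
    exact zero_ne_one hz
  obtain ⟨a, ha⟩ : ∃ a, a = z ^ q := ⟨_, rfl⟩
  have ha0 : a ≠ 0 := by
    rw [ha]
    exact pow_ne_zero _ hz0
  have hza : a⁻¹ = z := by
    rw [pow_succ, ← ha] at hz
    exact inv_eq_of_mul_eq_one_right hz
  have h1 : (X ^ r - C z : F[X]).map (sigma hF) = X ^ r - C a := by
    simp [ha]
  have h3 : (X ^ r - C a : F[X]).coeff 0 = -a := by
    simp [coeff_X_pow, hr.ne]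
  have h5 : reverse (1 : F[X]) = 1 := by rw [← C_1, reverse_C]
  have h4 : (X ^ r - C a : F[X]).reverse = 1 - C a * X ^ r := by
    have h6 : (X ^ r - C a : F[X]) = X ^ r + C (-a) := by
      simp [sub_eq_add_neg]
    have h7 : reverse (X ^ r : F[X]) = 1 := by
      rw [← one_mul (X ^ r), reverse_mul_X_pow, h5]
    rw [h6, reverse_add_C, h7, natDegree_X_pow]
    simp
    ring
  have h8 : (C a : F[X]) * C a⁻¹ = 1 := by
    rw [← C_mul, mul_inv_cancel₀ ha0, C_1]
  rw [dualP, h1, h3, h4, inv_neg, ← hza, C_neg]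
  linear_combination (X ^ r : F[X]) * h8

theorem sd_of_mod {r : ℕ} [Fact r.Prime] (hr2 : r ≠ 2) (hq0 : (q : ZMod r) ≠ 0) {d : F[X]} (hm : d.Monic) (hi : Irreducible d)
    (hdeg : d.natDegree = orderOf (((q ^ 2 : ℕ) : ZMod r))) (hdvd : d ∣ Phi F r) (hr0 : (r : F) ≠ 0) :
    dualP hF d = d ↔ orderOf (q : ZMod r) % 4 = 2 := by
  have hr : r.Prime := Fact.out
  have hdX : d ∣ (X ^ r - 1 : F[X]) := by
    rw [← Phi_mul]
    exact hdvd.mul_right _
  apply Cfsg.Agent.Lib.Classical.Herm.CycGU.dualP_eq_self_iff hF hr2 hq0.isUnit hm hi hdeg hdX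
  · rintro rfl
    have h1 := Phi_eval_one F r
    have h2 : (Phi F r).eval 1 = 0 := by
      obtain ⟨c, hc⟩ := hdvd
      rw [hc]
      simp
    rw [h2] at h1
    exact hr0 h1.symm
  · exact Cfsg.Agent.Lib.Classical.Herm.CycTuples.coeff_zero_ne_of_dvd hr.pos hdX

end Poly

section Arith

theorem order_sq {r : ℕ} (x : ZMod r) {i b : ℕ} (hi : i = orderOf x) (hb : b = if Even i then i / 2 else i) : orderOf (x ^ 2) = b := by
  rw [orderOf_pow' x (by norm_num), ← hi, hb]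
  by_cases h : Even i
  · rw [if_pos h, Nat.gcd_eq_right h.two_dvd]
  · rw [if_neg h]
    have h1 : Nat.Coprime i 2 := (Nat.coprime_two_right).2 (Nat.not_even_iff_odd.1 h)
    rw [h1.gcd_eq_one, Nat.div_one]

/-- `r (q + 1)` divides `q ^ r + 1`. -/
theorem dvd_pow_r {r : ℕ} [Fact r.Prime] (hodd : Odd r) (hrq : r ∣ q + 1) : r * (q + 1) ∣ q ^ r + 1 := by
  have hr : r.Prime := Fact.out
  let S : ℤ := ∑ j ∈ Finset.range r, (-(q : ℤ)) ^ j
  have h1 : ((q : ℤ) + 1) * S = (q : ℤ) ^ r + 1 := by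
    have h2 : S * (-(q : ℤ) - 1) = (-(q : ℤ)) ^ r - 1 := geom_sum_mul _ _
    rw [hodd.neg_pow] at h2
    linear_combination -h2
  have h3 : (r : ℤ) ∣ S := by
    rw [← ZMod.intCast_zmod_eq_zero_iff_dvd]
    have h4 : ((q : ZMod r) + 1) = 0 := by
      have := (ZMod.natCast_eq_zero_iff (q + 1) r).2 hrq
      push_cast at this
      exact this
    have h5 : -(q : ZMod r) = 1 := by
      linear_combination -h4
    simp only [S]
    push_cast
    rw [h5]
    simp
  obtain ⟨t, ht⟩ := h3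
  have h6 : ((r * (q + 1) : ℕ) : ℤ) ∣ ((q ^ r + 1 : ℕ) : ℤ) := by
    refine ⟨t, ?_⟩
    push_cast
    rw [← h1, ht]
    ring
  exact Int.natCast_dvd_natCast.1 h6

end Arith

section Units

variable (hF : Fintype.card F = q ^ 2)
include hF

theorem pow_card_sub (c : F) (hc : c ≠ 0) : c ^ (q ^ 2 - 1) = 1 := by
  rw [← hF]
  exact FiniteField.pow_card_sub_one_eq_one c hc

/-- An `r`-th root of a norm one element is of norm one when `r` is odd and divides `q + 1`. -/
theorem norm_of_root {r : ℕ} [Fact r.Prime] (hr2 : r ≠ 2) (hrq : r ∣ q + 1) {z c : F} (hz : z ^ (q + 1) = 1) (hc : c ^ r = z) : c ^ (q + 1) = 1 := by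
  have hr : r.Prime := Fact.out
  have hq2 := two_le_q hF
  have hc0 : c ≠ 0 := by
    rintro rfl
    rw [zero_pow hr.ne_zero] at hc
    rw [← hc, zero_pow (Nat.succ_ne_zero q)] at hz
    exact zero_ne_one hz
  have h1 : c ^ (r * (q + 1)) = 1 := by
    rw [pow_mul, hc, hz]
  have h2 := pow_card_sub hF c hc0
  have h3 := pow_gcd_eq_one.2 ⟨h1, h2⟩
  have h4 : q ^ 2 - 1 = (q + 1) * (q - 1) := by
    obtain ⟨q', rfl⟩ : ∃ q', q = q' + 1 := ⟨q - 1, by omega⟩
    simp
    have : (q' + 1) ^ 2 = (q' + 1 + 1) * q' + 1 := by ring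
    omega
  have h5 : Nat.gcd (r * (q + 1)) (q ^ 2 - 1) = q + 1 := by
    rw [h4, mul_comm r, Nat.gcd_mul_left]
    have h6 : Nat.Coprime r (q - 1) := by
      rw [Nat.Prime.coprime_iff_not_dvd hr]
      intro h7
      have h8 : r ∣ (q + 1) - (q - 1) := Nat.dvd_sub hrq h7
      have h9 : (q + 1) - (q - 1) = 2 := by omega
      rw [h9] at h8
      exact hr2 ((Nat.prime_dvd_prime_iff_eq hr Nat.prime_two).1 h8)
    rw [h6.gcd_eq_one, mul_one]
  rwa [h5] at h3

/-- The two cases of the scalar reduction. -/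
theorem exists_root_or_irr {r : ℕ} [Fact r.Prime] (hr2 : r ≠ 2) {z : F} (hz : z ^ (q + 1) = 1) :
    (∃ w : F, w ^ (q + 1) = 1 ∧ w ^ r = z) ∨ (r ∣ q + 1 ∧ ∀ c : F, c ^ r ≠ z) := by
  have hr : r.Prime := Fact.out
  by_cases hrq : r ∣ q + 1
  · by_cases hc : ∃ c : F, c ^ r = z
    · obtain ⟨c, hc⟩ := hc
      exact Or.inl ⟨c, norm_of_root hF hr2 hrq hz hc, hc⟩
    · push Not at hc
      exact Or.inr ⟨hrq, hc⟩
  · left
    have hco : Nat.Coprime r (q + 1) := (Nat.Prime.coprime_iff_not_dvd hr).2 hrq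
    have hq2 := two_le_q hF
    obtain ⟨a, -, ha⟩ := Nat.exists_mul_mod_eq_one_of_coprime hco (by omega)
    refine ⟨z ^ a, by rw [← pow_mul, mul_comm, pow_mul, hz, one_pow], ?_⟩
    rw [← pow_mul, mul_comm]
    have h1 := Nat.div_add_mod (r * a) (q + 1)
    rw [ha] at h1
    rw [← h1, pow_add, pow_mul, hz, one_pow, one_mul, pow_one]

end Units

end Cfsg.Agent.Lib.Classical.Elusive.UFac
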