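import Mathlib
import Cfsg.Agent.Lib.Classical.Elusive.UFac
import Cfsg.Agent.Lib.Classical.Elusive.TiAbs

/-!
# Sufficiency for the unitary statement
-/

set_option autoImplicit false
set_option linter.unusedSectionVars false
set_option linter.unusedSimpArgs false
set_option linter.unusedVariables false
set_option linter.style.haveILetI false

namespace Cfsg.Agent.Lib.Classical.Elusive.USuffMain

open Polynomial Module Matrix
open Cfsg.Agent.Lib.Classical.Elusive.Inv Cfsg.Agent.Lib.Classical.Elusive.UCore Cfsg.Agent.Lib.Classical.Elusive.USelfDual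
  Cfsg.Agent.Lib.Classical.Elusive.USuff Cfsg.Agent.Lib.Classical.Elusive.UModel Cfsg.Agent.Lib.Classical.Elusive.UFac
open Cfsg.Agent.Lib.Classical.Herm.HermOnb Cfsg.Agent.Lib.Classical.Herm.Basic
open Cfsg.Agent.Lib.Classical.Herm.Wall Cfsg.Agent.Lib.Classical.Herm.GU Cfsg.Agent.Lib.Classical.Herm.SU
open Cfsg.Agent.Lib.Linalg.RCF Cfsg.Agent.Lib.Linalg.RCFType

variable {F : Type*} [Field F] [Fintype F] {q n : ℕ}

/-- The determinant when an irreducible binomial kills the matrix. -/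
theorem det_case_B {r : ℕ} (hodd : Odd r) {z : F} {M : Matrix (Fin n) (Fin n) F} (hM : M ^ r = z • (1 : Matrix (Fin n) (Fin n) F))
    (hg : Irreducible (X ^ r - C z : F[X])) : ∃ k, n = r * k ∧ M.det = z ^ k := by
  classical
  obtain ⟨g, hgdef⟩ : ∃ g : F[X], g = X ^ r - C z := ⟨_, rfl⟩
  rw [← hgdef] at hg
  have hr0 : r ≠ 0 := hodd.pos.ne'
  have hgm : g.Monic := by
    rw [hgdef]
    exact monic_X_pow_sub_C z hr0
  have hdeg : g.natDegree = r := by
    rw [hgdef]
    exact natDegree_X_pow_sub_C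
  have h0 : aeval M g = 0 := by
    rw [hgdef, map_sub, map_pow, aeval_X, aeval_C, hM, sub_eq_zero, Matrix.algebraMap_eq_diagonal]
    ext i j
    simp [Matrix.one_apply, Matrix.diagonal_apply]
  have h1 := (aeval_matrix_eq_zero_iff M g).1 h0
  have h2 : ∀ a ∈ matType M, a = (g, 1) := by
    intro a ha
    obtain ⟨ham, hai, ha0⟩ := matType_adm M a ha
    have h3 := h1 a ha
    have h4 : a.1 ∣ g := (dvd_pow_self _ ha0.ne').trans h3
    have h5 : a.1 = g := eq_of_monic_of_associated ham hgm (hai.associated_of_dvd hg h4)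
    have h6 : a.2 = 1 := by
      have h7 := natDegree_le_of_dvd h3 hg.ne_zero
      rw [natDegree_pow, h5, hdeg] at h7
      have h8 : a.2 * r ≤ 1 * r := by simpa using h7
      have h9 := Nat.le_of_mul_le_mul_right h8 (Nat.pos_of_ne_zero hr0)
      omega
    exact Prod.ext h5 h6
  obtain ⟨k, hk⟩ : ∃ k, k = Multiset.card (matType M) := ⟨_, rfl⟩
  have h3 : matType M = Multiset.replicate k (g, 1) := Multiset.eq_replicate.2 ⟨hk.symm, h2⟩
  have h4 := sum_matType M
  rw [h3, Multiset.map_replicate, Multiset.sum_replicate, Fintype.card_fin, hdeg] at h4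
  have h5 := charpoly_eq_prod_matType M
  rw [h3, Multiset.map_replicate, Multiset.prod_replicate, pow_one] at h5
  have h6 : n = r * k := by
    rw [← h4]
    simp [mul_comm]
  refine ⟨k, h6, ?_⟩
  rw [Matrix.det_eq_sign_charpoly_coeff, h5, Fintype.card_fin, coeff_zero_eq_eval_zero, eval_pow, hgdef]
  simp only [eval_sub, eval_pow, eval_X, eval_C, zero_pow hr0, zero_sub]
  rw [h6, pow_mul, hodd.neg_one_pow, ← mul_pow]
  simp

/-- A norm one element of high power order has a root. -/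
theorem root_of_small_val {r : ℕ} [Fact r.Prime] (hF : Fintype.card F = q ^ 2) (hrq : r ∣ q + 1) {z : F} (hz : z ^ (q + 1) = 1) {k : ℕ} (hk0 : k ≠ 0)
    (hzk : z ^ k = 1) (hval : padicValNat r (r * k) ≤ padicValNat r (q + 1)) : ∃ c : F, c ^ r = z := by
  have hr : r.Prime := Fact.out
  have hq2 := two_le_q hF
  have hz0 : z ≠ 0 := by
    rintro rfl
    rw [zero_pow (Nat.succ_ne_zero q)] at hz
    exact zero_ne_one hz
  obtain ⟨g, hg⟩ : ∃ g, g = Nat.gcd k (q + 1) := ⟨_, rfl⟩
  have hzg : z ^ g = 1 := by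
    rw [hg]
    exact pow_gcd_eq_one.2 ⟨hzk, hz⟩
  obtain ⟨t, ht⟩ : g ∣ q + 1 := by
    rw [hg]
    exact Nat.gcd_dvd_right _ _
  obtain ⟨e, he⟩ : g ∣ k := by
    rw [hg]
    exact Nat.gcd_dvd_left _ _
  have hg0 : g ≠ 0 := by
    rintro rfl
    simp at ht
  have ht0 : t ≠ 0 := by
    rintro rfl
    simp at ht
  have he0 : e ≠ 0 := by
    rintro rfl
    simp at he
    exact hk0 he
  have hrt : r ∣ t := by
    by_contra hnd
    have h1 : padicValNat r (r * k) = 1 + padicValNat r k := by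
      rw [padicValNat.mul hr.ne_zero hk0, padicValNat_self]
    have h2 : padicValNat r k = padicValNat r g + padicValNat r e := by
      rw [he, padicValNat.mul hg0 he0]
    have h3 : padicValNat r (q + 1) = padicValNat r g + padicValNat r t := by
      rw [ht, padicValNat.mul hg0 ht0]
    have h4 : padicValNat r t = 0 := padicValNat.eq_zero_of_not_dvd hnd
    omega
  obtain ⟨t', rfl⟩ := hrt
  have hzA : z ^ (g * t') = 1 := by
    rw [pow_mul, hzg, one_pow]
  obtain ⟨A, hA⟩ : ∃ A, A = g * t' := ⟨_, rfl⟩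
  have hqA : q + 1 = r * A := by
    rw [ht, hA]
    ring
  rw [← hA] at hzA
  have hA0 : 0 < A := by
    rcases Nat.eq_zero_or_pos A with h | h
    · rw [h, mul_zero] at hqA
      omega
    · exact h
  obtain ⟨ω, hω, hgen⟩ := Cfsg.Agent.Lib.Classical.Elusive.PslNum.exists_gen (F := F)
  obtain ⟨e', he'⟩ := hgen (Units.mk0 z hz0)
  have h1 : ω ^ (e' * A) = 1 := by
    rw [pow_mul, he']
    apply Units.ext
    simpa using hzA
  have h2 := orderOf_dvd_of_pow_eq_one h1
  rw [hω, hF] at h2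
  have h3 : q ^ 2 - 1 = A * (r * (q - 1)) := by
    have h4 : q ^ 2 - 1 = (q + 1) * (q - 1) := by
      obtain ⟨q', rfl⟩ : ∃ q', q = q' + 1 := ⟨q - 1, by omega⟩
      simp
      have : (q' + 1) ^ 2 = (q' + 1 + 1) * q' + 1 := by ring
      omega
    rw [h4, hqA]
    ring
  rw [h3, mul_comm e'] at h2
  have h4 : r * (q - 1) ∣ e' := Nat.dvd_of_mul_dvd_mul_left hA0 h2
  obtain ⟨e'', he''⟩ := (dvd_mul_right r (q - 1)).trans h4
  refine ⟨((ω ^ e'' : Fˣ) : F), ?_⟩
  have h5 : ((ω ^ e'') ^ r : Fˣ) = Units.mk0 z hz0 := by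
    rw [← pow_mul, mul_comm, ← he'', he']
  have h6 := congrArg Units.val h5
  simpa using h6

theorem norm_of_iso {V : Type*} [AddCommGroup V] [Module F V] [FiniteDimensional F V] {h : V → V → F} (hh : IsHerm q h) (hF : Fintype.card F = q ^ 2) [Nontrivial V] {T : Module.End F V}
    (hI : ∀ u v, h (T u) (T v) = h u v) {r : ℕ} {z : F} (hT : T ^ r = z • (1 : Module.End F V)) : z ^ (q + 1) = 1 := by
  obtain ⟨v, hv⟩ := hh.exists_self_ne_zero hF
  have h1 := h_pow hh hI r v v
  rw [hT] at h1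
  simp only [LinearMap.smul_apply, Module.End.one_apply] at h1
  rw [hh.smul_left, hh.smul_right] at h1
  have h2 : (z ^ (q + 1) - 1) * h v v = 0 := by
    rw [sub_mul, pow_succ, mul_comm (z ^ q) z, mul_assoc, h1]
    ring
  exact sub_eq_zero.1 ((mul_eq_zero.1 h2).resolve_right hv)

theorem iso_of_norm {V : Type*} [AddCommGroup V] [Module F V] {h : V → V → F} (hh : IsHerm q h) {T : Module.End F V}
    (hI : ∀ u v, h (T u) (T v) = h u v) {w : F} (hw : w ^ (q + 1) = 1) (u v : V) :
    h ((w⁻¹ • T) u) ((w⁻¹ • T) v) = h u v := by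
  simp only [LinearMap.smul_apply]
  rw [hh.smul_left, hh.smul_right, hI, ← mul_assoc, inv_pow, ← mul_inv, ← pow_succ', hw]
  simp

theorem inv_smul_pow {V : Type*} [AddCommGroup V] [Module F V] {T : Module.End F V} {r : ℕ} {z w : F} (hT : T ^ r = z • (1 : Module.End F V))
    (hw : w ^ r = z) (hw0 : w ≠ 0) : (w⁻¹ • T) ^ r = 1 := by
  rw [_root_.smul_pow, hT, smul_smul, inv_pow, hw, inv_mul_cancel₀]
  · simp
  · rw [← hw]
    exact pow_ne_zero _ hw0

theorem inv_back {V : Type*} [AddCommGroup V] [Module F V] {T : Module.End F V} {w : F} (hw0 : w ≠ 0) {W : Submodule F V}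
    (hW : IsInv (w⁻¹ • T) W) : IsInv T W := by
  intro u hu
  have h1 := W.smul_mem w (hW u hu)
  rw [LinearMap.smul_apply, smul_smul, mul_inv_cancel₀ hw0, one_smul] at h1
  exact h1

section Odd

variable {p : ℕ} [Fact p.Prime] [CharP F p]

theorem zmod_ne_zero {r : ℕ} [Fact r.Prime] (hF : Fintype.card F = q ^ 2) (hrp : r ≠ p) : (q : ZMod r) ≠ 0 := by
  have hr : r.Prime := Fact.out
  intro h
  have h1 := (ZMod.natCast_eq_zero_iff q r).1 h
  obtain ⟨k, hp, hk⟩ := FiniteField.card F p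
  have h2 : r ∣ p ^ (k : ℕ) := by
    rw [← hk, hF]
    exact h1.trans (dvd_pow_self q (by norm_num))
  exact hrp ((Nat.prime_dvd_prime_iff_eq hr hp).1 (hr.dvd_of_dvd_pow h2))

theorem hsd_of {r : ℕ} [Fact r.Prime] (hF : Fintype.card F = q ^ 2) (hr2 : r ≠ 2) (hrp : r ≠ p) (hmod : orderOf (q : ZMod r) % 4 = 2) :
    ∀ d : F[X], Irreducible d → d ∣ Phi F r → Associated (dualP hF d) d := by
  intro d hd hdvd
  have hr : r.Prime := Fact.out
  obtain ⟨a, ham, hai, had, hda, hdeg⟩ := Cfsg.Agent.Lib.Classical.Elusive.PslNum.exists_monic_assoc hd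
  have h1 : a ∣ Phi F r := had.trans hdvd
  have hass : Associated a d := associated_of_dvd_dvd had hda
  have h2 : dualP hF a = a := (sd_of_mod hF hr2 (zmod_ne_zero hF hrp) ham hai
    (Cfsg.Agent.Lib.Classical.Elusive.PslNum.fac_Phi hF hr hrp a hai h1) h1 (Cfsg.Agent.Lib.Classical.Elusive.PslNum.cast_ne_zero_of_ne hr hrp)).2 hmod
  rw [dualP_of_assoc hF hass, h2]
  exact hass

theorem hne_of {r : ℕ} [Fact r.Prime] (hF : Fintype.card F = q ^ 2) (hr2 : r ≠ 2) (hrp : r ≠ p) (hmod : orderOf (q : ZMod r) % 4 ≠ 2) :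
    ∀ g : F[X], g.Monic → Irreducible g → g ∣ Phi F r → dualP hF g ≠ g := by
  intro a ham hai h1 h2
  have hr : r.Prime := Fact.out
  exact hmod ((sd_of_mod hF hr2 (zmod_ne_zero hF hrp) ham hai
    (Cfsg.Agent.Lib.Classical.Elusive.PslNum.fac_Phi hF hr hrp a hai h1) h1 (Cfsg.Agent.Lib.Classical.Elusive.PslNum.cast_ne_zero_of_ne hr hrp)).1 h2)

theorem hfac_of {r i b : ℕ} [Fact r.Prime] (hF : Fintype.card F = q ^ 2) (hrp : r ≠ p) (hi : i = orderOf (q : ZMod r)) (hb : b = if Even i then i / 2 else i) :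
    ∀ d : F[X], Irreducible d → d ∣ Phi F r → d.natDegree = b := by
  have hr : r.Prime := Fact.out
  intro d hd hdvd
  rw [Cfsg.Agent.Lib.Classical.Elusive.PslNum.fac_Phi hF hr hrp d hd hdvd, Nat.cast_pow]
  exact order_sq _ hi hb

theorem ipos_of {r i : ℕ} [Fact r.Prime] (hF : Fintype.card F = q ^ 2) (hrp : r ≠ p) (hi : i = orderOf (q : ZMod r)) : 0 < i := by
  have hr : r.Prime := Fact.out
  rw [hi]
  have : IsOfFinOrder (q : ZMod r) := by
    rw [isOfFinOrder_iff_pow_eq_one]
    exact ⟨r - 1, by have := hr.two_le; omega, ZMod.pow_card_sub_one_eq_one (zmod_ne_zero hF hrp)⟩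
  exact this.orderOf_pos

theorem bpos_of {i b : ℕ} (hi : 0 < i) (hb : b = if Even i then i / 2 else i) : 0 < b := by
  rw [hb]
  by_cases h : Even i
  · rw [if_pos h]
    obtain ⟨s, hs⟩ := h
    omega
  · rw [if_neg h]
    exact hi

theorem order_two_of_dvd {r : ℕ} [Fact r.Prime] (hr2 : r ≠ 2) (hrq : r ∣ q + 1) : orderOf (q : ZMod r) = 2 := by
  have hr : r.Prime := Fact.out
  haveI : Fact (2 < r) := ⟨by have := hr.two_le; omega⟩
  have h1 : (q : ZMod r) = -1 := by
    have := (ZMod.natCast_eq_zero_iff (q + 1) r).2 hrq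
    push_cast at this
    exact eq_neg_of_add_eq_zero_left this
  rw [h1]
  apply orderOf_eq_prime
  · simp
  · exact ZMod.neg_one_ne_one

/-- Sufficiency for odd `r`. -/
theorem suff_odd (hF : Fintype.card F = q ^ 2) {m r i b c : ℕ} [Fact r.Prime] (hn : 1 ≤ n) (hmn : 2 * m ≤ n) (hr2 : r ≠ 2) (hrp : r ≠ p)
    (hi : i = orderOf (q : ZMod r)) (hb : b = if Even i then i / 2 else i)
    (hc : c = if i % 4 = 0 then i else if i % 4 = 2 then i / 2 else 2 * i)
    (h1 : 2 * (m % b) ≤ n % c)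
    (h2 : i % 4 ≠ 2 ∨ (i % 4 = 2 ∧ (r - 1) / b + 2 * (m / b) ≤ n / b ∧ (2 < i ∨ (i = 2 ∧ (r ∣ m ∨ padicValNat r n ≤ padicValNat r (q + 1))))))
    (x : Matrix.SpecialLinearGroup (Fin n) F) (hxSU : x ∈ Cfsg.SU n F q)
    (hx : ∃ z : F, ((x ^ r : Matrix.SpecialLinearGroup (Fin n) F) : Matrix (Fin n) (Fin n) F) = z • (1 : Matrix (Fin n) (Fin n) F)) :
    ∃ W : Submodule F (Fin n → F), Module.finrank F ↥W = m ∧ (∀ u ∈ W, ∀ v ∈ W, Cfsg.hermForm n F q u v = 0) ∧
        W.map (Matrix.toLin' (x : Matrix (Fin n) (Fin n) F)) ≤ W := by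
  obtain ⟨z, hz⟩ := hx
  have hr : r.Prime := Fact.out
  have hrodd : Odd r := hr.odd_of_ne_two hr2
  have hr0 : (r : F) ≠ 0 := Cfsg.Agent.Lib.Classical.Elusive.PslNum.cast_ne_zero_of_ne hr hrp
  have hh : IsHerm q (Cfsg.hermForm n F q) := Cfsg.Agent.Lib.Classical.Herm.SU3Witness.isHerm_hermForm hF n
  obtain ⟨M, hM⟩ : ∃ M : Matrix (Fin n) (Fin n) F, M = x := ⟨_, rfl⟩
  rw [Matrix.SpecialLinearGroup.coe_pow, ← hM] at hz
  rw [← hM]
  let T := Matrix.toLin' M
  have hI : ∀ u v, Cfsg.hermForm n F q (T u) (T v) = Cfsg.hermForm n F q u v := by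
    intro u v
    show Cfsg.hermForm n F q (M *ᵥ u) (M *ᵥ v) = _
    rw [hM]
    exact hxSU u v
  have hT := toLin_pow_scalar hz
  haveI : Nonempty (Fin n) := ⟨⟨0, by omega⟩⟩
  have hzn : z ^ (q + 1) = 1 := norm_of_iso hh hF hI hT
  have hdim : finrank F (Fin n → F) = n := Module.finrank_fin_fun F
  have hipos := ipos_of (p := p) hF hrp hi
  have hb0 := bpos_of hipos hb
  have hfac := hfac_of (p := p) hF hrp hi hb
  have key : ∃ W : Submodule F (Fin n → F), finrank F W = m ∧ TI (Cfsg.hermForm n F q) W ∧ IsInv T W := by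
    rcases exists_root_or_irr hF hr2 hzn with ⟨w, hw, hwr⟩ | ⟨hrq, hnr⟩
    · have hw0 : w ≠ 0 := by
        rintro rfl
        rw [zero_pow (Nat.succ_ne_zero q)] at hw
        exact zero_ne_one hw
      have hI' := iso_of_norm hh hI hw
      have hyr := inv_smul_pow hT hwr hw0
      have key' : ∃ W : Submodule F (Fin n → F), finrank F W = m ∧ TI (Cfsg.hermForm n F q) W ∧ IsInv (w⁻¹ • T) W := by
        by_cases hmod : i % 4 = 2
        · have hcb : c = b := by
            rw [hc, if_neg (by omega), if_pos hmod, hb, if_pos ⟨i / 2, by omega⟩]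
          have hbi : i = 2 * b := by
            rw [hb, if_pos ⟨i / 2, by omega⟩]
            omega
          have hbo : Odd b := ⟨b / 2, by omega⟩
          have hord : orderOf (q : ZMod r) = 2 * b := by rw [← hi, hbi]
          have hrb : r ∣ q ^ b + 1 := Cfsg.Agent.Lib.Classical.Elusive.SpImprimMain.dvd_pow_add_one hr2 hord hb0
          have hyQ : (w⁻¹ • T) ^ (q ^ b + 1) = 1 := by
            obtain ⟨s, hs⟩ := hrb
            rw [hs, pow_mul, hyr, one_pow]
          have hbd : b ∣ r - 1 := by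
            have h3 : orderOf (((q : ZMod r)) ^ 2) = b := order_sq _ hi hb
            rw [← h3]
            apply ZMod.orderOf_dvd_card_sub_one
            exact pow_ne_zero _ (zmod_ne_zero hF hrp)
          obtain ⟨s, hs⟩ := hbd
          have hsd : (r - 1) / b = s := by
            rw [hs, Nat.mul_div_cancel_left _ hb0]
          rcases h2 with h2 | ⟨-, h2, -⟩
          · exact absurd hmod h2
          · rw [hsd] at h2
            rw [hcb] at h1
            exact suff_sd hF hh hI' hr0 hr.pos hyr hbo hyQ hfac (hsd_of hF hr2 hrp (by rw [← hi]; exact hmod)) hs hdim h1 h2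
        · have hcb : c = 2 * b := by
            rw [hc, hb]
            by_cases h40 : i % 4 = 0
            · rw [if_pos h40, if_pos ⟨i / 2, by omega⟩]
              omega
            · rw [if_neg h40, if_neg hmod, if_neg (by
                rintro ⟨s, hs⟩
                omega)]
          rw [hcb] at h1
          exact suff_nsd hF hh hI' hr0 hr.pos hyr hb0 hfac (hne_of hF hr2 hrp (by rw [← hi]; exact hmod)) hdim h1 hmn
      obtain ⟨W, h3, h4, h5⟩ := key'
      exact ⟨W, h3, h4, inv_back hw0 h5⟩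
    · -- the binomial case
      have hi2 : i = 2 := by
        rw [hi]
        exact order_two_of_dvd hr2 hrq
      have hg : Irreducible (X ^ r - C z : F[X]) := X_pow_sub_C_irreducible_of_prime hr hnr
      have hdeg : (X ^ r - C z : F[X]).natDegree = r := natDegree_X_pow_sub_C
      have hgy : aeval T (X ^ r - C z : F[X]) = 0 := by
        rw [map_sub, map_pow, aeval_X, aeval_C, hT, sub_eq_zero]
        rfl
      have hyQ : T ^ (q ^ r + 1) = 1 := by
        obtain ⟨t, ht⟩ := dvd_pow_r hrodd hrq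
        rw [ht, pow_mul, pow_mul, hT, _root_.smul_pow, hzn]
        simp
      have hcond : r ∣ m ∨ padicValNat r n ≤ padicValNat r (q + 1) := by
        rcases h2 with h2 | ⟨-, -, h2 | ⟨-, h2⟩⟩
        · omega
        · omega
        · exact h2
      rcases hcond with h3 | h3
      · exact suff_irr hF hh hI hg hdeg hrodd hyQ hgy hdim h3 hmn
      · exfalso
        obtain ⟨k, hk, hdetk⟩ := det_case_B hrodd hz hg
        have hk0 : k ≠ 0 := by
          rintro rfl
          omega
        have hdet1 : M.det = 1 := by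
          rw [hM]
          exact x.2
        rw [hdet1] at hdetk
        rw [hk] at h3
        obtain ⟨c', hc'⟩ := root_of_small_val hF hrq hzn hk0 hdetk.symm h3
        exact hnr c' hc'
  obtain ⟨W, h3, h4, h5⟩ := key
  exact ⟨W, h3, fun u hu v hv => h4 u hu v hv, by
    rintro _ ⟨u, hu, rfl⟩
    exact h5 u hu⟩

end Odd

end Cfsg.Agent.Lib.Classical.Elusive.USuffMain
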