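import Mathlib
import Cfsg.Agent.Lib.Classical.Elusive.USuffMain

/-!
# The case `r = 2` of the unitary statement
-/

set_option autoImplicit false
set_option linter.unusedSectionVars false
set_option linter.unusedSimpArgs false
set_option linter.unusedVariables false
set_option linter.style.haveILetI false

namespace Cfsg.Agent.Lib.Classical.Elusive.UTwo

open Polynomial Module Matrix
open Cfsg.Agent.Lib.Classical.Elusive.Inv Cfsg.Agent.Lib.Classical.Elusive.UCore Cfsg.Agent.Lib.Classical.Elusive.USelfDual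
  Cfsg.Agent.Lib.Classical.Elusive.USuff Cfsg.Agent.Lib.Classical.Elusive.UModel Cfsg.Agent.Lib.Classical.Elusive.UFac
  Cfsg.Agent.Lib.Classical.Elusive.USuffMain
open Cfsg.Agent.Lib.Classical.Herm.HermOnb Cfsg.Agent.Lib.Classical.Herm.Basic
open Cfsg.Agent.Lib.Classical.Herm.Wall Cfsg.Agent.Lib.Classical.Herm.GU Cfsg.Agent.Lib.Classical.Herm.SU

variable {F : Type*} [Field F] [Fintype F] {q n : ℕ}

theorem mem_Ker_two {V : Type*} [AddCommGroup V] [Module F V] [FiniteDimensional F V] {y : Module.End F V} {v : V} : v ∈ Ker y 2 ↔ y v = -v := by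
  have h4 : Polynomial.aeval y (Phi F 2) v = v + y v := by
    simp [Phi, Finset.sum_range_succ]
  rw [mem_Ker, h4]
  constructor
  · intro h
    exact eq_neg_of_add_eq_zero_right h
  · intro h
    rw [h]
    simp

theorem det_invol {V : Type*} [AddCommGroup V] [Module F V] [FiniteDimensional F V] {y : Module.End F V} (hy : y ^ 2 = 1) (h2 : ((2 : ℕ) : F) ≠ 0) :
    LinearMap.det y = (-1) ^ finrank F (Ker y 2) := by
  classical
  have hc : IsCompl (Fix y) (Ker y 2) := by
    refine ⟨?_, ?_⟩
    · rw [disjoint_iff]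
      exact Fix_inf_Ker h2
    · rw [codisjoint_iff]
      exact SpCore.sup_Fix_Ker h2 hy
  let b₁ := Module.finBasis F (Fix y)
  let b₂ := Module.finBasis F (Ker y 2)
  let B := (b₁.prod b₂).map (Submodule.prodEquivOfIsCompl _ _ hc)
  have hB1 : ∀ j, B (Sum.inl j) = (b₁ j : V) := by
    intro j
    simp [B, Submodule.coe_prodEquivOfIsCompl']
  have hB2 : ∀ j, B (Sum.inr j) = (b₂ j : V) := by
    intro j
    simp [B, Submodule.coe_prodEquivOfIsCompl']
  let d : (Fin (finrank F (Fix y)) ⊕ Fin (finrank F (Ker y 2))) → F := Sum.elim (fun _ => 1) (fun _ => -1)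
  have hBy : ∀ j, y (B j) = d j • B j := by
    intro j
    rcases j with j | j
    · rw [hB1]
      simp only [d, Sum.elim_inl, one_smul]
      exact mem_Fix.1 (b₁ j).2
    · rw [hB2]
      simp only [d, Sum.elim_inr, neg_smul, one_smul]
      exact mem_Ker_two.1 (b₂ j).2
  have hmat : LinearMap.toMatrix B B y = Matrix.diagonal d := by
    ext i j
    rw [LinearMap.toMatrix_apply, hBy, map_smul, Finsupp.smul_apply, Module.Basis.repr_self, Finsupp.single_apply, Matrix.diagonal_apply, smul_eq_mul]
    by_cases hij : i = j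
    · subst hij
      simp
    · simp [hij, Ne.symm hij]
  rw [← LinearMap.det_toMatrix B y, hmat, Matrix.det_diagonal, Fintype.prod_sum_type]
  simp [d]

variable {p : ℕ} [Fact p.Prime] [CharP F p]

theorem two_ne_zero_F (hp2 : p ≠ 2) : ((2 : ℕ) : F) ≠ 0 :=
  Cfsg.Agent.Lib.Classical.Elusive.PslNum.cast_ne_zero_of_ne Nat.prime_two hp2.symm

theorem q_odd (hF : Fintype.card F = q ^ 2) (hp2 : p ≠ 2) : Odd q := by
  have h1 : Odd (Fintype.card F) := by
    have := FiniteField.odd_card_of_char_ne_two (F := F) (by rw [ringChar.eq F p]; exact hp2)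
    exact Nat.odd_iff.2 this
  rw [hF] at h1
  exact (Nat.odd_pow_iff two_ne_zero).1 h1

/-- Sufficiency for `r = 2`. -/
theorem suff_two (hF : Fintype.card F = q ^ 2) (hp2 : p ≠ 2) {m : ℕ} (hn : 1 ≤ n) (hmn : 2 * m ≤ n)
    (hcond : 2 * m < n ∨ padicValNat 2 (q + 1) ≤ padicValNat 2 n)
    (x : Matrix.SpecialLinearGroup (Fin n) F) (hxSU : x ∈ Cfsg.SU n F q)
    (hx : ∃ z : F, ((x ^ 2 : Matrix.SpecialLinearGroup (Fin n) F) : Matrix (Fin n) (Fin n) F) = z • (1 : Matrix (Fin n) (Fin n) F)) :
    ∃ W : Submodule F (Fin n → F), Module.finrank F ↥W = m ∧ (∀ u ∈ W, ∀ v ∈ W, Cfsg.hermForm n F q u v = 0) ∧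
        W.map (Matrix.toLin' (x : Matrix (Fin n) (Fin n) F)) ≤ W := by
  obtain ⟨z, hz⟩ := hx
  have h2 : ((2 : ℕ) : F) ≠ 0 := two_ne_zero_F hp2
  have h2' : (2 : F) ≠ 0 := by simpa using h2
  have hh : IsHerm q (Cfsg.hermForm n F q) := Cfsg.Agent.Lib.Classical.Herm.SU3Witness.isHerm_hermForm hF n
  obtain ⟨M, hM⟩ : ∃ M : Matrix (Fin n) (Fin n) F, M = x := ⟨_, rfl⟩
  rw [Matrix.SpecialLinearGroup.coe_pow, ← hM] at hz
  rw [← hM]
  let T := Matrix.toLin' M
  have hI : ∀ u v, Cfsg.hermForm n F q (T u) (T v) = Cfsg.hermForm n F q u v := by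
    intro u v
    show Cfsg.hermForm n F q (M *ᵥ u) (M *ᵥ v) = _
    rw [hM]
    exact hxSU u v
  have hT := toLin_pow_scalar hz
  haveI : Nonempty (Fin n) := ⟨⟨0, by omega⟩⟩
  have hzn : z ^ (q + 1) = 1 := norm_of_iso hh hF hI hT
  have hdim : finrank F (Fin n → F) = n := Module.finrank_fin_fun F
  have hqo := q_odd (p := p) hF hp2
  have hz0 : z ≠ 0 := by
    rintro rfl
    rw [zero_pow (Nat.succ_ne_zero q)] at hzn
    exact zero_ne_one hzn
  -- a square root
  obtain ⟨w, hw⟩ : ∃ w : F, w ^ 2 = z := by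
    have h3 : IsSquare z := by
      rw [FiniteField.isSquare_iff (by rw [ringChar.eq F p]; exact hp2) hz0, hF]
      obtain ⟨s, hs⟩ := hqo
      have h4 : q ^ 2 / 2 = (q + 1) * s := by
        have h5 : q ^ 2 = 2 * ((q + 1) * s) + 1 := by
          rw [hs]
          ring
        omega
      rw [h4, pow_mul, hzn, one_pow]
    obtain ⟨w, hw⟩ := h3
    exact ⟨w, by rw [hw, pow_two]⟩
  have hw0 : w ≠ 0 := by
    rintro rfl
    rw [zero_pow two_ne_zero] at hw
    exact hz0 hw.symm
  have hyr : (w⁻¹ • T) ^ 2 = 1 := inv_smul_pow hT hw hw0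
  obtain ⟨y, hydef⟩ : ∃ y, y = w⁻¹ • T := ⟨_, rfl⟩
  rw [← hydef] at hyr
  have hTy : T = w • y := by
    rw [hydef, smul_smul, mul_inv_cancel₀ hw0, one_smul]
  have hfd := SpCore.finrank_Fix_add h2 hyr
  rw [hdim] at hfd
  have key : ∃ W : Submodule F (Fin n → F), finrank F W = m ∧ TI (Cfsg.hermForm n F q) W ∧ IsInv y W := by
    have hw2 : (w ^ (q + 1)) * (w ^ (q + 1)) = 1 := by
      rw [← pow_two, ← pow_mul, mul_comm, pow_mul, hw, hzn]
    rcases mul_self_eq_one_iff.1 hw2 with hw1 | hw1
    · -- isometry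
      have hI' : ∀ u v, Cfsg.hermForm n F q (y u) (y v) = Cfsg.hermForm n F q u v := by
        rw [hydef]
        exact iso_of_norm hh hI hw1
      have hFixNd := Nd_Fix_top hF hh hI' h2 hyr
      have hKerNd := Nd_Ker_top hF hh hI' h2 hyr
      obtain ⟨e, he⟩ : ∃ e, e = finrank F (Fix y) := ⟨_, rfl⟩
      obtain ⟨d, hd⟩ : ∃ d, d = finrank F (Ker y 2) := ⟨_, rfl⟩
      rw [← he, ← hd] at hfd
      have hnum : ∃ u v, u + v = m ∧ 2 * u ≤ e ∧ 2 * v ≤ d := by
        by_cases hboth : Odd e ∧ Odd d ∧ 2 * m = n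
        · exfalso
          obtain ⟨he', hd', hmn'⟩ := hboth
          have hcond' : padicValNat 2 (q + 1) ≤ padicValNat 2 n := by
            rcases hcond with h3 | h3
            · omega
            · exact h3
          have hdet1 : M.det = 1 := by
            rw [hM]
            exact x.2
          have hdet2 : LinearMap.det T = w ^ n * (-1) ^ d := by
            rw [hTy, LinearMap.det_smul, hdim, det_invol hyr h2, ← hd]
          have hdet3 : LinearMap.det T = 1 := by
            show LinearMap.det (Matrix.toLin' M) = 1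
            rw [LinearMap.det_toLin', hdet1]
          rw [hdet3, hd'.neg_one_pow] at hdet2
          have hwn : w ^ n = -1 := by
            linear_combination hdet2
          -- arithmetic of the 2-parts
          haveI : Fact (Nat.Prime 2) := ⟨Nat.prime_two⟩
          obtain ⟨f, hf⟩ : ∃ f, f = padicValNat 2 (q + 1) := ⟨_, rfl⟩
          have hn0 : n ≠ 0 := by omega
          have h3 : 2 ^ f ∣ n := by
            have h4 : 2 ^ padicValNat 2 n ∣ n := pow_padicValNat_dvd
            exact (pow_dvd_pow 2 (by rw [hf]; exact hcond')).trans h4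
          have h4 : 2 ^ f ∣ q + 1 := by
            rw [hf]
            exact pow_padicValNat_dvd
          obtain ⟨n', hn'⟩ := h3
          obtain ⟨u, hu⟩ := h4
          have huodd : Odd u := by
            by_contra hc
            have hue := Nat.not_odd_iff_even.1 hc
            obtain ⟨s, hs⟩ := hue
            have h5 : 2 ^ (f + 1) ∣ q + 1 := ⟨s, by rw [hu, hs]; ring⟩
            have h6 := pow_succ_padicValNat_not_dvd (p := 2) (n := q + 1) (by omega)
            rw [← hf] at h6
            exact h6 h5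
          have h5 : w ^ (n * u) = 1 := by
            have h6 : n * u = (q + 1) * n' := by
              rw [hn', hu]
              ring
            rw [h6, pow_mul, hw1, one_pow]
          rw [pow_mul, hwn, huodd.neg_one_pow] at h5
          have h6 : (2 : F) = 0 := by
            linear_combination - h5
          exact h2' h6
        · by_cases he2 : Even e
          · obtain ⟨s, hs⟩ := he2
            by_cases hle : m ≤ s
            · exact ⟨m, 0, by omega, by omega, by omega⟩
            · exact ⟨s, m - s, by omega, by omega, by omega⟩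
          · have heo := Nat.not_even_iff_odd.1 he2
            obtain ⟨s, hs⟩ := heo
            by_cases hle : m ≤ s
            · exact ⟨m, 0, by omega, by omega, by omega⟩
            · refine ⟨s, m - s, by omega, by omega, ?_⟩
              by_cases hd2 : Even d
              · obtain ⟨t, ht⟩ := hd2
                omega
              · have hdo := Nat.not_even_iff_odd.1 hd2
                obtain ⟨t, ht⟩ := hdo
                have h3 : 2 * m ≠ n := fun h => hboth ⟨⟨s, hs⟩, ⟨t, ht⟩, h⟩
                omega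
      obtain ⟨u, v, huv, hu, hv⟩ := hnum
      obtain ⟨T₀, hT₀le, hT₀d, hT₀ti⟩ := exists_ti_sub hF hh v hKerNd (by rw [← hd]; exact hv)
      have hT₀inv : IsInv y T₀ := by
        intro a ha
        rw [mem_Ker_two.1 (hT₀le ha)]
        exact T₀.neg_mem ha
      obtain ⟨W, h3, h4, h5⟩ := exists_W hF hh hI' h2 hyr (TiAbs.fac_Phi_two h2) hT₀inv hT₀le hT₀ti (u := u) (K := v)
        (by rw [one_mul, hT₀d]) (by rw [← he]; exact hu)
      exact ⟨W, by rw [h3, one_mul, huv], h4, h5⟩
    · -- anti-isometry
      have hI' : ∀ u v, Cfsg.hermForm n F q (y u) (y v) = - Cfsg.hermForm n F q u v := by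
        intro u v
        rw [hydef]
        simp only [LinearMap.smul_apply]
        rw [hh.smul_left, hh.smul_right, hI, ← mul_assoc, inv_pow, ← mul_inv, ← pow_succ', hw1]
        simp
      have hFixti : TI (Cfsg.hermForm n F q) (Fix y) := by
        intro a ha c hc
        have h3 := hI' a c
        rw [mem_Fix.1 ha, mem_Fix.1 hc] at h3
        have h4 : 2 * Cfsg.hermForm n F q a c = 0 := by
          linear_combination h3
        exact (mul_eq_zero.1 h4).resolve_left h2'
      have hKerti : TI (Cfsg.hermForm n F q) (Ker y 2) := by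
        intro a ha c hc
        have h3 := hI' a c
        rw [mem_Ker_two.1 ha, mem_Ker_two.1 hc] at h3
        have h5 : Cfsg.hermForm n F q (-a) (-c) = Cfsg.hermForm n F q a c := by
          have h6 : ∀ b : Fin n → F, -b = (-1 : F) • b := fun b => by simp
          rw [h6 a, h6 c, hh.smul_left, hh.smul_right, ← mul_assoc, ← pow_succ', neg_one_pow_succ hF, one_mul]
        rw [h5] at h3
        have h4 : 2 * Cfsg.hermForm n F q a c = 0 := by
          linear_combination h3
        exact (mul_eq_zero.1 h4).resolve_left h2'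
      have h3 := two_ti_le hF hh (Nd_top hh) (le_top : Fix y ≤ ⊤) hFixti
      have h4 := two_ti_le hF hh (Nd_top hh) (le_top : Ker y 2 ≤ ⊤) hKerti
      rw [finrank_top, hdim] at h3 h4
      have hg0 : (X - C (1 : F) : F[X]) ≠ 0 := X_sub_C_ne_zero 1
      have hfac : ∀ d', Irreducible d' → d' ∣ (X - C (1 : F) : F[X]) → d'.natDegree = 1 := by
        intro d' hd' hdvd
        have h6 := natDegree_le_of_dvd hdvd hg0
        rw [natDegree_X_sub_C] at h6
        have h7 := hd'.natDegree_pos
        omega
      obtain ⟨T', hT', -, hTle, hTd⟩ := chain_exists (isInv_Fix y) hg0 hfac (fun v hv => by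
          have h5 : y v = v := mem_Fix.1 hv
          simp [h5]) (isInv_bot y) bot_le m (by rw [finrank_bot]; omega)
      rw [finrank_bot] at hTd
      exact ⟨T', by omega, hFixti.mono hTle, hT'⟩
  obtain ⟨W, h3, h4, h5⟩ := key
  refine ⟨W, h3, fun u hu v hv => h4 u hu v hv, ?_⟩
  rintro _ ⟨u, hu, rfl⟩
  have h6 : T u ∈ W := by
    rw [hTy, LinearMap.smul_apply]
    exact W.smul_mem _ (h5 u hu)
  exact h6

end Cfsg.Agent.Lib.Classical.Elusive.UTwo
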