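import Mathlib
import Cfsg.Agent.Lib.Classical.Elusive.UTwo

/-!
# Necessity for the unitary statement
-/

set_option autoImplicit false
set_option linter.unusedSectionVars false
set_option linter.unusedSimpArgs false
set_option linter.unusedVariables false
set_option linter.style.haveILetI false

namespace Cfsg.Agent.Lib.Classical.Elusive.UNec

open Polynomial Module Matrix
open Cfsg.Agent.Lib.Classical.Elusive.Inv Cfsg.Agent.Lib.Classical.Elusive.UCore Cfsg.Agent.Lib.Classical.Elusive.USelfDual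
  Cfsg.Agent.Lib.Classical.Elusive.USuff Cfsg.Agent.Lib.Classical.Elusive.UModel Cfsg.Agent.Lib.Classical.Elusive.UFac
  Cfsg.Agent.Lib.Classical.Elusive.USuffMain Cfsg.Agent.Lib.Classical.Elusive.UTwo
open Cfsg.Agent.Lib.Classical.Herm.HermOnb Cfsg.Agent.Lib.Classical.Herm.Basic
open Cfsg.Agent.Lib.Classical.Herm.Wall Cfsg.Agent.Lib.Classical.Herm.GU Cfsg.Agent.Lib.Classical.Herm.SU

attribute [local instance] _root_.Classical.propDecidable

variable {F : Type*} [Field F] [Fintype F] {q n : ℕ} {p : ℕ} [Fact p.Prime] [CharP F p]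

theorem herm_single (i : Fin n) (u : Fin n → F) (hq : q ≠ 0) : Cfsg.hermForm n F q u (Pi.single i 1) = u i := by
  unfold Cfsg.hermForm
  rw [Finset.sum_eq_single i]
  · simp
  · intro j _ hj
    simp [hj, hq]
  · simp

/-- The witness for `r = 2`. -/
theorem nec_r2 (hF : Fintype.card F = q ^ 2) (hp2 : p ≠ 2) {m : ℕ} (hn : 3 ≤ n) (H : LHS F q n m 2) (h2m : 2 * m = n)
    (hval : padicValNat 2 n < padicValNat 2 (q + 1)) : False := by
  haveI : Fact (Nat.Prime 2) := ⟨Nat.prime_two⟩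
  have h2 : (2 : F) ≠ 0 := by simpa using two_ne_zero_F (F := F) hp2
  have hq2 := two_le_q hF
  have hq0 : q ≠ 0 := by omega
  have hh : IsHerm q (Cfsg.hermForm n F q) := Cfsg.Agent.Lib.Classical.Herm.SU3Witness.isHerm_hermForm hF n
  obtain ⟨v, hv⟩ : ∃ v, v = padicValNat 2 n := ⟨_, rfl⟩
  rw [← hv] at hval
  have hn0 : n ≠ 0 := by omega
  have h3 : 2 ^ (v + 1) ∣ q + 1 := (pow_dvd_pow 2 hval).trans pow_padicValNat_dvd
  obtain ⟨u, hu⟩ := h3
  have hu0 : u ≠ 0 := by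
    rintro rfl
    simp at hu
  obtain ⟨ω, hω, -⟩ := Cfsg.Agent.Lib.Classical.Elusive.PslNum.exists_gen (F := F)
  have hN : Fintype.card F - 1 = 2 ^ (v + 1) * (u * (q - 1)) := by
    have h4 : q ^ 2 - 1 = (q + 1) * (q - 1) := by
      obtain ⟨q', rfl⟩ : ∃ q', q = q' + 1 := ⟨q - 1, by omega⟩
      simp
      have : (q' + 1) ^ 2 = (q' + 1 + 1) * q' + 1 := by ring
      omega
    rw [hF, h4, hu]
    ring
  have hq1 : q - 1 ≠ 0 := by omega
  let w₀ : Fˣ := ω ^ (u * (q - 1))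
  have hw₀ : w₀ ^ (2 ^ (v + 1)) = 1 := by
    rw [← pow_mul, mul_comm, ← hN, ← hω]
    exact pow_orderOf_eq_one ω
  have hwn1 : w₀ ^ (q + 1) = 1 := by
    rw [hu, pow_mul, hw₀, one_pow]
  have hwx : w₀ ^ (2 ^ v) ≠ 1 := by
    rw [← pow_mul]
    apply pow_ne_one_of_lt_orderOf
    · positivity
    · rw [hω, hN]
      have h5 : 0 < 2 ^ v * (u * (q - 1)) := by positivity
      have h6 : 2 ^ (v + 1) * (u * (q - 1)) = 2 * (2 ^ v * (u * (q - 1))) := by ring
      have h7 : u * (q - 1) * 2 ^ v = 2 ^ v * (u * (q - 1)) := by ring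
      omega
  obtain ⟨w, hw⟩ : ∃ w : F, w = w₀ := ⟨_, rfl⟩
  have hw0 : w ≠ 0 := by
    rw [hw]
    exact Units.ne_zero _
  have hwq : w ^ (q + 1) = 1 := by
    rw [hw, ← Units.val_pow_eq_pow_val, hwn1]
    rfl
  have hwv : w ^ (2 ^ v) = -1 := by
    have h5 : (w ^ (2 ^ v)) * (w ^ (2 ^ v)) = 1 := by
      rw [← pow_add, ← two_mul, ← pow_succ', hw, ← Units.val_pow_eq_pow_val, hw₀]
      rfl
    rcases mul_self_eq_one_iff.1 h5 with h6 | h6
    · exfalso
      apply hwx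
      apply Units.ext
      rw [Units.val_pow_eq_pow_val, ← hw, h6]
      rfl
    · exact h6
  obtain ⟨n', hn'⟩ : 2 ^ v ∣ n := by
    rw [hv]
    exact pow_padicValNat_dvd
  have hn'odd : Odd n' := by
    by_contra hc
    obtain ⟨s, hs⟩ := Nat.not_odd_iff_even.1 hc
    have h5 : 2 ^ (v + 1) ∣ n := ⟨s, by rw [hn', hs]; ring⟩
    have h6 := pow_succ_padicValNat_not_dvd (p := 2) (n := n) hn0
    rw [← hv] at h6
    exact h6 h5
  have hwn : w ^ n = -1 := by
    rw [hn', pow_mul, hwv, hn'odd.neg_one_pow]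
  let k₀ : Fin n := ⟨0, by omega⟩
  let k₁ : Fin n := ⟨1, by omega⟩
  let d : Fin n → F := fun k => w * (if k = k₀ then -1 else 1)
  let M : Matrix (Fin n) (Fin n) F := Matrix.diagonal d
  have hP : Preserves q M := by
    apply preserves_diagonal
    intro k
    simp only [d]
    rw [mul_pow, hwq, one_mul]
    by_cases hk : k = k₀
    · rw [if_pos hk]
      exact neg_one_pow_succ hF
    · rw [if_neg hk, one_pow]
  have hdet : M.det = 1 := by
    rw [Matrix.det_diagonal]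
    simp only [d]
    rw [Finset.prod_mul_distrib, Finset.prod_const, Finset.card_univ, Fintype.card_fin, Finset.prod_ite_eq', if_pos (Finset.mem_univ _), hwn]
    ring
  have hz : M ^ 2 = (w ^ 2) • (1 : Matrix (Fin n) (Fin n) F) := by
    rw [Matrix.diagonal_pow]
    ext i j
    by_cases hij : i = j
    · subst hij
      by_cases hk : i = k₀ <;> simp [d, hk, mul_pow]
    · simp [hij]
  have hns : ∀ c : F, M ≠ c • (1 : Matrix (Fin n) (Fin n) F) := by
    intro c hc
    have h5 := congrFun (congrFun hc k₀) k₀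
    have h6 := congrFun (congrFun hc k₁) k₁
    have h7 : k₁ ≠ k₀ := by
      intro h
      have := congrArg Fin.val h
      simp [k₀, k₁] at this
    simp [M, d, h7] at h5 h6
    have h8 : 2 * w = 0 := by
      linear_combination h6 - h5
    exact hw0 ((mul_eq_zero.1 h8).resolve_left h2)
  obtain ⟨W, hWd, hWti, hWinv⟩ := apply_H H hP hdet hz hns
  let e₀ : Fin n → F := Pi.single k₀ 1
  have hee : Cfsg.hermForm n F q e₀ e₀ = 1 := by
    rw [herm_single k₀ _ hq0]
    simp [e₀]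
  have hW0 : ∀ a ∈ W, a k₀ = 0 := by
    intro a ha
    by_contra hne
    have h5 : Matrix.toLin' M a - w • a ∈ W := W.sub_mem (hWinv a ha) (W.smul_mem _ ha)
    have h6 : Matrix.toLin' M a - w • a = (-(2 * w * a k₀)) • e₀ := by
      funext k
      simp only [Matrix.toLin'_apply, Pi.sub_apply, Pi.smul_apply, smul_eq_mul, M, Matrix.mulVec_diagonal, d, e₀]
      by_cases hk : k = k₀
      · subst hk
        simp
        ring
      · simp [hk]
    rw [h6] at h5
    have h7 : e₀ ∈ W := by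
      have h8 := W.smul_mem (-(2 * w * a k₀))⁻¹ h5
      rwa [smul_smul, inv_mul_cancel₀ (neg_ne_zero.2 (mul_ne_zero (mul_ne_zero h2 hw0) hne)), one_smul] at h8
    have h8 := hWti _ h7 _ h7
    rw [hee] at h8
    exact one_ne_zero h8
  let S : Submodule F (Fin n → F) := Submodule.span F {e₀}
  have he₀0 : e₀ ≠ 0 := by
    intro h
    have := congrFun h k₀
    simp [e₀] at this
  have hSd : finrank F S = 1 := finrank_span_singleton he₀0
  have hSNd : Nd (Cfsg.hermForm n F q) S := by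
    intro a ha ha0
    obtain ⟨c, rfl⟩ := Submodule.mem_span_singleton.1 ha
    refine ⟨e₀, Submodule.mem_span_singleton_self _, ?_⟩
    rw [hh.smul_left, hee, mul_one]
    rintro rfl
    simp at ha0
  have hTop := Nd_top (h := Cfsg.hermForm n F q) hh
  have hY := finrank_orthIn hF hh hTop (le_top : S ≤ ⊤)
  rw [hSd, finrank_top, Module.finrank_fin_fun] at hY
  have hYNd := Nd_orthIn hF hh (le_top : S ≤ ⊤) hSNd hTop
  have hWY : W ≤ orthIn hh ⊤ S := by
    intro a ha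
    refine ⟨trivial, fun s hs => ?_⟩
    obtain ⟨c, rfl⟩ := Submodule.mem_span_singleton.1 hs
    rw [hh.smul_right, herm_single k₀ _ hq0, hW0 a ha, mul_zero]
  have h5 := two_ti_le hF hh hYNd hWY hWti
  rw [hWd] at h5
  omega

section Base

variable {r b : ℕ} [Fact r.Prime]

theorem X_sub_one_not_dvd (hr : (r : F) ≠ 0) : ¬ (X - 1 : F[X]) ∣ Phi F r := by
  rintro ⟨c, hc⟩
  have h1 := Phi_eval_one F r
  rw [hc] at h1
  simp at h1
  exact hr h1.symm

theorem X_sub_one_irr : Irreducible (X - 1 : F[X]) := by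
  have := irreducible_X_sub_C (1 : F)
  simpa using this

theorem X_sub_one_monic : (X - 1 : F[X]).Monic := by
  have := monic_X_sub_C (1 : F)
  simpa using this

/-- Application of the hypothesis to a model with a fixed part. -/
theorem nec_base {m : ℕ} (hF : Fintype.card F = q ^ 2) (hrp : r ≠ p) (H : LHS F q n m r) (R : Multiset F[X]) (k : ℕ)
    (hR : ∀ g ∈ R, g.Monic ∧ Irreducible g ∧ g ∣ Phi F r)
    (hn : k + (R.map natDegree).sum = n) (hd : R.map (dualP hF) = R)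
    (hdet : ∀ M : Matrix (Fin n) (Fin n) F, Preserves q M → M.charpoly = (Multiset.replicate k (X - 1 : F[X]) + R).prod →
      M ^ r = (1 : F) • (1 : Matrix (Fin n) (Fin n) F) → M.det = 1)
    (hns : (∃ g ∈ R, 2 ≤ g.natDegree) ∨ ∃ g₁ ∈ R, ∃ g₂ ∈ R, g₁ ≠ g₂) :
    ∃ y : Module.End F (Fin n → F), (∀ u v, Cfsg.hermForm n F q (y u) (y v) = Cfsg.hermForm n F q u v) ∧ y ^ r = 1 ∧
      (∀ p' : F[X], p'.Monic → Irreducible p' → finrank F (LinearMap.ker (aeval y p')) = p'.natDegree * (Multiset.replicate k (X - 1 : F[X]) + R).count p') ∧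
      finrank F (Fix y) = k ∧
      ∃ W : Submodule F (Fin n → F), finrank F W = m ∧ TI (Cfsg.hermForm n F q) W ∧ IsInv y W := by
  have hr : r.Prime := Fact.out
  have hr0 : (r : F) ≠ 0 := Cfsg.Agent.Lib.Classical.Elusive.PslNum.cast_ne_zero_of_ne hr hrp
  have hPX : ∀ g ∈ R, g ≠ X := by
    intro g hg hgX
    have h1 := coeff_zero_of_dvd hF (hR g hg).2.2 (Phi_coeff_zero hF hr.pos)
    rw [hgX] at h1
    simp at h1
  have hX1 : (X - 1 : F[X]) ≠ X := by
    intro h
    have := congrArg (fun f : F[X] => f.coeff 0) h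
    simp at this
  have hL : ∀ g ∈ Multiset.replicate k (X - 1 : F[X]) + R, g.Monic ∧ Irreducible g ∧ g ≠ X := by
    intro g hg
    rcases Multiset.mem_add.1 hg with h1 | h1
    · rw [Multiset.eq_of_mem_replicate h1]
      exact ⟨X_sub_one_monic, X_sub_one_irr, hX1⟩
    · exact ⟨(hR g h1).1, (hR g h1).2.1, hPX g h1⟩
  have hdeg1 : (X - 1 : F[X]).natDegree = 1 := by
    have := natDegree_X_sub_C (1 : F)
    simpa using this
  have hn' : ((Multiset.replicate k (X - 1 : F[X]) + R).map natDegree).sum = n := by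
    rw [Multiset.map_add, Multiset.sum_add, Multiset.map_replicate, Multiset.sum_replicate, hdeg1, ← hn]
    simp
  have hd' : (Multiset.replicate k (X - 1 : F[X]) + R).map (dualP hF) = Multiset.replicate k (X - 1 : F[X]) + R := by
    rw [Multiset.map_add, Multiset.map_replicate, hd, dualP_X_sub_one]
  have hLz : ∀ g ∈ Multiset.replicate k (X - 1 : F[X]) + R, g ∣ (X ^ r - C 1 : F[X]) := by
    intro g hg
    rw [C_1, ← Phi_mul]
    rcases Multiset.mem_add.1 hg with h1 | h1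
    · rw [Multiset.eq_of_mem_replicate h1]
      exact dvd_mul_left _ _
    · exact (hR g h1).2.2.mul_right _
  have hns' : (∃ g ∈ Multiset.replicate k (X - 1 : F[X]) + R, 2 ≤ g.natDegree) ∨
      ∃ g₁ ∈ Multiset.replicate k (X - 1 : F[X]) + R, ∃ g₂ ∈ Multiset.replicate k (X - 1 : F[X]) + R, g₁ ≠ g₂ := by
    rcases hns with ⟨g, hg, hg2⟩ | ⟨g₁, hg₁, g₂, hg₂, hne⟩
    · exact Or.inl ⟨g, Multiset.mem_add.2 (Or.inr hg), hg2⟩
    · exact Or.inr ⟨g₁, Multiset.mem_add.2 (Or.inr hg₁), g₂, Multiset.mem_add.2 (Or.inr hg₂), hne⟩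
  obtain ⟨y, hI, hyr, hker, W⟩ := model_W hF H _ hL hn' hd' hLz hdet hns'
  have hyr' : y ^ r = 1 := by
    rw [hyr, one_smul]
  refine ⟨y, hI, hyr', hker, ?_, W⟩
  have h1 := hker (X - 1) X_sub_one_monic X_sub_one_irr
  have h2 : aeval y (X - 1 : F[X]) = y - 1 := by
    rw [map_sub, aeval_X, map_one]
  rw [h2, hdeg1, one_mul, Multiset.count_add, Multiset.count_replicate_self] at h1
  have h3 : R.count (X - 1 : F[X]) = 0 := by
    apply Multiset.count_eq_zero_of_notMem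
    intro h4
    exact X_sub_one_not_dvd hr0 (hR _ h4).2.2
  rw [h3, add_zero] at h1
  exact h1

/-- The first consequence. -/
theorem nec_one {m : ℕ} (hF : Fintype.card F = q ^ 2) (hrp : r ≠ p) (hb0 : 0 < b) (hfac : ∀ d, Irreducible d → d ∣ Phi F r → d.natDegree = b)
    (H : LHS F q n m r) (R : Multiset F[X]) (k : ℕ)
    (hR : ∀ g ∈ R, g.Monic ∧ Irreducible g ∧ g ∣ Phi F r)
    (hn : k + (R.map natDegree).sum = n) (hd : R.map (dualP hF) = R)
    (hdet : ∀ M : Matrix (Fin n) (Fin n) F, Preserves q M → M.charpoly = (Multiset.replicate k (X - 1 : F[X]) + R).prod →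
      M ^ r = (1 : F) • (1 : Matrix (Fin n) (Fin n) F) → M.det = 1)
    (hns : (∃ g ∈ R, 2 ≤ g.natDegree) ∨ ∃ g₁ ∈ R, ∃ g₂ ∈ R, g₁ ≠ g₂) :
    ∃ u K, u + b * K = m ∧ 2 * u ≤ k := by
  have hr : r.Prime := Fact.out
  have hr0 : (r : F) ≠ 0 := Cfsg.Agent.Lib.Classical.Elusive.PslNum.cast_ne_zero_of_ne hr hrp
  have hh : IsHerm q (Cfsg.hermForm n F q) := Cfsg.Agent.Lib.Classical.Herm.SU3Witness.isHerm_hermForm hF n
  obtain ⟨y, hI, hyr, hker, hfix, W, hWd, hWti, hWi⟩ := nec_base hF hrp H R k hR hn hd hdet hns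
  obtain ⟨K, h1, -, h3⟩ := split_W hF hh hI hr0 hyr hb0 hfac hWi hWti
  rw [hfix] at h3
  exact ⟨_, K, by rw [← h1]; exact hWd, h3⟩

/-- The second consequence. -/
theorem nec_two {m : ℕ} (hF : Fintype.card F = q ^ 2) (hrp : r ≠ p) (hb0 : 0 < b) (hfac : ∀ d, Irreducible d → d ∣ Phi F r → d.natDegree = b)
    (hsd : ∀ d, Irreducible d → d ∣ Phi F r → Associated (dualP hF d) d)
    (H : LHS F q n m r) {S : Finset F[X]} {g₀ : F[X]} (hg₀ : g₀ ∈ S) (hS : ∀ g ∈ S, g.Monic ∧ Irreducible g ∧ g ∣ Phi F r ∧ dualP hF g = g)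
    (h k : ℕ) (hn : k + b * (2 * h + S.card) = n)
    (hdet : ∀ M : Matrix (Fin n) (Fin n) F, Preserves q M → M.charpoly = (Multiset.replicate k (X - 1 : F[X]) + (Multiset.replicate (2 * h) g₀ + S.val)).prod →
      M ^ r = (1 : F) • (1 : Matrix (Fin n) (Fin n) F) → M.det = 1)
    (hns : (∃ g ∈ S, 2 ≤ g.natDegree) ∨ ∃ g₁ ∈ S, ∃ g₂ ∈ S, g₁ ≠ g₂) :
    ∃ u K, K ≤ h ∧ u + b * K = m ∧ 2 * u ≤ k := by
  have hr : r.Prime := Fact.out
  have hr0 : (r : F) ≠ 0 := Cfsg.Agent.Lib.Classical.Elusive.PslNum.cast_ne_zero_of_ne hr hrp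
  have hh : IsHerm q (Cfsg.hermForm n F q) := Cfsg.Agent.Lib.Classical.Herm.SU3Witness.isHerm_hermForm hF n
  let R : Multiset F[X] := Multiset.replicate (2 * h) g₀ + S.val
  have hR : ∀ g ∈ R, g.Monic ∧ Irreducible g ∧ g ∣ Phi F r ∧ dualP hF g = g := by
    intro g hg
    rcases Multiset.mem_add.1 hg with h1 | h1
    · rw [Multiset.eq_of_mem_replicate h1]
      exact hS g₀ hg₀
    · exact hS g h1
  have hdegb : ∀ g ∈ R, g.natDegree = b := fun g hg => hfac g (hR g hg).2.1 (hR g hg).2.2.1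
  have hn' : k + (R.map natDegree).sum = n := by
    have h1 : (R.map natDegree).sum = b * (2 * h + S.card) := by
      rw [Multiset.map_congr rfl hdegb, Multiset.map_const', Multiset.sum_replicate]
      simp only [R, Multiset.card_add, Multiset.card_replicate, Finset.card_val, smul_eq_mul]
      ring
    rw [h1, hn]
  have hd : R.map (dualP hF) = R := by
    rw [Multiset.map_congr rfl (fun g hg => (hR g hg).2.2.2), Multiset.map_id']
  have hns' : (∃ g ∈ R, 2 ≤ g.natDegree) ∨ ∃ g₁ ∈ R, ∃ g₂ ∈ R, g₁ ≠ g₂ := by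
    rcases hns with ⟨g, hg, hg2⟩ | ⟨g₁, hg₁, g₂, hg₂, hne⟩
    · exact Or.inl ⟨g, Multiset.mem_add.2 (Or.inr hg), hg2⟩
    · exact Or.inr ⟨g₁, Multiset.mem_add.2 (Or.inr hg₁), g₂, Multiset.mem_add.2 (Or.inr hg₂), hne⟩
  obtain ⟨y, hI, hyr, hker, hfix, W, hWd, hWti, hWi⟩ := nec_base hF hrp H R k (fun g hg => ⟨(hR g hg).1, (hR g hg).2.1, (hR g hg).2.2.1⟩) hn' hd hdet hns'
  obtain ⟨K, h1, h2, h3⟩ := split_W hF hh hI hr0 hyr hb0 hfac hWi hWti
  rw [hfix] at h3
  refine ⟨_, K, ?_, by rw [← h1]; exact hWd, h3⟩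
  obtain ⟨hm₀, hirr₀, ⟨c₀, hc₀⟩, hd₀⟩ := hS g₀ hg₀
  have hco₀ : IsCoprime g₀ c₀ := by
    refine (hirr₀.coprime_iff_not_dvd).2 ?_
    rintro ⟨e', rfl⟩
    have h2' : g₀ * g₀ ∣ Phi F r := ⟨e', by rw [hc₀]; ring⟩
    exact hirr₀.not_isUnit ((SpAtoms.squarefree_Phi hr0) g₀ h2')
  have hcount : ∀ g : F[X], g ≠ (X - 1 : F[X]) → (Multiset.replicate k (X - 1 : F[X]) + R).count g = R.count g := by
    intro g hg
    rw [Multiset.count_add, Multiset.count_replicate, if_neg (Ne.symm hg), zero_add]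
  have hother : ∀ g : F[X], g.Monic → Irreducible g → g ∣ c₀ → finrank F (LinearMap.ker (Polynomial.aeval y g)) ≤ b := by
    intro g h4 h5 h6
    have h7 : g ≠ g₀ := by
      rintro rfl
      have h8 := hco₀.isUnit_of_dvd' dvd_rfl h6
      exact h5.not_isUnit h8
    have h8 : g ∣ Phi F r := h6.trans ⟨g₀, by rw [hc₀]; ring⟩
    have h9 : g ≠ (X - 1 : F[X]) := by
      rintro rfl
      exact X_sub_one_not_dvd hr0 h8
    rw [hker g h4 h5, hfac g h5 h8, hcount g h9]
    have h10 : R.count g ≤ 1 := by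
      simp only [R, Multiset.count_add]
      rw [Multiset.count_replicate, if_neg (Ne.symm h7), zero_add]
      exact Multiset.nodup_iff_count_le_one.1 S.nodup g
    calc b * R.count g ≤ b * 1 := Nat.mul_le_mul_left _ h10
      _ = b := mul_one _
  have hb2 := two_inf_Ker_le hF hh hI hr0 hyr hb0 hfac hsd hirr₀ hc₀ hco₀ hother hWi hWti
  have h9 : g₀ ≠ (X - 1 : F[X]) := by
    rintro rfl
    exact X_sub_one_not_dvd hr0 ⟨c₀, hc₀⟩
  have h5 : finrank F (LinearMap.ker (Polynomial.aeval y g₀)) = b * (2 * h + 1) := by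
    rw [hker g₀ hm₀ hirr₀, hfac g₀ hirr₀ ⟨c₀, hc₀⟩, hcount g₀ h9]
    congr 1
    simp only [R, Multiset.count_add, Multiset.count_replicate_self]
    rw [Multiset.count_eq_one_of_mem S.nodup hg₀]
  rw [h2, h5] at hb2
  have h6 : b * (2 * K) ≤ b * (2 * h + 1) := by
    calc b * (2 * K) = 2 * (b * K) := by ring
      _ ≤ _ := hb2
  have h7 := Nat.le_of_mul_le_mul_left h6 hb0
  omega

end Base

end Cfsg.Agent.Lib.Classical.Elusive.UNec
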