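import Mathlib
import Cfsg.Agent.Lib.Classical.Elusive.UNec

/-!
# Necessity for the unitary statement: odd primes
-/

set_option autoImplicit false
set_option linter.unusedSectionVars false
set_option linter.unusedSimpArgs false
set_option linter.unusedVariables false
set_option linter.style.haveILetI false

namespace Cfsg.Agent.Lib.Classical.Elusive.UNecMain

open Polynomial Module Matrix
open Cfsg.Agent.Lib.Classical.Elusive.Inv Cfsg.Agent.Lib.Classical.Elusive.UCore Cfsg.Agent.Lib.Classical.Elusive.USelfDual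
  Cfsg.Agent.Lib.Classical.Elusive.USuff Cfsg.Agent.Lib.Classical.Elusive.UModel Cfsg.Agent.Lib.Classical.Elusive.UFac
  Cfsg.Agent.Lib.Classical.Elusive.USuffMain Cfsg.Agent.Lib.Classical.Elusive.UTwo Cfsg.Agent.Lib.Classical.Elusive.UNec
open Cfsg.Agent.Lib.Classical.Herm.HermOnb Cfsg.Agent.Lib.Classical.Herm.Basic
open Cfsg.Agent.Lib.Classical.Herm.Wall Cfsg.Agent.Lib.Classical.Herm.GU Cfsg.Agent.Lib.Classical.Herm.SU

attribute [local instance] _root_.Classical.propDecidable

variable {F : Type*} [Field F] [Fintype F] {q n : ℕ} {p : ℕ} [Fact p.Prime] [CharP F p] {r : ℕ} [Fact r.Prime]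

/-- The element `z` of the binomial model. -/
theorem exists_z (hF : Fintype.card F = q ^ 2) (hr2 : r ≠ 2) (hrq : r ∣ q + 1) :
    ∃ z : F, z ^ (q + 1) = 1 ∧ z ^ (r ^ padicValNat r (q + 1)) = 1 ∧ ∀ c : F, c ^ r ≠ z := by
  have hr : r.Prime := Fact.out
  have hq2 := two_le_q hF
  obtain ⟨f, hf⟩ : ∃ f, f = padicValNat r (q + 1) := ⟨_, rfl⟩
  rw [← hf]
  obtain ⟨u, hu⟩ : r ^ f ∣ q + 1 := by
    rw [hf]
    exact pow_padicValNat_dvd
  have hru : ¬ r ∣ u := by
    rintro ⟨s, hs⟩
    have h5 : r ^ (f + 1) ∣ q + 1 := ⟨s, by rw [hu, hs]; ring⟩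
    have h6 := pow_succ_padicValNat_not_dvd (p := r) (n := q + 1) (by omega)
    rw [← hf] at h6
    exact h6 h5
  have hrq1 : ¬ r ∣ q - 1 := by
    intro h7
    have h8 : r ∣ (q + 1) - (q - 1) := Nat.dvd_sub hrq h7
    have h9 : (q + 1) - (q - 1) = 2 := by omega
    rw [h9] at h8
    exact hr2 ((Nat.prime_dvd_prime_iff_eq hr Nat.prime_two).1 h8)
  obtain ⟨ω, hω, hgen⟩ := Cfsg.Agent.Lib.Classical.Elusive.PslNum.exists_gen (F := F)
  have hN : Fintype.card F - 1 = r ^ f * (u * (q - 1)) := by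
    have h4 : q ^ 2 - 1 = (q + 1) * (q - 1) := by
      obtain ⟨q', rfl⟩ : ∃ q', q = q' + 1 := ⟨q - 1, by omega⟩
      simp
      have : (q' + 1) ^ 2 = (q' + 1 + 1) * q' + 1 := by ring
      omega
    rw [hF, h4, hu]
    ring
  let z₀ : Fˣ := ω ^ (u * (q - 1))
  have hz₀ : z₀ ^ (r ^ f) = 1 := by
    rw [← pow_mul, mul_comm, ← hN, ← hω]
    exact pow_orderOf_eq_one ω
  have hzn : z₀ ^ (q + 1) = 1 := by
    rw [hu, pow_mul, hz₀, one_pow]
  refine ⟨z₀, ?_, ?_, ?_⟩
  · rw [← Units.val_pow_eq_pow_val, hzn]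
    rfl
  · rw [← Units.val_pow_eq_pow_val, hz₀]
    rfl
  · intro c hc
    have hc0 : c ≠ 0 := by
      rintro rfl
      rw [zero_pow hr.ne_zero] at hc
      exact Units.ne_zero _ hc.symm
    obtain ⟨e, he⟩ := hgen (Units.mk0 c hc0)
    have h1 : ω ^ (e * r) = ω ^ (u * (q - 1)) := by
      apply Units.ext
      rw [pow_mul, he]
      have hc' : c ^ r = ((ω ^ (u * (q - 1)) : Fˣ) : F) := hc
      simpa using hc'
    rw [pow_eq_pow_iff_modEq, hω, hN] at h1
    have hrN : r ∣ r ^ f * (u * (q - 1)) → True := fun _ => trivial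
    have hf0 : f ≠ 0 := by
      intro h0
      rw [h0, pow_zero, one_mul] at hu
      exact hru (hu ▸ hrq)
    have h2 : r ∣ r ^ f * (u * (q - 1)) := (dvd_pow_self r hf0).mul_right _
    have h3 := h1.of_dvd h2
    have h4 : e * r ≡ 0 [MOD r] := (Nat.modEq_zero_iff_dvd).2 (dvd_mul_left _ _)
    have h5 : r ∣ u * (q - 1) := (Nat.modEq_zero_iff_dvd).1 (h3.symm.trans h4)
    rcases (hr.dvd_mul).1 h5 with h6 | h6
    · exact hru h6
    · exact hrq1 h6

/-- The binomial model. -/
theorem nec_binom {m : ℕ} (hF : Fintype.card F = q ^ 2) (hr2 : r ≠ 2) (hrq : r ∣ q + 1) (H : LHS F q n m r) (hn0 : n ≠ 0)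
    (hval : padicValNat r (q + 1) < padicValNat r n) : r ∣ m := by
  have hr : r.Prime := Fact.out
  have hrodd : Odd r := hr.odd_of_ne_two hr2
  obtain ⟨z, hzn, hzf, hnr⟩ := exists_z hF hr2 hrq
  obtain ⟨f, hf⟩ : ∃ f, f = padicValNat r (q + 1) := ⟨_, rfl⟩
  rw [← hf] at hzf hval
  have h3 : r ^ (f + 1) ∣ n := (pow_dvd_pow r hval).trans pow_padicValNat_dvd
  obtain ⟨k, hk⟩ : r ∣ n := (dvd_pow_self r (Nat.succ_ne_zero f)).trans h3
  have hk0 : k ≠ 0 := by
    rintro rfl
    simp at hk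
    exact hn0 hk
  have hrk : r ^ f ∣ k := by
    rw [pow_succ', hk] at h3
    exact Nat.dvd_of_mul_dvd_mul_left hr.pos h3
  have hzk : z ^ k = 1 := by
    obtain ⟨s, hs⟩ := hrk
    rw [hs, pow_mul, hzf, one_pow]
  have hg : Irreducible (X ^ r - C z : F[X]) := X_pow_sub_C_irreducible_of_prime hr hnr
  have hgm : (X ^ r - C z : F[X]).Monic := monic_X_pow_sub_C z hr.ne_zero
  have hdeg : (X ^ r - C z : F[X]).natDegree = r := natDegree_X_pow_sub_C
  have hgX : (X ^ r - C z : F[X]) ≠ X := by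
    intro h
    have := congrArg natDegree h
    rw [hdeg, natDegree_X] at this
    have := hr.two_le
    omega
  have hmem : ∀ g ∈ Multiset.replicate k (X ^ r - C z : F[X]), g = X ^ r - C z := fun g hg' => Multiset.eq_of_mem_replicate hg'
  obtain ⟨y, hI, hyr, hker, W, hWd, hWti, hWi⟩ := model_W hF H (Multiset.replicate k (X ^ r - C z : F[X]))
    (fun g hg' => by
      rw [hmem g hg']
      exact ⟨hgm, hg, hgX⟩)
    (by
      rw [Multiset.map_replicate, Multiset.sum_replicate, hdeg, hk]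
      simp [mul_comm])
    (by
      rw [Multiset.map_replicate, dualP_binom hF hr.pos hzn])
    (fun g hg' => by rw [hmem g hg'])
    (by
      intro M _ _ hMz
      obtain ⟨k', hk', hdet⟩ := det_case_B hrodd hMz hg
      have h4 : k' = k := by
        rw [hk] at hk'
        exact (Nat.eq_of_mul_eq_mul_left hr.pos hk').symm
      rw [hdet, h4, hzk])
    (Or.inl ⟨X ^ r - C z, Multiset.mem_replicate.2 ⟨hk0, rfl⟩, by
      rw [hdeg]
      exact hr.two_le⟩)
  have hgy : aeval y (X ^ r - C z : F[X]) = 0 := by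
    rw [map_sub, map_pow, aeval_X, aeval_C, hyr, sub_eq_zero]
    rfl
  have hfac : ∀ d', Irreducible d' → d' ∣ (X ^ r - C z : F[X]) → d'.natDegree = r := by
    intro d' hd' hdvd
    obtain ⟨c, hc⟩ := hdvd
    have h5 := (hg.isUnit_or_isUnit hc).resolve_left hd'.not_isUnit
    have h6 : (X ^ r - C z : F[X]).natDegree = d'.natDegree := by
      rw [hc, natDegree_mul hd'.ne_zero h5.ne_zero, natDegree_eq_zero_of_isUnit h5, add_zero]
    omega
  have h1 := dvd_finrank hWi hg.ne_zero hr.pos hfac (fun v _ => by rw [hgy]; rfl)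
  rwa [hWd] at h1

/-- The eigenvalue model. -/
theorem nec_eigen {m : ℕ} (hF : Fintype.card F = q ^ 2) (hr2 : r ≠ 2) (hrp : r ≠ p) (hrq : r ∣ q + 1) (hm : 1 ≤ m) (hn3 : 3 ≤ n) (H : LHS F q n m r) :
    r - 1 + 2 * m ≤ n := by
  have hr : r.Prime := Fact.out
  have hrodd : Odd r := hr.odd_of_ne_two hr2
  have hr3 : 3 ≤ r := by
    have := hr.two_le
    omega
  have hr0 : (r : F) ≠ 0 := Cfsg.Agent.Lib.Classical.Elusive.PslNum.cast_ne_zero_of_ne hr hrp
  have hq2 := two_le_q hF
  have hi2 : orderOf (q : ZMod r) = 2 := order_two_of_dvd hr2 hrq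
  have hfac : ∀ d : F[X], Irreducible d → d ∣ Phi F r → d.natDegree = 1 :=
    hfac_of (p := p) hF hrp hi2.symm (by simp)
  have hsd := hsd_of (F := F) (p := p) hF hr2 hrp (by rw [hi2])
  -- an element of order `r`
  have hcard : r ∣ Nat.card Fˣ := by
    rw [Nat.card_eq_fintype_card, Fintype.card_units, hF]
    have h4 : q ^ 2 - 1 = (q + 1) * (q - 1) := by
      obtain ⟨q', rfl⟩ : ∃ q', q = q' + 1 := ⟨q - 1, by omega⟩
      simp
      have : (q' + 1) ^ 2 = (q' + 1 + 1) * q' + 1 := by ring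
      omega
    rw [h4]
    exact hrq.mul_right _
  obtain ⟨ζ, hζ⟩ := exists_prime_orderOf_dvd_card' r hcard
  obtain ⟨t, ht⟩ : ∃ t, t = min (n / 2) ((r - 1) / 2) := ⟨_, rfl⟩
  have ht1 : 1 ≤ t := by
    rw [ht]
    apply le_min <;> omega
  have ht2 : 2 * t ≤ n := by
    have := min_le_left (n / 2) ((r - 1) / 2)
    omega
  have ht3 : 2 * t ≤ r - 1 := by
    have := min_le_right (n / 2) ((r - 1) / 2)
    omega
  -- the exponents
  let E : Finset ℕ := Finset.Icc 1 t ∪ Finset.Icc (r - t) (r - 1)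
  have hEmem : ∀ e, e ∈ E ↔ (1 ≤ e ∧ e ≤ t) ∨ (r - t ≤ e ∧ e ≤ r - 1) := by
    intro e
    simp [E, Finset.mem_union, Finset.mem_Icc]
  have hEcard : E.card = 2 * t := by
    rw [Finset.card_union_of_disjoint]
    · simp only [Nat.card_Icc]
      omega
    · rw [Finset.disjoint_left]
      intro e h1 h2
      simp only [Finset.mem_Icc] at h1 h2
      omega
  have hEr : ∀ e ∈ E, 1 ≤ e ∧ e < r := by
    intro e he
    rcases (hEmem e).1 he with h | h <;> omega
  let a : ℕ → F := fun e => ((ζ ^ e : Fˣ) : F)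
  have hainj : ∀ e ∈ E, ∀ e' ∈ E, a e = a e' → e = e' := by
    intro e he e' he' h
    have h1 : ζ ^ e = ζ ^ e' := Units.ext h
    have h2 := pow_injOn_Iio_orderOf (x := ζ)
    rw [hζ] at h2
    exact h2 (Set.mem_Iio.2 (hEr e he).2) (Set.mem_Iio.2 (hEr e' he').2) h1
  have har : ∀ e, a e ^ r = 1 := by
    intro e
    simp only [a]
    rw [← Units.val_pow_eq_pow_val, ← pow_mul, mul_comm, pow_mul, ← hζ, pow_orderOf_eq_one, one_pow]
    rfl
  have ha1 : ∀ e ∈ E, a e ≠ 1 := by
    intro e he h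
    have h1 : ζ ^ e = 1 := Units.ext h
    have h2 := orderOf_dvd_of_pow_eq_one h1
    rw [hζ] at h2
    have h3 := hEr e he
    have h4 := Nat.le_of_dvd (by omega) h2
    omega
  let f : ℕ → F[X] := fun e => X - C (a e)
  have hfinj : Set.InjOn f E := by
    intro e he e' he' h
    have h1 : C (a e) = C (a e') := by
      have h2 : (X - C (a e) : F[X]) = X - C (a e') := h
      exact sub_right_injective h2
    exact hainj e he e' he' (C_injective h1)
  let S : Finset F[X] := E.image f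
  have hScard : S.card = 2 * t := by
    rw [Finset.card_image_of_injOn hfinj, hEcard]
  have hSprop : ∀ g ∈ S, g.Monic ∧ Irreducible g ∧ g ∣ Phi F r ∧ dualP hF g = g := by
    intro g hg
    obtain ⟨e, he, rfl⟩ := Finset.mem_image.1 hg
    have hm' : (f e).Monic := monic_X_sub_C _
    have hi' : Irreducible (f e) := irreducible_X_sub_C _
    have hdv : f e ∣ Phi F r := by
      have h1 : f e ∣ (X ^ r - 1 : F[X]) := by
        have h2 : (X ^ r - 1 : F[X]).IsRoot (a e) := by
          simp [IsRoot, har e]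
        exact dvd_iff_isRoot.2 h2
      rw [← Phi_mul] at h1
      rcases hi'.prime.dvd_or_dvd h1 with h2 | h2
      · exact h2
      · exfalso
        have h3 := hi'.associated_of_dvd X_sub_one_irr h2
        have h4 := eq_of_monic_of_associated hm' X_sub_one_monic h3
        have h5 : C (a e) = (C 1 : F[X]) := by
          have h6 : (X - C (a e) : F[X]) = X - C 1 := by
            rw [C_1]
            exact h4
          exact sub_right_injective h6
        exact ha1 e he (C_injective h5)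
    refine ⟨hm', hi', hdv, ?_⟩
    have h6 := (sd_of_mod hF hr2 (zmod_ne_zero (p := p) hF hrp) hm' hi'
      (Cfsg.Agent.Lib.Classical.Elusive.PslNum.fac_Phi hF hr hrp _ hi' hdv) hdv hr0).2 (by rw [hi2])
    exact h6
  have hSne : S.Nonempty := Finset.card_pos.1 (by omega)
  obtain ⟨g₀, hg₀⟩ := hSne
  have hprod : ∏ e ∈ E, a e = 1 := by
    refine Finset.prod_involution (fun e _ => r - e) ?_ ?_ ?_ ?_
    · intro e he
      have h3 := hEr e he
      simp only [a]
      rw [← Units.val_mul, ← pow_add, show e + (r - e) = r by omega, ← hζ, pow_orderOf_eq_one]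
      rfl
    · intro e he _ h
      have h3 := hEr e he
      obtain ⟨s, hs⟩ := hrodd
      omega
    · intro e he
      have h3 := hEr e he
      rw [hEmem] at he ⊢
      omega
    · intro e he
      have h3 := hEr e he
      omega
  have hdet : ∀ M : Matrix (Fin n) (Fin n) F, Preserves q M → M.charpoly = (Multiset.replicate (n - 2 * t) (X - 1 : F[X]) + (Multiset.replicate (2 * 0) g₀ + S.val)).prod →
      M ^ r = (1 : F) • (1 : Matrix (Fin n) (Fin n) F) → M.det = 1 := by
    intro M _ hch _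
    rw [Matrix.det_eq_sign_charpoly_coeff, hch, Fintype.card_fin, coeff_zero_eq_eval_zero]
    simp only [mul_zero, Multiset.replicate_zero, zero_add, Multiset.prod_add, Multiset.prod_replicate]
    have h1 : S.val.prod = ∏ e ∈ E, f e := by
      rw [Finset.prod_val]
      exact Finset.prod_image hfinj
    rw [h1, eval_mul, eval_pow, eval_prod]
    have h2 : ∀ e, (f e).eval 0 = - a e := by
      intro e
      simp [f]
    simp only [h2]
    rw [Finset.prod_neg, hprod, hEcard]
    have h3 : eval 0 (X - 1 : F[X]) = -1 := by simp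
    rw [h3]
    have h4 : ((-1 : F) ^ (n - 2 * t)) * (-1) ^ (2 * t) = (-1) ^ n := by
      rw [← pow_add]
      congr 1
      omega
    have h5 : ((-1 : F) ^ n) * ((-1) ^ (n - 2 * t) * ((-1) ^ (2 * t) * 1)) = ((-1) ^ n) * ((-1) ^ n) := by
      rw [mul_one, h4]
    rw [h5, ← mul_pow]
    simp
  have hns : (∃ g ∈ S, 2 ≤ g.natDegree) ∨ ∃ g₁ ∈ S, ∃ g₂ ∈ S, g₁ ≠ g₂ := by
    right
    have h1 : 1 < S.card := by omega
    obtain ⟨g₁, hg₁, g₂, hg₂, hne⟩ := Finset.one_lt_card.1 h1
    exact ⟨g₁, hg₁, g₂, hg₂, hne⟩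
  obtain ⟨u, K, hK, huK, hu⟩ := nec_two (b := 1) hF hrp one_pos hfac hsd H hg₀ hSprop 0 (n - 2 * t)
    (by rw [hScard]; omega) hdet hns
  have hK0 : K = 0 := by omega
  subst hK0
  have hum : u = m := by omega
  subst hum
  have h5 : t = (r - 1) / 2 := by
    rw [ht] at hu ⊢
    rcases le_total (n / 2) ((r - 1) / 2) with h | h
    · rw [min_eq_left h] at hu ⊢
      omega
    · rw [min_eq_right h]
  obtain ⟨s, hs⟩ := hrodd
  omega

end Cfsg.Agent.Lib.Classical.Elusive.UNecMain
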